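import Cfsg.Agent.Class.ORatLong

/-!
Maximality in `Ω` of subfield subgroups (prime index, dimension at least seven).
-/

set_option autoImplicit false

namespace Cfsg.Lib.Class.OMax

open QuadraticMap Module Orth

variable {F V : Type*} [Field F] [AddCommGroup V] [Module F V] {Q : QuadraticForm F V}
  {k : Subfield F} {R : Submodule k V}

theorem maxOm_ratStab [Finite V] [Finite F] (h : RatStr Q k R)
    (hQ : (polarBilin Q).Nondegenerate) (hn : 7 ≤ finrank F V)
    (hk : ∀ A : Subalgebra k F, A = ⊥ ∨ A = ⊤) (hk1 : k ≠ ⊤) : MaxOm Q (ratStab R) := by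
  have : FiniteDimensional F V := Module.Finite.of_finite
  obtain ⟨e, f, H, he, hf⟩ := h.exists_isHyp hQ (m := 3) hn
  constructor
  · obtain ⟨a, ha⟩ : ∃ a, a ∉ k := by
      by_contra! h
      exact hk1 (eq_top_iff.2 fun x _ => h x)
    refine ⟨eich Q (e 0) (a • e 1), eich_mem_Om hQ (by omega) _ _, ?_⟩
    rintro ⟨c, hc, h1⟩
    have h2 := h.polar_mem (hf 0) ((h1 _).1 (he 0))
    have h3 := h.polar_mem (hf 0) ((h1 _).1 (hf 1))
    rw [eich_apply_self] at h2
    rw [eich_apply_long (H.qe 0) (by rw [Q_smul, H.qe, mul_zero])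
      (by rw [polar_smul_right', H.ee, mul_zero])] at h3
    revert h2 h3
    qsimp
    simp only [H.fe, H.ff]
    intro h2 h3
    simp at h2 h3
    exact ha (by simpa [hc] using k.mul_mem (k.inv_mem h2) h3)
  intro X _ hN hX g hg
  have h0 : ∀ a ∈ R, ∀ b ∈ R, eich Q a b ∈ X := fun a ha b hb =>
    hN _ (eich_mem_Om hQ (by omega) a b)
      (mem_ratStab_of_forall one_ne_zero fun x hx => by
        rw [one_smul]; exact h.eich_apply_mem ha hb hx)
  have h1 : RatOver k R X := ⟨h, hQ, h0, fun p hp f hf hp0 hf0 hpf y hpy hy =>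
    h.exists_sub_smul_mem hQ hn hk h0 hX hp hf hp0 hf0 hpf hpy hy⟩
  have h2 : ∀ a ∈ R, ∀ b ∈ R, Q a = 0 → Q b = 0 → polar Q a b = 0 → ∀ x, g.1 x ∈ R →
      g.1 ((eich Q a b).1 x) ∈ R := fun a ha b hb ha0 hb0 hab x hx => by
    have := h1.long H he hf (p := g.1 a) (w := g.1 b) (by rw [O_map, ha0]) (by rw [O_map, hb0])
      (by rw [O_polar, hab]) (by
        rw [← conj_eich]
        exact X.mul_mem (X.mul_mem hg (h0 a ha b hb)) (X.inv_mem hg)) hx
    rwa [← conj_eich, O_mul_apply, O_mul_apply, O_inv_apply] at this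
  obtain ⟨y, hy, hy1⟩ : ∃ y, g.1 y ∈ R ∧ polar Q y (e 1) ≠ 0 := by
    by_contra! hc
    have := h.eq_zero hQ (y := g.1 (e 1)) fun x hx => by
      rw [O_polar_right]; exact hc _ (by rwa [O_apply_inv])
    rw [LinearEquiv.map_eq_zero_iff] at this
    simpa [this] using H.ef 1 1
  have h3 := R.sub_mem (h2 _ (he 0) _ (he 1) (H.qe 0) (H.qe 1) (H.ee 0 1) y hy) hy
  rw [← map_sub] at h3
  have h4 := R.sub_mem (h2 _ (he 1) _ (hf 0) (H.qe 1) (H.qf 0) (by simp [H.ef]) _ h3) h3
  rw [← map_sub, eich_apply_long (H.qe 1) (H.qf 0) (by simp [H.ef]),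
    eich_apply_long (H.qe 0) (H.qe 1) (H.ee 0 1)] at h4
  let U : Submodule k V :=
    { carrier := {x | g.1 (polar Q y (e 1) • x) ∈ R}
      add_mem' := fun {a b} ha hb => by
        simpa only [Set.mem_ofPred_eq, smul_add, map_add] using R.add_mem ha hb
      zero_mem' := by simp
      smul_mem' := fun c a ha => by
        change g.1 (polar Q y (e 1) • (c : F) • a) ∈ R
        rw [smul_comm, map_smul]
        exact smul_mem_of_mem c.2 ha }
  have h5 : R ≤ U := h.irr hQ (by omega) (fun a ha b hb ha0 hb0 hab u hu => by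
    change g.1 (_ • _) ∈ R
    rw [← map_smul]
    exact h2 a ha b hb ha0 hb0 hab _ hu) (u := e 1) (by
      change g.1 (_ • _) ∈ R
      convert h4 using 2
      qsimp
      simp [H.ee, H.ef, H.qe]) (fun h0 => by simpa [h0] using H.ef 1 1) (he 1)
  exact mem_ratStab_of_forall hy1 fun x hx => by rw [← map_smul]; exact h5 hx

theorem subalgebra_eq_of_card [Fintype F] {r : ℕ} (hr : r.Prime)
    (h : Fintype.card F = Nat.card k ^ r) : (∀ A : Subalgebra k F, A = ⊥ ∨ A = ⊤) ∧ k ≠ ⊤ := by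
  have h1 := Module.natCard_eq_pow_finrank (K := k) (V := F)
  rw [Nat.card_eq_fintype_card, h] at h1
  have h2 := Nat.pow_right_injective (Finite.one_lt_card (α := k)) h1
  refine ⟨(Subalgebra.isSimpleOrder_of_finrank_prime k F (h2 ▸ hr)).eq_bot_or_eq_top, ?_⟩
  rintro rfl
  rw [← Nat.card_eq_fintype_card, Nat.card_congr Subfield.topEquiv.toEquiv] at h
  have h3 := Nat.pow_right_injective (Finite.one_lt_card (α := F)) ((pow_one _).trans h)
  exact hr.one_lt.ne h3

section Mat

open Cfsg.Geo Matrix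

variable {ι : Type} [Fintype ι] [DecidableEq ι]

/-- The span over `k` of the columns of `P`. -/
def ratSpan (k : Subfield F) (P : GL ι F) : Submodule k (ι → F) where
  carrier := {x | ∀ i, (((P⁻¹ : GL ι F) : Matrix ι ι F) *ᵥ x) i ∈ k}
  add_mem' ha hb i := by rw [mulVec_add]; exact k.add_mem (ha i) (hb i)
  zero_mem' i := by simp
  smul_mem' c a ha i := by
    change (_ *ᵥ ((c : F) • a)) i ∈ k
    rw [mulVec_smul]; exact k.mul_mem c.2 (ha i)

theorem mem_ratSpan {P : GL ι F} {x : ι → F} :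
    x ∈ ratSpan k P ↔ ∀ i, (((P⁻¹ : GL ι F) : Matrix ι ι F) *ᵥ x) i ∈ k := Iff.rfl

theorem mulVec_mem_ratSpan {P : GL ι F} {u : ι → F} :
    (P : Matrix ι ι F) *ᵥ u ∈ ratSpan k P ↔ ∀ i, u i ∈ k := by
  rw [mem_ratSpan, mulVec_mulVec, Units.inv_mul, one_mulVec]

theorem span_ratSpan (k : Subfield F) (P : GL ι F) :
    Submodule.span F (ratSpan k P : Set (ι → F)) = ⊤ := by
  rw [eq_top_iff]
  intro x _
  have : x = ∑ i, (((P⁻¹ : GL ι F) : Matrix ι ι F) *ᵥ x) i •
      ((P : Matrix ι ι F) *ᵥ Pi.single i 1) := by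
    simp only [← mulVec_smul, ← mulVec_sum]
    rw [← pi_eq_sum_univ', mulVec_mulVec, Units.mul_inv, one_mulVec]
  rw [this]
  refine Submodule.sum_mem _ fun i _ => Submodule.smul_mem _ _ (Submodule.subset_span
    (mulVec_mem_ratSpan.2 fun j => ?_))
  rw [Pi.single_apply]
  split_ifs
  exacts [k.one_mem, k.zero_mem]

theorem exists_map_eq {a : GL ι F} (h : ∀ i j, (a : Matrix ι ι F) i j ∈ k) :
    a ∈ (GeneralLinearGroup.map (k.subtype : k →+* F)).range := by
  let A : Matrix ι ι k := fun i j => ⟨_, h i j⟩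
  have hA : A.map k.subtype = a := rfl
  refine ⟨GeneralLinearGroup.mkOfDetNeZero A fun h0 => ?_, Units.ext hA⟩
  have := k.subtype.map_det A
  rw [h0, map_zero, RingHom.mapMatrix_apply, hA] at this
  exact a.det_ne_zero this.symm

theorem mem_subfieldSubgroup_iff_ratStab [Finite F] (k : Subfield F) (P g : GL ι F) :
    g ∈ subfieldSubgroup k P ↔ glLin ι F g ∈ ratStab (ratSpan k P) := by
  have key : ∀ (a : GL ι F) (c : F) u,
      c • glLin ι F (MulAut.conj P a) ((P : Matrix ι ι F) *ᵥ u) ∈ ratSpan k P ↔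
        ∀ i, c * ((a : Matrix ι ι F) *ᵥ u) i ∈ k := fun a c u => by
    rw [glLin_apply, mulVec_mulVec, MulAut.conj_apply, ← Units.val_mul, inv_mul_cancel_right,
      Units.val_mul, ← mulVec_mulVec, ← mulVec_smul, mulVec_mem_ratSpan]
    rfl
  have key2 : ∀ (a : GL ι F) (c : F), c ≠ 0 → (∀ i j, c * (a : Matrix ι ι F) i j ∈ k) →
      glLin ι F (MulAut.conj P a) ∈ ratStab (ratSpan k P) := fun a c hc h =>
    mem_ratStab_of_forall hc fun x hx => by
      have := (key a c _).2 fun i => (show c * ((a : Matrix ι ι F) *ᵥ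
          (((P⁻¹ : GL ι F) : Matrix ι ι F) *ᵥ x)) i ∈ k by
        rw [mulVec, dotProduct, Finset.mul_sum]
        exact k.sum_mem fun j _ => by rw [← mul_assoc]; exact k.mul_mem (h i j) (hx j))
      rwa [mulVec_mulVec, Units.mul_inv, one_mulVec] at this
  rw [subfieldSubgroup, Subgroup.mem_map_equiv]
  obtain ⟨a, rfl⟩ := (MulAut.conj P).surjective g
  rw [MulEquiv.symm_apply_apply]
  constructor
  · intro h
    refine (show _ ≤ ((ratStab (ratSpan k P)).comap (glLin ι F).toMonoidHom).comap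
      (MulAut.conj P).toMonoidHom from sup_le ?_ fun b hb => ?_) h
    · rintro _ ⟨b, rfl⟩
      exact key2 _ 1 one_ne_zero fun i j => by rw [one_mul]; exact (b.1 i j).2
    · obtain ⟨c, hc⟩ := (mem_scalars_iff b).1 hb
      refine key2 _ (c⁻¹ : Fˣ) (Units.ne_zero _) fun i j => ?_
      rw [hc, Matrix.smul_apply, smul_eq_mul, Units.inv_mul_cancel_left, one_apply]
      split_ifs
      exacts [k.one_mem, k.zero_mem]
  · rintro ⟨c, hc, h⟩
    let s : GL ι F := Units.map (Matrix.scalar ι : F →+* Matrix ι ι F).toMonoidHom (Units.mk0 c hc)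
    have hs : s ∈ scalars ι F := ⟨_, rfl⟩
    rw [← inv_mul_cancel_left s a]
    refine Subgroup.mul_mem _ (Subgroup.mem_sup_right (Subgroup.inv_mem _ hs))
      (Subgroup.mem_sup_left (exists_map_eq fun i j => ?_))
    have := (key a c (Pi.single j 1)).1 ((h _).1 (mulVec_mem_ratSpan.2 fun l => by
      rw [Pi.single_apply]
      split_ifs
      exacts [k.one_mem, k.zero_mem])) i
    simpa [s] using this

theorem omegaGL_mul {ζ : F} (hζ : ζ ≠ 0) (Q : (ι → F) → F) :
    omegaGL (fun v => ζ * Q v) = omegaGL Q := by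
  have h : isometryGroup F (fun v => ζ * Q v) = isometryGroup F Q := by
    ext g
    exact forall₂_congr fun _ _ => mul_right_inj' hζ
  simp only [omegaGL, Omega, commutator_def, Subgroup.map_commutator, ← MonoidHom.range_eq_map,
    Subgroup.range_subtype, h]

theorem isMaximalIn_subfield [Fintype F] {Q : QuadraticForm F (ι → F)}
    (hQ : (polarBilin Q).Nondegenerate) (hn : 7 ≤ Fintype.card ι) {r : ℕ} (hr : r.Prime)
    (hcard : Fintype.card F = Nat.card k ^ r) {P : GL ι F}
    (hP : IsQuadFormRationalStructure Q k P) :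
    IsMaximalIn (omegaGL Q) (subfieldSubgroup k P ⊓ omegaGL Q) :=
  (maxOm_ratStab ⟨span_ratSpan k P, fun x hx => by
      have := hP _ hx
      rwa [mulVec_mulVec, Units.mul_inv, one_mulVec] at this⟩ hQ (by simpa using hn)
    (subalgebra_eq_of_card hr hcard).1 (subalgebra_eq_of_card hr hcard).2).isMaximalIn
    (mem_subfieldSubgroup_iff_ratStab k P)

theorem isMaximalIn_subfield_smul [Fintype F] {Q : (ι → F) → F}
    (hQ : IsNondegenerateQuadraticForm Q) (hn : 7 ≤ Fintype.card ι) {r : ℕ} (hr : r.Prime)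
    (hcard : Fintype.card F = Nat.card k ^ r) {P : GL ι F} {ζ : F} (hζ : ζ ≠ 0)
    (hP : IsQuadFormRationalStructure (fun v => ζ * Q v) k P) :
    IsMaximalIn (omegaGL Q) (subfieldSubgroup k P ⊓ omegaGL Q) := by
  rw [← omegaGL_mul hζ]
  refine isMaximalIn_subfield (Q := ζ • geoQuad hQ) (nondeg_of fun u hu => ?_) hn hr hcard hP
  refine nondeg_left (geoQuad_nondegenerate hQ) fun v => ?_
  have := hu v
  rw [FunLike.coe_smul, polar_smul, smul_eq_zero] at this
  exact this.resolve_left hζ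

end Mat

end Cfsg.Lib.Class.OMax
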