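import Cfsg.Agent.Class.OPair
import Cfsg.Agent.Class.SpUnit

/-!
The normaliser in `Ω` of a unitary structure is maximal (dimension at least nine).
-/

set_option autoImplicit false

namespace Cfsg.Lib.Class.OMax

open QuadraticMap Module Orth

variable {F V : Type*} [Field F] [AddCommGroup V] [Module F V] {Q : QuadraticForm F V}
  {X : Subgroup (O Q)} {θ : V →ₗ[F] V} {t d : F}

/-- A unitary structure on a quadratic space: a similarity `θ` without eigenvectors such that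
`1 + θ` is also a similarity. -/
structure UStr (Q : QuadraticForm F V) (θ : V →ₗ[F] V) (t d : F) : Prop where
  nondeg : (polarBilin Q).Nondegenerate
  norm : ∀ x, Q (θ x) = d * Q x
  tr : ∀ x, polar Q x (θ x) = t * Q x
  indep : ∀ x, x ≠ 0 → ∀ a b : F, a • x + b • θ x = 0 → a = 0 ∧ b = 0

/-- The line over the quadratic extension spanned by `x`. -/
def kl (θ : V →ₗ[F] V) (x : V) : Submodule F V := Submodule.span F {x, θ x}

theorem self_mem_kl (x : V) : x ∈ kl θ x := Submodule.subset_span (by simp)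

theorem apply_mem_kl (x : V) : θ x ∈ kl θ x := Submodule.subset_span (by simp)

theorem mem_kl {x y : V} : y ∈ kl θ x ↔ ∃ a b : F, a • x + b • θ x = y := Submodule.mem_span_pair

theorem kl_le {x : V} {S : Submodule F V} : kl θ x ≤ S ↔ x ∈ S ∧ θ x ∈ S := by
  simp [kl, Submodule.span_le, Set.insert_subset_iff]

theorem mem_orth_kl {x y : V} : y ∈ orth Q (kl θ x) ↔ polar Q x y = 0 ∧ polar Q (θ x) y = 0 :=
  mem_orth_pair

theorem exists_mem_orth_ne [FiniteDimensional F V] (hQ : (polarBilin Q).Nondegenerate)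
    {U : Submodule F V} {y : V} (h : y ∉ U) : ∃ w ∈ orth Q U, polar Q y w ≠ 0 := by
  by_contra! hc
  exact h (by rw [← orth_orth hQ U, mem_orth']; exact hc)

namespace UStr

theorem adj (h : UStr Q θ t d) (x y : V) :
    polar Q (θ x) y = t * polar Q x y - polar Q x (θ y) := by
  have h1 := h.tr (x + y)
  rw [map_add] at h1
  qsimp_at h1
  rw [h.tr, h.tr, polar_comm Q y (θ x)] at h1
  linear_combination h1

theorem both (h : UStr Q θ t d) (x y : V) : polar Q (θ x) (θ y) = d * polar Q x y :=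
  polar_of_sim θ h.norm x y

theorem sq (h : UStr Q θ t d) (x : V) : θ (θ x) = t • θ x - d • x := by
  refine sub_eq_zero.1 (nondeg_right h.nondeg fun y => ?_)
  qsimp
  rw [polar_comm Q y, h.adj, h.both, polar_comm Q y, polar_comm Q y]
  ring

theorem map_mem_kl (h : UStr Q θ t d) {x y : V} (hy : y ∈ kl θ x) : θ y ∈ kl θ x := by
  obtain ⟨a, b, rfl⟩ := mem_kl.1 hy
  rw [map_add, map_smul, map_smul, h.sq]
  exact mem_kl.2 ⟨-(b * d), a + b * t, by module⟩

theorem kl_le_kl (h : UStr Q θ t d) {x y : V} (hy : y ∈ kl θ x) : kl θ y ≤ kl θ x :=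
  kl_le.2 ⟨hy, h.map_mem_kl hy⟩

theorem finrank_kl [FiniteDimensional F V] (h : UStr Q θ t d) {x : V} (hx : x ≠ 0) :
    finrank F (kl θ x) = 2 :=
  finrank_span_pair (LinearIndependent.pair_iff.2 (h.indep x hx))

theorem kl_eq [FiniteDimensional F V] (h : UStr Q θ t d) {x y : V} (hy : y ∈ kl θ x)
    (hy0 : y ≠ 0) : kl θ y = kl θ x :=
  Submodule.eq_of_le_of_finrank_le (h.kl_le_kl hy)
    ((finrank_span_pair_le _ _).trans (h.finrank_kl hy0).ge)

theorem notMem_kl_symm [FiniteDimensional F V] (h : UStr Q θ t d) {x y : V} (hx : x ≠ 0)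
    (hy : y ∉ kl θ x) : x ∉ kl θ y := fun hc => hy (h.kl_eq hc hx ▸ self_mem_kl y)

theorem mem_orth_symm (h : UStr Q θ t d) {x y : V} (hy : y ∈ orth Q (kl θ x)) :
    x ∈ orth Q (kl θ y) := by
  obtain ⟨h1, h2⟩ := mem_orth_kl.1 hy
  refine mem_orth_kl.2 ⟨pc h1, pc ?_⟩
  have := h.adj x y
  rw [h1, h2] at this
  linear_combination this

theorem map_mem_orth (h : UStr Q θ t d) {x y : V} (hy : y ∈ orth Q (kl θ x)) :
    θ y ∈ orth Q (kl θ x) :=
  mem_orth_kl.2 ⟨pc (mem_orth_kl.1 (h.mem_orth_symm hy)).2,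
    by rw [h.both, (mem_orth_kl.1 hy).1, mul_zero]⟩

theorem kl_le_orth (h : UStr Q θ t d) {x y : V} (hy : y ∈ orth Q (kl θ x)) :
    kl θ y ≤ orth Q (kl θ x) := kl_le.2 ⟨hy, h.map_mem_orth hy⟩

theorem tr_zero (h : UStr Q θ t d) {a : V} (ha : Q a = 0) : polar Q a (θ a) = 0 := by
  rw [h.tr, ha, mul_zero]

theorem norm_zero (h : UStr Q θ t d) {a : V} (ha : Q a = 0) : Q (θ a) = 0 := by
  rw [h.norm, ha, mul_zero]

theorem singular_kl (h : UStr Q θ t d) {a : V} (ha : Q a = 0) : ∀ y ∈ kl θ a, Q y = 0 := by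
  intro y hy
  obtain ⟨r, s, rfl⟩ := mem_kl.1 hy
  qsimp
  rw [ha, h.norm_zero ha, h.tr_zero ha]; ring

theorem self_mem_orth (h : UStr Q θ t d) {a : V} (ha : Q a = 0) : a ∈ orth Q (kl θ a) :=
  le_orth_of_forall (h.singular_kl ha) (self_mem_kl a)

theorem tv_apply (h : UStr Q θ t d) {a : V} (ha : Q a = 0) (c : F) (x : V) :
    (eich Q a (c • θ a)).1 x = x + c • (polar Q x (θ a) • a - polar Q x a • θ a) := by
  rw [eich_apply_long ha (by rw [Q_smul, h.norm_zero ha, mul_zero])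
    (by rw [polar_smul_right', h.tr_zero ha, mul_zero]), polar_smul_right']
  module

theorem map_tv (h : UStr Q θ t d) (a x : V) :
    θ (polar Q x (θ a) • a - polar Q x a • θ a) =
      polar Q (θ x) (θ a) • a - polar Q (θ x) a • θ a := by
  rw [map_sub, map_smul, map_smul, h.sq, h.both, h.adj x a]
  module

theorem tv_mem (h : UStr Q θ t d) {a : V} (ha : Q a = 0) (c : F) :
    (eich Q a (c • θ a)).1 ∈ normRoot θ :=
  ⟨0, 1, one_ne_zero, fun x => by
    rw [h.tv_apply ha, h.tv_apply ha, map_add, map_smul, h.map_tv, zero_smul, one_smul, zero_add]⟩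

theorem tv_ne_zero (h : UStr Q θ t d) {a x : V} (hx : x ∉ orth Q (kl θ a)) :
    polar Q x (θ a) • a - polar Q x a • θ a ≠ 0 := fun h0 => by
  have ha : a ≠ 0 := by rintro rfl; exact hx (mem_orth_kl.2 (by simp))
  obtain ⟨h1, h2⟩ := h.indep a ha (polar Q x (θ a)) (-polar Q x a) (by rw [neg_smul, ← sub_eq_add_neg]; exact h0)
  exact hx (mem_orth_kl.2 ⟨pc (neg_eq_zero.1 h2), pc h1⟩)

theorem tv_mem_kl (a x : V) : polar Q x (θ a) • a - polar Q x a • θ a ∈ kl θ a :=
  Submodule.sub_mem _ (Submodule.smul_mem _ _ (self_mem_kl a))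
    (Submodule.smul_mem _ _ (apply_mem_kl a))

variable [FiniteDimensional F V] [Finite F]

/-- The perpendicular of a plane is spanned by its singular vectors outside the plane. -/
theorem _root_.Cfsg.Lib.Class.OMax.orth_le_of_forall (hQ : (polarBilin Q).Nondegenerate)
    (hn : 7 ≤ finrank F V) {U T : Submodule F V} (hU : finrank F U ≤ 2)
    (H : ∀ a ∈ orth Q U, Q a = 0 → a ∉ U → a ∈ T) : orth Q U ≤ T := by
  have h1 := finrank_orth hQ U
  obtain ⟨e, he, f, hf, he0, hf0, hef⟩ := exists_hyp_mem hQ (S := orth Q U) (by omega)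
  exact le_of_forall_singular he hf he0 hf0 hef fun p hp hp0 ⟨x, hx, hpx⟩ =>
    H p hp hp0 fun hpU => hpx (hx p hpU)

theorem exists_notMem_orth (h : UStr Q θ t d) (hn : 7 ≤ finrank F V) {p x : V}
    (hx : x ∉ kl θ p) : ∃ a ∈ orth Q (kl θ p), Q a = 0 ∧ a ∉ kl θ p ∧ polar Q x a ≠ 0 := by
  by_contra! hc
  have h1 := orth_le_of_forall h.nondeg hn (T := orth Q (Submodule.span F {x}))
    (finrank_span_pair_le p (θ p)) fun a ha ha0 ha1 => mem_orth_singleton.2 (hc a ha ha0 ha1)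
  have h2 := orth_anti (Q := Q) h1
  rw [orth_orth h.nondeg, orth_orth h.nondeg] at h2
  exact hx (h2 (Submodule.mem_span_singleton_self x))

theorem le_rootSp (h : UStr Q θ t d) (hn : 9 ≤ finrank F V)
    (hX : ∀ a, Q a = 0 → θ a ∈ rootSp X a) {p x : V} (hL : x ∈ rootSp X p)
    (hxP : x ∈ orth Q (kl θ p)) (hx0 : Q x = 0) (hxp : x ∉ kl θ p) :
    orth Q (kl θ p) ≤ rootSp X p := by
  have A : ∀ y ∈ rootSp X p, ∀ a ∈ orth Q (kl θ p), Q a = 0 →
      polar Q y (θ a) • a - polar Q y a • θ a ∈ rootSp X p := by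
    intro y hy a ha ha0
    obtain ⟨h1, h2⟩ := mem_orth_kl.1 (h.mem_orth_symm ha)
    have h3 := apply_mem_rootSp_of_fix ((hX a ha0).2 1) (eich_apply_of_orth_orth (pc h1)
      (by rw [one_smul]; exact pc h2)) hy
    rw [h.tv_apply ha0, one_smul] at h3
    simpa using (rootSp X p).sub_mem h3 hy
  have D : ∀ y, kl θ y ≤ rootSp X p → ∀ a ∈ orth Q (kl θ p), Q a = 0 → a ∉ orth Q (kl θ y) →
      kl θ a ≤ rootSp X p := by
    intro y hy a ha ha0 hay
    rw [← h.kl_eq (tv_mem_kl a y) (h.tv_ne_zero fun hc => hay (h.mem_orth_symm hc)), kl_le,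
      h.map_tv]
    exact ⟨A y (hy (self_mem_kl y)) a ha ha0, A _ (hy (apply_mem_kl y)) a ha ha0⟩
  obtain ⟨a, ha, ha0, -, hxa⟩ := h.exists_notMem_orth (by omega) hxp
  have hxa' : x ∉ orth Q (kl θ a) := fun hc => hxa (pc (mem_orth_kl.1 hc).1)
  obtain ⟨b, hb1, hb2, hb3⟩ : ∃ b ∈ kl θ a, b ≠ 0 ∧ polar Q x b = 0 :=
    ⟨_, tv_mem_kl a x, h.tv_ne_zero hxa', by qsimp; ring⟩
  have hb0 : Q b = 0 := h.singular_kl ha0 b hb1
  have hbP : b ∈ orth Q (kl θ p) := h.kl_le_orth ha hb1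
  have hxb : x ∉ orth Q (kl θ b) := by rwa [h.kl_eq hb1 hb2]
  have hbx : b ∉ orth Q (kl θ x) := fun hc => hxb (h.mem_orth_symm hc)
  have hb4 : polar Q x (θ b) ≠ 0 := fun hc => hxb (mem_orth_kl.2 ⟨pc hb3, pc hc⟩)
  have hb5 : polar Q b (θ x) ≠ 0 := fun hc => hbx (mem_orth_kl.2 ⟨hb3, pc hc⟩)
  set S := orth Q (kl θ p ⊔ kl θ x ⊔ kl θ b) with hS
  have hmem : ∀ w ∈ S, w ∈ orth Q (kl θ p) ∧ w ∈ orth Q (kl θ x) ∧ w ∈ orth Q (kl θ b) := by
    intro w hw
    rw [hS, orth_sup, orth_sup] at hw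
    exact ⟨hw.1.1, hw.1.2, hw.2⟩
  have C : ∀ w ∈ S, b + w - (Q w * (polar Q b (θ x))⁻¹) • θ x ∈ rootSp X p := by
    intro w hw
    obtain ⟨h1, h2, h3⟩ := hmem w hw
    have h4 := A x hL (b + w - (Q w * (polar Q b (θ x))⁻¹) • θ x)
      (Submodule.sub_mem _ (Submodule.add_mem _ hbP h1)
        (Submodule.smul_mem _ _ (h.map_mem_orth hxP))) (by
        qsimp
        rw [hb0, h.norm_zero hx0, (mem_orth_kl.1 h3).1, pc (mem_orth_kl.1 h2).2]
        field_simp; ring)
    have h5 : polar Q x (b + w - (Q w * (polar Q b (θ x))⁻¹) • θ x) = 0 := by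
      qsimp; rw [hb3, (mem_orth_kl.1 h2).1, h.tr_zero hx0]; ring
    have h6 : polar Q x (θ (b + w - (Q w * (polar Q b (θ x))⁻¹) • θ x)) = polar Q x (θ b) := by
      rw [map_sub, map_add, map_smul]
      qsimp
      rw [(mem_orth_kl.1 (h.map_mem_orth h2)).1,
        (mem_orth_kl.1 (h.map_mem_orth (h.map_mem_orth (h.self_mem_orth hx0)))).1]
      ring
    rw [h5, h6, zero_smul, sub_zero] at h4
    exact ((rootSp X p).smul_mem_iff hb4).1 h4
  obtain ⟨w, hw, w', hw', hww⟩ : ∃ w ∈ S, ∃ w' ∈ S, polar Q w w' ≠ 0 := by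
    by_contra! hc
    have h1 : S ≤ kl θ p := by
      intro s hs
      have h2 : s ∈ orth Q S := fun w hw => hc w hw s hs
      rw [hS, orth_orth h.nondeg] at h2
      obtain ⟨_, h3, z, hz, rfl⟩ := Submodule.mem_sup.1 h2
      obtain ⟨u, hu, v, hv, rfl⟩ := Submodule.mem_sup.1 h3
      obtain ⟨-, h4, h5⟩ := hmem _ hs
      have hux := h.kl_le_orth (h.mem_orth_symm hxP) hu
      have hub := h.kl_le_orth (h.mem_orth_symm hbP) hu
      have hz0 : z = 0 := by
        by_contra hz0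
        have h6 := Submodule.sub_mem _ h4 (Submodule.add_mem _ hux
          (h.kl_le_orth (h.self_mem_orth hx0) hv))
        rw [add_sub_cancel_left] at h6
        exact hxb (h.kl_eq hz hz0 ▸ h.mem_orth_symm h6)
      have hv0 : v = 0 := by
        by_contra hv0
        have h6 := Submodule.sub_mem _ h5 hub
        rw [hz0, add_zero, add_sub_cancel_left] at h6
        exact hbx (h.kl_eq hv hv0 ▸ h.mem_orth_symm h6)
      rwa [hz0, hv0, add_zero, add_zero]
    have h2 := Submodule.finrank_mono h1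
    have h3 := finrank_orth h.nondeg (kl θ p ⊔ kl θ x ⊔ kl θ b)
    have h4 := Submodule.finrank_add_le_finrank_add_finrank (kl θ p ⊔ kl θ x) (kl θ b)
    have h5 := Submodule.finrank_add_le_finrank_add_finrank (kl θ p) (kl θ x)
    have h6 : ∀ y, finrank F (kl θ y) ≤ 2 := fun y => finrank_span_pair_le _ _
    have := h6 p
    have := h6 x
    have := h6 b
    rw [← hS] at h3
    omega
  have hθx : θ x ∈ rootSp X p := by
    have h1 := Submodule.sub_mem _ (Submodule.add_mem _ (C w hw) (C w' hw'))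
      (Submodule.add_mem _ (C _ (S.add_mem hw hw')) (C 0 S.zero_mem))
    rw [Q_add, map_zero] at h1
    refine ((rootSp X p).smul_mem_iff (mul_ne_zero hww (inv_ne_zero hb5))).1 ?_
    convert h1 using 1
    module
  have hkx : kl θ x ≤ rootSp X p := kl_le.2 ⟨hL, hθx⟩
  have hkb := D x hkx b hbP hb0 hbx
  refine orth_le_of_forall h.nondeg (by omega) (finrank_span_pair_le _ _) fun u hu hu0 _ => ?_
  by_cases h1 : u ∈ orth Q (kl θ x)
  swap
  · exact D x hkx u hu hu0 h1 (self_mem_kl u)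
  by_cases h2 : u ∈ orth Q (kl θ b)
  swap
  · exact D b hkb u hu hu0 h2 (self_mem_kl u)
  have h3 := D b hkb (u + x) (Submodule.add_mem _ hu hxP)
    (by rw [Q_add, hu0, hx0, pc (mem_orth_kl.1 h1).1]; ring)
    (fun hc => hxb (by simpa using Submodule.sub_mem _ hc h2)) (self_mem_kl _)
  simpa using Submodule.sub_mem _ h3 hL

omit [Finite F] in
theorem full (h : UStr Q θ t d) {p x : V} (hp : p ≠ 0) (hx0 : Q x = 0)
    (hxP : x ∈ orth Q (kl θ p)) (hxp : x ∉ kl θ p) (h1 : orth Q (kl θ p) ≤ rootSp X p)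
    (h2 : orth Q (kl θ x) ≤ rootSp X x) : Full X ⊤ p := by
  obtain ⟨w, hw, hpw⟩ := exists_mem_orth_ne h.nondeg (U := kl θ x ⊔ Submodule.span F {p})
    (y := θ p) fun hc => by
      obtain ⟨u, hu, _, hv, h3⟩ := Submodule.mem_sup.1 hc
      obtain ⟨c, rfl⟩ := Submodule.mem_span_singleton.1 hv
      have h4 : (-c) • p + (1 : F) • θ p = u := by rw [← h3]; module
      have h5 : u ≠ 0 := fun h0 => one_ne_zero (h.indep p hp _ _ (h4.trans h0)).2
      exact hxp (h.kl_eq (mem_kl.2 ⟨_, _, h4⟩) h5 ▸ h.kl_eq hu h5 ▸ self_mem_kl x)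
  rw [orth_sup] at hw
  obtain ⟨y, hy, hxy⟩ := exists_mem_orth_ne h.nondeg hxp
  have h3 := apply_mem_rootSp_of_fix (eich_mem_of_mem_rootSp (h2 hw.1))
    (eich_apply_of_orth_orth (mem_orth_kl.1 hxP).1 (mem_orth_singleton.1 hw.2)) (h1 hy)
  have h4 : polar Q (θ p) ((eich Q x w).1 y) ≠ 0 := by
    rw [eich_apply hx0 (mem_orth_kl.1 hw.1).1]
    qsimp
    rw [(mem_orth_kl.1 hy).2, (mem_orth_kl.1 hxP).2]
    simpa using ⟨pc' hxy, hpw⟩
  refine full_of_rootSp fun z _ hz => ?_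
  have h5 := h1 (x := z - (polar Q (θ p) z * (polar Q (θ p) ((eich Q x w).1 y))⁻¹) •
    (eich Q x w).1 y) (mem_orth_kl.2 ⟨by qsimp; rw [hz, h3.1]; ring, by qsimp; field_simp; ring⟩)
  simpa using Submodule.add_mem _ h5 (Submodule.smul_mem _
    (polar Q (θ p) z * (polar Q (θ p) ((eich Q x w).1 y))⁻¹) h3)

theorem commutator_le (h : UStr Q θ t d) (hn : 9 ≤ finrank F V)
    (hX : ∀ a, Q a = 0 → θ a ∈ rootSp X a) {p x : V} (hp : p ≠ 0) (hp0 : Q p = 0)
    (hL : x ∈ rootSp X p) (hxP : x ∈ orth Q (kl θ p)) (hx0 : Q x = 0) (hxp : x ∉ kl θ p) :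
    commutator (O Q) ≤ X := by
  have hx : x ≠ 0 := by rintro rfl; exact hxp (Submodule.zero_mem _)
  have h1 := h.le_rootSp hn hX hL hxP hx0 hxp
  have hpx := h.notMem_kl_symm hp hxp
  have h2 := h.le_rootSp hn hX (mem_rootSp_swap hp0 hx0 hL) (h.mem_orth_symm hxP) hp0 hpx
  obtain ⟨q, hq, hq0, hqx, hpq⟩ := h.exists_notMem_orth (by omega) hpx
  have hq1 : q ≠ 0 := by rintro rfl; exact hqx (Submodule.zero_mem _)
  have hxq := h.notMem_kl_symm hx hqx
  have h3 := h.le_rootSp hn hX (mem_rootSp_swap hx0 hq0 (h2 hq)) (h.mem_orth_symm hq) hx0 hxq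
  exact commutator_le_of_two_full h.nondeg (by omega) hp0 hq0 hpq (h.full hp hx0 hxP hxp h1 h2)
    (h.full hq1 hx0 (h.mem_orth_symm hq) hxq h3 h2)

/-- The long root elements of a proper overgroup belong to lines over the extension field. -/
theorem mem_span_of_long (h : UStr Q θ t d) (hn : 9 ≤ finrank F V)
    (hX : ∀ a, Q a = 0 → θ a ∈ rootSp X a) (hX' : ¬ commutator (O Q) ≤ X) {u v : V} (hu : u ≠ 0)
    (hv : v ∉ Submodule.span F {u}) (hu0 : Q u = 0) (hv0 : Q v = 0) (huv : polar Q u v = 0)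
    (hg : eich Q u v ∈ X) : θ u ∈ Submodule.span F {u, v} := by
  have h1 : orth Q (Submodule.span F {u, v}) ≤ (orth Q (Submodule.span F {u, v})).comap θ := by
    refine orth_le_of_forall h.nondeg (by omega) (finrank_span_pair_le _ _) fun p hp hp0 hpl => ?_
    by_contra hc
    obtain ⟨a1, a2⟩ := mem_orth_pair.1 hp
    have hc' : polar Q (θ p) v ≠ 0 ∨ polar Q (θ p) u ≠ 0 := by
      by_contra! h2
      exact hc (mem_orth_pair.2 ⟨pc h2.2, pc h2.1⟩)
    have h2 := apply_mem_rootSp_of_fix hg (eich_apply_of_orth_orth (pc a1) (pc a2)) (hX p hp0)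
    rw [eich_apply_long hu0 hv0 huv] at h2
    have h3 := Submodule.sub_mem _ h2 (hX p hp0)
    rw [add_sub_cancel_left] at h3
    have h4 := smul_sub_smul_ne_zero hu hv hc'
    set x := polar Q (θ p) v • u - polar Q (θ p) u • v with hx
    have h5 : x ∈ Submodule.span F {u, v} := Submodule.mem_span_pair.2 ⟨_, -polar Q (θ p) u,
      by rw [hx]; module⟩
    refine hX' (h.commutator_le hn hX (by rintro rfl; exact hpl (Submodule.zero_mem _)) hp0 h3
      (mem_orth_kl.2 ⟨h3.1, by rw [hx]; qsimp; ring⟩) (by rw [hx]; qsimp; rw [hu0, hv0, huv]; ring)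
      fun h6 => ?_)
    obtain ⟨r, s, h7⟩ := mem_kl.1 h6
    have h8 : x ∈ orth Q (Submodule.span F {u, v}) := mem_orth_pair.2
      ⟨by rw [hx]; qsimp; rw [hu0, huv]; ring, by rw [hx]; qsimp; rw [hv0, pc huv]; ring⟩
    have hs : s = 0 := by
      by_contra hs
      have h9 := Submodule.sub_mem _ h8 (Submodule.smul_mem _ r hp)
      rw [← h7, add_sub_cancel_left, Submodule.smul_mem_iff _ hs] at h9
      exact hc h9
    rw [hs, zero_smul, add_zero] at h7
    rw [← h7] at h4 h5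
    exact hpl ((Submodule.smul_mem_iff _ (left_ne_zero_of_smul h4)).1 h5)
  rw [← orth_orth h.nondeg (Submodule.span F {u, v}), mem_orth']
  intro y hy
  rw [h.adj, (mem_orth_pair.1 hy).1, (mem_orth_pair.1 (h1 hy)).1]
  ring

theorem exists_eq_of_forall (h : UStr Q θ t d) (hn : 7 ≤ finrank F V) {φ : V →ₗ[F] V}
    (hφ : ∀ a, Q a = 0 → φ a ∈ kl θ a) : ∃ r s : F, ∀ x, φ x = r • x + s • θ x := by
  obtain ⟨p, -, hp, hp0⟩ := exists_singular_mem Q (S := ⊤) (by rw [finrank_top]; omega)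
  obtain ⟨r, s, hrs⟩ := mem_kl.1 (hφ p hp0)
  let μ : V →ₗ[F] V := φ - (r • LinearMap.id + s • θ)
  have hμ : ∀ x, μ x = φ x - (r • x + s • θ x) := fun x => rfl
  have h1 : ∀ a, Q a = 0 → μ a ∈ kl θ a := fun a ha =>
    Submodule.sub_mem _ (hφ a ha) (mem_kl.2 ⟨r, s, rfl⟩)
  have key : ∀ p, p ≠ 0 → Q p = 0 → μ p = 0 → orth Q (kl θ p) ≤ LinearMap.ker μ := by
    intro p hp hp0 hμp
    refine orth_le_of_forall h.nondeg hn (finrank_span_pair_le _ _) fun a ha ha0 hap => ?_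
    by_contra h2
    have h3 := h1 (a + p) (by rw [Q_add, ha0, hp0, pc (mem_orth_kl.1 ha).1]; ring)
    rw [map_add, hμp, add_zero] at h3
    have h4 := self_mem_kl (θ := θ) (a + p)
    rw [← h.kl_eq h3 h2, h.kl_eq (h1 a ha0) h2] at h4
    exact h.notMem_kl_symm hp hap (by simpa using Submodule.sub_mem _ h4 (self_mem_kl a))
  have h2 := key p hp hp0 (by rw [hμ, hrs, sub_self])
  obtain ⟨q, hq, hqp, hq0⟩ := exists_singular_notMem Q (S := orth Q (kl θ p)) (T := kl θ p) (by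
    have := finrank_orth h.nondeg (kl θ p)
    rw [h.finrank_kl hp] at this ⊢
    omega)
  have h3 := key q (by rintro rfl; exact hqp (Submodule.zero_mem _)) hq0 (h2 hq)
  have h4 : kl θ p ⊓ kl θ q = ⊥ := by
    rw [eq_bot_iff]
    intro x hx
    by_contra h0
    exact hqp (h.kl_eq hx.1 h0 ▸ h.kl_eq hx.2 h0 ▸ self_mem_kl q)
  have h5 := sup_le h2 h3
  rw [← orth_inf h.nondeg, h4] at h5
  exact ⟨r, s, fun x => sub_eq_zero.1 (h5 (x := x) fun w hw => by
    rw [(Submodule.mem_bot F).1 hw]; simp)⟩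

/-- The normaliser of a unitary structure is maximal in `Ω`. -/
theorem maxOm (h : UStr Q θ t d) (hn : 9 ≤ finrank F V) : MaxOm Q (normRoot θ) := by
  obtain ⟨p, -, hp, hp0⟩ := exists_singular_mem Q (S := ⊤) (by rw [finrank_top]; omega)
  refine ⟨?_, fun X hX hN hX' g hg => ?_⟩
  · obtain ⟨a, ha, hap, ha0⟩ := exists_singular_notMem Q (S := orth Q (kl θ p)) (T := kl θ p) (by
      have := finrank_orth h.nondeg (kl θ p)
      rw [h.finrank_kl hp] at this ⊢
      omega)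
    obtain ⟨w, hw, hpw⟩ := exists_mem_orth_ne h.nondeg (U := Submodule.span F {a, p}) (y := θ p)
      fun hc => by
        obtain ⟨r, s, h1⟩ := Submodule.mem_span_pair.1 hc
        have h2 : (-s) • p + (1 : F) • θ p = r • a := by rw [← h1]; module
        have hr : r ≠ 0 := by
          rintro rfl
          exact one_ne_zero (h.indep p hp _ _ (h2.trans (zero_smul _ _))).2
        exact hap ((Submodule.smul_mem_iff _ hr).1 (mem_kl.2 ⟨_, _, h2⟩))
    obtain ⟨a1, a2⟩ := mem_orth_pair.1 hw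
    refine ⟨eich Q a w, eich_mem_Om h.nondeg (by omega) _ _, fun ⟨r, s, _, h1⟩ => hap ?_⟩
    have h2 := h1 p
    rw [eich_apply_of_orth_orth (mem_orth_kl.1 ha).1 a2,
      eich_apply_of_orth ha0 a1 (mem_orth_kl.1 ha).2] at h2
    have h3 := Submodule.sub_mem _ (mem_kl.2 ⟨r, s, h2.symm⟩) (apply_mem_kl p)
    rwa [add_sub_cancel_left, Submodule.smul_mem_iff _ hpw] at h3
  have hT : ∀ a, Q a = 0 → θ a ∈ rootSp X a := fun a ha =>
    ⟨h.tr_zero ha, fun c => hN _ (eich_mem_Om h.nondeg (by omega) _ _) (h.tv_mem ha c)⟩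
  obtain ⟨r, s, hrs⟩ := h.exists_eq_of_forall (by omega)
    (φ := (g⁻¹).1.toLinearMap ∘ₗ θ ∘ₗ g.1.toLinearMap) fun a ha => by
      by_cases ha0 : a = 0
      · simp [ha0]
      have h1 := h.mem_span_of_long hn hT hX' (u := g.1 a) (v := g.1 (θ a)) (by simpa using ha0)
        (fun hc => by
          obtain ⟨c, hc⟩ := Submodule.mem_span_singleton.1 hc
          rw [← map_smul, g.1.injective.eq_iff] at hc
          exact one_ne_zero (neg_eq_zero.1 (h.indep a ha0 c (-1) (by rw [hc]; simp)).2))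
        (by rw [O_map, ha]) (by rw [O_map, h.norm_zero ha]) (by rw [O_polar, h.tr_zero ha])
        (eich_mem_of_mem_rootSp (apply_mem_rootSp hg (hT a ha)))
      obtain ⟨r, s, h2⟩ := Submodule.mem_span_pair.1 h1
      refine mem_kl.2 ⟨r, s, ?_⟩
      change _ = (g⁻¹).1 (θ (g.1 a))
      rw [← h2, map_add, map_smul, map_smul, O_inv_apply, O_inv_apply]
  have h1 : (g⁻¹).1 ∈ normRoot θ := by
    refine ⟨r, s, ?_, fun x => by simpa using hrs ((g⁻¹).1 x)⟩
    rintro rfl
    have h2 := congrArg g.1 (hrs ((g⁻¹).1 p))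
    simp only [LinearMap.comp_apply, LinearEquiv.coe_coe, O_apply_inv, zero_smul, add_zero,
      map_smul] at h2
    exact one_ne_zero (neg_eq_zero.1 (h.indep p hp r (-1) (by rw [h2]; simp)).2)
  simpa using (normRoot θ).inv_mem h1

end UStr

section Mat

open Cfsg.Geo Matrix

variable {ι : Type} [Fintype ι] [DecidableEq ι]

theorem exists_gen_of_isFieldSubalgebra {K : Subalgebra F (Matrix ι ι F)}
    (hK : IsFieldSubalgebra 2 K) : ∃ T ∈ K, (∀ s t : F, s • (1 : Matrix ι ι F) + t • T = 0 →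
      s = 0 ∧ t = 0) ∧ ∀ x ∈ K, ∃ s t : F, s • (1 : Matrix ι ι F) + t • T = x := by
  have : FiniteDimensional F K := Module.finite_of_finrank_pos (by rw [hK.finrank_eq]; norm_num)
  have : Nontrivial K := Module.nontrivial_of_finrank_pos (R := F) (by rw [hK.finrank_eq]; norm_num)
  obtain ⟨T, -, hT⟩ := exists_mem_notMem_of_finrank_lt (H := Submodule.span F {(1 : K)}) (W := ⊤)
    (by rw [finrank_top, hK.finrank_eq]; exact (finrank_span_singleton_le _).trans_lt one_lt_two)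
  have hli : LinearIndependent F ![(1 : K), T] := LinearIndependent.pair_iff.2 fun s t h => by
    have ht : t = 0 := by
      by_contra ht
      refine hT ((Submodule.smul_mem_iff _ ht).1 ?_)
      rw [eq_neg_of_add_eq_zero_right h]
      exact Submodule.neg_mem _ (Submodule.smul_mem _ _ (Submodule.mem_span_singleton_self _))
    exact ⟨by simpa [ht] using h, ht⟩
  refine ⟨T, T.2, fun s t h => LinearIndependent.pair_iff.1 hli s t (Subtype.ext h),
    fun x hx => ?_⟩
  have h1 := (hli.span_eq_top_of_card_eq_finrank' (by simp [hK.finrank_eq])).ge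
    (Submodule.mem_top (x := ⟨x, hx⟩))
  rw [Matrix.range_cons_cons_empty, Submodule.mem_span_pair] at h1
  obtain ⟨s, t, h⟩ := h1
  exact ⟨s, t, congrArg Subtype.val h⟩

theorem mem_subalgebraNormalizer_iff_normRoot {K : Subalgebra F (Matrix ι ι F)} {T : Matrix ι ι F}
    (hT : T ∈ K) (hind : ∀ s t : F, s • (1 : Matrix ι ι F) + t • T = 0 → s = 0 ∧ t = 0)
    (hspan : ∀ x ∈ K, ∃ s t : F, s • (1 : Matrix ι ι F) + t • T = x) (g : GL ι F) :
    g ∈ subalgebraNormalizer K ↔ glLin ι F g ∈ normRoot (Matrix.toLin' T) := by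
  refine ⟨fun hg => ?_, fun hg => ?_⟩
  · obtain ⟨s, t, e⟩ := hspan _ ((hg T).1 hT)
    have e' : s • g.1 + t • (T * g.1) = g.1 * T := by
      simpa [add_mul, mul_assoc] using congrArg (· * g.1) e
    refine ⟨s, t, ?_, fun x => ?_⟩
    · rintro rfl
      have h1 := congrArg ((g⁻¹).1 * ·) e'
      simp only [zero_smul, add_zero, Matrix.mul_smul, Units.inv_mul, Units.inv_mul_cancel_left]
        at h1
      simpa using (hind s (-1) (by simp [h1])).2
    · simp [← e', Matrix.add_mulVec, Matrix.smul_mulVec]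
  · have key : ∀ g : GL ι F, glLin _ F g ∈ normRoot (Matrix.toLin' T) → ∀ x ∈ K,
        g.1 * x * (g⁻¹).1 ∈ K := by
      rintro g ⟨s, t, -, hst⟩ x hx
      obtain ⟨a, b, rfl⟩ := hspan x hx
      have e : g.1 * T = s • g.1 + t • (T * g.1) :=
        matrix_ext_mulVec fun v => by simpa [Matrix.add_mulVec, Matrix.smul_mulVec] using hst v
      simp only [mul_add, add_mul, Matrix.mul_smul, Matrix.smul_mul, e, mul_one, Units.mul_inv,
        Units.mul_inv_cancel_right]
      exact K.add_mem (K.smul_mem K.one_mem _) (K.smul_mem (K.add_mem (K.smul_mem K.one_mem _)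
        (K.smul_mem hT _)) _)
    refine fun x => ⟨key g hg x, fun hx => ?_⟩
    simpa [mul_assoc] using key g⁻¹ (by rw [map_inv]; exact inv_mem hg) _ hx

theorem isMaximalIn_unitary [Finite F] {Q : QuadraticForm F (ι → F)}
    (hQ : (polarBilin Q).Nondegenerate) (hn : 9 ≤ Fintype.card ι) {K : Subalgebra F (Matrix ι ι F)}
    (hK : IsFieldSubalgebra 2 K) (hsc : ∀ k ∈ K, ∃ c : F, ∀ v, Q (k *ᵥ v) = c * Q v) :
    IsMaximalIn (omegaGL Q) (subalgebraNormalizer K ⊓ omegaGL Q) := by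
  obtain ⟨T, hT, hind, hspan⟩ := exists_gen_of_isFieldSubalgebra hK
  obtain ⟨d, hd⟩ := hsc T hT
  obtain ⟨c, hc⟩ := hsc (1 + T) (K.add_mem K.one_mem hT)
  have h : UStr Q (Matrix.toLin' T) (c - 1 - d) d := by
    refine ⟨hQ, hd, fun x => ?_, fun x hx a b hab => ?_⟩
    · have := hc x
      rw [Matrix.add_mulVec, Matrix.one_mulVec, Q_add, hd] at this
      rw [Matrix.toLin'_apply]
      linear_combination this
    · refine hind a b ?_
      by_contra h0
      obtain ⟨y, hy, h1⟩ := hK.inv _ (K.add_mem (K.smul_mem K.one_mem a) (K.smul_mem hT b)) h0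
      rw [hK.comm _ (K.add_mem (K.smul_mem K.one_mem a) (K.smul_mem hT b)) y hy] at h1
      have h2 : (a • (1 : Matrix ι ι F) + b • T) *ᵥ x = 0 := by
        simpa [Matrix.add_mulVec, Matrix.smul_mulVec] using hab
      exact hx (by rw [← Matrix.one_mulVec x, ← h1, ← Matrix.mulVec_mulVec, h2, Matrix.mulVec_zero])
  exact (h.maxOm (by simpa)).isMaximalIn (mem_subalgebraNormalizer_iff_normRoot hT hind hspan)

end Mat

end Cfsg.Lib.Class.OMax
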