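import Cfsg.Agent.Class.MonoMax
import Cfsg.Agent.Class.DecWeight

/-!
# Maximality of the stabiliser of a direct decomposition in the special linear group
-/

set_option autoImplicit false
set_option linter.unusedSectionVars false

namespace Cfsg.Lib.Class.Mono

open Module Submodule FE Equiv Geo

variable {F V : Type*} [Field F] [AddCommGroup V] [Module F V] [FiniteDimensional F V] {τ : Type}
  [Fintype τ] {D : τ → Submodule F V} {p : τ → V →ₗ[F] V} {X : Subgroup (V ≃ₗ[F] V)} {i j k : τ}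
  {a b c u v : V} {φ ψ χ : Dual F V} {m : ℕ}

/-- A functional that only depends on the `i`-th component. -/
def Sup (p : τ → V →ₗ[F] V) (i : τ) (ψ : Dual F V) : Prop := ∀ v, ψ (p i v) = ψ v

theorem sup_comp (hp : IsDecProj D p) (i : τ) (ψ : Dual F V) : Sup p i (ψ ∘ₗ p i) := fun v ↦ by
  simp [hp.self i _ (hp.mem i v)]

theorem Sup.eq_zero (h : Sup p i ψ) (hp : IsDecProj D p) (hij : i ≠ j) (hv : v ∈ D j) :
    ψ v = 0 := by
  rw [← h, hp.ne i j hij v hv, map_zero]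

theorem Sup.smul (h : Sup p i ψ) (s : F) : Sup p i (s • ψ) := fun v ↦ by simp [h v]

theorem exists_mem_notMem_span {W : Submodule F V} (h : 2 ≤ finrank F W) (v : V) :
    ∃ x ∈ W, x ∉ span F {v} := by
  by_contra! hc
  have := (finrank_mono hc).trans (finrank_span_le_card {v})
  simp only [Set.toFinset_singleton, Finset.card_singleton] at this
  omega

theorem exists_sup_one (hp : IsDecProj D p) (hu : u ∈ D i) (h0 : u ≠ 0) :
    ∃ ψ, Sup p i ψ ∧ ψ u = 1 := by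
  obtain ⟨ψ, h⟩ := exists_dual_eq (K := F) h0 1
  exact ⟨_, sup_comp hp i ψ, by simp [hp.self i u hu, h]⟩

theorem exists_sup_pair (hp : IsDecProj D p) (hu : u ∈ D i) (hv : v ∈ D i) (h : u ∉ span F {v}) :
    ∃ ψ, Sup p i ψ ∧ ψ v = 0 ∧ ψ u = 1 := by
  obtain ⟨ψ, h1, h2⟩ := exists_dual_pair (K := F) h 1
  exact ⟨_, sup_comp hp i ψ, by simp [hp.self i v hv, h1], by simp [hp.self i u hu, h2]⟩

theorem exists_sup_zero (hp : IsDecProj D p) (h : 2 ≤ finrank F (D i)) (hv : v ∈ D i) :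
    ∃ ψ, Sup p i ψ ∧ ψ v = 0 ∧ ∃ x ∈ D i, ψ x = 1 := by
  obtain ⟨x, hx, h1⟩ := exists_mem_notMem_span h v
  obtain ⟨ψ, h2, h3, h4⟩ := exists_sup_pair hp hx hv h1
  exact ⟨ψ, h2, h3, x, hx, h4⟩

theorem exists_hom (hp : IsDecProj D p) (hu : u ∈ D i) (hψ : Sup p i ψ) (h : 1 + ψ u ≠ 0) :
    ∃ g : V ≃ₗ[F] V, (∀ x, g x = x + ψ x • u) ∧ (LinearEquiv.det g : F) = 1 + ψ u ∧
      ∀ j, ∀ v ∈ D j, g v ∈ D j := by
  obtain ⟨g, h1, h2⟩ := exists_equiv_one_add ψ u h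
  refine ⟨g, h1, h2, fun j v hv ↦ ?_⟩
  by_cases e : i = j
  · exact h1 v ▸ (D j).add_mem hv ((D j).smul_mem _ (e ▸ hu))
  · simpa [h1, hψ.eq_zero hp e hv] using hv

/-- The standing hypotheses. -/
structure DCtx (D : τ → Submodule F V) (p : τ → V →ₗ[F] V) (m : ℕ) (X : Subgroup (V ≃ₗ[F] V)) :
    Prop where
  proj : IsDecProj D p
  dim : ∀ i, finrank F (D i) = m
  le : stabDec D ⊓ SLV F V ≤ X

namespace DCtx

theorem tv (h : DCtx D p m X) (hu : u ∈ D i) (hψ : Sup p i ψ) (h0 : ψ u = 0) : TvIn X u ψ := by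
  obtain ⟨g, h1, h2, h3⟩ := exists_hom h.proj hu hψ (by simp [h0])
  exact ⟨h0, g, h.le ⟨mem_stabDec_of_forall h3, Units.ext (by simpa [h0] using h2)⟩, h1⟩

theorem left (h : DCtx D p m X) (h1 : TvIn X a φ) (hb : b ∈ D i) (h2 : φ b = 0)
    (h3 : p i a ∉ span F {b}) : FullTv X b φ := fun s ↦ by
  obtain ⟨ψ, h4, h5, h6⟩ := exists_sup_pair h.proj (h.proj.mem i a) hb h3
  simpa [← h4 a, h6] using h1.comm (h.tv ((D i).smul_mem s hb) h4 (by simp [h5])) (by simp [h2])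

theorem right (h : DCtx D p m X) (h1 : TvIn X a φ) (hχ : Sup p j χ) (h2 : χ a = 0) (hc : c ∈ D j)
    (h3 : χ c = 0) (h4 : φ c ≠ 0) : FullTv X a χ := fun s ↦ by
  simpa [h4] using (h.tv ((D j).smul_mem (s / φ c) hc) hχ (by simp [h3])).comm h1 h2

theorem all_of_full (h : DCtx D p m X) (hij : i ≠ j) (hb : b ∈ D i) (hb0 : b ≠ 0) (hχ : Sup p j χ)
    (hχ0 : χ ≠ 0) (h1 : FullTv X b χ) (ha : a ∈ D i) (hψ : Sup p j ψ) : TvIn X a ψ := by
  have h2 : FullTv X b ψ := by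
    by_cases e : χ ∈ span F {ψ}
    · obtain ⟨s, rfl⟩ := mem_span_singleton.1 e
      exact h1.of_smul_right (left_ne_zero_of_smul hχ0)
    · obtain ⟨d, h3, h4⟩ := Tens.exists_pair_of_notMem e 1
      exact h.right (by simpa using h1 1) hψ (hψ.eq_zero h.proj hij.symm hb) (h.proj.mem j d)
        (by rw [hψ, h3]) (by simp [hχ d, h4])
  by_cases e : b ∈ span F {a}
  · obtain ⟨s, rfl⟩ := mem_span_singleton.1 e
    simpa using h2.of_smul (left_ne_zero_of_smul hb0) 1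
  · simpa using h.left (by simpa using h2 1) ha (hψ.eq_zero h.proj hij.symm ha)
      (by rwa [h.proj.self i b hb]) 1

theorem exists_perm (h : DCtx D p m X) (hm : 0 < m) (σ : Perm τ) (i : τ) :
    ∃ g ∈ X, ∀ j, (D j).map (g : V →ₗ[F] V) = D (σ j) := by
  obtain ⟨g, -, hg⟩ := h.proj.exists_glue_equiv σ fun j ↦
    LinearEquiv.ofFinrankEq _ _ (by rw [h.dim, h.dim])
  obtain ⟨u, hu, h0⟩ := (D i).exists_mem_ne_zero_of_ne_bot fun e ↦ by
    have := h.dim i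
    rw [e, finrank_bot] at this
    omega
  obtain ⟨ψ, h1, h2⟩ := exists_sup_one h.proj hu h0
  obtain ⟨k, -, h3, h4⟩ := exists_hom h.proj hu (h1.smul (((LinearEquiv.det g)⁻¹ : Fˣ) - 1))
    (by simp [h2, -LinearEquiv.coe_det])
  have h5 : ∀ j, (D j).map ((g * k : V ≃ₗ[F] V) : V →ₗ[F] V) = D (σ j) := fun j ↦
    map_eq_of_forall_mem _ (fun v hv ↦ hg j ▸ ⟨_, h4 j v hv, rfl⟩) (by rw [h.dim, h.dim])
  refine ⟨g * k, h.le ⟨⟨σ, h5⟩, Units.ext ?_⟩, h5⟩
  rw [map_mul, Units.val_mul, h3]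
  simp [h2, -LinearEquiv.coe_det]

theorem exists_block (h : DCtx D p m X) (hm : 2 ≤ m)
    (hc3 : 3 ≤ m ∨ 3 ≤ Fintype.card τ ∧ ∃ l : F, l ≠ 0 ∧ l ≠ 1) (hij : i ≠ j) (h1 : TvIn X a φ)
    (ha : p i a ≠ 0) (hc : c ∈ D j) (h2 : φ c ≠ 0) :
    ∃ b ∈ D i, b ≠ 0 ∧ ∃ φ', TvIn X b φ' ∧ ∃ c' ∈ D j, φ' c' ≠ 0 := by
  classical
  by_cases H : ∃ b ∈ D i, b ≠ 0 ∧ φ b = 0 ∧ p i a ∉ span F {b}
  · obtain ⟨b, hb, h3, h4, h5⟩ := H
    exact ⟨b, hb, h3, φ, by simpa using h.left h1 hb h4 h5 1, c, hc, h2⟩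
  push Not at H
  obtain ⟨α, hα, hα1⟩ := exists_sup_one h.proj (h.proj.mem i a) ha
  rcases hc3 with h3 | ⟨h3, l, l0, l1⟩
  · obtain ⟨b, h4, h5, h6⟩ := Tens.exists_two_zero (h3.trans_eq (h.dim i).symm)
      (φ ∘ₗ (D i).subtype) (α ∘ₗ (D i).subtype)
    obtain ⟨s, hs⟩ := mem_span_singleton.1 (H b b.2 (by simpa using h4) h5)
    rw [← hs, map_smul, show α b = 0 from h6] at hα1
    simp at hα1
  have h4 : φ (p i a) = 0 := by
    obtain ⟨b, h4, h5⟩ := Tens.exists_one_zero (hm.trans_eq (h.dim i).symm) (φ ∘ₗ (D i).subtype)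
    obtain ⟨s, hs⟩ := mem_span_singleton.1 (H b b.2 (by simpa using h4) h5)
    rw [← hs, map_smul, show φ b = 0 from h5, smul_zero]
  obtain ⟨k, hki, hkj⟩ : ∃ k, k ≠ i ∧ k ≠ j := by
    by_contra! hc
    have h5 : (Finset.univ : Finset τ) ⊆ {i, j} := fun x _ ↦ by
      by_cases e : x = i
      · simp [e]
      · simp [hc x e]
    have := (Finset.card_le_card h5).trans Finset.card_le_two
    rw [Finset.card_univ] at this
    omega
  obtain ⟨⟨u, hu⟩, u0, hu1⟩ :=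
    Tens.exists_one_zero (hm.trans_eq (h.dim k).symm) (φ ∘ₗ (D k).subtype)
  replace hu1 : φ u = 0 := hu1
  obtain ⟨β, hβ, hβ1⟩ := exists_sup_one h.proj hu (by simpa using u0)
  obtain ⟨g, g1, g2, g3⟩ := exists_hom h.proj (h.proj.mem i a) (hα.smul (l - 1)) (by simpa [hα1])
  obtain ⟨g', g4, g5, g6⟩ := exists_hom h.proj hu (hβ.smul (l⁻¹ - 1)) (by simpa [hβ1])
  have h5 : g * g' ∈ X := h.le ⟨mem_stabDec_of_forall fun j v hv ↦ g3 j _ (g6 j v hv),
    Units.ext (by simp [g2, g5, hα1, hβ1, l0])⟩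
  have h6 : TvIn X ((l - 1) • p i a + ((l⁻¹ - 1) * β a) • u) φ := by
    convert (h1.conj h5 (ψ := φ) fun x ↦ by simp [g1, g4, h4, hu1]).sub_left h1 using 1
    simp only [LinearEquiv.mul_apply, g1, g4, LinearMap.smul_apply, map_add, map_smul,
      hα.eq_zero h.proj hki.symm hu, ← hα a, hα1, smul_eq_mul]
    module
  obtain ⟨χ, hχ, h7, x, hx, h8⟩ := exists_sup_zero h.proj (hm.trans_eq (h.dim j).symm) hc
  have h9 := h.right h6 hχ (by
    simp [hχ.eq_zero h.proj hij.symm (h.proj.mem i a), hχ.eq_zero h.proj hkj.symm hu]) hc h7 h2 1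
  obtain ⟨b, hb, h10⟩ := exists_mem_notMem_span (hm.trans_eq (h.dim i).symm) (p i a)
  refine ⟨b, hb, fun e ↦ h10 (by simp [e]), χ, ?_, x, hx, by simp [h8]⟩
  have h11 := notMem_span_symm (K := F) ha h10
  simpa using h.left h9 hb (hχ.eq_zero h.proj hij.symm hb) (by
    rwa [one_smul, map_add, map_smul, map_smul, h.proj.ne i k hki.symm u hu, smul_zero, add_zero,
      h.proj.self i _ (h.proj.mem i a), smul_mem_iff _ (sub_ne_zero.2 l1)]) 1

theorem tvIn_of_notMem (h : DCtx D p m X) (hm : 2 ≤ m)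
    (hc3 : 3 ≤ m ∨ 3 ≤ Fintype.card τ ∧ ∃ l : F, l ≠ 0 ∧ l ≠ 1) {g : V ≃ₗ[F] V} (hg : g ∈ X)
    (hn : g ∉ stabDec D) (ha : a ∈ D i) (hψ : Sup p j ψ) (h0 : ψ a = 0) : TvIn X a ψ := by
  classical
  by_cases hij : i = j
  · exact h.tv ha (hij ▸ hψ) h0
  obtain ⟨i₀, v, hv, h1⟩ := h.proj.exists_notMem_of_notMem_stabDec (by omega) h.dim hn
  obtain ⟨φ, h2, h3, x, -, h4⟩ := exists_sup_zero h.proj (hm.trans_eq (h.dim i₀).symm) hv
  have h5 := (h.tv hv h2 h3).conj' hg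
  obtain ⟨j', c, hc, h6⟩ : ∃ j', ∃ c ∈ D j', (φ ∘ₗ g.symm.toLinearMap) c ≠ 0 := by
    by_contra! hc
    simpa [h4] using LinearMap.congr_fun (h.proj.ext (g := 0) hc) (g x)
  obtain ⟨i', hij', h7⟩ : ∃ i', i' ≠ j' ∧ p i' (g v) ≠ 0 := by
    by_contra! hc
    exact h1 j' (h.proj.mem_iff.2 hc)
  obtain ⟨b, hb, hb0, φ', h8, c', hc', h9⟩ := h.exists_block hm hc3 hij' h5 h7 hc h6
  obtain ⟨χ, hχ, h10, y, -, h11⟩ := exists_sup_zero h.proj (hm.trans_eq (h.dim j').symm) hc'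
  have h12 := h.right h8 hχ (hχ.eq_zero h.proj hij'.symm hb) hc' h10 h9
  let σ := swap (swap i' i j') j * swap i' i
  have s1 : σ i' = i := by
    simp only [σ, Perm.mul_apply, swap_apply_left]
    refine swap_apply_of_ne_of_ne (fun e ↦ hij' ?_) hij
    exact (swap i' i).injective ((swap_apply_left i' i).trans e)
  have s2 : σ j' = j := by simp [σ]
  obtain ⟨k, hk, e⟩ := h.exists_perm (by omega) σ i
  obtain ⟨a', ha', rfl⟩ : a ∈ (D i').map (k : V →ₗ[F] V) := by rwa [e, s1]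
  refine (h.all_of_full hij' hb hb0 hχ (fun e ↦ by simp [e] at h11) h12 ha'
    (ψ := ψ ∘ₗ k.toLinearMap) fun v ↦ ?_).conj hk fun _ ↦ rfl
  simp only [LinearMap.comp_apply, LinearEquiv.coe_coe]
  rw [← h.proj.apply_map e, s2, hψ]

end DCtx

theorem exists_coord_equiv [DecidableEq τ] (hp : IsDecProj D p) (hd : ∀ i, finrank F (D i) = m) :
    ∃ e : V ≃ₗ[F] (τ × Fin m → F), (∀ x, ratB e x ∈ D x.1) ∧ ∀ x, Sup p x.1 (ratC e x) := by
  obtain ⟨E, X, hE, hX, h⟩ := hp.exists_coords hd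
  let f : V →ₗ[F] (τ × Fin m → F) := LinearMap.pi fun x ↦ X x.1 x.2
  have h1 : ∀ x : τ × Fin m, f (E x.1 x.2) = ee x := fun x ↦ by
    ext y
    simp [f, hX, Pi.single_apply, Prod.ext_iff]
  let e := LinearEquiv.ofBijective f ⟨(injective_iff_map_eq_zero f).2 fun v hv ↦ by
      rw [← hp.sum v]
      refine Finset.sum_eq_zero fun i _ ↦ (h i v).trans (Finset.sum_eq_zero fun k _ ↦ ?_)
      rw [show X i k v = 0 from congrFun hv (i, k), zero_smul],
    fun w ↦ ⟨∑ x, w x • E x.1 x.2, by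
      simp only [map_sum, map_smul, h1]
      exact (pi_eq_sum_univ' w).symm⟩⟩
  refine ⟨e, fun x ↦ ?_, fun x v ↦ ?_⟩
  · rw [show ratB e x = E x.1 x.2 from e.injective ((apply_ratB x).trans (h1 x).symm)]
    exact hE _ _
  · change X x.1 x.2 _ = X x.1 x.2 _
    simp [h, hX]

theorem DCtx.SLV_le_one [Fintype F] (h : DCtx D p 1 X) (hq : 5 ≤ Fintype.card F)
    (hτ : 6 ≤ Fintype.card τ) {g : V ≃ₗ[F] V} (hg : g ∈ X) (hn : g ∉ stabDec D) :
    SLV F V ≤ X := by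
  classical
  obtain ⟨e, h1, -⟩ := exists_coord_equiv h.proj h.dim
  have h2 : ∀ g : V ≃ₗ[F] V, IsMon (autCongr e g) → g ∈ stabDec D := fun g hg ↦ by
    by_contra hn
    obtain ⟨i, v, hv, h2⟩ := h.proj.exists_notMem_of_notMem_stabDec one_pos h.dim hn
    obtain ⟨s, hs⟩ := (finrank_eq_one_iff_of_nonzero' (⟨_, h1 (i, 0)⟩ : D i)
      (by simpa using ratB_ne_zero _)).1 (h.dim i) ⟨v, hv⟩
    obtain ⟨σ, c, e'⟩ := hg.exists_eq_mono
    have h3 := mono_ee σ c (i, 0)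
    rw [← e', autCongr_apply, ← LinearEquiv.eq_symm_apply, map_smul] at h3
    refine h2 (σ (i, 0)).1 ?_
    rw [← show s • ratB e (i, 0) = v from congrArg Subtype.val hs, map_smul]
    exact smul_mem _ _ (h3 ▸ smul_mem _ _ (h1 _))
  have h3 : MonSL (X.comap (autCongr e).symm.toMonoidHom) := fun σ c hc ↦
    h.le ⟨h2 _ (by simpa using isMon_mono σ c), by
      rwa [← (autCongr e).apply_symm_apply (mono σ c), det_autCongr] at hc⟩
  have h4 := h3.SLV_le hq (by simpa using hτ) (g := autCongr e g) (by simpa using hg)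
    fun hm ↦ hn (h2 g hm)
  intro x hx
  simpa using h4 (x := autCongr e x) (by rwa [MonoidHom.mem_ker, det_autCongr])

/-- Maximality of the stabiliser of a direct decomposition in the special linear group. -/
theorem isMaximalIn_SLV_stabDec [Fintype F] (hp : IsDecProj D p) (hd : ∀ i, finrank F (D i) = m)
    (hτ : 2 ≤ Fintype.card τ) (h : m = 1 ∧ 5 ≤ Fintype.card F ∧ 6 ≤ Fintype.card τ ∨
      m = 2 ∧ 3 ≤ Fintype.card F ∧ 3 ≤ Fintype.card τ ∨ 3 ≤ m) :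
    IsMaximalIn (SLV F V) (stabDec D ⊓ SLV F V) := by
  classical
  have := Fintype.one_lt_card_iff_nontrivial.1 hτ
  refine isMaximalIn_of_forall inf_le_right (fun hle ↦ ?_) fun M hM hMK g hg hgH ↦ ?_
  · obtain ⟨g, hg, hg'⟩ := hp.exists_SLV_notMem_QIsom (by omega) hd
    exact hg' (hp.stabDec_le_QIsom (hle hg).1)
  have hn : g ∉ stabDec D := fun h ↦ hgH ⟨h, hMK hg⟩
  by_cases h1 : m = 1
  · subst h1
    exact DCtx.SLV_le_one ⟨hp, hd, hM⟩ (by omega) (by omega) hg hn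
  obtain ⟨e, h2, h3⟩ := exists_coord_equiv hp hd
  refine SLV_le_of_elementary e M fun x y hxy c ↦ DCtx.tvIn_of_notMem ⟨hp, hd, hM⟩ (by omega) ?_ hg
    hn (smul_mem _ c (h2 x)) (h3 y) (by simp [ratC_apply, apply_ratB, hxy.symm])
  by_cases h4 : 3 ≤ m
  · exact Or.inl h4
  refine Or.inr ⟨by omega, ?_⟩
  by_contra! hc
  have h5 : (Finset.univ : Finset F) ⊆ {0, 1} := fun a _ ↦ by
    by_cases ha : a = 0
    · simp [ha]
    · simp [hc a ha]
  have h6 := (Finset.card_le_card h5).trans Finset.card_le_two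
  rw [Finset.card_univ] at h6
  omega

/-- Maximality of the stabiliser of a direct decomposition, matrix form. -/
theorem isMaximalIn_SL_decomposition [Fintype F] {ι : Type} [Fintype ι] [DecidableEq ι] {t : ℕ}
    {D : Fin t → Submodule F (ι → F)} (hD : IsMDecomposition m D)
    (h : m = 1 ∧ 5 ≤ Fintype.card F ∧ 6 ≤ t ∨ m = 2 ∧ 3 ≤ Fintype.card F ∧ 3 ≤ t ∨ 3 ≤ m) :
    IsMaximalIn (specialLinear ι F) (decompositionStabilizer D ⊓ specialLinear ι F) := by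
  obtain ⟨p, hp⟩ := exists_isDecProj hD.indep hD.iSup_eq_top
  exact isMaximalIn_specialLinear_of (mem_decompositionStabilizer_iff_glLin D)
    (isMaximalIn_SLV_stabDec hp hD.finrank_eq (by simpa using hD.two_le) (by simpa using h))

end Cfsg.Lib.Class.Mono
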