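import Cfsg.Agent.Class.HermMaxRat

/-!
# Overgroups of `Sp_n(q)` in `SU_n(q)` for all `n ≥ 4`
-/

set_option autoImplicit false

namespace Cfsg.Lib.Class.Form

open Module

variable {F V : Type*} [Field F] [AddCommGroup V] [Module F V] {σ : F →+* F}
  {B : V →ₛₗ[σ] V →ₗ[F] F} {κ : V →ₛₗ[σ] V} [FiniteDimensional F V]

theorem Herm.smul_mem_eichSub_of_transv (h : Herm B) {M : Subgroup (isomGroup B)} {a b : V}
    (ha : B a a = 0) (hb : B b b = 0) (hab : B a b = 0) {θ c : F} (hc : c + σ c = 0)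
    (h1 : ∀ c hc, h.transv a ha c hc ∈ M) (h2 : ∀ c hc, h.transv b hb c hc ∈ M)
    {hu : B (a + θ • b) (a + θ • b) = 0} (h3 : h.transv _ hu c hc ∈ M) :
    (c * θ) • b ∈ h.eichSub M ha := by
  have hba := h.comm hab
  have hσc : σ c = -c := by linear_combination hc
  refine ⟨by simp [hab], 0, by simp [map_smulₛₗ, hb], ?_⟩
  convert mul_mem (mul_mem h3 (h1 (-c) (by rw [map_neg]; linear_combination -hc)))
    (h2 (-(c * σ θ * θ)) (by rw [map_neg, map_mul, map_mul, h.invol, hσc]; ring)) using 1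
  refine isom_ext fun x => ?_
  simp only [h.eich_apply, isom_mul_apply, h.transv_apply, map_add, map_smulₛₗ, map_mul, hσc,
    LinearMap.add_apply, LinearMap.smul_apply, smul_eq_mul, RingHom.id_apply, ha, hb, hab, hba]
  module

namespace Conj

theorem sIsom_le_of_transv [Finite F] (hκ : Conj B κ (-1)) (h : Herm B) (hn : 4 ≤ finrank F V)
    (halt : ∀ x, κ x = x → B x x = 0) {M : Subgroup (isomGroup B)}
    (hT : ∀ v (hv : κ v = v) c hc, h.transv v (halt v hv) c hc ∈ M) {g : isomGroup B} (hg : g ∈ M)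
    (hgH : g ∉ ratGroup B κ) : sIsom B ≤ M := by
  have : Nontrivial V := Module.nontrivial_of_finrank_pos (R := F) (by omega)
  obtain ⟨δ, hδ0, hδ⟩ := h.exists_trace_zero
  obtain ⟨θ, hθ⟩ : ∃ θ, σ θ ≠ θ := by
    by_contra! hc
    exact h.ne_id (RingHom.ext hc)
  obtain ⟨v, hv, hgv⟩ : ∃ v, κ v = v ∧ κ ((g : V ≃ₗ[F] V) v) ∉ spanL F [(g : V ≃ₗ[F] V) v] := by
    by_contra! hc
    have hc' : ∀ v, κ v = v → ∃ a : F, conjLin h κ ((g : V ≃ₗ[F] V) : V →ₗ[F] V) v =
        a • ((g : V ≃ₗ[F] V) : V →ₗ[F] V) v := fun v hv => by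
      obtain ⟨a, ha⟩ := mem_spanL_singleton.1 (hc v hv)
      exact ⟨a, by simp [conjLin, hv, ha]⟩
    obtain ⟨p, hp, -, hp0⟩ := hκ.exists_rat h [] [] (by simp) (by simp; omega)
    obtain ⟨a, ha⟩ := hc' p hp
    refine hgH (hκ.mem_ratGroup_of_top h (a := a) fun x hx => ?_)
    by_cases hxp : x ∈ spanL F [p]
    · obtain ⟨c, rfl⟩ := mem_spanL_singleton.1 hxp
      have h1 : conjLin h κ ((g : V ≃ₗ[F] V) : V →ₗ[F] V) (c • p) =
          a • ((g : V ≃ₗ[F] V) : V →ₗ[F] V) (c • p) := by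
        rw [map_smul, ha, map_smul, smul_comm]
      simp only [conjLin, LinearMap.coe_mk, AddHom.coe_mk, hx, LinearEquiv.coe_coe] at h1
      exact h1
    · obtain ⟨b, hb⟩ := hc' x hx
      obtain ⟨c, hc⟩ := hc' (p + x) (by rw [map_add, hp, hx])
      rw [eq_of_eigen_add (g : V ≃ₗ[F] V).injective (ne_zero_of_notMem_spanL hp0) hxp ha hb hc]
      simpa [conjLin, hx] using hb
  have hu : B ((g : V ≃ₗ[F] V) v) ((g : V ≃ₗ[F] V) v) = 0 := by rw [isom_apply, halt v hv]
  have ht : ∀ c hc, h.transv _ hu c hc ∈ M := fun c hc => by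
    rw [← h.conj_transv g v (halt v hv)]
    exact mul_mem (mul_mem hg (hT v hv c hc)) (inv_mem hg)
  generalize (g : V ≃ₗ[F] V) v = u at hgv hu ht
  obtain ⟨a, b, ha, hb, rfl, -, -⟩ := hκ.exists_decomp h hθ u
  have hθ' : θ - σ θ ≠ 0 := sub_ne_zero.2 hθ.symm
  have haa := halt a ha
  have hab : B a b = 0 := by
    have e := hu
    simp only [map_add, map_smulₛₗ, LinearMap.add_apply, LinearMap.smul_apply, smul_eq_mul,
      RingHom.id_apply, haa, halt b hb] at e
    have e' := hκ.rat_form ha hb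
    rw [h.conj] at e'
    exact (mul_eq_zero.1 (show (θ - σ θ) * B a b = 0 by
      linear_combination e - σ θ * e')).resolve_left hθ'
  have key : ∀ (z : V) (s : F), κ z = z → a + θ • b ≠ s • z := fun z s hz e => by
    rw [e] at hgv
    have hs : s ≠ 0 := by rintro rfl; simp at hgv
    exact hgv (mem_spanL_singleton.2 ⟨σ s / s, by
      rw [map_smulₛₗ, hz, smul_smul, div_mul_cancel₀ _ hs]⟩)
  have hba : b ∉ spanL F [a] := fun hm => by
    obtain ⟨s, rfl⟩ := mem_spanL_singleton.1 hm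
    exact key a (1 + θ * s) ha (by module)
  have ha0 : a ∉ spanL F [] := fun hm => by
    have : a = 0 := by simpa [spanL] using hm
    exact key b θ hb (by rw [this, zero_add])
  have h1 : ∀ y, κ y = y → B a y = 0 → ∀ c, c + σ c = 0 → c • y ∈ h.eichSub M haa :=
    fun y hy hay c hc => by
      have hs : κ (a + (1 : F) • y) = a + (1 : F) • y := by simp [ha, hy]
      simpa using h.smul_mem_eichSub_of_transv haa (halt y hy) hay hc (hT a ha) (hT y hy)
        (hT _ hs c hc)
  have h2 : ∀ l : F, l • b ∈ h.eichSub M haa := fun l => by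
    have hθ'' : σ θ - θ ≠ 0 := sub_ne_zero.2 hθ
    have hc : (l + σ l) / (θ - σ θ) + σ ((l + σ l) / (θ - σ θ)) = 0 := by
      simp only [map_div₀, map_add, map_sub, h.invol]
      field_simp
      ring
    have := add_mem (h1 b hb hab (l - (l + σ l) / (θ - σ θ) * θ) (by
      simp only [map_div₀, map_add, map_sub, map_mul, h.invol]
      field_simp
      ring)) (h.smul_mem_eichSub_of_transv haa (halt b hb) hab hc (hT a ha) (hT b hb) (ht _ hc))
    rwa [← add_smul, sub_add_cancel] at this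
  have h3 : ∀ y, κ y = y → B a y = 0 → B b y ≠ 0 → ∀ l : F, l • y ∈ h.eichSub M haa :=
    fun y hy hay hby l => by
      have h4 := h.apply_mem_eichSub (hT y hy δ hδ) (hz' := haa)
        (by simp [h.transv_apply, h.comm hay]) (h2 (l / (δ * B y b)))
      rw [h.transv_apply, (h.eichSub M haa).add_mem_cancel_left (h2 _)] at h4
      convert h4 using 2
      have := h.ne_comm hby
      simp only [map_smul, smul_eq_mul]
      field_simp
  have h4 : ∀ y, κ y = y → B a y = 0 → ∀ l : F, l • y ∈ h.eichSub M haa := fun y hy hay l => by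
    by_cases hby : B b y = 0
    · obtain ⟨p, hp, hap, hbp⟩ := hκ.exists_rat_ne h [a] (by simp [ha]) hba
      replace hap : B a p = 0 := hap a (by simp)
      have := sub_mem (h3 (y + p) (by rw [map_add, hp, hy]) (by simp [hay, hap])
        (by simpa [hby] using hbp) l) (h3 p hp hap hbp l)
      rwa [smul_add, add_sub_cancel_right] at this
    · exact h3 y hy hay hby l
  have hfull : h.Full M a := h.full_of_forall (by omega) haa fun w hw => ⟨0, by
    obtain ⟨c, d, hc, hd, e, hc', hd'⟩ := hκ.exists_decomp h hθ w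
    rw [zero_smul, add_zero, e]
    exact add_mem (by simpa using h4 c hc (hκ.orth_of_mem ha hw hc') 1)
      (h4 d hd (hκ.orth_of_mem ha hw hd') θ)⟩
  obtain ⟨f, hf, -, haf⟩ := hκ.exists_rat_ne h [] (by simp) ha0
  exact h.sIsom_le_of_full_of_transv hn hfull (halt f hf) haf hδ0 hδ (hT f hf δ hδ)

omit [FiniteDimensional F V] in
theorem transv_mem_ratGroup (hκ : Conj B κ (-1)) (h : Herm B) {v : V} (hv : κ v = v)
    (hvv : B v v = 0) {c : F} (hc : c + σ c = 0) (x : V) :
    κ ((h.transv v hvv c hc : V ≃ₗ[F] V) x) = (h.transv v hvv c hc : V ≃ₗ[F] V) (κ x) := by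
  have hσc : σ c = -c := by linear_combination hc
  simp only [h.transv_apply, map_add, map_smulₛₗ, map_mul, hv, hκ.left_form hv, hσc]
  module

theorem maxS_symplectic' [Finite F] (hκ : Conj B κ (-1)) (h : Herm B) (hn : 4 ≤ finrank F V)
    (halt : ∀ x, κ x = x → B x x = 0) : MaxS B (ratGroup B κ) :=
  ⟨hκ.not_sIsom_le h hn, fun _ hM _ _ hg hgH => hκ.sIsom_le_of_transv h hn halt
    (fun _ hv _ hc => hM _ (mem_ratGroup_of_comm (hκ.transv_mem_ratGroup h hv _ hc))
      (h.transv_mem_sIsom ..)) hg hgH⟩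

end Conj

end Cfsg.Lib.Class.Form
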