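import Cfsg.Agent.Class.SpRoot6

/-!
Maximality of the stabilisers of a unitary structure and of a pair of complementary totally
isotropic subspaces in symplectic groups of dimension at least six (odd characteristic).
-/

set_option autoImplicit false
set_option linter.unusedSectionVars false

namespace Cfsg.Lib.Class

open Module Cfsg.Geo

variable {F V : Type*} [Field F] [AddCommGroup V] [Module F V] {B : LinearMap.BilinForm F V}
  {M : Subgroup (V ≃ₗ[F] V)}

theorem mem_TSet_of_altR_family {hA : B.IsAlt} (h2 : (2 : F) ≠ 0) {a b : V} (h : B a b = 0)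
    (ha : altR hA a b ∈ M) (h' : ∀ c : F, ∃ a', B a' b = 0 ∧ altR hA a' b ∈ M ∧ B a a' = c) :
    b ∈ TSet hA M := by
  intro c
  obtain ⟨a', h1, ha', e⟩ := h' (c / 2)
  have h3 := M.mul_mem (M.inv_mem (M.mul_mem ha ha')) (M.mul_mem ha' ha)
  rw [altR_mul hA h1 h, altR_mul hA h h1, add_comm a, mul_inv_rev, mul_assoc,
    inv_mul_cancel_left, altTEquiv_inv, altTEquiv_mul] at h3
  convert h3 using 2
  rw [hA.neg_eq, e]
  field_simp
  ring

/-- Translates of a plane of transvection centres consisting of transvection centres. -/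
def planeShift {hA : B.IsAlt} (h2 : (2 : F) ≠ 0) {x y : V} (hxy : B x y ≠ 0)
    (hT : ∀ s t : F, s • x + t • y ∈ TSet hA M) : Submodule F V where
  carrier := {z | B x z = 0 ∧ B y z = 0 ∧
    ∀ s t : F, s • x + t • y ≠ 0 → s • x + t • y + z ∈ TSet hA M}
  zero_mem' := ⟨by simp, by simp, fun s t _ => by simpa using hT s t⟩
  smul_mem' c z hz := by
    refine ⟨by simp [hz.1], by simp [hz.2.1], fun s t h0 => ?_⟩
    by_cases hc : c = 0
    · simpa [hc] using hT s t
    have := smul_mem_TSet (hz.2.2 (s / c) (t / c) fun h => h0 (by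
      have := congrArg (c • ·) h
      simpa [smul_smul, mul_div_cancel₀ _ hc] using this)) c
    simpa [smul_smul, mul_div_cancel₀ _ hc] using this
  add_mem' {z z'} hz hz' := by
    obtain ⟨z1, z2, hz⟩ := hz
    obtain ⟨z1', z2', hz'⟩ := hz'
    refine ⟨by simp [z1, z1'], by simp [z2, z2'], fun s t h0 => ?_⟩
    obtain ⟨s', t', e1, e2⟩ : ∃ s' t' : F, s' * t - t' * s ≠ 0 ∧
        (s' * t - t' * s) * B x y + B z z' ≠ 0 := by
      obtain ⟨s', t', e1⟩ : ∃ s' t' : F, s' * t - t' * s ≠ 0 := by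
        by_cases ht : t = 0
        · exact ⟨0, 1, by simpa using fun hs => h0 (by simp [hs, ht])⟩
        · exact ⟨1, 0, by simpa using ht⟩
      by_cases e2 : (s' * t - t' * s) * B x y + B z z' = 0
      · refine ⟨-s', -t', fun h => e1 (by linear_combination -h), fun h => ?_⟩
        exact mul_ne_zero h2 (mul_ne_zero e1 hxy) (by linear_combination e2 - h)
      · exact ⟨s', t', e1, e2⟩
    have key : ∀ a b c d : F, B (a • x + b • y) (c • x + d • y) = (a * d - b * c) * B x y := by
      intro a b c d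
      simp only [map_add, map_smul, LinearMap.add_apply, LinearMap.smul_apply, hA.self_eq_zero,
        ← hA.neg_eq x y, smul_eq_mul]
      ring
    have := add_mem_TSet (hz s' t' fun h => mul_ne_zero e1 hxy (by rw [← key, h]; simp))
      (hz' (s - s') (t - t') fun h => mul_ne_zero e1 hxy (by
        have := key s' t' (s - s') (t - t')
        rw [h, map_zero] at this
        linear_combination -this)) (by
        simp only [map_add, map_smul, LinearMap.add_apply, LinearMap.smul_apply, z1', z2',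
          alt_eq_zero_comm hA z1, alt_eq_zero_comm hA z2, hA.self_eq_zero, ← hA.neg_eq x y,
          smul_eq_mul]
        convert e2 using 1
        ring)
    convert this using 1
    module

theorem mem_planeShift_of {hA : B.IsAlt} (h2 : (2 : F) ≠ 0) {x y : V} (hxy : B x y ≠ 0)
    (hT : ∀ s t : F, s • x + t • y ∈ TSet hA M) {z : V} (z1 : B x z = 0) (z2 : B y z = 0)
    (hz : x + z ∈ TSet hA M) : z ∈ planeShift h2 hxy hT := by
  have key : ∀ s t : F, t ≠ 0 → s • x + t • y + z ∈ TSet hA M := by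
    intro s t ht
    have := add_mem_TSet hz (hT (s - 1) t) (by
      simpa [hA.self_eq_zero, alt_eq_zero_comm hA z1, alt_eq_zero_comm hA z2, hxy] using ht)
    convert this using 1
    module
  refine ⟨z1, z2, fun s t h0 => ?_⟩
  by_cases ht : t = 0
  · have hs : s ≠ 0 := fun hs => h0 (by simp [hs, ht])
    have := add_mem_TSet (key 0 1 one_ne_zero) (hT s (-1)) (by
      simpa [hA.self_eq_zero, alt_eq_zero_comm hA z1, alt_eq_zero_comm hA z2,
        alt_ne_zero_comm hA hxy] using hs)
    convert this using 1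
    rw [ht]
    module
  · exact key s t ht

theorem TSet_all_of_planeShift {hA : B.IsAlt} (hB : B.Nondegenerate) (h2 : (2 : F) ≠ 0) {x y : V}
    (hxy : B x y ≠ 0) (hT : ∀ s t : F, s • x + t • y ∈ TSet hA M)
    (h : ∀ z, B x z = 0 → B y z = 0 → z ∈ planeShift h2 hxy hT) (v : V) : v ∈ TSet hA M := by
  obtain ⟨s, t, z, z1, z2, rfl⟩ := exists_plane_proj hA hxy v
  by_cases h0 : s • x + t • y = 0
  swap
  · exact (h z z1 z2).2.2 s t h0
  rw [h0, zero_add]
  by_cases hz : z = 0
  · exact hz ▸ zero_mem_TSet hA M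
  obtain ⟨w, hw⟩ := exists_alt_eq_one hB hz
  obtain ⟨s', t', w, w1, w2, rfl⟩ := exists_plane_proj hA hxy w
  simp only [map_add, map_smul, alt_eq_zero_comm hA z1, alt_eq_zero_comm hA z2, smul_zero,
    zero_add] at hw
  have hx : x ≠ 0 := by rintro rfl; simp at hxy
  have := add_mem_TSet ((h w w1 w2).2.2 1 0 (by simpa))
    ((h (z - w) (by simp [z1, w1]) (by simp [z2, w2])).2.2 (-1) 0 (by simpa)) (by
      simp [hA.self_eq_zero, z1, w1, alt_eq_zero_comm hA w1, ← hA.neg_eq z w, hw])
  convert this using 1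
  module

variable [Finite F] [FiniteDimensional F V]

namespace SkewRoot

variable {θ : V →ₗ[F] V} {δ : F}

theorem le_of_not_mem' (h : SkewRoot B θ δ) (hA : B.IsAlt) (hd : 5 ≤ finrank F V)
    (hM : HasCent B θ M) (hle : M ≤ SpB B) {g : V ≃ₗ[F] V} (hg : g ∈ M) (hgn : g ∉ normRoot θ) :
    SpB B ≤ M := by
  have h' := h.skewRt
  have h2 := h.two
  obtain ⟨x, r, hx, hr0, r1, r2, hr⟩ := h'.exists_short hA hd hM hle hg
    (fun e => hgn ⟨0, 1, one_ne_zero, fun x => by simp [e]⟩)
    (fun e => hgn ⟨0, -1, by simp, fun x => by simp [e]⟩)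
  obtain ⟨v, v1, v2, hv, hrv⟩ : ∃ v, B x v = 0 ∧ B (θ x) v = 0 ∧ B v (θ v) = 0 ∧ B r v ≠ 0 := by
    by_contra! hcon
    refine hr0 (h.nondeg.1 r fun w => ?_)
    obtain ⟨s, t, w, w1, w2, rfl⟩ := exists_plane_proj hA hx w
    have : B r w = 0 := h'.mem_of_sing hA hd hx (LinearMap.ker (B r)) hcon w1 w2
    simp [this, alt_eq_zero_comm hA r1, alt_eq_zero_comm hA r2]
  have hκ : δ * B r v ^ 2 - B r (θ v) ^ 2 ≠ 0 := fun e =>
    h.nonsq (B r (θ v) / B r v) (by field_simp; linear_combination -e)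
  have hxT : x ∈ TSet hA M := by
    refine mem_TSet_of_altR_family h2 (alt_eq_zero_comm hA r1) hr fun c => ?_
    set d := -c / (δ * B r v ^ 2 - B r (θ v) ^ 2) with hd
    have ek : ∀ w, (altTEquiv hA (θ v) d * altTEquiv hA v (-(δ * d))) w =
        w + (d * B w (θ v)) • θ v - (δ * d * B w v) • v := fun w => by
      simp only [LinearEquiv.mul_apply, altTEquiv_apply', map_add, map_smul, LinearMap.add_apply,
        LinearMap.smul_apply, hv, smul_eq_mul]
      module
    have hk' := mul_mem (altTEquiv_mem_SpB hA (θ v) d) (altTEquiv_mem_SpB hA v (-(δ * d)))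
    have hk := hM _ hk' fun w => by
      simp only [ek, map_add, map_sub, map_smul, h.sq, h.skew, smul_eq_mul]
      module
    have := M.mul_mem (M.mul_mem hk hr) (M.inv_mem hk)
    rw [altR_conj hA hk', ek x, ek r, v1, h'.skew0 v2, mul_zero, mul_zero, zero_smul, zero_smul,
      add_zero, sub_zero] at this
    refine ⟨_, ?_, this, ?_⟩
    · simp [alt_eq_zero_comm hA r1, alt_eq_zero_comm hA v1, alt_eq_zero_comm hA (h'.skew0 v2)]
    · simp only [map_add, map_sub, map_smul, hA.self_eq_zero, smul_eq_mul, hd]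
      field_simp
      ring
  have hθT : θ x ∈ TSet hA M := by
    have h1 : 1 - δ ≠ 0 := fun e => h.nonsq 1 (by linear_combination e)
    obtain ⟨a, b, hb, hab⟩ : ∃ a b : F, b ≠ 0 ∧ a ^ 2 - δ * b ^ 2 = 1 :=
      ⟨(1 + δ) / (1 - δ), 2 / (1 - δ), div_ne_zero h2 h1, by field_simp; ring⟩
    let k : V ≃ₗ[F] V := LinearEquiv.ofLinearMap (a • LinearMap.id + b • θ) (a • LinearMap.id - b • θ)
      (by
        ext w
        simp only [LinearMap.comp_apply, LinearMap.add_apply, LinearMap.sub_apply,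
          LinearMap.smul_apply, LinearMap.id_apply, map_sub, map_smul, h.sq]
        linear_combination (norm := module) hab • w)
      (by
        ext w
        simp only [LinearMap.comp_apply, LinearMap.add_apply, LinearMap.sub_apply,
          LinearMap.smul_apply, LinearMap.id_apply, map_add, map_smul, h.sq]
        linear_combination (norm := module) hab • w)
    have ek : ∀ w, k w = a • w + b • θ w := fun w => rfl
    have hk' : k ∈ SpB B := fun u w => by
      simp only [ek, map_add, map_smul, LinearMap.add_apply, LinearMap.smul_apply, h.skew, h.sq,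
        smul_eq_mul]
      linear_combination B u w * hab
    have h3 := apply_mem_TSet (hM k hk' fun w => by simp [ek]) hk' hxT
    have h4 := smul_mem_TSet (add_smul_mem_TSet h3 hxT (by
      simpa [ek, hA.self_eq_zero, hb] using alt_ne_zero_comm hA hx) (-a)) b⁻¹
    simpa [ek, smul_smul, hb] using h4
  have hT : ∀ s t : F, s • x + t • θ x ∈ TSet hA M := fun s t => by
    by_cases hs : s = 0
    · simpa [hs] using smul_mem_TSet hθT t
    · exact add_smul_mem_TSet (smul_mem_TSet hxT s) hθT (by simp [hs, hx]) t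
  refine SpB_le_of_TSet h.nondeg hA (TSet_all_of_planeShift h.nondeg h2 hx hT fun z z1 z2 =>
    h'.mem_of_sing hA hd hx _ (fun z z1 z2 hz => ?_) z1 z2)
  have z3 := h'.skew0 z2
  obtain ⟨-, k, hk, k1, -, k3⟩ := h'.pInv hA hM (v := x + z)
    (by simpa [hz, z3, alt_eq_zero_comm hA z2] using hx)
  have k4 := k3 z (by simp [z1, hA.self_eq_zero]) (by simp [z2, alt_eq_zero_comm hA hz])
  rw [map_add, k4] at k1
  have h3 := neg_mem_TSet (apply_mem_TSet hk (hle hk) hxT)
  rw [show -k x = x + (2 : F) • z by linear_combination (norm := module) -k1] at h3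
  exact (Submodule.smul_mem_iff _ h2).1
    (mem_planeShift_of h2 hx hT (by simp [z1]) (by simp [z2]) h3)

theorem isMaximalIn_normRoot' (h : SkewRoot B θ δ) (hA : B.IsAlt) (hd : 5 ≤ finrank F V) :
    IsMaximalIn (SpB B) (normRoot θ ⊓ SpB B) := by
  refine isMaximalIn_of_forall inf_le_right (fun hle => ?_) fun M hM hMK g hg hgH =>
    h.le_of_not_mem' hA hd (fun k hk e => hM ⟨⟨0, 1, one_ne_zero, fun x => by simp [e]⟩, hk⟩)
      hMK hg fun h' => hgH ⟨h', hMK hg⟩
  obtain ⟨a, -, ha0, -⟩ := h.exists_iso hA [] [] (by simp; omega)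
  have ha0 := ne_zero_of_notMem_spanL ha0
  obtain ⟨x, hx, hx0, -⟩ := h.exists_iso hA [a, θ a] [] (by simp; omega)
  obtain ⟨s, t, -, hst⟩ := (hle (altTEquiv_mem_SpB hA a 1)).1
  have h1 := hst x
  have e1 : B x a = 0 := alt_eq_zero_comm hA (hx a (by simp))
  have e2 : B (θ x) a = 0 := by rw [h.skew, alt_eq_zero_comm hA (hx _ (by simp)), neg_zero]
  rw [altTEquiv_of_orth hA _ e1, altTEquiv_of_orth hA _ e2] at h1
  obtain ⟨h2, h3⟩ := root_indep_one h.sq h.nonsq (ne_zero_of_notMem_spanL hx0) (a := s)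
    (b := t - 1) (by linear_combination (norm := module) -h1)
  obtain ⟨y, hy⟩ := exists_alt_eq_one h.nondeg.flip ha0
  rw [LinearMap.BilinForm.flip_apply] at hy
  have h4 := hst y
  rw [h2, sub_eq_zero.1 h3] at h4
  simp only [altTEquiv_apply', hy, map_add, map_smul] at h4
  simpa using (root_indep_one h.sq h.nonsq ha0 (a := B (θ y) a) (b := -1)
    (by linear_combination (norm := module) h4)).2

end SkewRoot

theorem LagPair.exists_mem_TSet_of_short {hA : B.IsAlt} {W U : Submodule F V}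
    (hB : B.Nondegenerate) (h2 : (2 : F) ≠ 0) (hL : LagPair B W U) (hR : HasShort hA M W U)
    (hm : 3 ≤ finrank F W) {xw xu rw ru : V} (hxw : xw ∈ W) (hxu : xu ∈ U) (hrw : rw ∈ W)
    (hru : ru ∈ U) (hx : B xw xu ≠ 0) (hr0 : rw + ru ≠ 0) (h1 : B xw ru = 0) (h1' : B xu rw = 0)
    (hr : altR hA (rw + ru) (xw + xu) ∈ M) : ∃ b, b ≠ 0 ∧ b ∈ TSet hA M := by
  have h6 := hL.finrank_eq hB
  have e0 : B (rw + ru) (xw + xu) = 0 := by
    simp [hL.left rw hrw xw hxw, hL.right ru hru xu hxu, alt_eq_zero_comm hA h1,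
      alt_eq_zero_comm hA h1']
  by_cases hu0 : ru = 0
  · subst hu0
    rw [altR_comm hA e0] at hr
    rw [add_zero] at hr0 hr e0
    exact ⟨rw, hr0, mem_TSet_of_altR h2 h1' (alt_eq_zero_comm hA e0)
      (by simpa [hA.self_eq_zero] using hx)
      (fun c => hR _ (U.smul_mem c hxu) _ hrw (by simp [h1'])) hr⟩
  by_cases hw0 : rw = 0
  · subst hw0
    rw [altR_comm hA e0] at hr
    rw [zero_add] at hr0 hr e0
    exact ⟨ru, hr0, mem_TSet_of_altR h2 h1 (alt_eq_zero_comm hA e0)
      (by simpa [hA.self_eq_zero] using alt_ne_zero_comm hA hx)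
      (fun c => hR.symm _ (W.smul_mem c hxw) _ hru (by simp [h1])) hr⟩
  obtain ⟨w, hw, hw1, hw2⟩ := exists_mem_notMem_notMem
    (U := W ⊓ B.orthogonal (Submodule.span F {xu})) (A := LinearMap.ker (B ru))
    (A' := Submodule.span F {rw}) (fun hle => by
      obtain ⟨y, hy, e⟩ := hL.symm.exists_dual_one hB hru hu0
      have := hle (x := y - (B xu y / B xu xw) • xw) ⟨W.sub_mem hy (W.smul_mem _ hxw), by
        rw [SetLike.mem_coe, alt_mem_orthogonal]
        intro z hz
        obtain ⟨c, rfl⟩ := Submodule.mem_span_singleton.1 hz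
        simp [div_mul_cancel₀ _ (alt_ne_zero_comm hA hx)]⟩
      simp [e, alt_eq_zero_comm hA h1] at this) (fun hle => by
      have h3 := Submodule.finrank_mono hle
      have h4 := finrank_inf_orthogonal_ge hB W (Submodule.span F {xu})
      have h5 := spl_finrank_span_singleton_le (F := F) xu
      have h5 := spl_finrank_span_singleton_le (F := F) rw
      omega)
  have e1 : B xu w = 0 := alt_mem_orthogonal.1 hw.2 _ (Submodule.mem_span_singleton_self _)
  rw [LinearMap.mem_ker] at hw1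
  obtain ⟨u, hu, hu1, hu2⟩ := hL.exists_dual hB (S := Submodule.span F {w, xw})
    (Submodule.span_le.2 (by
      rintro x (rfl | rfl)
      exacts [hw.1, hxw])) hrw (fun h => by
      obtain ⟨a, b, e⟩ := Submodule.mem_span_pair.1 h
      have hb : b = 0 := by simpa [← e, e1, alt_ne_zero_comm hA hx] using h1'
      rw [hb, zero_smul, add_zero] at e
      have ha : a ≠ 0 := by rintro rfl; exact hw0 (by simpa using e.symm)
      refine hw2 ((Submodule.smul_mem_iff _ ha).1 ?_)
      rw [e]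
      exact Submodule.mem_span_singleton_self _)
  have e2 := alt_eq_zero_comm hA (hu1 _ (mem_span_pair_left _ _))
  have e3 := hu1 _ (mem_span_pair_right _ _)
  refine ⟨xw + xu, fun h => hx (by
    rw [eq_neg_of_add_eq_zero_left h, map_neg, LinearMap.neg_apply, hA.self_eq_zero, neg_zero]),
    mem_TSet_of_altR_family h2 e0 hr fun c => ?_⟩
  set d := c / (2 * B ru w) with hd
  have e4 : B (d • u) w = 0 := by simp [e2]
  have hk := hR _ (U.smul_mem d hu) _ hw.1 e4
  have := M.mul_mem (M.mul_mem hk hr) (M.inv_mem hk)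
  rw [altR_conj hA (altR_mem_SpB hA _ _), altR_apply hA e4, altR_apply hA e4 (xw + xu)] at this
  simp only [map_add, map_smul, LinearMap.add_apply, hu2, e1, e3, hL.left xw hxw w hw.1,
    hL.right xu hxu u hu, hL.left rw hrw w hw.1, hL.right ru hru u hu, smul_zero, add_zero,
    zero_add, zero_smul] at this
  refine ⟨_, ?_, this, ?_⟩
  · simp [hL.left rw hrw xw hxw, hL.right ru hru xu hxu, alt_eq_zero_comm hA h1,
      alt_eq_zero_comm hA h1', alt_eq_zero_comm hA e1, alt_eq_zero_comm hA e3,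
      hL.left w hw.1 xw hxw, hL.right u hu xu hxu]
  · simp only [map_add, map_smul, LinearMap.add_apply, hu2, hL.left rw hrw w hw.1,
      hL.right ru hru u hu, hA.self_eq_zero, ← hA.neg_eq rw ru, smul_eq_mul, hd]
    field_simp
    ring

/-- The stabiliser of a pair of complementary totally isotropic subspaces is maximal in the
symplectic group in odd characteristic and dimension at least six. -/
theorem isMaximalIn_SpB_stabDec_lagPair' (hB : B.Nondegenerate) (hA : B.IsAlt) (h2 : (2 : F) ≠ 0)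
    {D : Fin 2 → Submodule F V} (hL : LagPair B (D 0) (D 1)) (hm : 3 ≤ finrank F (D 0)) :
    IsMaximalIn (SpB B) (stabDec D ⊓ SpB B) := by
  have h6 := hL.finrank_eq hB
  refine isMaximalIn_of_forall inf_le_right (fun hle => ?_) fun M hM hMK g hg hgH => ?_
  · obtain ⟨a, ha, ha0⟩ := (D 0).exists_mem_ne_zero_of_ne_bot (fun h => by
      rw [h, finrank_bot] at hm; omega)
    obtain ⟨b, hb, hab⟩ := hL.exists_dual_one hB ha ha0
    have h1 : ∀ i, a + b ∉ D i := by
      intro i h
      fin_cases i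
      · have := hL.left a ha _ h
        simp [hA.self_eq_zero, hab] at this
      · have := hL.right _ h b hb
        simp [hA.self_eq_zero, hab] at this
    obtain ⟨g, hg, hga⟩ := SpB_exists_apply_eq hB hA ha0 (x' := a + b)
      (fun h => h1 0 (h ▸ (D 0).zero_mem))
    obtain ⟨σ, hσ⟩ := (hle hg).1
    refine h1 (σ 0) ?_
    rw [← hσ, ← hga]
    exact ⟨a, ha, rfl⟩
  have hswap : ∀ s : V ≃ₗ[F] V, (D 0).map (s : V →ₗ[F] V) = D 1 →
      (D 1).map (s : V →ₗ[F] V) = D 0 → s ∈ stabDec D := fun s h1 h2 =>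
    ⟨Equiv.swap 0 1, fun i => by fin_cases i <;> simpa⟩
  have hfix : ∀ s : V ≃ₗ[F] V, (∀ v ∈ D 0, s v ∈ D 0) → (∀ v ∈ D 1, s v ∈ D 1) →
      s ∈ stabDec D := fun s h1 h2 => mem_stabDec_of_forall fun i => by
    fin_cases i
    exacts [h1, h2]
  have hR : HasShort hA M (D 0) (D 1) := fun u hu w hw huw => hM ⟨hfix _
    (hL.altR_mem_stab hA hu hw huw).1 (hL.altR_mem_stab hA hu hw huw).2, altR_mem_SpB hA _ _⟩
  obtain ⟨s, hs', -, hsW, hsU⟩ := hL.exists_extend hB hA hL.symm
    (LinearEquiv.ofFinrankEq _ _ h6.2.symm)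
  have hs : s ∈ M := hM ⟨hswap s hsW hsU, hs'⟩
  let θ : V →ₗ[F] V := LinearMap.ofIsCompl hL.compl (D 0).subtype (-(D 1).subtype)
  have θW : ∀ w ∈ D 0, θ w = w := fun w hw => LinearMap.ofIsCompl_apply_left hL.compl ⟨w, hw⟩
  have θU : ∀ u ∈ D 1, θ u = -u := fun u hu => LinearMap.ofIsCompl_apply_right hL.compl ⟨u, hu⟩
  have mW : ∀ v, θ v = v → v ∈ D 0 := fun v hv => by
    obtain ⟨w, hw, u, hu, rfl⟩ := hL.exists_add v
    rw [map_add, θW w hw, θU u hu] at hv
    have : u = 0 := (smul_eq_zero.1 (show (2 : F) • u = 0 by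
      linear_combination (norm := module) -hv)).resolve_left h2
    simpa [this]
  have mU : ∀ v, θ v = -v → v ∈ D 1 := fun v hv => by
    obtain ⟨w, hw, u, hu, rfl⟩ := hL.exists_add v
    rw [map_add, θW w hw, θU u hu] at hv
    have : w = 0 := (smul_eq_zero.1 (show (2 : F) • w = 0 by
      linear_combination (norm := module) hv)).resolve_left h2
    simpa [this]
  have h : SkewRt B θ 1 := ⟨hB, h2, fun x => by
    obtain ⟨w, hw, u, hu, rfl⟩ := hL.exists_add x
    simp [θW w hw, θU u hu], one_ne_zero, fun x y => by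
    obtain ⟨w, hw, u, hu, rfl⟩ := hL.exists_add x
    obtain ⟨w', hw', u', hu', rfl⟩ := hL.exists_add y
    simp [θW w hw, θU u hu, θW w' hw', θU u' hu', hL.left w hw w' hw', hL.right u hu u' hu',
      add_comm]⟩
  obtain ⟨x, r, hx, hr0, r1, r2, hr⟩ := h.exists_short hA (by omega)
    (fun k hk e => hM ⟨hfix k (fun v hv => mW _ (by rw [← e, θW v hv]))
      fun v hv => mU _ (by rw [← e, θU v hv, map_neg]), hk⟩) hMK hg
    (fun e => hgH ⟨hfix g (fun v hv => mW _ (by rw [e, θW v hv]))
      fun v hv => mU _ (by rw [e, θU v hv, map_neg]), hMK hg⟩)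
    (fun e => hgH ⟨hswap g
      (map_eq_of_forall_mem g (fun v hv => mU _ (by rw [e, θW v hv])) (by omega))
      (map_eq_of_forall_mem g (fun v hv => mW _ (by rw [e, θU v hv, map_neg, neg_neg]))
        (by omega)), hMK hg⟩)
  obtain ⟨xw, hxw, xu, hxu, rfl⟩ := hL.exists_add x
  obtain ⟨rw, hrw, ru, hru, rfl⟩ := hL.exists_add r
  simp only [map_add, map_neg, LinearMap.add_apply, LinearMap.neg_apply, θW xw hxw, θU xu hxu,
    hL.left xw hxw rw hrw, hL.right xu hxu ru hru, hA.self_eq_zero, ← hA.neg_eq xw xu] at hx r1 r2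
  obtain ⟨b, hb0, hb⟩ := hL.exists_mem_TSet_of_short hB h2 hR hm hxw hxu hrw hru
    (fun e => hx (by simp [e])) hr0
    ((mul_eq_zero.1 (show 2 * B xw ru = 0 by linear_combination r1 + r2)).resolve_left h2)
    ((mul_eq_zero.1 (show 2 * B xu rw = 0 by linear_combination r1 - r2)).resolve_left h2) hr
  obtain ⟨e, he, he0, heT⟩ : ∃ e ∈ D 0, e ≠ 0 ∧ e ∈ TSet hA M := by
    obtain ⟨w, hw, u, hu, rfl⟩ := hL.exists_add b
    by_cases hu0 : u = 0
    · rw [hu0, add_zero] at hb hb0
      exact ⟨w, hw, hb0, hb⟩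
    by_cases hw0 : w = 0
    · rw [hw0, zero_add] at hb
      exact ⟨s u, hsU.le ⟨u, hu, rfl⟩, s.map_ne_zero_iff.2 hu0, apply_mem_TSet hs hs' hb⟩
    exact exists_mem_TSet_left hB h2 hL hR hm hw hu hw0 hu0 hb
  have hW : ∀ w ∈ D 0, w ∈ TSet hA M := by
    intro w hw
    by_cases hw0 : w = 0
    · rw [hw0]
      exact zero_mem_TSet hA M
    simpa using TSet_moveW hB hL hR hm he hw (D 1).zero_mem he0 hw0 (by simp) (by simpa)
  refine SpB_le_of_TSet hB hA (TSet_all_of_left_right hB hL hW fun u hu => ?_)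
  obtain ⟨w, hw, rfl⟩ := hsW.ge hu
  exact apply_mem_TSet hs hs' (hW w hw)

end Cfsg.Lib.Class
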