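import Cfsg.Agent.Class.MonoFour

/-!
# Maximality of the stabilisers of direct decompositions in `SL₄`
-/

set_option autoImplicit false
set_option linter.unusedSectionVars false

namespace Cfsg.Lib.Class.Mono

open Module Submodule FE Equiv Geo

variable {F V : Type*} [Field F] [AddCommGroup V] [Module F V] [FiniteDimensional F V] {τ : Type}
  [Fintype τ] {D : τ → Submodule F V} {p : τ → V →ₗ[F] V} {X : Subgroup (V ≃ₗ[F] V)} {i j k : τ}
  {a b c u v : V} {φ ψ χ : Dual F V} {m : ℕ}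

namespace DCtx

theorem exists_block_two (h : DCtx D p m X) (hm : 2 ≤ m) (hτ : Fintype.card τ = 2) {l : F}
    (l0 : l ≠ 0) (l1 : l ^ 2 ≠ 1) (hij : i ≠ j) (h1 : FullTv X a φ) (ha : p i a ≠ 0) :
    ∃ b ∈ D i, b ≠ 0 ∧ TvIn X b φ := by
  classical
  have h1' : TvIn X a φ := by simpa using h1 1
  by_cases H : ∃ b ∈ D i, b ≠ 0 ∧ φ b = 0 ∧ p i a ∉ span F {b}
  · obtain ⟨b, hb, h3, h4, h5⟩ := H
    exact ⟨b, hb, h3, by simpa using h.left h1' hb h4 h5 1⟩
  push Not at H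
  obtain ⟨α, hα, hα1⟩ := exists_sup_one h.proj (h.proj.mem i a) ha
  have h4 : φ (p i a) = 0 := by
    obtain ⟨b, h4, h5⟩ := Tens.exists_one_zero (hm.trans_eq (h.dim i).symm) (φ ∘ₗ (D i).subtype)
    obtain ⟨s, hs⟩ := mem_span_singleton.1 (H b b.2 (by simpa using h4) h5)
    rw [← hs, map_smul, show φ b = 0 from h5, smul_zero]
  have h2 : a = p i a + p j a := by
    conv_lhs => rw [← h.proj.sum a]
    refine Fintype.sum_eq_add i j hij fun k hk ↦ ?_
    have := Finset.card_le_univ ({i, j, k} : Finset τ)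
    rw [Finset.card_eq_three.2 ⟨i, j, k, hij, hk.1.symm, hk.2.symm, rfl⟩] at this
    omega
  by_cases h3 : p j a = 0
  · rw [h3, add_zero] at h2
    exact ⟨p i a, h.proj.mem i a, ha, h2 ▸ h1'⟩
  have h5 : φ (p j a) = 0 := by
    have := h1.apply_eq
    rwa [h2, map_add, h4, zero_add] at this
  obtain ⟨β, hβ, hβ1⟩ := exists_sup_one h.proj (h.proj.mem j a) h3
  obtain ⟨g, g1, g2, g3⟩ := exists_hom h.proj (h.proj.mem i a) (hα.smul (l - 1)) (by simpa [hα1])
  obtain ⟨g', g4, g5, g6⟩ := exists_hom h.proj (h.proj.mem j a) (hβ.smul (l⁻¹ - 1))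
    (by simpa [hβ1])
  have h6 : g * g' ∈ X := h.le ⟨mem_stabDec_of_forall fun j v hv ↦ g3 j _ (g6 j v hv),
    Units.ext (by simp [g2, g5, hα1, hβ1, l0])⟩
  refine ⟨(l - l⁻¹) • p i a, (D i).smul_mem _ (h.proj.mem i a), smul_ne_zero (fun e ↦ l1 ?_) ha, ?_⟩
  · field_simp at e
    linear_combination e
  convert (h1'.conj h6 (ψ := φ) fun x ↦ by simp [g1, g4, h4, h5]).sub_left (h1 l⁻¹) using 1
  simp only [LinearEquiv.mul_apply, g1, g4, LinearMap.smul_apply, map_add, map_smul,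
    hα.eq_zero h.proj hij (h.proj.mem j a), ← hα a, ← hβ a, hα1, hβ1, smul_eq_mul]
  generalize p i a = x at h2
  generalize p j a = y at h2
  rw [h2]
  module

theorem tvIn_of_notMem_two (h : DCtx D p m X) (hm : 2 ≤ m) (hτ : Fintype.card τ = 2) {l : F}
    (l0 : l ≠ 0) (l1 : l ^ 2 ≠ 1) {g : V ≃ₗ[F] V} (hg : g ∈ X)
    (hn : g ∉ stabDec D) (ha : a ∈ D i) (hψ : Sup p j ψ) (h0 : ψ a = 0) : TvIn X a ψ := by
  classical
  by_cases hij : i = j
  · exact h.tv ha (hij ▸ hψ) h0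
  obtain ⟨i₀, v, hv, h1⟩ := h.proj.exists_notMem_of_notMem_stabDec (by omega) h.dim hn
  obtain ⟨φ, h2, h3, x, -, h4⟩ := exists_sup_zero h.proj (hm.trans_eq (h.dim i₀).symm) hv
  have h5 : FullTv X (g v) (φ ∘ₗ g.symm.toLinearMap) := fun s ↦ by
    simpa using (h.tv ((D i₀).smul_mem s hv) h2 (by simp [h3])).conj' hg
  obtain ⟨j', c, hc, h6⟩ : ∃ j', ∃ c ∈ D j', (φ ∘ₗ g.symm.toLinearMap) c ≠ 0 := by
    by_contra! hc
    simpa [h4] using LinearMap.congr_fun (h.proj.ext (g := 0) hc) (g x)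
  obtain ⟨i', hij', h7⟩ : ∃ i', i' ≠ j' ∧ p i' (g v) ≠ 0 := by
    by_contra! hc
    exact h1 j' (h.proj.mem_iff.2 hc)
  obtain ⟨b, hb, hb0, h8⟩ := h.exists_block_two hm hτ l0 l1 hij' h5 h7
  obtain ⟨χ, hχ, h10, y, -, h11⟩ := exists_sup_zero h.proj (hm.trans_eq (h.dim j').symm) hc
  have h12 := h.right h8 hχ (hχ.eq_zero h.proj hij'.symm hb) hc h10 h6
  let σ := swap (swap i' i j') j * swap i' i
  have s1 : σ i' = i := by
    simp only [σ, Perm.mul_apply, swap_apply_left]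
    refine swap_apply_of_ne_of_ne (fun e ↦ hij' ?_) hij
    exact (swap i' i).injective ((swap_apply_left i' i).trans e)
  have s2 : σ j' = j := by simp [σ]
  obtain ⟨k, hk, e⟩ := h.exists_perm (by omega) σ i
  obtain ⟨a', ha', rfl⟩ : a ∈ (D i').map (k : V →ₗ[F] V) := by rwa [e, s1]
  refine (h.all_of_full hij' hb hb0 hχ (fun e ↦ by simp [e] at h11) h12 ha'
    (ψ := ψ ∘ₗ k.toLinearMap) fun v ↦ ?_).conj hk fun _ ↦ rfl
  simp only [LinearMap.comp_apply, LinearEquiv.coe_coe]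
  rw [← h.proj.apply_map e, s2, hψ]

theorem SLV_le_four [Fintype F] (h : DCtx D p 1 X) (hq : 7 ≤ Fintype.card F)
    (hτ : Fintype.card τ = 4) {g : V ≃ₗ[F] V} (hg : g ∈ X) (hn : g ∉ stabDec D) :
    SLV F V ≤ X := by
  classical
  obtain ⟨e, h1, -⟩ := exists_coord_equiv h.proj h.dim
  have h2 : ∀ g : V ≃ₗ[F] V, IsMon (autCongr e g) → g ∈ stabDec D := fun g hg ↦ by
    by_contra hn
    obtain ⟨i, v, hv, h2⟩ := h.proj.exists_notMem_of_notMem_stabDec one_pos h.dim hn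
    obtain ⟨s, hs⟩ := (finrank_eq_one_iff_of_nonzero' (⟨_, h1 (i, 0)⟩ : D i)
      (by simpa using ratB_ne_zero _)).1 (h.dim i) ⟨v, hv⟩
    obtain ⟨σ, c, e'⟩ := hg.exists_eq_mono
    have h3 := mono_ee σ c (i, 0)
    rw [← e', autCongr_apply, ← LinearEquiv.eq_symm_apply, map_smul] at h3
    refine h2 (σ (i, 0)).1 ?_
    rw [← show s • ratB e (i, 0) = v from congrArg Subtype.val hs, map_smul]
    exact smul_mem _ _ (h3 ▸ smul_mem _ _ (h1 _))
  have h3 : MonSL (X.comap (autCongr e).symm.toMonoidHom) := fun σ c hc ↦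
    h.le ⟨h2 _ (by simpa using isMon_mono σ c), by
      rwa [← (autCongr e).apply_symm_apply (mono σ c), det_autCongr] at hc⟩
  have h4 := h3.SLV_le_four hq (by simpa using hτ) (g := autCongr e g) (by simpa using hg)
    fun hm ↦ hn (h2 g hm)
  intro x hx
  simpa using h4 (x := autCongr e x) (by rwa [MonoidHom.mem_ker, det_autCongr])

end DCtx

theorem isMaximalIn_SLV_stabDec' [Fintype F] (hp : IsDecProj D p) (hd : ∀ i, finrank F (D i) = m)
    (h : m = 1 ∧ 7 ≤ Fintype.card F ∧ Fintype.card τ = 4 ∨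
      m = 2 ∧ 4 ≤ Fintype.card F ∧ Fintype.card τ = 2) :
    IsMaximalIn (SLV F V) (stabDec D ⊓ SLV F V) := by
  classical
  have := Fintype.one_lt_card_iff_nontrivial.1 (show 1 < Fintype.card τ by omega)
  refine isMaximalIn_of_forall inf_le_right (fun hle ↦ ?_) fun M hM hMK g hg hgH ↦ ?_
  · obtain ⟨g, hg, hg'⟩ := hp.exists_SLV_notMem_QIsom (by omega) hd
    exact hg' (hp.stabDec_le_QIsom (hle hg).1)
  have hn : g ∉ stabDec D := fun h ↦ hgH ⟨h, hMK hg⟩
  rcases h with ⟨rfl, h1, h2⟩ | ⟨rfl, h1, h2⟩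
  · exact DCtx.SLV_le_four ⟨hp, hd, hM⟩ h1 h2 hg hn
  obtain ⟨l, l0, l1⟩ : ∃ l : F, l ≠ 0 ∧ l ^ 2 ≠ 1 := by
    by_contra! h
    have : (Finset.univ : Finset F) ⊆ {0, 1, -1} := fun l _ => by
      by_cases h0 : l = 0
      · simp [h0]
      · rcases sq_eq_one_iff.1 (h l h0) with h | h <;> simp [h]
    have h3 := (Finset.card_le_card this).trans Finset.card_le_three
    rw [Finset.card_univ] at h3
    omega
  obtain ⟨e, h3, h4⟩ := exists_coord_equiv hp hd
  exact SLV_le_of_elementary e M fun x y hxy c ↦ DCtx.tvIn_of_notMem_two ⟨hp, hd, hM⟩ le_rfl h2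
    l0 l1 hg hn (smul_mem _ c (h3 x)) (h4 y) (by simp [ratC_apply, apply_ratB, hxy.symm])

theorem isMaximalIn_SL_decomposition' [Fintype F] {ι : Type} [Fintype ι] [DecidableEq ι] {t : ℕ}
    {D : Fin t → Submodule F (ι → F)} (hD : IsMDecomposition m D)
    (h : m = 1 ∧ 7 ≤ Fintype.card F ∧ t = 4 ∨ m = 2 ∧ 4 ≤ Fintype.card F ∧ t = 2) :
    IsMaximalIn (specialLinear ι F) (decompositionStabilizer D ⊓ specialLinear ι F) := by
  obtain ⟨p, hp⟩ := exists_isDecProj hD.indep hD.iSup_eq_top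
  exact isMaximalIn_specialLinear_of (mem_decompositionStabilizer_iff_glLin D)
    (isMaximalIn_SLV_stabDec' hp hD.finrank_eq (by simpa using h))

end Cfsg.Lib.Class.Mono
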