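import Mathlib

/-!
Tools for overgroups of field extension subgroups: sums of polynomial functions of small degree
over a finite vector space, subrings of `End_F K` containing `K` for an extension of prime degree,
separation of Galois conjugates by linear functionals.
-/

set_option autoImplicit false

namespace Cfsg.Lib.Class.FAvg

open Module

variable {F K A : Type*} [Field F] [AddCommGroup A] [Module F A] [FiniteDimensional F A]

/-- Polynomial functions of degree at most `d` on a finite-dimensional vector space. -/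
def PolyFn (F : Type*) {A : Type*} [Field F] [AddCommGroup A] [Module F A] [FiniteDimensional F A]
    (d : ℕ) (f : A → F) : Prop :=
  ∃ P : MvPolynomial (Fin (finrank F A)) F, P.totalDegree ≤ d ∧
    ∀ x, f x = MvPolynomial.eval ((finBasis F A).equivFun x) P

namespace PolyFn

variable {d d' : ℕ} {f g : A → F}

theorem const (c : F) : PolyFn F d fun _ : A => c :=
  ⟨MvPolynomial.C c, by simp, fun x => by simp⟩

theorem mono (h : PolyFn F d f) (hd : d ≤ d') : PolyFn F d' f :=
  let ⟨P, h1, h2⟩ := h; ⟨P, h1.trans hd, h2⟩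

theorem add (hf : PolyFn F d f) (hg : PolyFn F d g) : PolyFn F d fun x => f x + g x :=
  let ⟨P, h1, h2⟩ := hf; let ⟨R, h3, h4⟩ := hg
  ⟨P + R, (MvPolynomial.totalDegree_add P R).trans (max_le h1 h3), fun x => by simp [h2, h4]⟩

theorem mul (hf : PolyFn F d f) (hg : PolyFn F d' g) : PolyFn F (d + d') fun x => f x * g x :=
  let ⟨P, h1, h2⟩ := hf; let ⟨R, h3, h4⟩ := hg
  ⟨P * R, (MvPolynomial.totalDegree_mul P R).trans (add_le_add h1 h3), fun x => by simp [h2, h4]⟩

theorem sum {ι : Type*} (s : Finset ι) {f : ι → A → F} (h : ∀ i ∈ s, PolyFn F d (f i)) :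
    PolyFn F d fun x => ∑ i ∈ s, f i x := by
  classical
  induction s using Finset.induction_on with
  | empty => simpa using const 0
  | insert i s hi ih =>
    simp only [Finset.sum_insert hi]
    exact (h i (by simp)).add (ih fun j hj => h j (by simp [hj]))

theorem coord (i : Fin (finrank F A)) : PolyFn F 1 fun x : A => (finBasis F A).repr x i :=
  ⟨MvPolynomial.X i, by simp, fun x => by simp⟩

theorem linear (φ : A →ₗ[F] F) : PolyFn F 1 φ := by
  have h : (φ : A → F) = fun x => ∑ i, (finBasis F A).repr x i * φ (finBasis F A i) := by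
    funext x
    conv_lhs => rw [← (finBasis F A).sum_repr x, map_sum]
    simp only [map_smul, smul_eq_mul]
  rw [h]
  exact sum _ fun i _ => (coord i).mul (const (d := 0) _)

theorem bilin (B : A →ₗ[F] A →ₗ[F] F) : PolyFn F 2 fun x => B x x := by
  have h : (fun x => B x x) = fun x => ∑ i, (finBasis F A).repr x i * B (finBasis F A i) x := by
    funext x
    conv_lhs => enter [1]; rw [← (finBasis F A).sum_repr x, map_sum]
    simp only [LinearMap.sum_apply, map_smul, LinearMap.smul_apply, smul_eq_mul]
  rw [h]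
  exact sum _ fun i _ => (coord i).mul (linear _)

theorem sum_eq_zero [Fintype A] [Finite F] (h : PolyFn F d f)
    (hd : d < (Nat.card F - 1) * finrank F A) : ∑ x, f x = 0 := by
  have := Fintype.ofFinite F
  obtain ⟨P, h1, h2⟩ := h
  rw [← P.sum_eval_eq_zero (by rw [Fintype.card_fin, ← Nat.card_eq_fintype_card]; omega)]
  exact Fintype.sum_equiv (finBasis F A).equivFun.toEquiv _ _ h2

end PolyFn

variable [Field K] [Algebra F K]

/-- A subring of `End_F K` containing the multiplications by elements of `K` is everything as soon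
as it contains another element, if `K/F` has prime degree. -/
theorem subring_end_eq_top [Finite K] (hr : (finrank F K).Prime) (Λ : Subring (End F K))
    (hK : ∀ k, LinearMap.mulLeft F k ∈ Λ) {ρ : End F K} (hρ : ρ ∈ Λ)
    (hρ' : ∀ k, ρ ≠ LinearMap.mulLeft F k) : Λ = ⊤ := by
  have := Fintype.ofFinite K
  have hs : IsSimpleModule Λ K := by
    rw [isSimpleModule_iff_toSpanSingleton_surjective]
    refine ⟨inferInstance, fun x hx y => ⟨⟨_, hK (y * x⁻¹)⟩, ?_⟩⟩
    change y * x⁻¹ * x = y
    rw [inv_mul_cancel_right₀ hx]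
  let E : Subalgebra F K :=
    { carrier := {c | ∀ x, ρ (c * x) = c * ρ x}
      mul_mem' := fun {a b} ha hb x => by rw [mul_assoc, ha, hb, mul_assoc]
      add_mem' := fun {a b} ha hb x => by rw [add_mul, map_add, ha, hb, add_mul]
      algebraMap_mem' := fun c x => by rw [← Algebra.smul_def, map_smul, Algebra.smul_def] }
  have hE : E = ⊥ :=
    ((Subalgebra.isSimpleOrder_of_finrank_prime F K hr).eq_bot_or_eq_top E).resolve_right
      fun h => hρ' (ρ 1) (LinearMap.ext fun x => by
        have := (h ▸ Algebra.mem_top : x ∈ E) 1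
        rwa [mul_one, mul_comm] at this)
  refine eq_top_iff.2 fun φ _ => ?_
  obtain ⟨r, hr⟩ := jacobson_density (R := Λ) (M := K)
    { toFun := φ
      map_add' := φ.map_add
      map_smul' := fun c x => by
        have h1 : ∀ x, c x = x * c 1 := fun x => by
          have := c.map_smul ⟨_, hK x⟩ 1
          change c (x * 1) = x * c 1 at this
          rwa [mul_one] at this
        obtain ⟨a, ha⟩ := Algebra.mem_bot.1 (hE ▸ show c 1 ∈ E from fun x => by
          have := c.map_smul ⟨_, hρ⟩ x
          change c (ρ x) = ρ (c x) at this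
          rw [mul_comm, ← h1, ← this, h1, mul_comm])
        change φ (c x) = c (φ x)
        rw [h1 x, h1 (φ x), ← ha, mul_comm, ← Algebra.smul_def, map_smul, mul_comm,
          Algebra.smul_def] } Finset.univ
  rw [show φ = r from LinearMap.ext fun x => hr x (Finset.mem_univ x)]
  exact r.2

/-- Separation of an element from its conjugates under the automorphisms fixing `J`. -/
theorem exists_sep [FiniteDimensional F K] {J : Submodule F K} (hJ : J ≠ ⊤) :
    ∃ y, y ∉ J ∧ ∃ β : K →ₗ[F] F, β y = 1 ∧
      ∀ σ : K →ₐ[F] K, (∀ j ∈ J, σ j = j) → σ y ≠ y → β (σ y) = 0 := by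
  classical
  suffices H : ∃ y, y ∉ J ∧ ∃ β : K →ₗ[F] F, β y = 1 ∧
      ∀ σ : K ≃ₐ[F] K, (∀ j ∈ J, σ j = j) → σ y ≠ y → β (σ y) = 0 by
    obtain ⟨y, hy, β, h1, h2⟩ := H
    exact ⟨y, hy, β, h1, fun σ => h2 (AlgEquiv.ofBijective σ (Algebra.IsAlgebraic.algHom_bijective σ))⟩
  obtain ⟨x, hx⟩ := exists_linearIndependent_algEquiv_apply F K
  by_cases h : x ∈ J
  · obtain ⟨y, hy⟩ : ∃ y, y ∉ J := by
      by_contra! hc
      exact hJ (eq_top_iff.2 fun y _ => hc y)
    obtain ⟨β, hβ⟩ := Projective.exists_dual_eq_one F (x := y) (by rintro rfl; exact hy J.zero_mem)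
    refine ⟨y, hy, β, hβ, fun σ h1 h2 => absurd ?_ h2⟩
    rw [show σ = 1 from hx.injective (h1 x h)]
    rfl
  · obtain ⟨g, hg⟩ := (Finsupp.linearCombination F fun σ : K ≃ₐ[F] K => σ x
      ).exists_leftInverse_of_injective (linearIndependent_iff_ker.1 hx)
    have hβ : ∀ σ : K ≃ₐ[F] K, g (σ x) = Finsupp.single σ 1 := fun σ => by
      simpa using LinearMap.congr_fun hg (Finsupp.single σ 1)
    refine ⟨x, h, Finsupp.lapply 1 ∘ₗ g, by simpa using congrArg (· 1) (hβ 1), fun σ _ h2 => ?_⟩
    rw [LinearMap.comp_apply, hβ, Finsupp.lapply_apply, Finsupp.single_eq_of_ne]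
    rintro rfl
    exact h2 rfl

end Cfsg.Lib.Class.FAvg
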