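import Cfsg.Agent.Class.FieldExt

/-!
# Forms over an extension field; subspaces of an orbit with a largest intersection
-/

set_option autoImplicit false
set_option linter.unusedSectionVars false

namespace Cfsg.Lib.Class.FE

open Module Submodule

section Max

variable {F V : Type*} [Field F] [AddCommGroup V] [Module F V]

/-- The image of a subspace under a linear automorphism. -/
abbrev im (g : V ≃ₗ[F] V) (U : Submodule F V) : Submodule F V := U.map (g : V →ₗ[F] V)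

theorem mem_im {g : V ≃ₗ[F] V} {U : Submodule F V} {x : V} : x ∈ im g U ↔ g⁻¹ x ∈ U :=
  Submodule.mem_map_equiv U

theorem apply_mem_im {g : V ≃ₗ[F] V} {U : Submodule F V} {x : V} : g x ∈ im g U ↔ x ∈ U := by
  rw [mem_im, LinearEquiv.coe_inv, LinearEquiv.symm_apply_apply]

theorem im_mul (g h : V ≃ₗ[F] V) (U : Submodule F V) : im (g * h) U = im g (im h U) := by
  ext x
  simp only [mem_im, mul_inv_rev, LinearEquiv.mul_apply]

theorem im_one (U : Submodule F V) : im 1 U = U := by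
  ext x
  rw [mem_im, inv_one]
  rfl

theorem im_inf (g : V ≃ₗ[F] V) (U W : Submodule F V) : im g (U ⊓ W) = im g U ⊓ im g W := by
  ext x
  simp only [mem_im, mem_inf]

theorem finrank_im (g : V ≃ₗ[F] V) (U : Submodule F V) : finrank F (im g U) = finrank F U :=
  LinearEquiv.finrank_map_eq g U

@[simp] theorem inv_apply_self (g : V ≃ₗ[F] V) (x : V) : g⁻¹ (g x) = x := g.symm_apply_apply x

@[simp] theorem apply_inv_self (g : V ≃ₗ[F] V) (x : V) : g (g⁻¹ x) = x := g.apply_symm_apply x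

variable [FiniteDimensional F V]

theorem im_eq_of_le {g : V ≃ₗ[F] V} {U : Submodule F V} (h : ∀ x ∈ U, g x ∈ U) : im g U = U :=
  Submodule.eq_of_le_of_finrank_eq (map_le_iff_le_comap.2 h) (finrank_im g U)

/-- No two distinct images of `U` under `X` meet in dimension larger than `j`. -/
def MeetLe (X : Subgroup (V ≃ₗ[F] V)) (U : Submodule F V) (j : ℕ) : Prop :=
  ∀ a ∈ X, ∀ b ∈ X, im a U ≠ im b U → finrank F (im a U ⊓ im b U : Submodule F V) ≤ j

theorem exists_meetLe {X : Subgroup (V ≃ₗ[F] V)} {U : Submodule F V}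
    (h : ∃ g ∈ X, im g U ≠ U ∧ U ⊓ im g U ≠ ⊥) :
    ∃ g ∈ X, im g U ≠ U ∧ U ⊓ im g U ≠ ⊥ ∧
      MeetLe X U (finrank F (U ⊓ im g U : Submodule F V)) := by
  classical
  obtain ⟨g₀, hg₀, h1, h2⟩ := h
  have hP : ∃ k, ∃ g ∈ X, im g U ≠ U ∧
      finrank F V - finrank F (U ⊓ im g U : Submodule F V) = k := ⟨_, g₀, hg₀, h1, rfl⟩
  obtain ⟨g, hg, h3, h4⟩ := Nat.find_spec hP
  have hmax : ∀ g' ∈ X, im g' U ≠ U → finrank F (U ⊓ im g' U : Submodule F V) ≤
      finrank F (U ⊓ im g U : Submodule F V) := fun g' hg' h5 ↦ by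
    have h6 := Nat.find_min' hP ⟨g', hg', h5, rfl⟩
    have h7 := Submodule.finrank_le (U ⊓ im g' U)
    omega
  refine ⟨g, hg, h3, fun h0 ↦ h2 ?_, fun a ha b hb hab ↦ ?_⟩
  · have := hmax g₀ hg₀ h1
    rw [h0, finrank_bot] at this
    exact Submodule.finrank_eq_zero.1 (by omega)
  · have e : im a U ⊓ im b U = im a (U ⊓ im (a⁻¹ * b) U) := by
      rw [im_inf, ← im_mul, mul_inv_cancel_left]
    rw [e, finrank_im]
    refine hmax _ (X.mul_mem (X.inv_mem ha) hb) fun h5 ↦ hab ?_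
    rw [← mul_inv_cancel_left a b, im_mul, h5]

/-- Two images of `U` sharing a subspace of the extremal dimension and a further vector are
equal. -/
theorem MeetLe.eq_of_mem {X : Subgroup (V ≃ₗ[F] V)} {U J : Submodule F V}
    (h : MeetLe X U (finrank F J)) {a b : V ≃ₗ[F] V} (ha : a ∈ X) (hb : b ∈ X) (h1 : J ≤ im a U)
    (h2 : J ≤ im b U) {u : V} (hu : u ∉ J) (h3 : u ∈ im a U) (h4 : u ∈ im b U) :
    im a U = im b U := by
  by_contra hne
  have h5 := h a ha b hb hne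
  have h6 : J < im a U ⊓ im b U :=
    lt_of_le_of_ne (le_inf h1 h2) fun e ↦ hu (e ▸ (⟨h3, h4⟩ : u ∈ im a U ⊓ im b U))
  exact absurd (Submodule.finrank_lt_finrank_of_lt h6) (by omega)

/-- An element fixing `J` pointwise and keeping one further vector of `g U` inside `g U`
stabilises `g U`. -/
theorem MeetLe.maps {X : Subgroup (V ≃ₗ[F] V)} {U J : Submodule F V}
    (h : MeetLe X U (finrank F J)) {g n : V ≃ₗ[F] V} (hg : g ∈ X) (hn : n ∈ X) (h1 : J ≤ im g U)
    (hJ : ∀ y ∈ J, n y = y) {u : V} (hu : u ∉ J) (h3 : u ∈ im g U) (h4 : n u ∈ im g U) {z : V}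
    (hz : z ∈ im g U) : n z ∈ im g U := by
  have e := h.eq_of_mem hg (X.mul_mem hn hg) h1 (u := n u)
    (fun y hy ↦ by rw [im_mul, ← hJ y hy, apply_mem_im]; exact h1 hy)
    (fun h5 ↦ hu (by rwa [n.injective (hJ _ h5)] at h5)) h4 (by rwa [im_mul, apply_mem_im])
  rwa [e, im_mul, apply_mem_im]

end Max

variable {F K V : Type*} [Field F] [Field K] [Algebra F K] [AddCommGroup V] [Module F V]
  [Module K V] [IsScalarTower F K V]

theorem eq_of_forall_tau {τ : Dual F K} (hτ : τ ≠ 0) {a b : K} (h : ∀ k, τ (k * a) = τ (k * b)) :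
    a = b := by
  by_contra hne
  apply hτ
  ext k
  have := h (k / (a - b))
  rw [← sub_eq_zero, ← map_sub, ← mul_sub, div_mul_cancel₀ _ (sub_ne_zero.2 hne)] at this
  simpa using this

theorem exists_tau_mul_eq {τ : Dual F K} (hτ : τ ≠ 0) {a : K} (ha : a ≠ 0) (c : F) :
    ∃ k, τ (k * a) = c := by
  obtain ⟨k, hk⟩ := DFunLike.ne_iff.1 hτ
  refine ⟨(c / τ k) • (k / a), ?_⟩
  rw [smul_mul_assoc, div_mul_cancel₀ _ ha, map_smul, smul_eq_mul, div_mul_cancel₀ _ hk]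

theorem exists_eq_tau_mul [FiniteDimensional F K] {τ : Dual F K} (hτ : τ ≠ 0) (φ : Dual F K) :
    ∃ a, ∀ k, φ k = τ (k * a) := by
  let L : K →ₗ[F] Dual F K := (LinearMap.mul F K).flip.compr₂ τ
  have hL : ∀ a k, L a k = τ (k * a) := fun _ _ ↦ rfl
  have hinj : Function.Injective L := fun a b h ↦
    eq_of_forall_tau hτ fun k ↦ by rw [← hL, h, hL]
  obtain ⟨a, ha⟩ := (LinearMap.injective_iff_surjective_of_finrank_eq_finrank (f := L)
    Subspace.dual_finrank_eq.symm).1 hinj φ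
  exact ⟨a, fun k ↦ by rw [← ha, hL]⟩

/-- A form for which `K` is self-adjoint is the trace of a `K`-bilinear form. -/
theorem exists_kform [FiniteDimensional F K] {τ : Dual F K} (hτ : τ ≠ 0)
    (B : LinearMap.BilinForm F V) (hB : ∀ (k : K) x y, B (k • x) y = B x (k • y)) :
    ∃ h : LinearMap.BilinForm K V, ∀ x y, B x y = τ (h x y) := by
  choose H hH using fun x y : V ↦ exists_eq_tau_mul hτ
    ((B.flip y) ∘ₗ (LinearMap.toSpanSingleton K V x).restrictScalars F)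
  replace hH : ∀ x y (k : K), B (k • x) y = τ (k * H x y) := hH
  refine ⟨LinearMap.mk₂ K H (fun x x' y ↦ eq_of_forall_tau hτ fun k ↦ ?_)
    (fun c x y ↦ eq_of_forall_tau hτ fun k ↦ ?_) (fun x y y' ↦ eq_of_forall_tau hτ fun k ↦ ?_)
    (fun c x y ↦ eq_of_forall_tau hτ fun k ↦ ?_), fun x y ↦ by simpa using hH x y 1⟩
  · rw [mul_add, map_add, ← hH, ← hH, ← hH, smul_add, map_add, LinearMap.add_apply]
  · rw [smul_eq_mul, ← mul_assoc, ← hH, ← hH, mul_smul]
  · rw [mul_add, map_add, ← hH, ← hH, ← hH, map_add]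
  · rw [smul_eq_mul, ← mul_assoc, ← hH, ← hH, ← hB, smul_smul, mul_comm]

/-- If every element of `X` maps `K`-lines to `K`-lines then `X` normalises `K`. -/
theorem exists_apply_smul_notMem [FiniteDimensional K V] (hm : 2 ≤ finrank K V)
    {g : V ≃ₗ[F] V} {k : K} (hk : ∀ k' : K, ∃ x, g (k • x) ≠ k' • g x) :
    ∃ w, g (k • w) ∉ span K {g w} := by
  by_contra! h
  obtain ⟨k', hk'⟩ := exists_eq_smul_of_forall_mem (K := K) hm
    ((g : V →ₗ[F] V).toAddMonoidHom.comp ((DistribSMul.toAddMonoidHom V k).comp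
      ((g⁻¹ : V ≃ₗ[F] V) : V →ₗ[F] V).toAddMonoidHom)) fun x ↦ by
    simpa using h (g⁻¹ x)
  obtain ⟨x, hx⟩ := hk k'
  exact hx (by simpa using hk' (g x))

/-- Elements `1 + A` of `X` with `im A ≤ T ≤ ker A`. -/
def sqZero (X : Subgroup (V ≃ₗ[F] V)) (T : Submodule F V) : AddSubgroup (Module.End F V) where
  carrier := {A | (∀ y, A y ∈ T) ∧ (∀ y ∈ T, A y = 0) ∧ ∃ x ∈ X, ∀ y, x y = y + A y}
  zero_mem' := ⟨fun _ ↦ T.zero_mem, fun _ _ ↦ rfl, 1, X.one_mem, by simp⟩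
  add_mem' := by
    rintro A B ⟨a1, a2, a, ha, ea⟩ ⟨b1, b2, b, hb, eb⟩
    refine ⟨fun x ↦ add_mem (a1 x) (b1 x), fun y hy ↦ by simp [a2 y hy, b2 y hy],
      a * b, X.mul_mem ha hb, fun x ↦ ?_⟩
    simp only [LinearEquiv.mul_apply, ea, eb, map_add, a2 _ (b1 x), LinearMap.add_apply]
    abel
  neg_mem' := by
    rintro A ⟨a1, a2, a, ha, ea⟩
    refine ⟨fun x ↦ neg_mem (a1 x), fun y hy ↦ by simp [a2 y hy],
      a⁻¹, X.inv_mem ha, fun x ↦ a.injective ?_⟩
    rw [apply_inv_self]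
    simp [ea, a2 _ (a1 x)]

theorem mem_sqZero {X : Subgroup (V ≃ₗ[F] V)} {T : Submodule F V} {A : Module.End F V} :
    A ∈ sqZero X T ↔ (∀ y, A y ∈ T) ∧ (∀ y ∈ T, A y = 0) ∧ ∃ x ∈ X, ∀ y, x y = y + A y := Iff.rfl

theorem exists_two_conditions [FiniteDimensional F K] (hr : 3 ≤ finrank F K) (φ ψ : Dual F K) :
    ∃ k : K, k ≠ 0 ∧ φ k = 0 ∧ ψ k = 0 := by
  have h := (φ.prod ψ).finrank_range_add_finrank_ker
  have h1 := Submodule.finrank_le (LinearMap.range (φ.prod ψ))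
  simp only [finrank_prod, finrank_self] at h1
  obtain ⟨k, hk, hk0⟩ := (Submodule.ne_bot_iff (LinearMap.ker (φ.prod ψ))).1 fun e ↦ by
    rw [e, finrank_bot] at h
    omega
  exact ⟨k, hk0, congrArg Prod.fst hk, congrArg Prod.snd hk⟩

end Cfsg.Lib.Class.FE
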