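import Cfsg.Agent.Class.FieldExtMat
import Cfsg.Agent.Class.FieldExtForm
import Cfsg.Agent.Class.Isom

/-!
# Subfields of the matrix algebra: passing to linear automorphisms
-/

set_option autoImplicit false
set_option linter.unusedSectionVars false

namespace Cfsg.Lib.Class

open Matrix Module Cfsg.Geo Cfsg.Lib.Class.Asch
open scoped MatrixGroups

variable {ι : Type} [Fintype ι] [DecidableEq ι] {F : Type*} [Field F]

theorem exists_not_semilinear {K : Subalgebra F (Matrix ι ι F)} {X : Subgroup (GL ι F)}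
    (hN : ¬ X ≤ subalgebraNormalizer K) : ∃ g ∈ X.map (glLin ι F).toMonoidHom, ∃ k : K,
      ∀ k' : K, ∃ x, g (k • x) ≠ k' • g x := by
  by_contra! h
  refine hN (Nrm.le_subalgebraNormalizer fun g hg k hk ↦ ?_)
  obtain ⟨k', hk'⟩ := h _ ⟨g, hg, rfl⟩ ⟨k, hk⟩
  have : (g : Matrix ι ι F) * k = k' * g := mat_ext_mulVec fun x ↦ by
    rw [← mulVec_mulVec, ← mulVec_mulVec]
    exact hk' x
  rw [cj_apply, this, mul_assoc, Units.mul_inv, mul_one]
  exact k'.2

theorem glLin_symm_mem_subalgebraNormalizer {K : Subalgebra F (Matrix ι ι F)}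
    {g : (ι → F) ≃ₗ[F] (ι → F)} (h : ∀ (k : K) x, g (k • x) = k • g x) :
    (glLin ι F).symm g ∈ subalgebraNormalizer K :=
  mem_subalgebraNormalizer_of_comm fun k hk ↦ mat_ext_mulVec fun x ↦ by
    rw [← mulVec_mulVec, ← mulVec_mulVec, glLin_symm_mulVec, glLin_symm_mulVec]
    exact h ⟨k, hk⟩ x

theorem exists_dual_ne_zero (F K : Type*) [Field F] [Field K] [Algebra F K] :
    ∃ τ : Dual F K, τ ≠ 0 := by
  obtain ⟨τ, hτ⟩ := FE.exists_dual_eq (K := F) (one_ne_zero (α := K)) 1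
  exact ⟨τ, by rintro rfl; simp at hτ⟩

end Cfsg.Lib.Class
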