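import Cfsg.Agent.Class.FieldExtForm
import Cfsg.Agent.Class.SpCore

/-!
# Overgroups of `Sp_d(K)` in `Sp_n(F)` for `K/F` of prime degree
-/

set_option autoImplicit false
set_option linter.unusedSectionVars false

namespace Cfsg.Lib.Class.FE

open Module Submodule

variable {F K V : Type*} [Field F] [Field K] [Algebra F K] [AddCommGroup V] [Module F V]
  [Module K V] [IsScalarTower F K V]

/-- `X` is a group of isometries of `B = τ ∘ h` containing the symplectic group of `h`. -/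
structure SpExt (h : LinearMap.BilinForm K V) (τ : Dual F K) (B : LinearMap.BilinForm F V)
    (X : Subgroup (V ≃ₗ[F] V)) : Prop where
  nondeg : h.Nondegenerate
  alt : h.IsAlt
  tau : τ ≠ 0
  form : ∀ x y, B x y = τ (h x y)
  le : X ≤ SpB B
  mem : ∀ g ∈ SpB h, g.restrictScalars F ∈ X

/-- The map `y ↦ B y a • a`. -/
def sq (B : LinearMap.BilinForm F V) (a : V) : Module.End F V := (B.flip a).smulRight a

@[simp] theorem sq_apply (B : LinearMap.BilinForm F V) (a y : V) : sq B a y = B y a • a := rfl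

/-- The map `y ↦ B y a • b + B y b • a`. -/
def rho (B : LinearMap.BilinForm F V) (a b : V) : Module.End F V :=
  (B.flip a).smulRight b + (B.flip b).smulRight a

@[simp] theorem rho_apply (B : LinearMap.BilinForm F V) (a b y : V) :
    rho B a b y = B y a • b + B y b • a := rfl

theorem sq_add (B : LinearMap.BilinForm F V) (a b : V) :
    sq B (a + b) = sq B a + sq B b + rho B a b := by
  ext y
  simp only [sq_apply, rho_apply, LinearMap.add_apply, map_add]
  module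

theorem rho_add (B : LinearMap.BilinForm F V) (a b c : V) :
    rho B (a + b) c = rho B a c + rho B b c := by
  ext y
  simp only [rho_apply, LinearMap.add_apply, map_add]
  module

variable {h : LinearMap.BilinForm K V} {τ : Dual F K} {B : LinearMap.BilinForm F V}
  {X : Subgroup (V ≃ₗ[F] V)}

namespace SpExt

variable (H : SpExt h τ B X)
include H

theorem altB : B.IsAlt := fun x ↦ by rw [H.form, H.alt.self_eq_zero, map_zero]

theorem sepB {x : V} (hx : ∀ y, B x y = 0) : x = 0 := H.nondeg.1 x fun y ↦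
  eq_of_forall_tau H.tau fun k ↦ by
    rw [← smul_eq_mul, ← map_smul, ← H.form, hx, mul_zero, map_zero]

theorem nondegB : B.Nondegenerate :=
  H.altB.isRefl.nondegenerate_iff_separatingLeft.2 fun _ hx ↦ H.sepB hx

theorem isom {g : V ≃ₗ[F] V} (hg : g ∈ X) (x y : V) : B (g x) (g y) = B x y := H.le hg x y

theorem isom_left {g : V ≃ₗ[F] V} (hg : g ∈ X) (x y : V) : B (g x) y = B x (g⁻¹ y) := by
  rw [← H.isom hg x (g⁻¹ y), apply_inv_self]

theorem h_symm {x y : V} (e : h x y = 0) : h y x = 0 := by rw [← H.alt.neg_eq, e, neg_zero]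

theorem B_symm {x y : V} (e : B x y = 0) : B y x = 0 := by rw [← H.altB.neg_eq, e, neg_zero]

theorem h_span {v x y : V} (hx : x ∈ span K {v}) (hy : y ∈ span K {v}) : h x y = 0 := by
  obtain ⟨a, rfl⟩ := mem_span_singleton.1 hx
  obtain ⟨b, rfl⟩ := mem_span_singleton.1 hy
  simp [H.alt.self_eq_zero]

variable [FiniteDimensional K V]

theorem move (W : Submodule K V) {x x' : V} (hx : x ∉ W) (hx' : x' ∉ W)
    (e : ∀ y ∈ W, h y x = h y x') :
    ∃ n ∈ X, n x = x' ∧ (∀ y ∈ W, n y = y) ∧ ∀ (k : K) y, n (k • y) = k • n y := by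
  obtain ⟨g, hg, h1, h2⟩ := SpB_exists_move H.nondeg H.alt W hx hx' e
  exact ⟨_, H.mem g hg, h1, h2, fun k y ↦ g.map_smul k y⟩

theorem trans {x x' : V} (hx : x ≠ 0) (hx' : x' ≠ 0) :
    ∃ n ∈ X, n x = x' ∧ ∀ (k : K) y, n (k • y) = k • n y := by
  obtain ⟨n, hn, h1, -, h2⟩ := H.move ⊥ (x := x) (x' := x') (by simpa) (by simpa) (by simp)
  exact ⟨n, hn, h1, h2⟩

theorem move_line {v x x' : V} (hx : x ∉ span K {v}) (hx' : x' ∉ span K {v})
    (e : h v x = h v x') :
    ∃ n ∈ X, n x = x' ∧ (∀ y ∈ span K {v}, n y = y) ∧ ∀ (k : K) y, n (k • y) = k • n y :=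
  H.move _ hx hx' fun y hy ↦ by
    obtain ⟨a, rfl⟩ := mem_span_singleton.1 hy
    simp [e]

theorem exists_fix_move (hm : 2 ≤ finrank K V)
    (hN : ∃ g ∈ X, ∃ k : K, ∀ k' : K, ∃ x, g (k • x) ≠ k' • g x) {v : V} (hv : v ≠ 0) :
    ∃ g ∈ X, im g ((span K {v}).restrictScalars F) ≠ (span K {v}).restrictScalars F ∧
      (span K {v}).restrictScalars F ⊓ im g ((span K {v}).restrictScalars F) ≠ ⊥ := by
  obtain ⟨g, hg, k, hk⟩ := hN
  obtain ⟨w, hw⟩ := exists_apply_smul_notMem hm hk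
  have hw0 : w ≠ 0 := by rintro rfl; simp at hw
  obtain ⟨n, hn, e, l⟩ := H.trans hv hw0
  obtain ⟨n', hn', e', l'⟩ := H.trans (g.map_ne_zero_iff.2 hw0) hv
  have hv' : v ∈ (span K {v}).restrictScalars F := mem_span_singleton_self v
  refine ⟨n' * g * n, X.mul_mem (X.mul_mem hn' hg) hn, fun h1 ↦ hw ?_, fun h1 ↦ hv ?_⟩
  · have h2 : (n' * g * n) (k • v) ∈ (span K {v}).restrictScalars F := by
      rw [← h1, apply_mem_im]
      exact smul_mem (span K {v}) k hv'
    obtain ⟨a, ha⟩ := mem_span_singleton.1 h2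
    rw [LinearEquiv.mul_apply, LinearEquiv.mul_apply, l, e, ← e', ← l'] at ha
    exact mem_span_singleton.2 ⟨a, n'.injective ha⟩
  · rw [← mem_bot F, ← h1]
    refine ⟨hv', ?_⟩
    have : (n' * g * n) v = v := by rw [LinearEquiv.mul_apply, LinearEquiv.mul_apply, e, e']
    have h2 := (apply_mem_im (g := n' * g * n)).2 hv'
    rwa [this] at h2

/-- Two `X`-conjugates of a `K`-line with a largest intersection meet in a hyperplane. -/
theorem exists_hyperplane (hr : (finrank F K).Prime) (hm : 2 ≤ finrank K V)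
    (hN : ∃ g ∈ X, ∃ k : K, ∀ k' : K, ∃ x, g (k • x) ≠ k' • g x) {v : V} (hv : v ≠ 0) :
    ∃ g ∈ X, ∃ J : Submodule F V, J ≠ ⊥ ∧ (∀ y ∈ J, y ∈ span K {v}) ∧ ∃ u, u ∉ span K {v} ∧
      im g ((span K {v}).restrictScalars F) = J ⊔ span F {u} := by
  have : FiniteDimensional F K := Module.finite_of_finrank_pos hr.pos
  have : FiniteDimensional F V := Module.Finite.trans K V
  set U := (span K {v}).restrictScalars F with hU
  obtain ⟨g, hg, h1, h2, h3⟩ := exists_meetLe (H.exists_fix_move hm hN hv)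
  have hnle : ¬ U ≤ im g U := fun e ↦
    h1 (Submodule.eq_of_le_of_finrank_eq e (finrank_im g U).symm).symm
  obtain ⟨u, hu, huU⟩ : ∃ u ∈ im g U, u ∉ U := SetLike.not_le_iff_exists.1 fun e ↦
    h1 (Submodule.eq_of_le_of_finrank_eq e (finrank_im g U))
  have huJ : u ∉ U ⊓ im g U := fun e ↦ huU e.1
  have hvU : ∀ c : K, c • v ∈ span K {v} := fun c ↦ smul_mem _ c (mem_span_singleton_self v)
  refine ⟨g, hg, U ⊓ im g U, h2, fun y hy ↦ hy.1, u, huU, le_antisymm (fun z hz ↦ ?_)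
    (sup_le inf_le_right ((span_singleton_le_iff_mem _ _).2 hu))⟩
  by_cases hz' : z ∈ span K {v, u}
  · obtain ⟨a, b, rfl⟩ := mem_span_pair.1 hz'
    by_cases hb : b ∈ Set.range (algebraMap F K)
    · obtain ⟨b, rfl⟩ := hb
      rw [algebraMap_smul] at hz ⊢
      exact add_mem (mem_sup_left ⟨hvU a, by
          have := sub_mem hz (smul_mem _ b hu)
          rwa [add_sub_cancel_right] at this⟩)
        (mem_sup_right (smul_mem _ _ (mem_span_singleton_self u)))
    exfalso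
    obtain ⟨x, hx, hx'⟩ := SetLike.not_le_iff_exists.1 hnle
    obtain ⟨j, hj, hbj⟩ := exists_smul_notMem hr (W := U ⊓ im g U) (v := v) (fun y hy ↦ hy.1) h2
      ⟨x, hx, fun e ↦ hx' e.2⟩ hb
    obtain ⟨n, hn, e1, e2, e3⟩ := H.move_line (x := u) (x' := u + j) huU
      (fun e ↦ huU (by have := sub_mem e hj.1; rwa [add_sub_cancel_right] at this))
      (by rw [map_add, H.h_span (mem_span_singleton_self v) hj.1, add_zero])
    have h4 := h3.maps hg hn inf_le_right (fun y hy ↦ e2 y hy.1) huJ hu (e1 ▸ add_mem hu hj.2) hz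
    rw [map_add, e2 _ (hvU a), e3, e1, smul_add, ← add_assoc] at h4
    exact hbj ⟨smul_mem (span K {v}) b hj.1, by
      have := sub_mem h4 hz
      rwa [add_sub_cancel_left] at this⟩
  exfalso
  have hv2 : v ∈ span K {v, u} := subset_span (by simp)
  have hu2 : u ∈ span K {v, u} := subset_span (by simp)
  have key : ∀ w, z + w ∉ span K {v, u} → h v w = 0 → h u w = 0 → w ∈ im g U := by
    intro w h4 h5 h6
    obtain ⟨n, hn, e1, e2, -⟩ := H.move _ hz' h4 fun y hy ↦ by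
      obtain ⟨a, b, rfl⟩ := mem_span_pair.1 hy
      simp [h5, h6]
    have h7 := h3.maps hg hn inf_le_right
      (fun y hy ↦ e2 y ((span_singleton_le_iff_mem _ _).2 hv2 hy.1)) huJ hu
      (by rwa [e2 u hu2]) hz
    simpa only [e1, add_sub_cancel_left] using sub_mem h7 hz
  by_cases huv : h u v = 0
  · refine hnle fun y hy ↦ ?_
    obtain ⟨c, rfl⟩ := mem_span_singleton.1 hy
    exact key _ (fun e ↦ hz' (by simpa using sub_mem e (smul_mem _ c hv2)))
      (by simp [H.alt.self_eq_zero]) (by simp [huv])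
  · obtain ⟨a, ha⟩ : ∃ a : V, a = (h u z / h u v) • v - (h v z / h u v) • u := ⟨_, rfl⟩
    have ha2 : a ∈ span K {v, u} := ha ▸ sub_mem (smul_mem _ _ hv2) (smul_mem _ _ hu2)
    have hvu : h v u = -h u v := (H.alt.neg_eq u v).symm
    have hb1 : h v (z - a) = 0 := by
      simp only [ha, map_sub, map_smul, H.alt.self_eq_zero, hvu, smul_eq_mul]
      field_simp
      ring
    have hb2 : h u (z - a) = 0 := by
      simp only [ha, map_sub, map_smul, H.alt.self_eq_zero, smul_eq_mul]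
      field_simp
      ring
    have hb3 : z - a ∉ span K {v, u} := fun e ↦ hz' (by simpa using add_mem e ha2)
    clear ha
    obtain ⟨b, rfl⟩ : ∃ b, z = a + b := ⟨z - a, by abel⟩
    rw [add_sub_cancel_left] at hb1 hb2 hb3
    have key' : ∀ c : K, 1 + c ≠ 0 → c • b ∈ im g U := fun c hc ↦ key _ (fun e ↦ hb3 (by
      have := smul_mem _ (1 + c)⁻¹ (sub_mem e ha2)
      rwa [show a + b + c • b - a = (1 + c) • b by module, smul_smul, inv_mul_cancel₀ hc,
        one_smul] at this)) (by simp [hb1]) (by simp [hb2])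
    have h4 : (span K {b}).restrictScalars F ≤ im g U := fun y hy ↦ by
      obtain ⟨c, rfl⟩ := mem_span_singleton.1 hy
      by_cases hc : 1 + c = 0
      · obtain ⟨k, hk⟩ := exists_notMem_range (F := F) (K := K) hr.two_le
        have := sub_mem (key' (k - 1) fun e ↦ hk ⟨0, by rw [map_zero]; linear_combination -e⟩)
          (key' k fun e ↦ hk ⟨-1, by rw [map_neg, map_one]; linear_combination -e⟩)
        rwa [← sub_smul, show k - 1 - k = c by linear_combination -hc] at this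
      · exact key' c hc
    have hb0 : b ≠ 0 := fun e ↦ hb3 (e ▸ zero_mem _)
    have h5 := Submodule.eq_of_le_of_finrank_eq h4 (by
      rw [finrank_im, finrank_span_singleton_restrict hb0, finrank_span_singleton_restrict hv])
    obtain ⟨j, hj, hj0⟩ := (Submodule.ne_bot_iff _).1 h2
    have h6 : j ∈ span K {b} := h5.ge hj.2
    exact hb3 ((span_singleton_le_iff_mem _ _).2 hv2 ((span_singleton_le_iff_mem j (span K {v})).2 hj.1
      ((span_singleton_eq_of_mem h6 hj0).ge (mem_span_singleton_self b))))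

end SpExt

/-- The vectors `a` orthogonal to `J` such that `X` contains `1 + S l + l • sq a` for all `l`. -/
def DSet (B : LinearMap.BilinForm F V) (X : Subgroup (V ≃ₗ[F] V)) (J : Submodule F V)
    (S : F → Module.End F V) : Set V :=
  {a | (∀ j ∈ J, B j a = 0) ∧ ∀ l : F, ∃ x ∈ X, ∀ y, x y = y + (S l + l • sq B a) y}

/-- `S l` has image in `J` and kills the orthogonal complement of `J`. -/
def SOn (B : LinearMap.BilinForm F V) (J : Submodule F V) (S : F → Module.End F V) : Prop :=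
  ∀ l, (∀ y, S l y ∈ J) ∧ ∀ y, (∀ j ∈ J, B j y = 0) → S l y = 0

namespace SpExt

variable (H : SpExt h τ B X) {J : Submodule F V} {S : F → Module.End F V}
include H

theorem dSet_map (hS : SOn B J S) {a : V} (ha : a ∈ DSet B X J S) {n : V ≃ₗ[F] V} (hn : n ∈ X)
    (hJ : ∀ j ∈ J, n j = j) : n a ∈ DSet B X J S := by
  refine ⟨fun j hj ↦ by rw [← hJ j hj, H.isom hn, ha.1 j hj], fun l ↦ ?_⟩
  obtain ⟨x, hx, e⟩ := ha.2 l
  refine ⟨n * x * n⁻¹, X.mul_mem (X.mul_mem hn hx) (X.inv_mem hn), fun y ↦ ?_⟩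
  obtain ⟨y, rfl⟩ := n.surjective y
  have : S l (n y) = S l y := by
    rw [← sub_eq_zero, ← map_sub]
    exact (hS l).2 _ fun j hj ↦ by rw [map_sub, ← H.isom hn j y, hJ j hj, sub_self]
  simp [e, this, hJ _ ((hS l).1 y), H.isom hn]

theorem mem_sqZero_of_dSet (hS : SOn B J S) {T : Submodule F V} (hT : ∀ x ∈ T, ∀ y ∈ T, B x y = 0)
    (hJ : J ≤ T) {a : V} (ha : a ∈ DSet B X J S) (haT : a ∈ T) (l : F) :
    S l + l • sq B a ∈ sqZero X T :=
  ⟨fun y ↦ add_mem (hJ ((hS l).1 y)) (smul_mem _ _ (smul_mem _ _ haT)), fun y hy ↦ by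
    simp [(hS l).2 y fun j hj ↦ hT j (hJ hj) y hy, hT y hy a haT], ha.2 l⟩

theorem rho_of_dSet (hS : SOn B J S) {T : Submodule F V} (hT : ∀ x ∈ T, ∀ y ∈ T, B x y = 0)
    (hJ : J ≤ T) {a b c : V} (haT : a ∈ T) (hbT : b ∈ T) (hcT : c ∈ T) (h1 : a ∈ DSet B X J S)
    (h2 : a + b ∈ DSet B X J S) (h3 : a + c ∈ DSet B X J S) (h4 : a + b + c ∈ DSet B X J S)
    (l : F) : ∃ x ∈ X, ∀ y, x y = y + (l • rho B b c) y := by
  have := add_mem (sub_mem (sub_mem
    (H.mem_sqZero_of_dSet hS hT hJ h4 (add_mem (add_mem haT hbT) hcT) l)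
    (H.mem_sqZero_of_dSet hS hT hJ h2 (add_mem haT hbT) l))
    (H.mem_sqZero_of_dSet hS hT hJ h3 (add_mem haT hcT) l))
    (H.mem_sqZero_of_dSet hS hT hJ h1 haT l)
  rw [show S l + l • sq B (a + b + c) - (S l + l • sq B (a + b)) - (S l + l • sq B (a + c)) +
    (S l + l • sq B a) = l • rho B b c by simp only [sq_add, rho_add]; module] at this
  exact this.2.2

theorem rho_conj {b c : V} {l : F} (h1 : ∃ x ∈ X, ∀ y, x y = y + (l • rho B b c) y)
    {n : V ≃ₗ[F] V} (hn : n ∈ X) : ∃ x ∈ X, ∀ y, x y = y + (l • rho B (n b) (n c)) y := by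
  obtain ⟨x, hx, e⟩ := h1
  refine ⟨n * x * n⁻¹, X.mul_mem (X.mul_mem hn hx) (X.inv_mem hn), fun y ↦ ?_⟩
  obtain ⟨y, rfl⟩ := n.surjective y
  simp [e, H.isom hn]

theorem tv_of_rho (hS : SOn B J S) {T : Submodule F V} (hT : ∀ x ∈ T, ∀ y ∈ T, B x y = 0)
    (hJ : J ≤ T) {a j : V} (haT : a ∈ T) (hjT : j ∈ T) (h1 : a ∈ DSet B X J S)
    (h2 : a + j ∈ DSet B X J S) (l : F) (h3 : ∃ x ∈ X, ∀ y, x y = y + (l • rho B a j) y) :
    altTEquiv H.altB j l ∈ X := by
  have h4 : l • rho B a j ∈ sqZero X T :=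
    ⟨fun y ↦ smul_mem _ _ (add_mem (smul_mem _ _ hjT) (smul_mem _ _ haT)),
      fun y hy ↦ by simp [hT y hy a haT, hT y hy j hjT], h3⟩
  have := sub_mem (sub_mem (H.mem_sqZero_of_dSet hS hT hJ h2 (add_mem haT hjT) l)
    (H.mem_sqZero_of_dSet hS hT hJ h1 haT l)) h4
  rw [show S l + l • sq B (a + j) - (S l + l • sq B a) - l • rho B a j = l • sq B j by
    simp only [sq_add]; module] at this
  obtain ⟨x, hx, e⟩ := this.2.2
  rwa [show altTEquiv H.altB j l = x from LinearEquiv.ext fun y ↦ by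
    simp [e, altTEquiv_apply', smul_smul]]

variable [FiniteDimensional K V] [FiniteDimensional F K]

theorem exists_dSet {g : V ≃ₗ[F] V} (hg : g ∈ X) {v u : V} (hu : u ∉ J)
    (e : im g ((span K {v}).restrictScalars F) = J ⊔ span F {u}) :
    ∃ S, SOn B J S ∧ u ∈ DSet B X J S := by
  have : FiniteDimensional F V := Module.Finite.trans K V
  have hU : ∀ y ∈ J ⊔ span F {u}, g⁻¹ y ∈ span K {v} := fun y hy ↦ mem_im.1 (e.ge hy)
  have huU : u ∈ J ⊔ span F {u} := mem_sup_right (mem_span_singleton_self u)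
  obtain ⟨φ, h1, h2⟩ := exists_dual_of_notMem hu 1
  obtain ⟨y₀, hy₀⟩ := (B.toDual H.nondegB).surjective φ
  have h3 : ∀ x, B y₀ x = φ x := fun x ↦ by rw [← hy₀]; rfl
  obtain ⟨k, hk⟩ := mem_span_singleton.1 (hU u huU)
  have h4 : h (g⁻¹ y₀) v ≠ 0 := fun h0 ↦ by
    have := H.isom (X.inv_mem hg) y₀ u
    rw [← hk, H.form, map_smul, h0, smul_zero, map_zero, h3, h1] at this
    exact zero_ne_one this
  let A : K → Module.End F V := fun c ↦ (g : V →ₗ[F] V) ∘ₗ
    ((c • h.flip v).smulRight v).restrictScalars F ∘ₗ (g⁻¹ : V ≃ₗ[F] V)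
  have hA : ∀ c y, A c y = g ((c * h (g⁻¹ y) v) • v) := fun _ _ ↦ rfl
  let S : F → Module.End F V := fun l ↦ A (l • k / h (g⁻¹ y₀) v) - l • sq B u
  have hsymm : ∀ l y y', B (S l y) y' = B (S l y') y := fun l y y' ↦ by
    simp only [S, LinearMap.sub_apply, map_sub, hA, H.isom_left hg, LinearMap.smul_apply, sq_apply,
      map_smul, smul_eq_mul]
    rw [H.form, H.form (_ • v), ← H.altB.neg_eq y u, ← H.altB.neg_eq y' u]
    simp only [map_smul, LinearMap.smul_apply, smul_eq_mul]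
    rw [← H.alt.neg_eq (g⁻¹ y) v, ← H.alt.neg_eq (g⁻¹ y') v]
    congr 2 <;> ring
  have hy : ∀ l, S l y₀ = 0 := fun l ↦ by
    simp only [S, LinearMap.sub_apply, hA, LinearMap.smul_apply, sq_apply]
    rw [div_mul_cancel₀ _ h4, smul_assoc, hk, map_smul, apply_inv_self, h3, h1, one_smul, sub_self]
  have hJ : ∀ l y, S l y ∈ J := fun l y ↦ by
    have h5 : S l y ∈ J ⊔ span F {u} := by
      refine sub_mem ?_ (smul_mem _ _ (smul_mem _ _ huU))
      rw [← e, hA, apply_mem_im]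
      exact smul_mem (span K {v}) _ (mem_span_singleton_self v)
    obtain ⟨j, hj, _, hb, e'⟩ := mem_sup.1 h5
    obtain ⟨μ, rfl⟩ := mem_span_singleton.1 hb
    have h6 := H.B_symm (show B (S l y) y₀ = 0 by rw [hsymm, hy]; simp)
    rw [← e', h3, map_add, map_smul, h1, h2 j hj, zero_add, smul_eq_mul, mul_one] at h6
    rwa [← e', h6, zero_smul, add_zero]
  refine ⟨S, fun l ↦ ⟨hJ l, fun y hy ↦ H.sepB fun y' ↦ by rw [hsymm, hy _ (hJ l y')]⟩,
    fun j hj ↦ ?_, fun l ↦ ⟨g * (altTEquiv H.alt v (l • k / h (g⁻¹ y₀) v)).restrictScalars F * g⁻¹,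
      X.mul_mem (X.mul_mem hg (H.mem _ (altTEquiv_mem_SpB _ _ _))) (X.inv_mem hg), fun y ↦ ?_⟩⟩
  · rw [← H.isom (X.inv_mem hg), H.form, H.h_span (hU j (mem_sup_left hj)) (hU u huU), map_zero]
  · simp only [S, sub_add_cancel, hA, LinearEquiv.mul_apply, LinearEquiv.restrictScalars_apply,
      altTEquiv_apply', map_add, apply_inv_self]

theorem exists_tv_of_perp (hr : 2 ≤ finrank F K) (hS : SOn B J S) {v u : V} (hv : v ≠ 0)
    (hJ : ∀ y ∈ J, y ∈ span K {v}) (hu : u ∈ DSet B X J S) (huv : u ∉ span K {v})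
    (h0 : h v u = 0) : ∃ j, j ≠ 0 ∧ ∀ l, altTEquiv H.altB j l ∈ X := by
  have hD : ∀ (k : K), k ≠ 0 → ∀ y ∈ span K {v}, k • u + y ∈ DSet B X J S := fun k hk y hy ↦ by
    obtain ⟨n, hn, e1, e2, -⟩ := H.move_line (x' := k • u + y) huv (fun e ↦ huv (by
      simpa [hk] using smul_mem _ k⁻¹ (sub_mem e hy)))
      (by simp [h0, H.h_span (mem_span_singleton_self v) hy])
    exact e1 ▸ H.dSet_map hS hu hn fun j hj ↦ e2 j (hJ j hj)
  let T : Submodule F V := (span K {v, u}).restrictScalars F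
  have hT : ∀ x ∈ T, ∀ y ∈ T, B x y = 0 := fun x hx y hy ↦ by
    obtain ⟨a, b, rfl⟩ := mem_span_pair.1 hx
    obtain ⟨c, d, rfl⟩ := mem_span_pair.1 hy
    simp [H.form, h0, H.h_symm h0, H.alt.self_eq_zero]
  have hvT : ∀ y ∈ span K {v}, y ∈ T := fun y hy ↦
    (span_singleton_le_iff_mem _ (span K {v, u})).2 (subset_span (by simp)) hy
  have huT : ∀ k : K, k • u ∈ T := fun k ↦ smul_mem (span K {v, u}) k (subset_span (by simp))
  have hJT : J ≤ T := fun y hy ↦ hvT y (hJ y hy)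
  have hu0 : u ≠ 0 := fun e ↦ huv (e ▸ zero_mem _)
  obtain ⟨k, hk⟩ := exists_notMem_range (F := F) (K := K) hr
  have hk0 : k ≠ 0 := fun e ↦ hk ⟨0, by rw [map_zero, e]⟩
  have hk1 : 1 + k ≠ 0 := fun e ↦ hk ⟨-1, by rw [map_neg, map_one]; linear_combination -e⟩
  have hv1 := mem_span_singleton_self (R := K) v
  have hv2 := smul_mem _ k hv1
  refine ⟨k • u, smul_ne_zero hk0 hu0, fun l ↦ H.tv_of_rho hS hT hJT (a := u) (by simpa using huT 1)
    (huT k) hu (by simpa [add_smul] using hD _ hk1 0 (zero_mem _)) l ?_⟩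
  obtain ⟨n, hn, e1, e2⟩ := H.trans hv hu0
  have := H.rho_conj (H.rho_of_dSet hS hT hJT (a := u) (by simpa using huT 1) (hvT _ hv1)
    (hvT _ hv2) hu (by simpa using hD 1 one_ne_zero _ hv1) (by simpa using hD 1 one_ne_zero _ hv2)
    (by simpa [add_assoc] using hD 1 one_ne_zero _ (add_mem hv1 hv2)) l) hn
  rwa [e2, e1] at this

theorem mem_dSet_of_perp (hS : SOn B J S) {v u w : V} (hJ : ∀ y ∈ J, y ∈ span K {v})
    (hu : u ∈ DSet B X J S) (h0 : h v u ≠ 0) (h1 : h v w = 0) (h2 : B w u ≠ 0) :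
    w ∈ DSet B X J S := by
  have hn : ∀ x, h v x ≠ 0 → x ∉ span K {v} := fun x hx e ↦
    hx (H.h_span (mem_span_singleton_self v) e)
  obtain ⟨n, hn, e1, e2, -⟩ := H.move_line (x' := u + w) (hn u h0) (hn _ (by simpa [h1]))
    (by simp [h1])
  have h3 : u + w ∈ DSet B X J S := e1 ▸ H.dSet_map hS hu hn fun j hj ↦ e2 j (hJ j hj)
  obtain ⟨x, hx, e⟩ := hu.2 (-(B w u)⁻¹)
  have h4 := H.dSet_map hS h3 hx fun j hj ↦ by
    have : S (-(B w u)⁻¹) j = 0 := (hS _).2 j fun j' hj' ↦ by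
      rw [H.form, H.h_span (hJ j' hj') (hJ j hj), map_zero]
    simp [e, this, hu.1 j hj]
  rw [e, LinearMap.add_apply, (hS _).2 _ h3.1] at h4
  simpa [H.altB.self_eq_zero, smul_smul, h2] using h4

theorem exists_tv (hr : 2 ≤ finrank F K) (hd : 3 ≤ finrank F K ∨ 3 ≤ finrank K V) (hS : SOn B J S)
    {v u : V} (hv : v ≠ 0) (hJ0 : J ≠ ⊥) (hJ : ∀ y ∈ J, y ∈ span K {v}) (hu : u ∈ DSet B X J S)
    (huv : u ∉ span K {v}) : ∃ j, j ≠ 0 ∧ ∀ l, altTEquiv H.altB j l ∈ X := by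
  by_cases h0 : h v u = 0
  · exact H.exists_tv_of_perp hr hS hv hJ hu huv h0
  obtain ⟨c, hc⟩ := exists_tau_mul_eq H.tau h0 1
  have ha : B (c • v) u = 1 := by rw [H.form, map_smul, LinearMap.smul_apply, smul_eq_mul, hc]
  have haU : c • v ∈ span K {v} := smul_mem _ c (mem_span_singleton_self v)
  rcases hd with hd | hd
  · let T : Submodule F V := (span K {v}).restrictScalars F
    have hT : ∀ x ∈ T, ∀ y ∈ T, B x y = 0 := fun x hx y hy ↦ by
      rw [H.form, H.h_span hx hy, map_zero]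
    have hD : ∀ y ∈ T, B y u = 0 → c • v + y ∈ DSet B X J S := fun y hy e ↦
      H.mem_dSet_of_perp hS hJ hu h0 (H.h_span (mem_span_singleton_self v) (add_mem haU hy))
        (by simp [ha, e])
    obtain ⟨j, hj, hj0⟩ := (Submodule.ne_bot_iff _).1 hJ0
    refine ⟨j, hj0, fun l ↦ H.tv_of_rho hS hT hJ haU (hJ j hj)
      (by simpa using hD 0 (zero_mem _) (by simp)) (hD j (hJ j hj) (hu.1 j hj)) l ?_⟩
    obtain ⟨k, hk0, h1, h2⟩ := exists_two_conditions hd
      ((B.flip u) ∘ₗ (LinearMap.toSpanSingleton K V (c • v)).restrictScalars F)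
      ((B.flip u) ∘ₗ (LinearMap.toSpanSingleton K V j).restrictScalars F)
    replace h1 : B (k • c • v) u = 0 := h1
    replace h2 : B (k • j) u = 0 := h2
    have h3 := smul_mem _ k haU
    have h4 := smul_mem _ k (hJ j hj)
    obtain ⟨n, hn, e1, e2⟩ := H.trans (smul_ne_zero hk0 hv) hv
    have e3 : ∀ y ∈ span K {v}, n (k • y) = y := fun y hy ↦ by
      obtain ⟨a, rfl⟩ := mem_span_singleton.1 hy
      rw [smul_comm, e2, e1]
    have := H.rho_conj (H.rho_of_dSet hS hT hJ haU h3 h4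
      (by simpa using hD 0 (zero_mem _) (by simp)) (hD _ h3 h1) (hD _ h4 h2)
      (by simpa [add_assoc] using hD _ (add_mem h3 h4) (by simp [h1, h2])) l) hn
    rwa [e3 _ haU, e3 _ (hJ j hj)] at this
  · obtain ⟨w, hw, hw'⟩ := exists_orth_notMem H.nondeg (span K {v}) (span K {v}) (by
      rw [finrank_span_singleton hv]; omega)
    have h1 := hw' v (mem_span_singleton_self v)
    by_cases h2 : B w u = 0
    · have h3 : h v (c • v + w) = 0 := by simp [h1, H.alt.self_eq_zero]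
      exact H.exists_tv_of_perp hr hS hv hJ (H.mem_dSet_of_perp hS hJ hu h0 h3 (by simp [ha, h2]))
        (fun e ↦ hw (by simpa using sub_mem e haU)) h3
    · exact H.exists_tv_of_perp hr hS hv hJ (H.mem_dSet_of_perp hS hJ hu h0 h1 h2) hw h1

/-- An overgroup of `Sp_d(K)` in `Sp_n(F)` not normalising `K` is the full symplectic group. -/
theorem SpB_le (hr : (finrank F K).Prime) (hm : 2 ≤ finrank K V)
    (hd : 3 ≤ finrank F K ∨ 3 ≤ finrank K V)
    (hN : ∃ g ∈ X, ∃ k : K, ∀ k' : K, ∃ x, g (k • x) ≠ k' • g x) : SpB B ≤ X := by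
  have : FiniteDimensional F V := Module.Finite.trans K V
  obtain ⟨v, hv⟩ := exists_notMem_span hm (0 : V)
  replace hv : v ≠ 0 := fun e ↦ hv (by rw [e]; exact zero_mem _)
  obtain ⟨g, hg, J, hJ0, hJ, u, hu, e⟩ := H.exists_hyperplane hr hm hN hv
  obtain ⟨S, hS, hD⟩ := H.exists_dSet hg (fun e ↦ hu (hJ u e)) e
  obtain ⟨j, hj, hT⟩ := H.exists_tv hr.two_le hd hS hv hJ0 hJ hD hu
  refine SpB_le_of_altT_mem H.nondegB H.altB X fun w c ↦ ?_
  by_cases hw : w = 0
  · rw [hw, altTEquiv_zero_left]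
    exact X.one_mem
  obtain ⟨n, hn, rfl, -⟩ := H.trans hj hw
  rw [← altTEquiv_conj H.altB (H.le hn)]
  exact X.mul_mem (X.mul_mem hn (hT c)) (X.inv_mem hn)

end SpExt

end Cfsg.Lib.Class.FE
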