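import Cfsg.Agent.Class.FieldExtSp

/-!
# Overgroups of `Sp_d(K)` in `Sp_n(F)` for `K/F` of prime degree and `|F| > 2`
-/

set_option autoImplicit false
set_option linter.unusedSectionVars false

namespace Cfsg.Lib.Class.FE

open Module Submodule

variable {F K V : Type*} [Field F] [Field K] [Algebra F K] [AddCommGroup V] [Module F V]
  [Module K V] [IsScalarTower F K V] {h : LinearMap.BilinForm K V} {τ : Dual F K}
  {B : LinearMap.BilinForm F V} {X : Subgroup (V ≃ₗ[F] V)}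

namespace SpExt

variable (H : SpExt h τ B X) {J : Submodule F V} {S : F → Module.End F V}
  [FiniteDimensional K V] [FiniteDimensional F K]
include H

theorem tv_of_sqZero {T : Submodule F V} {j : V} {l : F} (h1 : l • sq B j ∈ sqZero X T) :
    altTEquiv H.altB j l ∈ X := by
  obtain ⟨x, hx, e⟩ := h1.2.2
  rwa [show altTEquiv H.altB j l = x from LinearEquiv.ext fun y ↦ by
    simp [e, altTEquiv_apply', smul_smul]]

theorem exists_tv' (hr : 2 ≤ finrank F K) {t : F} (ht0 : t ≠ 0) (ht1 : t ≠ 1) (hS : SOn B J S)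
    {v u : V} (hv : v ≠ 0) (hJ0 : J ≠ ⊥) (hJ : ∀ y ∈ J, y ∈ span K {v}) (hu : u ∈ DSet B X J S)
    (huv : u ∉ span K {v}) : ∃ j, j ≠ 0 ∧ ∀ l, altTEquiv H.altB j l ∈ X := by
  by_cases h0 : h v u = 0
  · exact H.exists_tv_of_perp hr hS hv hJ hu huv h0
  obtain ⟨c, hc⟩ := exists_tau_mul_eq H.tau h0 1
  have ha : B (c • v) u = 1 := by rw [H.form, map_smul, LinearMap.smul_apply, smul_eq_mul, hc]
  have haU : c • v ∈ span K {v} := smul_mem _ c (mem_span_singleton_self v)
  let T : Submodule F V := (span K {v}).restrictScalars F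
  have hT : ∀ x ∈ T, ∀ y ∈ T, B x y = 0 := fun x hx y hy ↦ by
    rw [H.form, H.h_span hx hy, map_zero]
  have hD : ∀ y ∈ T, B y u ≠ 0 → ∀ l, S l + l • sq B y ∈ sqZero X T := fun y hy e ↦
    H.mem_sqZero_of_dSet hS hT hJ
      (H.mem_dSet_of_perp hS hJ hu h0 (H.h_span (mem_span_singleton_self v) hy) e) hy
  generalize c • v = a at ha haU
  by_cases ht : t ^ 2 = 1
  · have h2 : (2 : F) ≠ 0 := fun h2 ↦ ht1 (by
      rcases sq_eq_one_iff.1 ht with e | e
      · exact e
      · linear_combination e - h2)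
    obtain ⟨j, hj, hj0⟩ := (Submodule.ne_bot_iff _).1 hJ0
    have hjT : j ∈ T := hJ j hj
    refine ⟨j, hj0, fun l ↦ H.tv_of_sqZero (T := T) ?_⟩
    have := sub_mem (sub_mem (add_mem (hD (a + j) (add_mem haU hjT) (by simp [ha, hu.1 j hj]) (l / 2))
      (hD (a - j) (sub_mem haU hjT) (by simp [ha, hu.1 j hj]) (l / 2)))
      (hD a haU (by simp [ha]) (l / 2))) (hD a haU (by simp [ha]) (l / 2))
    convert this using 1
    ext y
    simp only [LinearMap.smul_apply, LinearMap.add_apply, LinearMap.sub_apply, sq_apply, map_add,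
      map_sub]
    match_scalars <;> (field_simp; try ring)
  · refine ⟨a, by rintro rfl; simp at ha, fun l ↦ H.tv_of_sqZero (T := T) ?_⟩
    have h1 := sub_ne_zero.2 ht
    have := sub_mem (hD (t • a) (T.smul_mem t haU) (by simp [ha, ht0]) (l / (t ^ 2 - 1)))
      (hD a haU (by simp [ha]) (l / (t ^ 2 - 1)))
    convert this using 1
    ext y
    simp only [LinearMap.smul_apply, LinearMap.add_apply, LinearMap.sub_apply, sq_apply, map_smul,
      smul_eq_mul]
    match_scalars <;> (field_simp; try ring)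

theorem SpB_le' (hr : (finrank F K).Prime) (hm : 2 ≤ finrank K V)
    (hd : (3 ≤ finrank F K ∨ 3 ≤ finrank K V) ∨ ∃ t : F, t ≠ 0 ∧ t ≠ 1)
    (hN : ∃ g ∈ X, ∃ k : K, ∀ k' : K, ∃ x, g (k • x) ≠ k' • g x) : SpB B ≤ X := by
  rcases hd with hd | ⟨t, ht0, ht1⟩
  · exact H.SpB_le hr hm hd hN
  have : FiniteDimensional F V := Module.Finite.trans K V
  obtain ⟨v, hv⟩ := exists_notMem_span hm (0 : V)
  replace hv : v ≠ 0 := fun e ↦ hv (by rw [e]; exact zero_mem _)
  obtain ⟨g, hg, J, hJ0, hJ, u, hu, e⟩ := H.exists_hyperplane hr hm hN hv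
  obtain ⟨S, hS, hD⟩ := H.exists_dSet hg (fun e ↦ hu (hJ u e)) e
  obtain ⟨j, hj, hT⟩ := H.exists_tv' hr.two_le ht0 ht1 hS hv hJ0 hJ hD hu
  refine SpB_le_of_altT_mem H.nondegB H.altB X fun w c ↦ ?_
  by_cases hw : w = 0
  · rw [hw, altTEquiv_zero_left]
    exact X.one_mem
  obtain ⟨n, hn, rfl, -⟩ := H.trans hj hw
  rw [← altTEquiv_conj H.altB (H.le hn)]
  exact X.mul_mem (X.mul_mem hn (hT c)) (X.inv_mem hn)

end SpExt

end Cfsg.Lib.Class.FE
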