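import Cfsg.Agent.Class.FieldExtForm
import Cfsg.Agent.Class.SubfieldSL

/-!
# Tensor products modelled on `D →ₗ B`: unipotent elements, pure tensors, subspaces of `End B`
invariant under conjugation by transvections
-/

set_option autoImplicit false
set_option linter.unusedSectionVars false

namespace Cfsg.Lib.Class.Tens

open Module Submodule FE

section UIn

variable {F V : Type*} [Field F] [AddCommGroup V] [Module F V] {X : Subgroup (V ≃ₗ[F] V)}
  {ν μ : End F V}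

/-- The map `1 + ν` belongs to `X`. -/
def UIn (X : Subgroup (V ≃ₗ[F] V)) (ν : End F V) : Prop := ∃ g ∈ X, ∀ z, g z = z + ν z

theorem UIn.zero : UIn X 0 := ⟨1, X.one_mem, by simp⟩

theorem UIn.mul (h : UIn X ν) (h' : UIn X μ) : UIn X (ν + μ + ν * μ) := by
  obtain ⟨g, hg, e⟩ := h
  obtain ⟨k, hk, e'⟩ := h'
  refine ⟨g * k, X.mul_mem hg hk, fun z ↦ ?_⟩
  simp only [LinearEquiv.mul_apply, e, e', map_add, LinearMap.add_apply, End.mul_apply]
  abel

theorem UIn.add (h : UIn X ν) (h' : UIn X μ) (h0 : ν * μ = 0) : UIn X (ν + μ) := by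
  simpa [h0] using h.mul h'

theorem inv_apply_of_sq {g : V ≃ₗ[F] V} (e : ∀ z, g z = z + ν z) (h0 : ν * ν = 0) (z : V) :
    g⁻¹ z = z - ν z := by
  apply g.injective
  have := LinearMap.congr_fun h0 z
  rw [End.mul_apply, LinearMap.zero_apply] at this
  rw [apply_inv_self, e, map_sub, this]
  abel

theorem UIn.neg (h : UIn X ν) (h0 : ν * ν = 0) : UIn X (-ν) := by
  obtain ⟨g, hg, e⟩ := h
  exact ⟨g⁻¹, X.inv_mem hg, fun z ↦ by rw [inv_apply_of_sq e h0, sub_eq_add_neg]; rfl⟩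

theorem UIn.conj (h : UIn X ν) {k : V ≃ₗ[F] V} (hk : k ∈ X) :
    UIn X ((k : End F V) * ν * ((k⁻¹ : V ≃ₗ[F] V) : End F V)) := by
  obtain ⟨g, hg, e⟩ := h
  refine ⟨k * g * k⁻¹, X.mul_mem (X.mul_mem hk hg) (X.inv_mem hk), fun z ↦ ?_⟩
  simp only [LinearEquiv.mul_apply, e, map_add, apply_inv_self, End.mul_apply,
    LinearEquiv.coe_coe]

theorem UIn.comm (h : UIn X ν) (h' : UIn X μ) (h1 : ν * ν = 0) (h2 : μ * μ = 0)
    (h3 : μ * ν = 0) : UIn X (ν * μ) := by
  have := (h.mul h').mul ((h.neg h1).mul (h'.neg h2))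
  convert this using 1
  have e1 : ∀ x : End F V, ν * (ν * x) = 0 := fun x ↦ by rw [← mul_assoc, h1, zero_mul]
  have e2 : ∀ x : End F V, μ * (ν * x) = 0 := fun x ↦ by rw [← mul_assoc, h3, zero_mul]
  simp only [mul_add, add_mul, mul_neg, neg_mul, neg_neg, mul_assoc, e1, e2, h1, h2, h3, mul_zero]
  abel

/-- The automorphism `1 + ν` for a square-zero `ν`. -/
def sqEquiv (ν : End F V) (h0 : ν * ν = 0) : V ≃ₗ[F] V :=
  LinearEquiv.ofLinearMap (1 + ν) (1 - ν)
    (show (1 + ν) * (1 - ν) = 1 by rw [add_mul, mul_sub, mul_sub, h0]; simp)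
    (show (1 - ν) * (1 + ν) = 1 by rw [sub_mul, mul_add, mul_add, h0]; simp)

@[simp] theorem sqEquiv_apply (h0 : ν * ν = 0) (z : V) : sqEquiv ν h0 z = z + ν z := rfl

theorem sqEquiv_mem_SLV [FiniteDimensional F V] (h0 : ν * ν = 0) : sqEquiv ν h0 ∈ SLV F V := by
  have h : IsNilpotent ν := ⟨2, by rw [pow_two, h0]⟩
  have h1 := LinearMap.charpoly_nilpotent_tfae (-ν) |>.out 0 1 |>.mp h.neg
  have h2 := LinearMap.eval_charpoly (-ν) 1
  rw [h1] at h2
  rw [MonoidHom.mem_ker]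
  ext
  rw [LinearEquiv.coe_det]
  change LinearMap.det (1 + ν) = 1
  simpa using h2.symm

theorem _root_.Cfsg.Lib.Class.FE.MeetLe.maps' [FiniteDimensional F V] {U J : Submodule F V}
    (h : MeetLe X U (finrank F J)) {g n : V ≃ₗ[F] V} (hg : g ∈ X) (hn : n ∈ X) (h1 : J ≤ im g U)
    (hJ : ∀ y ∈ J, n y ∈ J) {u : V} (hu : u ∉ J) (h3 : u ∈ im g U) (h4 : n u ∈ im g U) {z : V}
    (hz : z ∈ im g U) : n z ∈ im g U := by
  have hJ' := im_eq_of_le hJ
  have e := h.eq_of_mem hg (X.mul_mem hn hg) h1 (u := n u)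
    (fun y hy ↦ by rw [im_mul]; rw [← hJ'] at hy; exact map_mono h1 hy)
    (fun h5 ↦ hu (by rwa [← hJ', apply_mem_im] at h5)) h4 (by rwa [im_mul, apply_mem_im])
  rwa [e, im_mul, apply_mem_im]

end UIn

variable {F D B : Type*} [Field F] [AddCommGroup D] [Module F D] [AddCommGroup B] [Module F B]

/-- The pure tensor `d ↦ α(d) β`, as a linear function of `β`. -/
def pt (α : Dual F D) : B →ₗ[F] D →ₗ[F] B := LinearMap.smulRightₗ α

@[simp] theorem pt_apply (α : Dual F D) (β : B) (d : D) : pt α β d = α d • β := rfl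

theorem pt_add (α α' : Dual F D) (β : B) : pt (α + α') β = pt α β + pt α' β := by
  ext d
  simp [add_smul]

theorem pt_smul (c : F) (α : Dual F D) (β : B) : pt (c • α) β = c • pt α β := by
  ext d
  simp [mul_smul]

theorem pt_zero (β : B) : pt (0 : Dual F D) β = 0 := by
  ext d
  simp

theorem pt_eq_zero {α : Dual F D} {β : B} (hα : α ≠ 0) (h : pt α β = 0) : β = 0 := by
  obtain ⟨d, hd⟩ := DFunLike.ne_iff.1 hα
  simpa [show α d ≠ 0 from hd] using LinearMap.congr_fun h d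

theorem pt_ne_zero {α : Dual F D} {β : B} (hα : α ≠ 0) (hβ : β ≠ 0) : pt α β ≠ 0 :=
  fun h ↦ hβ (pt_eq_zero hα h)

theorem pt_injective {α : Dual F D} (hα : α ≠ 0) : Function.Injective (pt α : B → D →ₗ[F] B) :=
  (injective_iff_map_eq_zero _).2 fun _ ↦ pt_eq_zero hα

/-- The pure tensor as a linear function of `α`. -/
def ptR (D : Type*) [AddCommGroup D] [Module F D] (β : B) : Dual F D →ₗ[F] D →ₗ[F] B :=
  LinearMap.smulRightₗ.flip β

@[simp] theorem ptR_apply (α : Dual F D) (β : B) : ptR D β α = pt α β := rfl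

theorem exists_apply_eq {α : Dual F D} (hα : α ≠ 0) (c : F) : ∃ d, α d = c := by
  obtain ⟨d, hd⟩ := DFunLike.ne_iff.1 hα
  exact ⟨(c / α d) • d, by rw [map_smul, smul_eq_mul, div_mul_cancel₀ _ hd]⟩

/-- A functional vanishing on the kernel of `α` is a multiple of `α`. -/
theorem exists_pair_of_notMem {α γ : Dual F D} (h : γ ∉ span F {α}) (c : F) :
    ∃ d, α d = 0 ∧ γ d = c := by
  have : ∃ d, α d = 0 ∧ γ d ≠ 0 := by
    by_contra! hc
    apply h
    by_cases hα : α = 0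
    · have : γ = 0 := LinearMap.ext fun d ↦ hc d (by simp [hα])
      simp [this]
    · obtain ⟨d₀, hd₀⟩ := exists_apply_eq hα 1
      refine mem_span_singleton.2 ⟨γ d₀, LinearMap.ext fun d ↦ ?_⟩
      have := hc (d - α d • d₀) (by simp [hd₀])
      rw [map_sub, map_smul, sub_eq_zero] at this
      rw [this, LinearMap.smul_apply, smul_eq_mul, smul_eq_mul, mul_comm]
  obtain ⟨d, h1, h2⟩ := this
  exact ⟨(c / γ d) • d, by simp [h1], by rw [map_smul, smul_eq_mul, div_mul_cancel₀ _ h2]⟩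

theorem exists_ker_ne_zero {M N : Type*} [AddCommGroup M] [Module F M] [AddCommGroup N]
    [Module F N] [FiniteDimensional F M] [FiniteDimensional F N] (f : M →ₗ[F] N)
    (h : finrank F N < finrank F M) : ∃ x, x ≠ 0 ∧ f x = 0 := by
  obtain ⟨x, hx, h0⟩ := (Submodule.ne_bot_iff _).1 (LinearMap.ker_ne_bot_of_finrank_lt h (f := f))
  exact ⟨x, h0, hx⟩

theorem exists_two_zero {M : Type*} [AddCommGroup M] [Module F M] [FiniteDimensional F M]
    (h : 3 ≤ finrank F M) (φ ψ : Dual F M) : ∃ x, x ≠ 0 ∧ φ x = 0 ∧ ψ x = 0 := by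
  obtain ⟨x, h0, hx⟩ := exists_ker_ne_zero (φ.prod ψ) (by simp; omega)
  exact ⟨x, h0, congrArg Prod.fst hx, congrArg Prod.snd hx⟩

theorem exists_one_zero {M : Type*} [AddCommGroup M] [Module F M] [FiniteDimensional F M]
    (h : 2 ≤ finrank F M) (φ : Dual F M) : ∃ x, x ≠ 0 ∧ φ x = 0 :=
  exists_ker_ne_zero φ (by simp; omega)

theorem exists_dual_zero {M : Type*} [AddCommGroup M] [Module F M] [FiniteDimensional F M]
    (h : 2 ≤ finrank F M) (x : M) : ∃ φ : Dual F M, φ ≠ 0 ∧ φ x = 0 :=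
  exists_one_zero (by rwa [Subspace.dual_finrank_eq]) (Dual.eval F M x)

theorem exists_dual_two_zero {M : Type*} [AddCommGroup M] [Module F M] [FiniteDimensional F M]
    (h : 3 ≤ finrank F M) (x y : M) : ∃ φ : Dual F M, φ ≠ 0 ∧ φ x = 0 ∧ φ y = 0 :=
  exists_two_zero (by rwa [Subspace.dual_finrank_eq]) (Dual.eval F M x) (Dual.eval F M y)

theorem eq_zero_of_pt [FiniteDimensional F D] {N : Type*} [AddCommGroup N] [Module F N]
    {θ : (D →ₗ[F] B) →ₗ[F] N} (h : ∀ α β, θ (pt α β) = 0) : θ = 0 := by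
  ext z
  let b := finBasis F D
  have : z = ∑ i, pt (b.coord i) (z (b i)) := by
    ext d
    conv_lhs => rw [← b.sum_repr d, map_sum]
    simp
  rw [this, map_sum]
  simp [h]

theorem ext_pt [FiniteDimensional F D] {N : Type*} [AddCommGroup N] [Module F N]
    {θ θ' : (D →ₗ[F] B) →ₗ[F] N} (h : ∀ α β, θ (pt α β) = θ' (pt α β)) : θ = θ' :=
  sub_eq_zero.1 (eq_zero_of_pt fun α β ↦ by rw [LinearMap.sub_apply, h, sub_self])

theorem exists_smul_of_forall_mem {M : End F B} (h : ∀ β, M β ∈ span F {β}) :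
    ∃ c : F, M = c • 1 :=
  LinearMap.exists_eq_smul_id_of_forall_notLinearIndependent fun β hli ↦ by
    obtain ⟨c, hc⟩ := mem_span_singleton.1 (h β)
    have := (LinearIndependent.pair_iff.1 hli c (-1) (by simp [hc])).2
    simp at this

/-- `S` is invariant under conjugation by transvections. -/
def ConjInv (S : Submodule F (End F B)) : Prop :=
  ∀ (φ : Dual F B) (β : B), φ β = 0 → ∀ M ∈ S, (1 + pt φ β) * M * (1 - pt φ β) ∈ S

theorem pt_mul_mul_pt (φ φ' : Dual F B) (β β' : B) (M : End F B) :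
    (pt φ β : End F B) * M * pt φ' β' = φ (M β') • pt φ' β := by
  ext x
  simp [smul_smul, mul_comm]

/-- A conjugation invariant subspace with a non-scalar member contains a nilpotent of rank one. -/
theorem ConjInv.exists_pt [FiniteDimensional F B] {S : Submodule F (End F B)} (hS : ConjInv S)
    (h3 : 3 ≤ finrank F B ∨ ∃ c : F, c ≠ 0 ∧ c ≠ 1) {M : End F B} (hM : M ∈ S)
    (hns : ∀ c : F, M ≠ c • 1) : ∃ φ β, φ ≠ 0 ∧ β ≠ 0 ∧ φ β = 0 ∧ (pt φ β : End F B) ∈ S := by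
  obtain ⟨β, hβ⟩ : ∃ β, M β ∉ span F {β} := by
    by_contra! h
    obtain ⟨c, hc⟩ := exists_smul_of_forall_mem h
    exact hns c hc
  have hβ0 : β ≠ 0 := by
    rintro rfl
    simp at hβ
  obtain ⟨φ, h1, h2⟩ := exists_dual_pair hβ 1
  have key : ∀ ψ : Dual F B, ψ β = 0 →
      (pt ψ β : End F B) * M - M * pt ψ β - ψ (M β) • pt ψ β ∈ S := fun ψ hψ ↦ by
    convert S.sub_mem (hS ψ β hψ M hM) hM using 1
    rw [← pt_mul_mul_pt]
    noncomm_ring
  rcases h3 with h3 | ⟨c, hc0, hc1⟩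
  · obtain ⟨ψ, h0, h4, h5⟩ := exists_dual_two_zero h3 β (M β)
    refine ⟨ψ, β, h0, hβ0, h4, ?_⟩
    convert S.sub_mem (S.add_mem (key φ h1) (key ψ h4)) (key (φ + ψ) (by simp [h1, h4])) using 1
    simp only [pt_add, LinearMap.add_apply, h2, h5, mul_add, add_mul]
    module
  · refine ⟨φ, β, by rintro rfl; simp at h2, hβ0, h1, ?_⟩
    have := S.smul_mem (c * (c - 1))⁻¹
      (S.sub_mem (S.smul_mem c (key φ h1)) (key (c • φ) (by simp [h1])))
    convert this using 1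
    simp only [pt_smul, LinearMap.smul_apply, h2, smul_mul_assoc, mul_smul_comm]
    have := sub_ne_zero.2 hc1
    match_scalars <;> field_simp <;> ring

/-- A conjugation invariant subalgebra containing a nilpotent of rank one is everything. -/
theorem ConjInv.eq_top [FiniteDimensional F B] {S : Submodule F (End F B)} (hS : ConjInv S)
    (h1 : (1 : End F B) ∈ S) (hmul : ∀ M ∈ S, ∀ M' ∈ S, M * M' ∈ S) {φ : Dual F B} {β : B}
    (hφ : φ ≠ 0) (hβ : β ≠ 0) (h0 : φ β = 0) (hm : (pt φ β : End F B) ∈ S) (M : End F B) :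
    M ∈ S := by
  have e : ∀ (φ₁ : Dual F B) (β₁ : B), (1 + pt φ₁ β₁) * (pt φ β : End F B) * (1 - pt φ₁ β₁) =
      pt (φ - φ β₁ • φ₁) (β + φ₁ β • β₁) := fun φ₁ β₁ ↦ by
    ext x
    simp only [End.mul_apply, LinearMap.add_apply, LinearMap.sub_apply, End.one_apply, pt_apply,
      map_sub, map_smul, LinearMap.smul_apply, smul_eq_mul]
    module
  have ha : ∀ γ, φ γ ≠ 0 → ∃ N ∈ S, N β = γ := fun γ hγ ↦ by
    have h2 : β ∉ span F {γ} := notMem_span_symm hβ fun h ↦ hγ (dual_eq_zero_of_mem_span h0 h)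
    obtain ⟨φ₁, h3, h4⟩ := exists_dual_pair h2 1
    refine ⟨_, S.sub_mem (S.smul_mem (-(φ γ)⁻¹) (hS φ₁ γ h3 _ hm)) h1, ?_⟩
    simp only [e, LinearMap.sub_apply, LinearMap.smul_apply, pt_apply, h0, h4, End.one_apply,
      smul_eq_mul]
    match_scalars <;> field_simp <;> ring
  have ha' : ∀ γ, ∃ N ∈ S, N β = γ := fun γ ↦ by
    by_cases hγ : φ γ = 0
    · obtain ⟨δ, hδ⟩ := exists_apply_eq hφ 1
      obtain ⟨N, hN, h2⟩ := ha δ (by simp [hδ])
      obtain ⟨N', hN', h3⟩ := ha (γ + δ) (by simp [hδ, hγ])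
      exact ⟨N' - N, S.sub_mem hN' hN, by simp [h2, h3]⟩
    · exact ha γ hγ
  have hb : ∀ χ : Dual F B, χ β ≠ 0 → ∃ N ∈ S, ∀ x, φ (N x) = χ x := fun χ hχ ↦ by
    have h2 : φ ∉ span F {χ} := notMem_span_symm hφ fun h ↦ hχ (by
      obtain ⟨c, rfl⟩ := mem_span_singleton.1 h
      simp [h0])
    obtain ⟨β₁, h3, h4⟩ := exists_pair_of_notMem h2 1
    refine ⟨_, S.sub_mem h1 (S.smul_mem (χ β)⁻¹ (hS χ β₁ h3 _ hm)), fun x ↦ ?_⟩
    simp only [e, LinearMap.sub_apply, LinearMap.smul_apply, pt_apply, h0, h4, End.one_apply,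
      smul_eq_mul, map_sub, map_smul, map_add, LinearMap.add_apply]
    field_simp
    ring
  have hb' : ∀ χ : Dual F B, ∃ N ∈ S, ∀ x, φ (N x) = χ x := fun χ ↦ by
    by_cases hχ : χ β = 0
    · obtain ⟨δ, hδ⟩ := exists_dual_eq (K := F) hβ 1
      obtain ⟨N, hN, h2⟩ := hb δ (by simp [hδ])
      obtain ⟨N', hN', h3⟩ := hb (χ + δ) (by simp [hδ, hχ])
      exact ⟨N' - N, S.sub_mem hN' hN, by simp [h2, h3]⟩
    · exact hb χ hχ
  have := eq_zero_of_pt (θ := S.mkQ) fun χ γ ↦ by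
    obtain ⟨N, hN, h2⟩ := ha' γ
    obtain ⟨N', hN', h3⟩ := hb' χ
    rw [mkQ_apply, Quotient.mk_eq_zero]
    convert hmul _ (hmul _ hN _ hm) _ hN' using 1
    ext x
    simp [h2, h3]
  rw [← Quotient.mk_eq_zero, ← mkQ_apply, this, LinearMap.zero_apply]

end Cfsg.Lib.Class.Tens
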