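import Cfsg.Agent.Class.HSp
import Cfsg.Agent.Class.DecWeight
import Cfsg.Agent.Class.TensBasic

/-!
# Maximality of similarity groups of Hermitian and symmetric forms in dimension at least five
-/

set_option autoImplicit false
set_option linter.unusedSectionVars false

namespace Cfsg.Lib.Class

open Module Submodule Cfsg.Geo

variable {F V : Type*} [Field F] [AddCommGroup V] [Module F V] {σ : F →+* F}
  {B : V →ₛₗ[σ] V →ₗ[F] F} {M : Subgroup (V ≃ₗ[F] V)} {v : V}

/-- `M` contains an element fixing `v` and inducing a given transvection modulo `v`. -/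
def Lf (M : Subgroup (V ≃ₗ[F] V)) (v r : V) (φ : Dual F V) : Prop :=
  ∃ x ∈ M, ∃ χ : Dual F V, χ v = 0 ∧ ∀ y, x y = y + φ y • r + χ y • v

/-- All transvections modulo `v` with a given axis are induced. -/
def LfAll (M : Subgroup (V ≃ₗ[F] V)) (v : V) (φ : Dual F V) : Prop :=
  φ v = 0 ∧ ∀ r, φ r = 0 → Lf M v r φ

theorem LfAll.conj {φ ψ : Dual F V} (h : LfAll M v φ) {k : V ≃ₗ[F] V} (hk : k ∈ M) (hv : k v = v)
    (e : ∀ y, ψ (k y) = φ y) : LfAll M v ψ := by
  refine ⟨by rw [← hv, e, h.1], fun r hr ↦ ?_⟩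
  obtain ⟨r, rfl⟩ := k.surjective r
  obtain ⟨x, hx, χ, h1, h2⟩ := h.2 r (by rw [← e, hr])
  refine ⟨k * x * k⁻¹, M.mul_mem (M.mul_mem hk hx) (M.inv_mem hk), χ ∘ₗ k.symm.toLinearMap,
    by simpa [k.symm_apply_eq.2 hv.symm] using h1, fun y ↦ ?_⟩
  obtain ⟨y, rfl⟩ := k.surjective y
  simp [h2, e, hv]

theorem LfAll.smul {φ : Dual F V} (h : LfAll M v φ) (c : F) : LfAll M v (c • φ) := by
  refine ⟨by simp [h.1], fun r hr ↦ ?_⟩
  obtain ⟨x, hx, χ, h1, h2⟩ := h.2 (c • r) (by simpa using hr)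
  exact ⟨x, hx, χ, h1, fun y ↦ by simp [h2, smul_smul, mul_comm]⟩

theorem LfAll.add {φ ψ : Dual F V} (h : LfAll M v φ) (h' : LfAll M v ψ) : LfAll M v (φ + ψ) := by
  by_cases e : φ ∈ span F {ψ}
  · obtain ⟨c, rfl⟩ := mem_span_singleton.1 e
    simpa [add_smul] using h'.smul (c + 1)
  obtain ⟨r, h1, h2⟩ := Tens.exists_pair_of_notMem e (-1)
  obtain ⟨x, hx, χ, h3, h4⟩ := h'.2 r h1
  exact h.conj hx (by simp [h4, h3, h'.1]) fun y ↦ by simp [h4, h1, h2, h.1, h'.1]

theorem tvIn_of_lfAll [FiniteDimensional F V] (hd : 3 ≤ finrank F V)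
    (h : ∀ φ : Dual F V, φ v = 0 → LfAll M v φ) {χ : Dual F V} (h0 : χ ≠ 0) (hχ : TvIn M v χ)
    {r : V} {φ : Dual F V} (h1 : φ v = 0) (h2 : φ r = 0) : TvIn M r φ := by
  have key : ∀ ψ : Dual F V, ψ v = 0 → ψ ∉ span F {χ} → TvIn M v ψ := fun ψ h3 h4 ↦ by
    have h5 := FE.notMem_span_symm (K := F) h0 h4
    obtain ⟨r, h6, h7⟩ := Tens.exists_pair_of_notMem h5 1
    obtain ⟨x, hx, χ', h8, h9⟩ := (h ψ h3).2 r h6
    have := hχ.conj hx (ψ := χ - ψ) fun y ↦ by simp [h9, h3, h6, h7, hχ.apply_eq]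
    rw [show x v = v by simp [h9, h3, h8]] at this
    simpa only [sub_sub_cancel] using hχ.sub_right this
  have key2 : ∀ ψ : Dual F V, ψ v = 0 → TvIn M v ψ := fun ψ h3 ↦ by
    by_cases h4 : ψ ∈ span F {χ}
    swap
    · exact key ψ h3 h4
    obtain ⟨y, hy⟩ := Tens.exists_apply_eq h0 1
    obtain ⟨ρ, h5, h6, h7⟩ := Tens.exists_dual_two_zero hd v y
    have h8 : ρ ∉ span F {χ} := fun e ↦ by
      obtain ⟨c, rfl⟩ := mem_span_singleton.1 e
      simp [show c = 0 by simpa [hy] using h7] at h5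
    simpa using (key (ψ + ρ) (by simp [h3, h6]) fun e ↦ h8 (by simpa using sub_mem e h4)).sub_right
      (key ρ h6 h8)
  obtain ⟨x, hx, χ', h3, h4⟩ := (h φ h1).2 r h2
  have h5 : x.symm v = v := x.symm_apply_eq.2 (by simp [h4, h1, h3])
  obtain ⟨-, t, ht, e⟩ := key2 (-χ' ∘ₗ x.symm.toLinearMap) (by simp [h5, h3])
  refine ⟨h2, t * x, M.mul_mem ht hx, fun y ↦ ?_⟩
  rw [LinearEquiv.mul_apply, e]
  simp only [LinearMap.neg_apply, LinearMap.comp_apply, LinearEquiv.coe_coe, x.symm_apply_apply]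
  simp [h4]

theorem tvIn_of_two [FiniteDimensional F V] (hd : 4 ≤ finrank F V) {k : V ≃ₗ[F] V} (hk : k ∈ M)
    (hv : v ∉ span F {k v}) (h : ∀ (r : V) (φ : Dual F V), φ v = 0 → φ r = 0 → TvIn M r φ)
    (a : V) (φ : Dual F V) (h0 : φ a = 0) : TvIn M a φ := by
  have key : ∀ k ∈ M, ∀ (r : V) (φ : Dual F V), φ (k v) = 0 → φ r = 0 → TvIn M r φ :=
    fun k hk r φ h1 h2 ↦ by
      simpa using (h (k.symm r) (φ ∘ₗ k.toLinearMap) h1 (by simpa using h2)).conj hk fun _ ↦ rfl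
  obtain ⟨x, -, hx, hxs⟩ := exists_mem_kerL_notMem ⊤ [φ] [k v, v] (by simp; omega)
  obtain ⟨ψ, h1, h2⟩ := FE.exists_dual_pair (K := F) hv 1
  obtain ⟨ρ, h3, h4⟩ := FE.exists_dual_of_notMem hxs (1 - ψ x)
  have h5 := h4 (k v) (mem_spanL_of_mem (by simp))
  have h6 := h4 v (mem_spanL_of_mem (by simp))
  obtain ⟨-, t, ht, e⟩ := key k hk (x - v) (ψ + ρ) (by simp [h1, h5]) (by simp [h2, h3, h6])
  exact key t ht a φ (by simpa [e, h2, h6] using hx) h0

namespace HSp

variable [FiniteDimensional F V]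

theorem exists_eichler (h : HSp B) {p r : V} (hp : B p p = 0) (hpr : B p r = 0) :
    ∃ k ∈ SLV F V, ∃ c : F, (∀ x y, B (k x) (k y) = B x y) ∧
      ∀ x, k x = x + B p x • r + (c * B p x - B r x) • p := by
  obtain ⟨τ, hτ⟩ := h.tr
  obtain ⟨-, g, hg, e⟩ := tvIn_SLV (a := r - (τ * B r r) • p) (φ := B p) (by simp [hp, hpr])
  obtain ⟨-, g', hg', e'⟩ := tvIn_SLV (a := -p) (φ := B r) (by simp [h.comm hpr])
  have h1 : ∀ x, (g * g') x = x + B p x • r + (-(τ * B r r) * B p x - B r x) • p := fun x ↦ by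
    simp only [LinearEquiv.mul_apply, e, e', map_add, map_smul, map_neg, hp]
    module
  refine ⟨g * g', mul_mem hg hg', _, fun x y ↦ ?_, h1⟩
  simp only [h1, map_add, map_sub, map_mul, map_neg, LinearMap.map_smulₛₗ, LinearMap.add_apply,
    LinearMap.smul_apply, smul_eq_mul, h.sym, hp, hpr, h.comm hpr, RingHom.id_apply]
  linear_combination (-B r r * B x p * B p y) * hτ

theorem mem_simG_of_iso (h : HSp B) (hd : 5 ≤ finrank F V) {g : V ≃ₗ[F] V}
    (hg : ∀ a, B a a = 0 → B (g a) (g a) = 0) : g ∈ simG B := by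
  obtain ⟨τ, hτ⟩ := h.tr
  have h1 : ∀ a, B a a = 0 → ∃ c : F, ∀ x, B (g a) (g x) = c * B a x := fun a ha ↦ by
    have h2 : B (g a) ∘ₗ g.toLinearMap ∈ span F {B a} := by
      by_contra hc
      obtain ⟨x, h3, h4⟩ := Tens.exists_pair_of_notMem hc 1
      have h5 : x ∈ LinearMap.ker (B (g a) ∘ₗ g.toLinearMap) :=
        h.mem_of_forall_iso [a] (by simp; omega) (fun w hw hww ↦ ?_) (by simpa using h3)
      · simp [LinearMap.mem_ker.1 h5] at h4
      have hw := hw a (by simp)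
      by_contra h5
      replace h5 : B (g a) (g w) ≠ 0 := h5
      have h6 := hg (a + (τ / B (g a) (g w)) • w) (by
        simp [LinearMap.map_smulₛₗ, ha, hw, hww, h.comm hw])
      simp only [map_add, LinearMap.map_smulₛₗ, LinearMap.add_apply, LinearMap.smul_apply,
        smul_eq_mul, hg a ha, hg w hww, map_div₀, h.sym, map_smul] at h6
      have h7 := h.ne_comm h5
      field_simp at h6
      exact mul_ne_zero h7 h5 (by linear_combination h6 - B (g w) (g a) * B (g a) (g w) * hτ)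
    obtain ⟨c, hc⟩ := mem_span_singleton.1 h2
    exact ⟨c, fun x ↦ (LinearMap.congr_fun hc x).symm⟩
  have key : ∀ a e, B a a = 0 → B e e = 0 → B a e = 0 → a ≠ 0 → e ≠ 0 → ∀ c d : F,
      (∀ x, B (g a) (g x) = c * B a x) → (∀ x, B (g e) (g x) = d * B e x) → c = d := by
    intro a e ha he hae ha0 he0 c d hc hd
    have h2 : ∀ v : V, v ≠ 0 → ∃ a ∈ (⊤ : Submodule F V), B v a ≠ 0 := fun v hv ↦ by
      by_contra! hc
      exact hv (h.sep v fun w ↦ hc w trivial)
    obtain ⟨z, -, h3, h4⟩ := exists_mem_both_ne_zero _ (B a) (B e) (h2 a ha0) (h2 e he0)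
    obtain ⟨s, hs⟩ := h.exists_iso_add ha h3
    obtain ⟨c', hc'⟩ := h1 _ hs
    have h5 : B a (z + s • a) ≠ 0 := by simpa [ha] using h3
    have h6 : B e (z + s • a) ≠ 0 := by simpa [h.comm hae] using h4
    generalize z + s • a = w at *
    have h7 := hc w
    have h8 := hd w
    rw [← h.sym, hc', map_mul, h.sym] at h7 h8
    rw [← mul_right_cancel₀ h5 h7, ← mul_right_cancel₀ h6 h8]
  obtain ⟨e, -, he0, he⟩ := h.exists_iso [] [] (by simp; omega)
  have he0 := ne_zero_of_notMem_spanL he0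
  obtain ⟨c, hc⟩ := h1 e he
  let T : Submodule F V :=
    { carrier := {a | ∀ x, B (g a) (g x) = c * B a x}
      add_mem' := fun ha hb x => by simp [ha x, hb x, mul_add]
      zero_mem' := fun x => by simp
      smul_mem' := fun t a ha x => by simp [LinearMap.map_smulₛₗ, ha x, mul_left_comm] }
  have hT : ∀ a, a ∈ T := fun a => h.mem_of_forall_iso [] (by simp; omega) (fun a _ ha => by
    by_cases ha0 : a = 0
    · exact ha0 ▸ T.zero_mem
    obtain ⟨d, hd'⟩ := h1 a ha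
    obtain ⟨z, hz, hzs, hzz⟩ := h.exists_iso [B a, B e] [] (by simp; omega)
    simp only [List.forall_mem_cons, List.not_mem_nil, false_imp_iff, imp_true_iff,
      and_true] at hz
    obtain ⟨c', hc'⟩ := h1 z hzz
    have e1 := key a z ha hzz hz.1 ha0 (ne_zero_of_notMem_spanL hzs) _ _ hd' hc'
    have e2 := key e z he hzz hz.2 he0 (ne_zero_of_notMem_spanL hzs) _ _ hc hc'
    rw [e1, ← e2] at hd'
    exact hd') (by simp)
  have hc0 : c ≠ 0 := by
    rintro rfl
    refine he0 (g.map_eq_zero_iff.1 (h.sep _ fun v => ?_))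
    obtain ⟨v, rfl⟩ := g.surjective v
    simp [hc]
  exact ⟨Units.mk0 c hc0, hT⟩

theorem perp_le_of_eichler (h : HSp B) (hd : 5 ≤ finrank F V) (hv : B v v ≠ 0) {T : Submodule F V}
    (hT : ∀ k ∈ SLV F V, (∀ x y, B (k x) (k y) = B x y) → k v = v → ∀ x ∈ T, k x ∈ T) {y : V}
    (hy : y ∈ T) (hy0 : y ≠ 0) (hvy : B v y = 0) {x : V} (hx : B v x = 0) : x ∈ T := by
  obtain ⟨p, hp, hyp, hpp⟩ := h.exists_iso_ne [v] (x := y) (fun e ↦ by
    obtain ⟨c, rfl⟩ := mem_spanL_singleton.1 e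
    simp [hv, left_ne_zero_of_smul hy0] at hvy) (by simp; omega)
  have hp := hp v (by simp)
  have h1 : ∀ z ∈ T, ∀ r, B v r = 0 → B p r = 0 →
      ∃ c : F, B p z • r + (c * B p z - B r z) • p ∈ T := fun z hz r h1 h2 ↦ by
    obtain ⟨k, hk, c, h3, e⟩ := h.exists_eichler hpp h2
    have := T.sub_mem (hT k hk h3 (by simp [e, h.comm hp, h.comm h1]) z hz) hz
    exact ⟨c, by simpa [e, add_assoc] using this⟩
  have hpy := h.ne_comm hyp
  have h2 : p ∈ T := by
    obtain ⟨r, -, hr, hrs⟩ := exists_mem_kerL_notMem ⊤ [B v, B p] [v, p] (by simp; omega)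
    obtain ⟨c, hc⟩ := h1 y hy r (hr _ (by simp)) (hr _ (by simp))
    obtain ⟨w, hw, hrw⟩ := h.exists_perp_ne hrs
    have hw1 := hw v (mem_spanL_of_mem (by simp))
    have hw2 := hw p (mem_spanL_of_mem (by simp))
    obtain ⟨c', hc'⟩ := h1 _ hc w hw1 hw2
    simp only [map_add, map_smul, hr (B p) (by simp), hpp, h.comm hw2, smul_eq_mul, mul_zero,
      add_zero, zero_smul, zero_add, zero_sub, neg_smul, neg_mem_iff] at hc'
    exact (T.smul_mem_iff (mul_ne_zero hpy (h.ne_comm hrw))).1 hc'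
  obtain ⟨c, hc⟩ := h1 y hy (x - (B p x / B p y) • y) (by simp [hx, hvy]) (by simp [hpy])
  have h3 := (T.smul_mem_iff hpy).1 ((T.add_mem_iff_left (T.smul_mem _ h2)).1 hc)
  exact (T.sub_mem_iff_left (T.smul_mem _ hy)).1 h3

theorem exists_aniso_perp (h : HSp B) (l : List V) (hl : ∀ x ∈ spanL F l, (∀ y ∈ l, B y x = 0) → x = 0)
    (hd : l.length < finrank F V) : ∃ w, (∀ y ∈ l, B y w = 0) ∧ B w w ≠ 0 := by
  obtain ⟨x, -, hx, hx0⟩ := exists_mem_kerL_notMem ⊤ (l.map B) [] (by simpa using hd)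
  simp only [List.forall_mem_map] at hx
  obtain ⟨w, hw, hxw⟩ := h.exists_perp_ne (S := spanL F l) (x := x)
    fun e ↦ ne_zero_of_notMem_spanL hx0 (hl x e hx)
  replace hw := fun y hy ↦ hw y (mem_spanL_of_mem hy)
  by_contra! hc
  obtain ⟨τ, hτ⟩ := h.tr
  have h6 := hc (x + (τ / B x w) • w) fun y hy ↦ by simp [hx y hy, hw y hy]
  simp only [map_add, LinearMap.map_smulₛₗ, LinearMap.add_apply, LinearMap.smul_apply,
    smul_eq_mul, hc x hx, hc w hw, map_div₀, h.sym, map_smul] at h6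
  have h7 := h.ne_comm hxw
  field_simp at h6
  exact mul_ne_zero h7 hxw (by linear_combination h6 - B w x * B x w * hτ)

theorem exists_aniso_perp' (h : HSp B) (l : List V) (h1 : ∀ y ∈ l, B y y ≠ 0)
    (h2 : l.Pairwise fun x y ↦ B x y = 0) (hd : l.length < finrank F V) :
    ∃ w, (∀ y ∈ l, B y w = 0) ∧ B w w ≠ 0 := by
  refine h.exists_aniso_perp l ?_ hd
  clear hd
  induction l with
  | nil => exact fun x hx _ ↦ by simpa [spanL] using hx
  | cons a l ih =>
    intro x hx h3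
    rw [spanL, show {y | y ∈ a :: l} = insert a {y | y ∈ l} by ext; simp, mem_span_insert] at hx
    obtain ⟨c, z, hz, rfl⟩ := hx
    rw [List.pairwise_cons] at h2
    have h4 : B a z = 0 := apply_eq_zero_of_mem_spanL h2.1 hz
    have h5 : c = 0 := by simpa [h4, h1 a (by simp)] using h3 a (by simp)
    simpa [h5] using ih (fun y hy ↦ h1 y (by simp [hy])) h2.2 z hz
      fun y hy ↦ by simpa [h5] using h3 y (by simp [hy])

theorem exists_refl_pair (h : HSp B) (hσ : ∀ a, σ a = a) {a b : V} (ha : B a a ≠ 0)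
    (hb : B b b ≠ 0) (hab : B a b = 0) : ∃ k ∈ SLV F V, (∀ x y, B (k x) (k y) = B x y) ∧
      ∀ x, k x = x - (2 * B a x / B a a) • a - (2 * B b x / B b b) • b := by
  have hs : ∀ u v, B u v = B v u := fun u v ↦ by rw [← h.sym, hσ]
  obtain ⟨g, e, hg⟩ := exists_equiv_one_add (-(2 / B a a) • B a) a (by
    simp only [LinearMap.smul_apply, smul_eq_mul]; field_simp; norm_num)
  obtain ⟨g', e', hg'⟩ := exists_equiv_one_add (-(2 / B b b) • B b) b (by
    simp only [LinearMap.smul_apply, smul_eq_mul]; field_simp; norm_num)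
  have h1 : ∀ x, (g * g') x = x - (2 * B a x / B a a) • a - (2 * B b x / B b b) • b := fun x ↦ by
    simp only [LinearEquiv.mul_apply, e, e', map_add, map_smul, LinearMap.smul_apply, hab]
    module
  refine ⟨g * g', Units.ext ?_, fun x y ↦ ?_, h1⟩
  · simp only [map_mul, Units.val_mul, hg, hg', LinearMap.smul_apply, smul_eq_mul, Units.val_one]
    field_simp
    norm_num
  · simp only [h1, map_sub, LinearMap.map_smulₛₗ, LinearMap.sub_apply, LinearMap.smul_apply,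
      smul_eq_mul, hσ, hab, h.comm hab, RingHom.id_apply, hs x a, hs x b]
    field_simp
    ring

theorem exists_tvIn_of_symm (h : HSp B) (hσ : ∀ a, σ a = a) (hd : 5 ≤ finrank F V)
    (hM : ∀ k ∈ SLV F V, (∀ x y, B (k x) (k y) = B x y) → k ∈ M) (hv : B v v ≠ 0)
    (hL : ∀ φ : Dual F V, φ v = 0 → LfAll M v φ) : ∃ χ, χ ≠ 0 ∧ TvIn M v χ := by
  have h2 : (2 : F) ≠ 0 := fun e ↦ by
    obtain ⟨τ, hτ⟩ := h.tr
    exact one_ne_zero (α := F) (by rw [hσ] at hτ; linear_combination τ * e - hτ)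
  obtain ⟨r, hr, r0⟩ := h.exists_aniso_perp' [v] (by simpa) (by simp) (by simp; omega)
  simp only [List.forall_mem_cons, List.not_mem_nil, false_imp_iff, imp_true_iff, and_true] at hr
  obtain ⟨f, hf, f0⟩ := h.exists_aniso_perp' [v, r] (by simp [*]) (by simp [*]) (by simp; omega)
  simp only [List.forall_mem_cons, List.not_mem_nil, false_imp_iff, imp_true_iff, and_true] at hf
  obtain ⟨f1, f2⟩ := hf
  obtain ⟨a, ha, a0⟩ := h.exists_aniso_perp' [v, r, f] (by simp [*]) (by simp [*]) (by simp; omega)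
  simp only [List.forall_mem_cons, List.not_mem_nil, false_imp_iff, imp_true_iff, and_true] at ha
  obtain ⟨a1, a2, a3⟩ := ha
  obtain ⟨b, hb, b0⟩ := h.exists_aniso_perp' [v, r, f, a] (by simp [*]) (by simp [*])
    (by simp; omega)
  simp only [List.forall_mem_cons, List.not_mem_nil, false_imp_iff, imp_true_iff, and_true] at hb
  obtain ⟨b1, b2, b3, b4⟩ := hb
  by_contra! hc
  obtain ⟨x, hx, χ, h3, e⟩ := (hL (B f) (h.comm f1)).2 r (h.comm f2)
  have h4 : ∀ a, B a a ≠ 0 → B v a = 0 → B r a = 0 → B f a = 0 → ∀ y, B a y = 0 → B f y = 0 →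
      χ y = 0 := fun a a0 a1 a2 a3 y y1 y2 ↦ by
    obtain ⟨k, hk, hk', ek⟩ := h.exists_refl_pair hσ f0 a0 a3
    have k1 : k v = v := by simp [ek, h.comm f1, h.comm a1]
    have k2 : k r = r := by simp [ek, h.comm f2, h.comm a2]
    have k3 : ∀ z, B f (k z) = -B f z := fun z ↦ by
      simp only [ek, map_sub, map_smul, a3, smul_eq_mul]
      field_simp
      ring
    have h5 : χ + χ ∘ₗ k.symm.toLinearMap - χ r • B f = 0 := by
      by_contra h5
      refine hc _ h5 ⟨by simp [h3, k.symm_apply_eq.2 k1.symm, h.comm f1], x * (k * x * k⁻¹),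
        M.mul_mem hx (M.mul_mem (M.mul_mem (hM k hk hk') hx) (M.inv_mem (hM k hk hk'))),
        fun z ↦ ?_⟩
      obtain ⟨z, rfl⟩ := k.surjective z
      simp only [LinearEquiv.mul_apply, LinearEquiv.coe_inv, k.symm_apply_apply, e, map_add,
        map_smul, k1, k2, k3, h3, h.comm f1, h.comm f2, LinearMap.sub_apply, LinearMap.add_apply,
        LinearMap.comp_apply, LinearEquiv.coe_coe, LinearMap.smul_apply, smul_eq_mul]
      module
    have h6 := LinearMap.congr_fun h5 y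
    have h7 : k.symm y = y := k.symm_apply_eq.2 (by simp [ek, y1, y2])
    simpa [h7, y2, ← two_mul, h2] using h6
  obtain ⟨c, rfl⟩ : ∃ c : F, c • B f = χ := mem_span_singleton.1 (by
    by_contra h5
    obtain ⟨y, y1, y2⟩ := Tens.exists_pair_of_notMem h5 1
    have h6 := h4 a a0 a1 a2 a3 (y - (B a y / B a a) • a) (by simp [a0]) (by simp [y1, a3])
    simp [y2, h4 b b0 b1 b2 b3 a (h.comm b4) a3] at h6)
  have h5 : TvIn M (r + c • v) (B f) := ⟨by simp [h.comm f1, h.comm f2], x, hx, fun y ↦ by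
    rw [e, LinearMap.smul_apply, smul_eq_mul]
    module⟩
  have h6 : ∀ w, B w w ≠ 0 → B f w = 0 → B w b = 0 → ∀ z, B b z = 0 → TvIn M z (B f) →
      TvIn M ((2 * B w z / B w w) • w) (B f) := fun w w0 w1 w2 z z1 hz ↦ by
    obtain ⟨k, hk, hk', ek⟩ := h.exists_refl_pair hσ w0 b0 w2
    simpa [ek, z1] using hz.sub_left (hz.conj (hM k hk hk') (ψ := B f) fun y ↦ by simp [ek, w1, b3])
  have h7 : ∀ z, B b z = 0 → TvIn M z (B f) → B v z = 0 := fun z z1 hz ↦ by
    by_contra z2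
    refine hc _ (smul_ne_zero (div_ne_zero (mul_ne_zero h2 z2) hv) fun e ↦ f0 (by simp [e]))
      ((TvIn.smul_iff _).1 (h6 v hv (h.comm f1) b1 z z1 hz))
  have h8 : c = 0 := by simpa [hr, hv] using h7 _ (by simp [h.comm b1, h.comm b2]) h5
  rw [h8, zero_smul, add_zero] at h5
  obtain ⟨t, ht⟩ : ∃ t : F, B (v + r + t • a) (v + r + t • a) ≠ 0 := by
    by_cases e : B (v + r) (v + r) = 0
    · refine ⟨1, ?_⟩
      rw [one_smul, map_add (B _), map_add B _ a, LinearMap.add_apply, LinearMap.add_apply, e]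
      simpa [a1, a2, h.comm a1, h.comm a2] using a0
    · exact ⟨0, by simpa using e⟩
  have h9 := h7 _ (by simp [h.comm b1, h.comm b2, h.comm b4])
    (h6 _ ht (by simp [h.comm f1, h.comm f2, a3]) (by simp [LinearMap.map_smulₛₗ, b1, b2, b4]) r
      (h.comm b2) h5)
  rw [map_smul, smul_eq_mul] at h9
  refine mul_ne_zero (div_ne_zero (mul_ne_zero h2 ?_) ht) ?_ h9
  · simpa [LinearMap.map_smulₛₗ, hr, h.comm a2] using r0
  · simpa [hr, a1] using hv

/-- A group containing the isometries of determinant one and a non-similarity contains all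
transvections. -/
theorem tvIn_of_not_sim' (h : HSp B) (hd : 5 ≤ finrank F V)
    (hM : ∀ k ∈ SLV F V, (∀ x y, B (k x) (k y) = B x y) → k ∈ M) {g : V ≃ₗ[F] V} (hg : g ∈ M)
    (hgs : g ∉ simG B) (a : V) (φ : Dual F V) (h0 : φ a = 0) : TvIn M a φ := by
  obtain ⟨p, hp, hv⟩ : ∃ p, B p p = 0 ∧ B (g p) (g p) ≠ 0 := by
    by_contra! hc
    exact hgs (h.mem_simG_of_iso hd hc)
  have hp0 : B p ∘ₗ g.symm.toLinearMap ≠ 0 := fun e ↦ by
    rw [h.sep p fun w ↦ by simpa using LinearMap.congr_fun e (g w)] at hv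
    simp at hv
  have h1 : LfAll M (g p) (B p ∘ₗ g.symm.toLinearMap) := ⟨by simp [hp], fun r hr ↦ by
    obtain ⟨r, rfl⟩ := g.surjective r
    replace hr : B p r = 0 := by simpa using hr
    obtain ⟨k, hk, c, hk', e⟩ := h.exists_eichler hp hr
    refine ⟨g * k * g⁻¹, M.mul_mem (M.mul_mem hg (hM k hk hk')) (M.inv_mem hg),
      (c • B p - B r) ∘ₗ g.symm.toLinearMap, by simp [hp, h.comm hr], fun y ↦ ?_⟩
    simp [e]⟩
  have h2 : ∀ φ : Dual F V, φ (g p) = 0 → LfAll M (g p) φ := fun φ hφ ↦ by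
    obtain ⟨y, rfl⟩ := h.exists_eq_dual φ
    obtain ⟨u, hu⟩ := h.exists_eq_dual (B p ∘ₗ g.symm.toLinearMap)
    let T : Submodule F V :=
      { carrier := {y | LfAll M (g p) (B y)}
        add_mem' := fun ha hb ↦ by rw [Set.mem_ofPred_eq, map_add]; exact ha.add hb
        zero_mem' := by simpa using h1.smul 0
        smul_mem' := fun t a ha ↦ by rw [Set.mem_ofPred_eq, LinearMap.map_smulₛₗ]; exact ha.smul _ }
    exact h.perp_le_of_eichler hd hv (T := T) (fun k hk hk' e x hx ↦ hx.conj (hM k hk hk') e (hk' x))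
      (y := u) (show LfAll M _ (B u) from hu ▸ h1) (fun e ↦ hp0 (by rw [← hu, e, map_zero])) (h.comm (hu ▸ h1.1)) (h.comm hφ)
  obtain ⟨χ, hχ, h3⟩ : ∃ χ, χ ≠ 0 ∧ TvIn M (g p) χ := by
    by_cases hσ : ∀ a, σ a = a
    · exact h.exists_tvIn_of_symm hσ hd hM hv h2
    push Not at hσ
    obtain ⟨s, hs⟩ := hσ
    obtain ⟨-, k, hk, e⟩ := tvIn_SLV (a := p) (φ := (σ s - s) • B p) (by simp [hp])
    refine ⟨((σ s - s) • B p) ∘ₗ g.symm.toLinearMap, ?_, TvIn.conj' ⟨by simp [hp], k, hM k hk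
      fun x y ↦ ?_, e⟩ hg⟩
    · rw [LinearMap.smul_comp]
      exact smul_ne_zero (sub_ne_zero.2 hs) hp0
    · simp only [e, map_add, map_sub, map_mul, LinearMap.map_smulₛₗ, LinearMap.add_apply,
        LinearMap.smul_apply, smul_eq_mul, h.sym, hp, RingHom.id_apply, h.invol]
      ring
  generalize g p = v at *
  obtain ⟨q, -, hq, hqq⟩ := h.exists_iso_ne [] (x := v) (by
    simpa [spanL] using fun e ↦ hv (by simp [e])) (by simp; omega)
  obtain ⟨r, -, hr, hrs⟩ := exists_mem_kerL_notMem ⊤ [B q] [v, q] (by simp; omega)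
  obtain ⟨k, hk, c, hk', e⟩ := h.exists_eichler hqq (hr _ (by simp))
  refine tvIn_of_two (by omega) (hM k hk hk') (FE.notMem_span_symm (K := F)
    (fun e ↦ hv (by simp [e])) fun e' ↦ hrs ?_)
    (fun r φ ↦ tvIn_of_lfAll (by omega) h2 hχ h3) a φ h0
  obtain ⟨s, hs⟩ := mem_span_singleton.1 e'
  rw [← (spanL F [v, q]).smul_mem_iff (h.ne_comm hq), mem_spanL_pair]
  exact ⟨s - 1, -(c * B q v - B r v), by rw [e] at hs; linear_combination (norm := module) hs⟩

theorem isMaximalIn_simG' (h : HSp B) (hd : 5 ≤ finrank F V) :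
    IsMaximalIn (SLV F V) (simG B ⊓ SLV F V) := by
  refine isMaximalIn_SLV_of ?_ fun M hM _ g hg hgs => h.tvIn_of_not_sim' hd
    (fun k hk hk' => hM ⟨⟨1, by simpa using hk'⟩, hk⟩) hg hgs
  obtain ⟨τ, hτ⟩ := h.tr
  obtain ⟨e, -, he0, he⟩ := h.exists_iso [] [] (by simp; omega)
  obtain ⟨y, -, hey, hyy⟩ := h.exists_iso_ne [] he0 (by simp; omega)
  have hye := h.ne_comm hey
  refine ⟨(τ / (B y e * B e y)) • y, B y, by simp [hyy], ?_⟩
  rintro ⟨-, k, ⟨c, hc⟩, ek⟩
  have := hc e e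
  simp only [ek, map_add, LinearMap.map_smulₛₗ, LinearMap.add_apply, LinearMap.smul_apply,
    smul_eq_mul, he, hyy, RingHom.id_apply, map_div₀, map_mul, h.sym] at this
  field_simp at this
  apply mul_ne_zero hey hye
  linear_combination this - (B e y * B y e) * hτ

end HSp

end Cfsg.Lib.Class
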