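import Cfsg.Agent.Class.HSpFive

/-!
# Maximality of similarity groups of Hermitian and symmetric forms in dimension four
-/

set_option autoImplicit false
set_option linter.unusedSectionVars false

namespace Cfsg.Lib.Class

open Module Submodule Cfsg.Geo

variable {F V : Type*} [Field F] [AddCommGroup V] [Module F V] {σ : F →+* F}
  {B : V →ₛₗ[σ] V →ₗ[F] F} {M : Subgroup (V ≃ₗ[F] V)} {v : V}

namespace HSp

variable [FiniteDimensional F V]

theorem exists_scalar_of_iso (h : HSp B) (hd : 4 ≤ finrank F V) {g : V ≃ₗ[F] V}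
    (hg : ∀ a, B a a = 0 → B (g a) (g a) = 0) {a : V} (ha : B a a = 0) (ha0 : a ≠ 0) :
    ∃ c : F, σ c = c ∧ ∀ x, B (g a) (g x) = c * B a x := by
  obtain ⟨τ, hτ⟩ := h.tr
  obtain ⟨f, hf, haf⟩ : ∃ f, B f f = 0 ∧ B a f = 1 := by
    obtain ⟨f, -, h1, h2⟩ := h.exists_iso_ne [] (x := a) (by simpa [spanL] using ha0)
      (by simp; omega)
    exact ⟨(B a f)⁻¹ • f, by simp [LinearMap.map_smulₛₗ, h2], by simp [h1]⟩
  have hfa : B f a = 1 := by rw [← h.sym, haf, map_one]
  have E : ∀ w t, B a w = 0 → B f w = 0 → t + σ t + B w w = 0 →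
      B (g f) (g w) + t * σ (B (g a) (g f)) + σ (B (g f) (g w)) + B (g w) (g w) +
        t * σ (B (g a) (g w)) + σ t * B (g a) (g f) + σ t * B (g a) (g w) = 0 :=
    fun w t h1 h2 h3 ↦ by
      have := hg (f + w + t • a) (by
        simp only [map_add, LinearMap.map_smulₛₗ, LinearMap.add_apply, LinearMap.smul_apply,
          smul_eq_mul, RingHom.id_apply, hf, ha, haf, hfa, h1, h2, h.comm h1, h.comm h2]
        linear_combination h3)
      simp only [map_add, map_smul, LinearMap.map_smulₛₗ, LinearMap.add_apply, LinearMap.smul_apply,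
        smul_eq_mul, hg a ha, hg f hf] at this
      simp only [h.sym]
      linear_combination this
  have hN : ∀ w, -(τ * B w w) + σ (-(τ * B w w)) + B w w = 0 := fun w ↦ by
    rw [map_neg, map_mul, h.sym]
    linear_combination -B w w * hτ
  suffices H : σ (B (g a) (g f)) = B (g a) (g f) ∧
      ∀ w, B a w = 0 → B f w = 0 → B (g a) (g w) = 0 by
    refine ⟨_, H.1, fun x ↦ ?_⟩
    have := H.2 (x - B a x • f - B f x • a) (by simp [haf, ha]) (by simp [hfa, hf])
    simp only [map_sub, map_smul, hg a ha, smul_eq_mul] at this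
    linear_combination this
  by_cases hσ : ∀ s, σ s = s
  · refine ⟨hσ _, fun w₀ h1 h2 ↦ ?_⟩
    by_contra h0
    have h3 : (2 : F) ≠ 0 := fun e ↦
      one_ne_zero (α := F) (by rw [hσ] at hτ; linear_combination τ * e - hτ)
    have hτ0 : τ ≠ 0 := fun e ↦ by simp [e] at hτ
    have h4 : ∀ w, B a w = 0 → B f w = 0 → B (g f) (g w) = τ * B w w * B (g a) (g w) :=
      fun w h4 h5 ↦ by
        have e1 := E w _ h4 h5 (hN w)
        have e2 := E (-w) _ (by simp [h4]) (by simp [h5]) (hN (-w))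
        simp only [map_neg, LinearMap.neg_apply, neg_neg, hσ] at e1 e2
        exact mul_left_cancel₀ (mul_ne_zero h3 h3) (by linear_combination e1 - e2)
    obtain ⟨u, -, hu, hu0⟩ := exists_mem_kerL_notMem ⊤ [B a, B f, B (g a) ∘ₗ g.toLinearMap] []
      (by simp; omega)
    simp only [List.forall_mem_cons, List.not_mem_nil, false_imp_iff, imp_true_iff, and_true,
      LinearMap.comp_apply, LinearEquiv.coe_coe] at hu
    obtain ⟨u1, u2, u3⟩ := hu
    have u4 : B (g f) (g u) = 0 := by rw [h4 u u1 u2, u3, mul_zero]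
    have h5 : ∀ w, B a w = 0 → B f w = 0 → B (g a) (g w) ≠ 0 → B u w = 0 := fun w h5 h6 h7 ↦ by
      have e1 := h4 (w + u) (by simp [h5, u1]) (by simp [h6, u2])
      have e2 := h4 (w - u) (by simp [h5, u1]) (by simp [h6, u2])
      have e3 : B w u = B u w := by rw [← h.sym, hσ]
      simp only [map_add, map_sub, LinearMap.add_apply, LinearMap.sub_apply, u3, u4, e3] at e1 e2
      exact mul_left_cancel₀ (mul_ne_zero (mul_ne_zero h3 h3) (mul_ne_zero hτ0 h7))
        (by linear_combination e2 - e1)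
    refine ne_zero_of_notMem_spanL hu0 (h.sep u fun y ↦ ?_)
    have h6 : B u (y - B a y • f - B f y • a) = 0 := by
      have y1 : B a (y - B a y • f - B f y • a) = 0 := by simp [haf, ha]
      have y2 : B f (y - B a y • f - B f y • a) = 0 := by simp [hfa, hf]
      generalize y - B a y • f - B f y • a = w at *
      by_cases e : B (g a) (g w) = 0
      · simpa [h5 w₀ h1 h2 h0] using
          h5 (w + w₀) (by simp [y1, h1]) (by simp [y2, h2]) (by simpa [e] using h0)
      · exact h5 w y1 y2 e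
    simpa [h.comm u1, h.comm u2] using h6
  push Not at hσ
  obtain ⟨s, hs⟩ := hσ
  have h1 : ∀ w, B a w = 0 → B f w = 0 →
      σ (B (g a) (g f)) + σ (B (g a) (g w)) = B (g a) (g f) + B (g a) (g w) := fun w h1 h2 ↦ by
    have e1 := E w _ h1 h2 (hN w)
    have e2 := E w (-(τ * B w w) + (σ s - s)) h1 h2 (by
      rw [map_add, map_sub, h.invol]
      linear_combination hN w)
    rw [map_add, map_sub, h.invol] at e2
    exact mul_left_cancel₀ (sub_ne_zero.2 hs) (by linear_combination e2 - e1)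
  have h2 : σ (B (g a) (g f)) = B (g a) (g f) := by simpa using h1 0 (by simp) (by simp)
  refine ⟨h2, fun w h3 h4 ↦ ?_⟩
  have e1 := h1 w h3 h4
  have e2 := h1 (s • w) (by simp [h3]) (by simp [h4])
  simp only [h2, map_smul, smul_eq_mul, map_mul, add_right_inj] at e1 e2
  rw [e1] at e2
  exact (mul_eq_zero.1 (by linear_combination e2)).resolve_left (sub_ne_zero.2 hs)

theorem mem_simG_of_iso' (h : HSp B) (hd : 4 ≤ finrank F V) {g : V ≃ₗ[F] V}
    (hg : ∀ a, B a a = 0 → B (g a) (g a) = 0) : g ∈ simG B := by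
  have key0 : ∀ a e, B a e ≠ 0 → ∀ c d : F, σ d = d →
      (∀ x, B (g a) (g x) = c * B a x) → (∀ x, B (g e) (g x) = d * B e x) → c = d := by
    intro a e hae c d h1 hc hd
    have h7 := hc e
    rw [← h.sym, hd, map_mul, h.sym, h1] at h7
    exact (mul_right_cancel₀ hae h7).symm
  obtain ⟨e, -, he0, he⟩ := h.exists_iso [] [] (by simp; omega)
  have he0 := ne_zero_of_notMem_spanL he0
  obtain ⟨c, hσ, hc⟩ := h.exists_scalar_of_iso hd hg he he0
  let T : Submodule F V :=
    { carrier := {a | ∀ x, B (g a) (g x) = c * B a x}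
      add_mem' := fun ha hb x => by simp [ha x, hb x, mul_add]
      zero_mem' := fun x => by simp
      smul_mem' := fun t a ha x => by simp [LinearMap.map_smulₛₗ, ha x, mul_left_comm] }
  have hT : ∀ a, a ∈ T := fun a => h.mem_of_forall_iso [] (by simp; omega) (fun a _ ha => by
    by_cases ha0 : a = 0
    · exact ha0 ▸ T.zero_mem
    obtain ⟨d, -, hd'⟩ := h.exists_scalar_of_iso hd hg ha ha0
    by_cases hae : B a e = 0
    swap
    · rw [key0 a e hae _ _ hσ hd' hc] at hd'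
      exact hd'
    have h2 : ∀ v : V, v ≠ 0 → ∃ a ∈ (⊤ : Submodule F V), B v a ≠ 0 := fun v hv ↦ by
      by_contra! hc
      exact hv (h.sep v fun w ↦ hc w trivial)
    obtain ⟨z, -, h3, h4⟩ := exists_mem_both_ne_zero _ (B a) (B e) (h2 a ha0) (h2 e he0)
    obtain ⟨s, hs⟩ := h.exists_iso_add ha h3
    have h5 : B a (z + s • a) ≠ 0 := by simpa [ha] using h3
    have h6 : B e (z + s • a) ≠ 0 := by simpa [h.comm hae] using h4
    obtain ⟨c', h7, hc'⟩ := h.exists_scalar_of_iso hd hg hs fun e ↦ h5 (by simp [e])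
    rw [key0 _ _ h5 _ _ h7 hd' hc', ← key0 _ _ h6 _ _ h7 hc hc'] at hd'
    exact hd') (by simp)
  have hc0 : c ≠ 0 := by
    rintro rfl
    refine he0 (g.map_eq_zero_iff.1 (h.sep _ fun v => ?_))
    obtain ⟨v, rfl⟩ := g.surjective v
    simp [hc]
  exact ⟨Units.mk0 c hc0, hT⟩

theorem exists_iso_perp_ne (h : HSp B) (hd : 4 ≤ finrank F V) (hv : B v v ≠ 0) {x : V}
    (hx0 : x ≠ 0) (hx : B v x = 0) : ∃ w, B v w = 0 ∧ B x w ≠ 0 ∧ B w w = 0 := by
  obtain ⟨e, he, he0, hee⟩ := h.exists_iso [B v] [] (by simp; omega)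
  replace he := he (B v) (by simp)
  by_cases hxe : B x e = 0
  swap
  · exact ⟨e, he, hxe, hee⟩
  have key : ∀ y, y ≠ 0 → B v y = 0 → ∃ a ∈ LinearMap.ker (B v), B y a ≠ 0 := fun y h1 h2 => by
    obtain ⟨w, hw, hvw⟩ := h.exists_perp_ne (S := spanL F [v]) (x := y) fun e ↦ by
      obtain ⟨c, rfl⟩ := mem_spanL_singleton.1 e
      simp [hv, left_ne_zero_of_smul h1] at h2
    exact ⟨w, hw v (mem_spanL_of_mem (by simp)), hvw⟩
  obtain ⟨z, hz, hxz, hez⟩ := exists_mem_both_ne_zero _ (B x) (B e) (key x hx0 hx)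
    (key e (ne_zero_of_notMem_spanL he0) he)
  obtain ⟨c, hc⟩ := h.exists_iso_add hee hez
  exact ⟨z + c • e, by simp [LinearMap.mem_ker.1 hz, he], by simpa [hxe] using hxz, hc⟩

theorem perp_le_of_eichler' (h : HSp B) (hd : 4 ≤ finrank F V) (hv : B v v ≠ 0) {T : Submodule F V}
    (hT : ∀ k ∈ SLV F V, (∀ x y, B (k x) (k y) = B x y) → k v = v → ∀ x ∈ T, k x ∈ T) {y : V}
    (hy : y ∈ T) (hy0 : y ≠ 0) (hvy : B v y = 0) {x : V} (hx : B v x = 0) : x ∈ T := by
  obtain ⟨p, hp, hyp, hpp⟩ := h.exists_iso_perp_ne hd hv hy0 hvy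
  have h1 : ∀ z ∈ T, ∀ r, B v r = 0 → B p r = 0 →
      ∃ c : F, B p z • r + (c * B p z - B r z) • p ∈ T := fun z hz r h1 h2 ↦ by
    obtain ⟨k, hk, c, h3, e⟩ := h.exists_eichler hpp h2
    have := T.sub_mem (hT k hk h3 (by simp [e, h.comm hp, h.comm h1]) z hz) hz
    exact ⟨c, by simpa [e, add_assoc] using this⟩
  have hpy := h.ne_comm hyp
  have h2 : p ∈ T := by
    obtain ⟨r, -, hr, hrs⟩ := exists_mem_kerL_notMem ⊤ [B v, B p] [p] (by simp; omega)
    replace hrs : r ∉ spanL F [v, p] := fun e ↦ by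
      obtain ⟨c, d, rfl⟩ := mem_spanL_pair.1 e
      have : c = 0 := by simpa [hp, hv] using hr (B v) (by simp)
      exact hrs (mem_spanL_singleton.2 ⟨d, by simp [this]⟩)
    obtain ⟨c, hc⟩ := h1 y hy r (hr _ (by simp)) (hr _ (by simp))
    obtain ⟨w, hw, hrw⟩ := h.exists_perp_ne hrs
    have hw1 := hw v (mem_spanL_of_mem (by simp))
    have hw2 := hw p (mem_spanL_of_mem (by simp))
    obtain ⟨c', hc'⟩ := h1 _ hc w hw1 hw2
    simp only [map_add, map_smul, hr (B p) (by simp), hpp, h.comm hw2, smul_eq_mul, mul_zero,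
      add_zero, zero_smul, zero_add, zero_sub, neg_smul, neg_mem_iff] at hc'
    exact (T.smul_mem_iff (mul_ne_zero hpy (h.ne_comm hrw))).1 hc'
  obtain ⟨c, hc⟩ := h1 y hy (x - (B p x / B p y) • y) (by simp [hx, hvy]) (by simp [hpy])
  have h3 := (T.smul_mem_iff hpy).1 ((T.add_mem_iff_left (T.smul_mem _ h2)).1 hc)
  exact (T.sub_mem_iff_left (T.smul_mem _ hy)).1 h3

theorem exists_tvIn_of_symm' (h : HSp B) (hσ : ∀ a, σ a = a) (hd : finrank F V = 4)
    (hM : ∀ k ∈ SLV F V, (∀ x y, B (k x) (k y) = B x y) → k ∈ M) (hv : B v v ≠ 0)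
    (hL : ∀ φ : Dual F V, φ v = 0 → LfAll M v φ) : ∃ χ, χ ≠ 0 ∧ TvIn M v χ := by
  have h2 : (2 : F) ≠ 0 := fun e ↦ by
    obtain ⟨τ, hτ⟩ := h.tr
    exact one_ne_zero (α := F) (by rw [hσ] at hτ; linear_combination τ * e - hτ)
  obtain ⟨r, hr, r0⟩ := h.exists_aniso_perp' [v] (by simpa) (by simp) (by simp; omega)
  simp only [List.forall_mem_cons, List.not_mem_nil, false_imp_iff, imp_true_iff, and_true] at hr
  obtain ⟨f, hf, f0⟩ := h.exists_aniso_perp' [v, r] (by simp [*]) (by simp [*]) (by simp; omega)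
  simp only [List.forall_mem_cons, List.not_mem_nil, false_imp_iff, imp_true_iff, and_true] at hf
  obtain ⟨f1, f2⟩ := hf
  obtain ⟨a, ha, a0⟩ := h.exists_aniso_perp' [v, r, f] (by simp [*]) (by simp [*]) (by simp; omega)
  simp only [List.forall_mem_cons, List.not_mem_nil, false_imp_iff, imp_true_iff, and_true] at ha
  obtain ⟨a1, a2, a3⟩ := ha
  by_contra! hc
  have h4 : ∀ r f a, B r r ≠ 0 → B f f ≠ 0 → B a a ≠ 0 → B v r = 0 → B v f = 0 → B v a = 0 →
      B r f = 0 → B r a = 0 → B f a = 0 → ∀ x ∈ M, ∀ χ : Dual F V, χ v = 0 →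
      (∀ y, x y = y + B f y • r + χ y • v) → χ r = 0 ∧ χ f = 0 := by
    intro r f a r0 f0 a0 hr f1 a1 f2 a2 a3 x hx χ h3 e
    have h5 : ∀ k ∈ M, k v = v → (∀ z, B f z • k r = -B f (k z) • r) →
        ∀ y, χ (k y) + χ y - χ r * B f (k y) = 0 := fun k hk k1 k2 y ↦ by
      have h5 : χ + χ ∘ₗ k.symm.toLinearMap - χ r • B f = 0 := by
        by_contra h5
        refine hc _ h5 ⟨by simp [h3, k.symm_apply_eq.2 k1.symm, h.comm f1], x * (k * x * k⁻¹),
          M.mul_mem hx (M.mul_mem (M.mul_mem hk hx) (M.inv_mem hk)), fun z ↦ ?_⟩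
        obtain ⟨z, rfl⟩ := k.surjective z
        simp only [LinearEquiv.mul_apply, LinearEquiv.coe_inv, k.symm_apply_apply, e z, map_add,
          map_smul, k1, k2]
        simp only [e, h3, h.comm f1, h.comm f2, LinearMap.sub_apply, LinearMap.add_apply,
          LinearMap.comp_apply, LinearEquiv.coe_coe, LinearMap.smul_apply, smul_eq_mul,
          k.symm_apply_apply]
        module
      simpa using LinearMap.congr_fun h5 (k y)
    obtain ⟨k, hk, hk', ek⟩ := h.exists_refl_pair hσ f0 a0 a3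
    obtain ⟨k', hk₂, hk₂', ek'⟩ := h.exists_refl_pair hσ r0 a0 a2
    have h6 := h5 k (hM k hk hk') (by simp [ek, h.comm f1, h.comm a1]) (fun z ↦ by
      simp only [ek, map_sub, map_smul, a3, h.comm f2, h.comm a2, smul_eq_mul]
      match_scalars <;> field_simp <;> ring) r
    have h7 := h5 k' (hM k' hk₂ hk₂') (by simp [ek', h.comm hr, h.comm a1]) (fun z ↦ by
      simp only [ek', map_sub, map_smul, a3, h.comm f2, h.comm a2, smul_eq_mul]
      match_scalars <;> field_simp <;> ring) f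
    have h8 : χ r = 0 := by simpa [ek, h.comm f2, h.comm a2, ← two_mul, h2] using h6
    exact ⟨h8, by simpa [ek', f2, h.comm a3, h8, ← two_mul, h2] using h7⟩
  have h5 : ∀ χ : Dual F V, χ v = 0 → χ r = 0 → χ f = 0 → χ a = 0 → χ = 0 := by
    intro χ e1 e2 e3 e4
    have h5 : LinearIndependent F ![v, r, f, a] := by
      refine LinearMap.linearIndependent_of_isOrthoᵢ (B := B) (fun i j hij ↦ ?_) fun i ↦ ?_
      · fin_cases i <;> fin_cases j <;>
          simp [Function.onFun, hr, f1, f2, a1, a2, a3, h.comm hr, h.comm f1,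
            h.comm f2, h.comm a1, h.comm a2, h.comm a3] at hij ⊢
      · fin_cases i <;> simpa
    refine LinearMap.ext_on_range (h5.span_eq_top_of_card_eq_finrank (by simp [hd])) fun i ↦ ?_
    fin_cases i <;> simpa
  let T : Submodule F V :=
    { carrier := {x | ∀ c : F, TvIn M (c • x) (B f)}
      add_mem' := fun ha hb c => by rw [smul_add]; exact (ha c).add_left (hb c)
      zero_mem' := fun c => by rw [smul_zero]; exact TvIn.zero_left _ _
      smul_mem' := fun t a ha c => by rw [smul_smul]; exact ha _ }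
  have h6 : a ∈ T := fun c ↦ by
    by_cases c0 : c = 0
    · simpa [c0] using TvIn.zero_left M (B f)
    obtain ⟨x, hx, χ, x0, e⟩ := (hL (B a) (h.comm a1)).2 r (h.comm a2)
    obtain ⟨x', hx', χ', x0', e'⟩ := (hL (B f) (h.comm f1)).2 (c • a) (by simp [a3])
    obtain ⟨x1, x2⟩ := h4 r a f r0 a0 f0 hr a1 f1 a2 f2 (h.comm a3) x hx χ x0 e
    obtain ⟨x3, x4⟩ := h4 (c • a) f r (by simpa [LinearMap.map_smulₛₗ, c0] using a0) f0 r0
      (by simp [a1]) f1 hr (by simp [LinearMap.map_smulₛₗ, h.comm a3])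
      (by simp [LinearMap.map_smulₛₗ, h.comm a2]) (h.comm f2) x' hx' χ' x0' e'
    replace x3 : χ' a = 0 := by simpa [c0] using x3
    obtain ⟨-, x5⟩ := h4 ((c * B a a) • r) f a (by simpa [LinearMap.map_smulₛₗ, c0, a0] using r0)
      f0 a0 (by simp [hr]) f1 a1 (by simp [LinearMap.map_smulₛₗ, f2])
      (by simp [LinearMap.map_smulₛₗ, a2]) a3 (x * x' * x⁻¹ * x'⁻¹)
      (M.mul_mem (M.mul_mem (M.mul_mem hx hx') (M.inv_mem hx)) (M.inv_mem hx'))
      (χ' r • ((c * B a a) • B f - B a)) (by simp [h.comm f1, h.comm a1]) fun y ↦ by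
        obtain ⟨y, rfl⟩ := (x' * x).surjective y
        simp only [LinearEquiv.mul_apply, LinearEquiv.coe_inv, LinearEquiv.symm_apply_apply]
        simp only [e, e', map_add, map_smul, x0, x0', x2, a3, h.comm a1, h.comm a2, h.comm f1,
          h.comm f2, LinearMap.smul_apply, LinearMap.sub_apply, smul_eq_mul]
        module
    have x6 : χ' r = 0 := by simpa [h.comm a3, c0, a0, f0] using x5
    exact ⟨by simp [a3], x', hx', fun y ↦ by simp [e', h5 χ' x0' x6 x4 x3]⟩
  refine hc (B f) (fun e ↦ f0 (by simp [e])) ?_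
  simpa using h.perp_le_of_eichler' hd.ge f0 (T := T) (fun k hk hk' e x hx c ↦ by
    simpa using (hx c).conj (hM k hk hk') (ψ := B f) fun y ↦ by
      conv_lhs => rw [← e, hk']) h6 (fun e ↦ a0 (by simp [e])) a3 (h.comm f1) 1

/-- A group containing the isometries of determinant one and a non-similarity contains all
transvections. -/
theorem tvIn_of_not_sim_four (h : HSp B) (hd : finrank F V = 4)
    (hM : ∀ k ∈ SLV F V, (∀ x y, B (k x) (k y) = B x y) → k ∈ M) {g : V ≃ₗ[F] V} (hg : g ∈ M)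
    (hgs : g ∉ simG B) (a : V) (φ : Dual F V) (h0 : φ a = 0) : TvIn M a φ := by
  obtain ⟨p, hp, hv⟩ : ∃ p, B p p = 0 ∧ B (g p) (g p) ≠ 0 := by
    by_contra! hc
    exact hgs (h.mem_simG_of_iso' hd.ge hc)
  have hp0 : B p ∘ₗ g.symm.toLinearMap ≠ 0 := fun e ↦ by
    rw [h.sep p fun w ↦ by simpa using LinearMap.congr_fun e (g w)] at hv
    simp at hv
  have h1 : LfAll M (g p) (B p ∘ₗ g.symm.toLinearMap) := ⟨by simp [hp], fun r hr ↦ by
    obtain ⟨r, rfl⟩ := g.surjective r
    replace hr : B p r = 0 := by simpa using hr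
    obtain ⟨k, hk, c, hk', e⟩ := h.exists_eichler hp hr
    refine ⟨g * k * g⁻¹, M.mul_mem (M.mul_mem hg (hM k hk hk')) (M.inv_mem hg),
      (c • B p - B r) ∘ₗ g.symm.toLinearMap, by simp [hp, h.comm hr], fun y ↦ ?_⟩
    simp [e]⟩
  have h2 : ∀ φ : Dual F V, φ (g p) = 0 → LfAll M (g p) φ := fun φ hφ ↦ by
    obtain ⟨y, rfl⟩ := h.exists_eq_dual φ
    obtain ⟨u, hu⟩ := h.exists_eq_dual (B p ∘ₗ g.symm.toLinearMap)
    let T : Submodule F V :=
      { carrier := {y | LfAll M (g p) (B y)}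
        add_mem' := fun ha hb ↦ by rw [Set.mem_ofPred_eq, map_add]; exact ha.add hb
        zero_mem' := by simpa using h1.smul 0
        smul_mem' := fun t a ha ↦ by rw [Set.mem_ofPred_eq, LinearMap.map_smulₛₗ]; exact ha.smul _ }
    exact h.perp_le_of_eichler' hd.ge hv (T := T) (fun k hk hk' e x hx ↦ hx.conj (hM k hk hk') e (hk' x))
      (y := u) (show LfAll M _ (B u) from hu ▸ h1) (fun e ↦ hp0 (by rw [← hu, e, map_zero])) (h.comm (hu ▸ h1.1)) (h.comm hφ)
  obtain ⟨χ, hχ, h3⟩ : ∃ χ, χ ≠ 0 ∧ TvIn M (g p) χ := by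
    by_cases hσ : ∀ a, σ a = a
    · exact h.exists_tvIn_of_symm' hσ hd hM hv h2
    push Not at hσ
    obtain ⟨s, hs⟩ := hσ
    obtain ⟨-, k, hk, e⟩ := tvIn_SLV (a := p) (φ := (σ s - s) • B p) (by simp [hp])
    refine ⟨((σ s - s) • B p) ∘ₗ g.symm.toLinearMap, ?_, TvIn.conj' ⟨by simp [hp], k, hM k hk
      fun x y ↦ ?_, e⟩ hg⟩
    · rw [LinearMap.smul_comp]
      exact smul_ne_zero (sub_ne_zero.2 hs) hp0
    · simp only [e, map_add, map_sub, map_mul, LinearMap.map_smulₛₗ, LinearMap.add_apply,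
        LinearMap.smul_apply, smul_eq_mul, h.sym, hp, RingHom.id_apply, h.invol]
      ring
  generalize g p = v at *
  obtain ⟨q, -, hq, hqq⟩ := h.exists_iso_ne [] (x := v) (by
    simpa [spanL] using fun e ↦ hv (by simp [e])) (by simp; omega)
  obtain ⟨r, -, hr, hrs⟩ := exists_mem_kerL_notMem ⊤ [B q] [v, q] (by simp; omega)
  obtain ⟨k, hk, c, hk', e⟩ := h.exists_eichler hqq (hr _ (by simp))
  refine tvIn_of_two (by omega) (hM k hk hk') (FE.notMem_span_symm (K := F)
    (fun e ↦ hv (by simp [e])) fun e' ↦ hrs ?_)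
    (fun r φ ↦ tvIn_of_lfAll (by omega) h2 hχ h3) a φ h0
  obtain ⟨s, hs⟩ := mem_span_singleton.1 e'
  rw [← (spanL F [v, q]).smul_mem_iff (h.ne_comm hq), mem_spanL_pair]
  exact ⟨s - 1, -(c * B q v - B r v), by rw [e] at hs; linear_combination (norm := module) hs⟩

theorem isMaximalIn_simG_four (h : HSp B) (hd : finrank F V = 4) :
    IsMaximalIn (SLV F V) (simG B ⊓ SLV F V) := by
  refine isMaximalIn_SLV_of ?_ fun M hM _ g hg hgs => h.tvIn_of_not_sim_four hd
    (fun k hk hk' => hM ⟨⟨1, by simpa using hk'⟩, hk⟩) hg hgs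
  obtain ⟨τ, hτ⟩ := h.tr
  obtain ⟨e, -, he0, he⟩ := h.exists_iso [] [] (by simp; omega)
  obtain ⟨y, -, hey, hyy⟩ := h.exists_iso_ne [] he0 (by simp; omega)
  have hye := h.ne_comm hey
  refine ⟨(τ / (B y e * B e y)) • y, B y, by simp [hyy], ?_⟩
  rintro ⟨-, k, ⟨c, hc⟩, ek⟩
  have := hc e e
  simp only [ek, map_add, LinearMap.map_smulₛₗ, LinearMap.add_apply, LinearMap.smul_apply,
    smul_eq_mul, he, hyy, RingHom.id_apply, map_div₀, map_mul, h.sym] at this
  field_simp at this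
  apply mul_ne_zero hey hye
  linear_combination this - (B e y * B y e) * hτ

end HSp

end Cfsg.Lib.Class
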