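import Cfsg.Agent.Spor.M24Tools
import Cfsg.Agent.Class.M24Idx

/-! Enumeration of the involutions of a subgroup of `M24` up to conjugation by a cyclic group. -/

set_option autoImplicit false

namespace Cfsg.Lib.Class.M24I

open Cfsg Cfsg.Lib.Spor Cfsg.Lib.Spor.MP Subgroup

/-- No non-trivial power of `x` conjugates a representative to a representative. -/
def freeChk (x n : ℕ) (reps : List ℕ) : Bool :=
  allLT n fun k => Nat.beq k 0 || force (ppow x k) fun y => reps.all fun r =>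
    force (pconj y r) fun s => reps.all fun r' => !Nat.beq s r'

theorem inSub_pow {K : Subgroup (Equiv.Perm GolayPt)} {p : ℕ} (hp : InSub K p) (n : ℕ) :
    InSub K (ppow p n) := (hp.rep.pow n).inSub (K.pow_mem hp.2 n)

theorem inSub_conj {K : Subgroup (Equiv.Perm GolayPt)} {p q : ℕ} (hp : InSub K p) (hq : InSub K q) :
    InSub K (pconj p q) := pconj_eq p q ▸ (hp.mul hq).mul hp.inv

/-- The value of the word `x ^ k₁ t x ^ k₂ t ⋯`. -/
def ev (x t : ℕ) (w : List ℕ) : ℕ :=
  List.rec pid (fun k _ ih => force ih fun u => force (pmul (ppow x k) t) fun v => pmul v u) w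

theorem inSub_ev {K : Subgroup (Equiv.Perm GolayPt)} {x t : ℕ} (hx : InSub K x) (ht : InSub K t)
    (w : List ℕ) : InSub K (ev x t w) := by
  induction w with
  | nil => exact inSub_pid K
  | cons k w ih => exact ((inSub_pow hx k).mul ht).mul ih

theorem dvd_card_of_hasOrder {K : Subgroup (Equiv.Perm GolayPt)} {p n : ℕ} (hp : InSub K p)
    (h : hasOrder p n = true) : n ∣ Nat.card K :=
  hp.rep.orderOf_eq h ▸ K.orderOf_dvd_natCard hp.2

theorem cover {G : Subgroup (Equiv.Perm GolayPt)} {x n : ℕ} (hx : InSub G x) {reps : List ℕ}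
    (hr : ∀ r ∈ reps, InSub G r ∧ hasOrder r 2 = true ∧ r < 2 ^ 120) (hnd : reps.Nodup)
    (hf : freeChk x n reps = true)
    (hc : {g | g ∈ G ∧ orderOf g = 2}.ncard ≤ n * reps.length) {s : Equiv.Perm GolayPt}
    (hs : s ∈ G) (ho : orderOf s = 2) :
    ∃ k < n, ∃ r ∈ reps, toPerm x ^ k * toPerm r * (toPerm x ^ k)⁻¹ = s := by
  classical
  let f : ℕ × ℕ → Equiv.Perm GolayPt := fun a => toPerm x ^ a.1 * toPerm a.2 * (toPerm x ^ a.1)⁻¹
  have key : ∀ k l r r', l ≤ k → k < n → r ∈ reps → r' ∈ reps → f (k, r) = f (l, r') →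
      k = l ∧ r = r' := by
    intro k l r r' hl hk h1 h2 e
    obtain ⟨d, rfl⟩ := Nat.exists_eq_add_of_le hl
    have e1 : toPerm x ^ d * toPerm r * (toPerm x ^ d)⁻¹ = toPerm r' := by
      have : toPerm x ^ l * (toPerm x ^ d * toPerm r * (toPerm x ^ d)⁻¹) * (toPerm x ^ l)⁻¹ =
          toPerm x ^ l * toPerm r' * (toPerm x ^ l)⁻¹ := by
        refine Eq.trans ?_ e
        simp only [f, pow_add]; group
      exact mul_left_cancel (mul_right_cancel this)
    have e2 : pconj (ppow x d) r = r' := by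
      have h3 := (hx.rep.pow d).conj (hr r h1).1.rep
      rw [e1] at h3
      rw [h3.eq_pack (pconj_eq _ _ ▸ pmul_lt _ _), ← (hr r' h2).1.rep.eq_pack (hr r' h2).2.2]
    have h4 := allLT_iff.1 hf d (by omega)
    simp only [force_eq, Bool.or_eq_true, Nat.beq_eq, List.all_eq_true, Bool.not_eq_true'] at h4
    rcases h4 with rfl | h4
    · refine ⟨rfl, ?_⟩
      rw [pow_zero, one_mul, inv_one, mul_one] at e1
      rw [(hr r h1).1.rep.eq_pack (hr r h1).2.2, e1, ← (hr r' h2).1.rep.eq_pack (hr r' h2).2.2]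
    · have := h4 r h1 r' h2
      rw [e2, Nat.beq_refl] at this
      cases this
  let T := (Finset.range n ×ˢ reps.toFinset).image f
  have hT : T.card = n * reps.length := by
    rw [Finset.card_image_of_injOn, Finset.card_product, Finset.card_range,
      List.toFinset_card_of_nodup hnd]
    rintro ⟨k, r⟩ ha ⟨l, r'⟩ hb e
    simp only [Finset.coe_product, Finset.coe_range, List.coe_toFinset, Set.mem_prod, Set.mem_Iio,
      Set.mem_ofPred_eq] at ha hb
    rcases le_total l k with h | h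
    · exact Prod.ext (key k l r r' h ha.1 ha.2 hb.2 e).1 (key k l r r' h ha.1 ha.2 hb.2 e).2
    · exact (Prod.ext (key l k r' r h hb.1 hb.2 ha.2 e.symm).1
        (key l k r' r h hb.1 hb.2 ha.2 e.symm).2).symm
  have hsub : (T : Set (Equiv.Perm GolayPt)) ⊆ {g | g ∈ G ∧ orderOf g = 2} := by
    intro g hg
    obtain ⟨⟨k, r⟩, ha, rfl⟩ := Finset.mem_image.1 hg
    have h1 := hr r (List.mem_toFinset.1 (Finset.mem_product.1 ha).2)
    refine ⟨G.mul_mem (G.mul_mem (G.pow_mem hx.2 k) h1.1.2) (G.inv_mem (G.pow_mem hx.2 k)), ?_⟩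
    rw [← h1.1.rep.orderOf_eq h1.2.1]
    exact (MulAut.conj (toPerm x ^ k)).orderOf_eq _
  have heq := Set.eq_of_subset_of_ncard_le hsub (by rwa [Set.ncard_coe_finset, hT])
  have : s ∈ (T : Set (Equiv.Perm GolayPt)) := heq ▸ ⟨hs, ho⟩
  obtain ⟨⟨k, r⟩, ha, e⟩ := Finset.mem_image.1 this
  exact ⟨k, Finset.mem_range.1 (Finset.mem_product.1 ha).1, r,
    List.mem_toFinset.1 (Finset.mem_product.1 ha).2, e⟩

/-- The number of involutions of a group with one class of involutions. -/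
theorem ncard_invol {G : Subgroup (Equiv.Perm GolayPt)} {reps : List (ℕ × ℕ × ℕ)}
    (h : IsClassList G reps) {t c : ℕ} (ht : reps.filter (fun r => Nat.beq r.2.1 2) = [(t, 2, c)])
    {m : ℕ} (hc : 0 < c) (hm : Nat.card G = m * c) :
    {g | g ∈ G ∧ orderOf g = 2}.ncard ≤ m ∧
      ∀ g ∈ G, orderOf g = 2 → Nat.card ↥(G ⊓ centralizer {g}) = c := by
  have h1 : (t, 2, c) ∈ reps := (List.mem_filter.1 (ht ▸ List.mem_singleton_self _)).1
  have h2 : ∀ g ∈ G, orderOf g = 2 → ∃ k ∈ G, k * toPerm t * k⁻¹ = g := by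
    intro g hg ho
    obtain ⟨r, hr, k, hk, e⟩ := h.exists_of_order hg ho
    rw [ht, List.mem_singleton] at hr
    subst hr
    exact ⟨k, hk, e⟩
  refine ⟨?_, fun g hg ho => ?_⟩
  · have h3 := PK.ncard_clsOf_mul G (toPerm t)
    rw [h.cent _ h1, hm] at h3
    rw [← Nat.eq_of_mul_eq_mul_right hc h3]
    exact Set.ncard_le_ncard (fun g hg => h2 g hg.1 hg.2)
  · obtain ⟨k, hk, e⟩ := h2 g hg ho
    exact h.card_cent_conj h1 hk e

theorem inSub_of_conj {K : Subgroup (Equiv.Perm GolayPt)} {x r k : ℕ} (hx : InSub K x)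
    (hr : isPerm r = true) (h : toPerm x ^ k * toPerm r * (toPerm x ^ k)⁻¹ ∈ K) : InSub K r := by
  refine ⟨hr, ?_⟩
  have := K.mul_mem (K.mul_mem (K.inv_mem (K.pow_mem hx.2 k)) h) (K.pow_mem hx.2 k)
  simpa [mul_assoc] using this

theorem isCoatom_comap {A G : Type*} [Group A] [Group G] {φ : A →* G} (hφ : Function.Injective φ)
    {B : Subgroup G} (hB : B ≤ φ.range) (hne : B ≠ φ.range)
    (h : ∀ K, B ≤ K → K ≤ φ.range → K = B ∨ K = φ.range) : IsCoatom (B.comap φ) := by
  refine ⟨fun e => hne (le_antisymm hB ?_), fun K hK => ?_⟩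
  · rintro _ ⟨a, rfl⟩
    exact (e ▸ mem_top a : a ∈ B.comap φ)
  · have h1 : B ≤ K.map φ := (map_comap_eq_self hB).symm.le.trans (map_mono hK.le)
    rcases h _ h1 (map_le_range φ K) with e | e
    · exact absurd (by rw [← e, comap_map_eq_self_of_injective hφ]) hK.ne
    · rw [← comap_map_eq_self_of_injective hφ K, e, MonoidHom.comap_range_self]

end Cfsg.Lib.Class.M24I
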