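import Cfsg.Agent.Class.DecSL

/-!
# Maximality of the monomial group in `SL₄`
-/

set_option autoImplicit false
set_option linter.unusedSectionVars false

namespace Cfsg.Lib.Class.Mono

open Module Submodule FE Equiv

section Arith

variable {F : Type*} [Field F]

theorem sum_eq_of_maps {Q : Finset F} {f : F → F} (hf : Function.Injective f)
    (h : ∀ x ∈ Q, f x ∈ Q) : ∑ x ∈ Q, f x = ∑ x ∈ Q, x := by
  classical
  have : Q.image f = Q := Finset.eq_of_subset_of_card_le (Finset.image_subset_iff.2 h)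
    (by rw [Finset.card_image_of_injective _ hf])
  conv_rhs => rw [← this, Finset.sum_image hf.injOn]

variable [Fintype F]

open Polynomial in
theorem exists_prod_four (h2 : (2 : F) ≠ 0) {μ : F} (h0 : μ ≠ 0) (h4 : μ ^ 4 ≠ 1) {c : F}
    (hc : c ≠ 0) : ∃ s t w : F, (1 - s ^ 2) * (1 - t ^ 2) * w ^ 4 = c := by
  classical
  by_contra! H
  let Q : Finset F := Finset.univ.image fun s ↦ 1 - s ^ 2
  have hQ : Fintype.card F ≤ 2 * Q.card := by
    have h1 : (1 - X ^ 2 : F[X]).natDegree = 2 := by compute_degree!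
    have := FiniteField.card_image_polynomial_eval (p := (1 - X ^ 2 : F[X]))
      (natDegree_pos_iff_degree_pos.1 (by omega))
    simpa [h1] using this
  have hodd : Fintype.card F % 2 = 1 := FiniteField.odd_card_of_char_ne_two fun e ↦ h2 (by
    exact_mod_cast (ringChar.spec F 2).2 (e ▸ dvd_rfl))
  let W : Finset F := Finset.univ.filter fun x ↦ x ≠ 0 ∧ ∃ s w : F, x = (1 - s ^ 2) * w ^ 4
  have hW : 2 * W.card ≤ Fintype.card F - 1 := by
    have h1 : Disjoint W (W.image fun x ↦ c / x) := Finset.disjoint_left.2 fun x hx hx' ↦ by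
      obtain ⟨y, hy, rfl⟩ := Finset.mem_image.1 hx'
      obtain ⟨hy0, s, w, rfl⟩ := (Finset.mem_filter.1 hy).2
      obtain ⟨-, t, w', e⟩ := (Finset.mem_filter.1 hx).2
      refine H s t (w * w') ?_
      rw [div_eq_iff hy0] at e
      rw [e]
      ring
    have h3 : W ∪ (W.image fun x ↦ c / x) ⊆ Finset.univ.erase 0 := fun x hx ↦ by
      rcases Finset.mem_union.1 hx with hx | hx
      · simpa using (Finset.mem_filter.1 hx).2.1
      · obtain ⟨y, hy, rfl⟩ := Finset.mem_image.1 hx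
        simpa [hc] using (Finset.mem_filter.1 hy).2.1
    have h5 := Finset.card_le_card h3
    rw [Finset.card_union_of_disjoint h1, Finset.card_image_of_injective _
      (fun x y (e : c / x = c / y) ↦ inv_injective (mul_left_cancel₀ hc
        (by simpa only [div_eq_mul_inv] using e))), Finset.card_erase_of_mem (Finset.mem_univ _),
      Finset.card_univ] at h5
    omega
  have hQ0 : (0 : F) ∈ Q := Finset.mem_image.2 ⟨1, by simp⟩
  have hU := Finset.card_erase_of_mem hQ0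
  have hUW : Q.erase 0 ⊆ W := fun x hx ↦ by
    obtain ⟨h5, h6⟩ := Finset.mem_erase.1 hx
    obtain ⟨s, -, rfl⟩ := Finset.mem_image.1 h6
    exact Finset.mem_filter.2 ⟨Finset.mem_univ _, h5, s, 1, by simp⟩
  have h5 := Finset.card_le_card hUW
  have h6 : Q.erase 0 = W := Finset.eq_of_subset_of_card_le hUW (by omega)
  have h7 := sum_eq_of_maps (Q := Q) (f := fun x ↦ μ ^ 4 * x)
    (mul_right_injective₀ (pow_ne_zero 4 h0)) fun x hx ↦ by
      by_cases e : x = 0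
      · simpa [e] using hQ0
      obtain ⟨s, -, rfl⟩ := Finset.mem_image.1 hx
      refine Finset.mem_of_mem_erase (a := 0) ?_
      rw [h6]
      exact Finset.mem_filter.2
        ⟨Finset.mem_univ _, mul_ne_zero (pow_ne_zero 4 h0) e, s, μ, mul_comm _ _⟩
  have h8 := sum_eq_of_maps (Q := Q) (f := fun x ↦ (1 - μ ^ 4) + μ ^ 4 * x)
    ((add_right_injective _).comp (mul_right_injective₀ (pow_ne_zero 4 h0))) fun x hx ↦ by
      obtain ⟨s, -, rfl⟩ := Finset.mem_image.1 hx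
      exact Finset.mem_image.2 ⟨μ ^ 2 * s, Finset.mem_univ _, by ring⟩
  rw [Finset.sum_add_distrib, h7, add_eq_right, Finset.sum_const, nsmul_eq_mul,
    mul_eq_zero, or_iff_left (sub_ne_zero.2 h4.symm)] at h8
  have h9 : ((2 * Q.card : ℕ) : F) = (Fintype.card F + 1 : ℕ) := by
    congr 1
    omega
  simp [h8] at h9

theorem exists_pow_four_ne (hq : 7 ≤ Fintype.card F) : ∃ μ : F, μ ≠ 0 ∧ μ ^ 4 ≠ 1 := by
  classical
  obtain ⟨μ, hμ⟩ := IsCyclic.exists_ofOrder_eq_natCard (α := Fˣ)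
  rw [Nat.card_eq_fintype_card, Fintype.card_units] at hμ
  exact ⟨μ, μ.ne_zero, fun e ↦ pow_ne_one_of_lt_orderOf (by omega)
    (show 4 < orderOf μ by omega) (Units.ext (by simpa using e))⟩

theorem exists_sum_zero {μ : F} (h0 : μ ≠ 0) (h4 : μ ^ 4 ≠ 1) {D : F} (hD : D ≠ 0) :
    ∃ z : Fin 4 → F, ∑ i, z i = 0 ∧ ∏ i, z i = D ∧ ∃ k l, z k ^ 2 ≠ z l ^ 2 := by
  by_cases h : ∃ w, w ^ 4 = D
  · obtain ⟨w, rfl⟩ := h
    have hw : w ≠ 0 := fun e ↦ hD (by simp [e])
    refine ⟨![w / μ, -(w / μ), w * μ, -(w * μ)], by simp [Fin.sum_univ_four], ?_, 0, 2, fun e ↦ ?_⟩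
    · simp only [Fin.prod_univ_four, Matrix.cons_val]
      field_simp
    · simp only [Matrix.cons_val] at e
      field_simp at e
      exact h4 e.symm
  push Not at h
  have h2 : (2 : F) ≠ 0 := fun h2 ↦ by
    have : CharP F 2 := (CharP.charP_iff_prime_eq_zero Nat.prime_two).2 (by exact_mod_cast h2)
    obtain ⟨a, rfl⟩ := FiniteField.isSquare_of_char_two (F := F) (ringChar.eq F 2) D
    obtain ⟨b, rfl⟩ := FiniteField.isSquare_of_char_two (F := F) (ringChar.eq F 2) a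
    exact h b (by ring)
  obtain ⟨s, t, w, e⟩ := exists_prod_four h2 h0 h4 hD
  have hw : w ≠ 0 := fun e' ↦ hD (by simp [← e, e'])
  refine ⟨![w * (1 + s), w * (1 - s), w * (t - 1), -(w * (t + 1))], ?_, ?_, ?_⟩
  · simp only [Fin.sum_univ_four, Matrix.cons_val]
    ring
  · simp only [Fin.prod_univ_four, Matrix.cons_val, ← e]
    ring
  by_contra! hc
  have h5 := hc 0 1
  have h6 := hc 2 3
  simp only [Matrix.cons_val] at h5 h6
  have h7 : (2 * w) ^ 2 ≠ 0 := pow_ne_zero _ (mul_ne_zero h2 hw)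
  have h8 : s = 0 := (mul_eq_zero.1 (by linear_combination h5)).resolve_left h7
  have h9 : t = 0 := (mul_eq_zero.1 (by linear_combination -h6)).resolve_left h7
  exact h w (by simpa [h8, h9] using e)

end Arith

variable {F : Type*} [Field F] {ι : Type} [Fintype ι] [DecidableEq ι]
  {X : Subgroup ((ι → F) ≃ₗ[F] (ι → F))}

theorem exists_ne_three (hι : 4 ≤ Fintype.card ι) (a b c : ι) : ∃ x, x ≠ a ∧ x ≠ b ∧ x ≠ c := by
  by_contra! h
  have h1 : (Finset.univ : Finset ι) ⊆ {a, b, c} := fun x _ ↦ by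
    simp only [Finset.mem_insert, Finset.mem_singleton]
    by_contra! hc
    exact hc.2.2 (h x hc.1 hc.2.1)
  have h2 := (Finset.card_le_card h1).trans Finset.card_le_three
  rw [Finset.card_univ] at h2
  omega

theorem MonSL.elem_of_tvIn' (hX : MonSL X) (hι : 4 ≤ Fintype.card ι) {μ : F} (h0 : μ ≠ 0)
    (h1 : μ ≠ 1) {k : ι} {χ : Dual F (ι → F)} (hχ : χ ≠ 0) (h : TvIn X (ee k) χ) : Elem X := by
  obtain ⟨j, hj⟩ := exists_ee_ne_zero hχ
  have hkj : k ≠ j := by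
    rintro rfl
    exact hj h.apply_eq
  obtain ⟨l, hl1, hl2, -⟩ := exists_ne_three hι j k k
  obtain ⟨m, hm1, hm2, hm3⟩ := exists_ne_three hι j k l
  have key : ∀ {l : ι} {ν : F} {χ : Dual F (ι → F)}, ν ≠ 0 → l ≠ j → l ≠ k → TvIn X (ee k) χ →
      TvIn X (ee k) (χ + ((ν - 1) * χ (ee j)) • pr j + ((ν⁻¹ - 1) * χ (ee l)) • pr l) := by
    intro l ν χ hν e1 e2 h
    obtain ⟨t, ht, e, -⟩ := hX.exists_dg e1.symm (inv_ne_zero hν)
    convert h.conj ht (ψ := χ + ((ν - 1) * χ (ee j)) • pr j + ((ν⁻¹ - 1) * χ (ee l)) • pr l)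
      fun x ↦ ?_ using 1
    · simp [e, hkj.symm, e2]
    · simp only [e, LinearMap.add_apply, map_add, map_smul, LinearMap.smul_apply,
        LinearMap.proj_apply, smul_eq_mul, Pi.single_eq_same, Pi.single_eq_of_ne e1,
        Pi.single_eq_of_ne e1.symm]
      field_simp
      ring
  have h2 := (key h0 hl1 hl2 h).sub_right h
  have h3 := (key h0 hm1 hm2 h2).sub_right h2
  have h4 : TvIn X (ee k) (((μ - 1) * ((μ - 1) * χ (ee j))) • pr j) := by
    convert h3 using 1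
    simp [hl1, hm1.symm, hm3.symm]
  have h5 : (μ - 1) * ((μ - 1) * χ (ee j)) ≠ 0 :=
    mul_ne_zero (sub_ne_zero.2 h1) (mul_ne_zero (sub_ne_zero.2 h1) hj)
  refine hX.elem_of_fullTv hkj (FullTv.of_smul_right h5 fun c ↦ ?_)
  by_cases hc : c = 0
  · simpa [hc] using TvIn.zero_left X _
  rw [TvIn.smul_iff]
  convert key hc hl1 hl2 h4 using 1
  simp only [LinearMap.smul_apply, LinearMap.proj_apply, Pi.single_eq_same,
    Pi.single_eq_of_ne hl1.symm, smul_eq_mul]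
  module

theorem MonSL.elem_of_sub' (hX : MonSL X) (hι : 4 ≤ Fintype.card ι) {μ : F} (h0 : μ ≠ 0)
    (h1 : μ ≠ 1) {k : ι} {x x' : (ι → F) ≃ₗ[F] (ι → F)} (hx : x ∈ X) (hx' : x' ∈ X)
    {ρ : Dual F (ι → F)} (h : ∀ w, x' w = x w + ρ w • ee k) {s : F} (hk : x (ee k) = s • ee k)
    (h2 : ρ (ee k) = 0) (h3 : ρ ≠ 0) : Elem X := by
  refine hX.elem_of_tvIn' hι h0 h1 (k := k) (χ := ρ ∘ₗ x.symm.toLinearMap) (fun e ↦ h3 ?_)
    ⟨?_, x' * x⁻¹, X.mul_mem hx' (X.inv_mem hx), fun v ↦ by simp [h]⟩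
  · exact LinearMap.ext fun w ↦ by simpa using LinearMap.congr_fun e (x w)
  · have hs : s ≠ 0 := fun e ↦ by
      rw [e, zero_smul, x.map_eq_zero_iff] at hk
      simpa using congrFun hk k
    have : x.symm (ee k) = s⁻¹ • ee k := by
      rw [LinearEquiv.symm_apply_eq, map_smul, hk, smul_smul, inv_mul_cancel₀ hs, one_smul]
    simp [this, h2]

variable [Fintype F]

theorem MonSL.elem_of_lift' (hX : MonSL X) (hq : 5 ≤ Fintype.card F) (hι : 4 ≤ Fintype.card ι)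
    {x : (ι → F) ≃ₗ[F] (ι → F)} (hx : x ∈ X) {i j k : ι} (hij : i ≠ j) (hik : i ≠ k)
    (hjk : j ≠ k) {c : F} {χ : Dual F (ι → F)} (e : ∀ v, x v = v + (c * v j) • ee i + χ v • ee k)
    (h : c ≠ 0 ∨ ∃ l, l ≠ k ∧ χ (ee l) ≠ 0) : Elem X := by
  obtain ⟨μ, h0, h1, h2, -⟩ := exists_ne_four hq 0 1 (-1) 0
  have hk : x (ee k) = (1 + χ (ee k)) • ee k := by simp [e, hjk, add_smul]
  obtain ⟨l, hli, hlj, hlk⟩ := exists_ne_three hι i j k
  by_cases h3 : ∃ m, m ≠ k ∧ χ (ee m) ≠ 0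
  · obtain ⟨m, hmk, hm⟩ := h3
    obtain ⟨t, ht, e1, e2⟩ := hX.exists_dg hlk.symm h0
    refine hX.elem_of_sub' hι h0 h1 hx (X.mul_mem (X.mul_mem ht hx) (X.inv_mem ht))
      (ρ := (μ - 1) • (χ - χ (ee k) • pr k + (μ * χ (ee l)) • pr l)) (fun w ↦ ?_) hk
      (by simp [hlk]) fun e3 ↦ ?_
    · simp only [LinearEquiv.mul_apply, e, e1, e2, map_add, map_smul, Pi.add_apply, Pi.smul_apply,
        smul_eq_mul, Pi.single_eq_same, Pi.single_eq_of_ne hlk, Pi.single_eq_of_ne hlk.symm,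
        Pi.single_eq_of_ne hjk, Pi.single_eq_of_ne hlj.symm, Pi.single_eq_of_ne hik.symm,
        Pi.single_eq_of_ne hli, LinearMap.smul_apply, LinearMap.add_apply, LinearMap.sub_apply,
        LinearMap.proj_apply]
      match_scalars <;> field_simp <;> ring
    · rw [smul_eq_zero_iff_right (sub_ne_zero.2 h1)] at e3
      have e4 := LinearMap.congr_fun e3 (ee l)
      have e5 := LinearMap.congr_fun e3 (ee m)
      simp only [LinearMap.add_apply, LinearMap.sub_apply, LinearMap.smul_apply,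
        LinearMap.proj_apply, Pi.single_eq_of_ne hlk.symm, Pi.single_eq_of_ne hmk.symm,
        Pi.single_eq_same, smul_eq_mul, LinearMap.zero_apply] at e4 e5
      have e6 : χ (ee l) = 0 :=
        (mul_eq_zero.1 (by linear_combination e4)).resolve_left (add_eq_zero_iff_eq_neg.not.2 h2)
      exact hm (by simpa [e6] using e5)
  replace h := h.resolve_right h3
  push Not at h3
  have h4 : ∀ v, χ v = v k * χ (ee k) := fun v ↦ by
    rw [dual_apply_eq_sum, Finset.sum_eq_single k (fun m _ hm ↦ by simp [h3 m hm]) (by simp)]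
  obtain ⟨t, ht, e1, e2⟩ := hX.exists_dg hlj.symm h0
  refine hX.elem_of_sub' hι h0 h1 hx (X.mul_mem (X.mul_mem ht hx) (X.inv_mem ht)) (k := i)
    (ρ := ((μ⁻¹ - 1) * c) • pr j) (fun w ↦ ?_) (s := 1) (by simp [e, hij.symm, h3 i hik])
    (by simp [hij.symm]) (smul_ne_zero (mul_ne_zero
      (sub_ne_zero.2 fun e ↦ h1 (inv_eq_one.1 e)) h) fun e ↦ by
        simpa using LinearMap.congr_fun e (ee j))
  simp only [LinearEquiv.mul_apply, e, e1, e2, map_add, map_smul, Pi.add_apply, Pi.smul_apply,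
    smul_eq_mul, Pi.single_eq_same, Pi.single_eq_of_ne hlk, Pi.single_eq_of_ne hjk,
    Pi.single_eq_of_ne hlj.symm, Pi.single_eq_of_ne hlj, Pi.single_eq_of_ne hij.symm,
    Pi.single_eq_of_ne hli, LinearMap.smul_apply, LinearMap.proj_apply, h3 l hlk, h3 j hjk]
  match_scalars <;> field_simp <;> ring

/-- An element fixing a coordinate axis is monomial unless `X` contains all root subgroups. -/
theorem MonSL.isMon_of_fix' (hX : MonSL X) (hq : 5 ≤ Fintype.card F) (hι : 4 ≤ Fintype.card ι)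
    (hE : ¬ Elem X) {x : (ι → F) ≃ₗ[F] (ι → F)} (hx : x ∈ X) {k : ι}
    (hk : ∀ i, i ≠ k → x (ee k) i = 0) : IsMon x := by
  obtain ⟨y, hy⟩ := exists_induced hk
  by_cases hm : IsMon y
  · obtain ⟨σ, c, rfl⟩ := hm.exists_eq_mono
    obtain ⟨n, hn, hn', e⟩ := hX.exists_lift k σ c
    have h1 : ∀ v, res k ((n⁻¹ * x) v) = res k v := fun v ↦ (mono σ c).injective (by
      rw [e, hy]
      simp)
    obtain ⟨i, hik, -⟩ := exists_ne_three hι k k k
    obtain ⟨j, hjk, hji, -⟩ := exists_ne_three hι k i k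
    have h2 : ∀ l, l ≠ k → (pr k ∘ₗ (n⁻¹ * x).toLinearMap - pr k : Dual F (ι → F)) (ee l) = 0 := by
      by_contra! hc
      exact hE (hX.elem_of_lift' hq hι (X.mul_mem (X.inv_mem hn) hx) hji.symm hik hjk (c := 0)
        (fun v ↦ by simpa using eq_add_of_res (h1 v)) (Or.inr hc))
    have h3 : IsMon (n⁻¹ * x) := fun l ↦ ⟨l, fun m hm ↦ by
      by_cases e : m = k
      · simpa [e, e ▸ hm] using h2 l (e ▸ hm.symm)
      · simpa [hm] using congrFun (h1 (ee l)) ⟨m, e⟩⟩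
    simpa using hn'.mul h3
  obtain ⟨i, j, hij, h⟩ := exists_elementary (Y := quo X k) hq (by simp; omega) (fun σ c ↦ by
    obtain ⟨n, hn, -, e⟩ := hX.exists_lift k σ c
    exact ⟨n, hn, e⟩) ⟨x, hx, hy⟩ hm
  obtain ⟨-, y', ⟨x', hx', e⟩, e'⟩ := h 1
  have h1 : ∀ v, res k (x' v) = res k (v + (1 * v j) • ee i.1) := fun v ↦ by
    rw [← e, e', map_add, map_smul, res_ee]
    simp
  refine (hE (hX.elem_of_lift' hq hι hx' (Subtype.val_injective.ne hij) i.2 j.2 (c := 1)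
    (χ := pr k ∘ₗ x'.toLinearMap - pr k) (fun v ↦ ?_) (Or.inl one_ne_zero))).elim
  simpa [i.2.symm] using eq_add_of_res (h1 v)

theorem MonSL.isMon_of_col' (hX : MonSL X) (hq : 5 ≤ Fintype.card F) (hι : 4 ≤ Fintype.card ι)
    (hE : ¬ Elem X) {x : (ι → F) ≃ₗ[F] (ι → F)} (hx : x ∈ X) {j k : ι}
    (hk : ∀ i, i ≠ k → x (ee j) i = 0) : IsMon x := by
  obtain ⟨c, hc, -⟩ := hX.exists_mono (swap j k) 1 j
  have := hX.isMon_of_fix' hq hι hE (X.mul_mem hx hc) (k := k) fun i hi ↦ by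
    simp [mono_ee, hk i hi, -mono_apply]
  simpa using this.mul (isMon_mono (swap j k) c).inv


variable {g : (ι → F) ≃ₗ[F] (ι → F)}

theorem MonSL.exists_hom (hX : MonSL X) (hι : Fintype.card ι = 4) (j : ι) {μ : F} (h0 : μ ≠ 0) :
    ∃ t ∈ X, ∀ v, t v = μ⁻¹ • (v + ((μ ^ 4 - 1) * v j) • ee j) := by
  refine ⟨mono 1 (Function.update (fun _ ↦ (Units.mk0 μ h0)⁻¹) j (Units.mk0 μ h0 ^ 3)),
    hX _ _ ?_, fun v ↦ ?_⟩
  · ext
    simp only [det_mono, ← Units.coe_prod, Finset.prod_update_of_mem (Finset.mem_univ j)]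
    simp [Finset.card_sdiff, hι]
  · ext i
    rw [mono_one_apply]
    by_cases e : i = j
    · simp [e]
      field_simp
      ring
    · simp [e]

theorem pow_six_of_fix (hι : Fintype.card ι = 4) {σ : Perm ι} {j : ι} (h : σ j = j) :
    σ ^ 6 = 1 := by
  have h1 := (MulAction.stabilizer (Perm ι) j).card_mul_index
  rw [MulAction.index_stabilizer_of_transitive, Nat.card_perm, Nat.card_eq_fintype_card (α := ι),
    hι] at h1
  have h2 : Nat.card (MulAction.stabilizer (Perm ι) j) = 6 := by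
    simp only [Nat.factorial] at h1
    omega
  have := pow_card_eq_one' (x := (⟨σ, h⟩ : MulAction.stabilizer (Perm ι) j))
  rw [h2] at this
  exact congrArg Subtype.val this

theorem Ctx.supp_two (hX : Ctx X) (hι : Fintype.card ι = 4) {μ : F} (h0 : μ ≠ 0) (h4 : μ ^ 4 ≠ 1)
    (hg : g ∈ X) (hm : ¬ IsMon g) {m j : ι} (hz : g⁻¹ (ee m) j = 0) :
    μ ^ 4 = -1 ∧ ∃ p p', p ≠ p' ∧ g (ee j) p = 0 ∧ g (ee j) p' = 0 := by
  obtain ⟨t, ht, e⟩ := hX.mon.exists_hom hι j h0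
  have e1 : ∀ x, (g * t * g⁻¹) x = μ⁻¹ • (x + ((μ ^ 4 - 1) * g⁻¹ x j) • g (ee j)) := fun x ↦ by
    simp [e]
  have h1 := hX.col _ (X.mul_mem (X.mul_mem hg ht) (X.inv_mem hg)) m m fun i hi ↦ by
    rw [e1, hz]
    simp [hi]
  have h5 := sub_ne_zero.2 h4
  have key : ∀ k, g⁻¹ (ee k) j ≠ 0 → 1 + (μ ^ 4 - 1) * g⁻¹ (ee k) j * g (ee j) k = 0 ∧
      ∃ n, k ≠ n ∧ ∀ p, p ≠ k → p ≠ n → g (ee j) p = 0 := fun k hk ↦ by
    obtain ⟨n, hn⟩ := h1 k
    simp only [e1, Pi.smul_apply, Pi.add_apply, smul_eq_mul, mul_eq_zero, inv_eq_zero, h0,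
      false_or] at hn
    have h6 : ∀ p, p ≠ k → p ≠ n → g (ee j) p = 0 := fun p h6 h7 ↦ by
      have := hn p h7
      rwa [ee, Pi.single_eq_of_ne h6, zero_add, mul_eq_zero,
        or_iff_right (mul_ne_zero h5 hk)] at this
    have h7 : k ≠ n := by
      rintro rfl
      exact hm (hX.col g hg j k fun p hp ↦ h6 p hp hp)
    exact ⟨by simpa using hn k h7, n, h7, h6⟩
  obtain ⟨k, hk⟩ := exists_row_ne_zero g⁻¹ j
  obtain ⟨h6, n, hkn, h7⟩ := key k hk
  have h8 := dual_apply_eq_sum (pr j ∘ₗ (g⁻¹).toLinearMap) (g (ee j))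
  rw [Fintype.sum_eq_add k n hkn fun p hp ↦ by rw [h7 p hp.1 hp.2, zero_mul]] at h8
  simp only [LinearMap.comp_apply, LinearEquiv.coe_coe, LinearMap.proj_apply] at h8
  rw [show g⁻¹ (g (ee j)) = ee j by simp, ee, Pi.single_eq_same] at h8
  obtain ⟨p, p1, p2, -⟩ := exists_ne_three hι.ge k n n
  obtain ⟨p', p3, p4, p5⟩ := exists_ne_three hι.ge k n p
  refine ⟨?_, p', p, p5, h7 _ p3 p4, h7 _ p1 p2⟩
  by_cases hn : g⁻¹ (ee n) j = 0
  · rw [hn] at h8
    exact absurd (by linear_combination h6 + (μ ^ 4 - 1) * h8) (pow_ne_zero 4 h0)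
  · linear_combination h6 + (key n hn).1 + (μ ^ 4 - 1) * h8

theorem Ctx.nz (hX : Ctx X) (hι : Fintype.card ι = 4) {μ : F} (h0 : μ ≠ 0) (h4 : μ ^ 4 ≠ 1)
    (hg : g ∈ X) (hm : ¬ IsMon g) (m j : ι) : g (ee m) j ≠ 0 := by
  intro hz
  replace hm : ¬ IsMon g⁻¹ := fun h ↦ hm (by simpa using h.inv)
  obtain ⟨h1, p, p', hp, h2, h3⟩ := hX.supp_two hι h0 h4 (X.inv_mem hg) hm (m := m) (j := j)
    (by simpa using hz)
  replace hg := X.inv_mem hg
  generalize g⁻¹ = g at *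
  obtain ⟨t, ht, e, -⟩ := hX.mon.exists_dg hp h0
  obtain ⟨σ, c, hc⟩ := hX.exists_perm hg ht (u := j) (by simp [e, h2, h3])
  have h5 : σ j = j := by
    by_contra hne
    have := hc j
    rw [e, h2, h3, ← map_smul] at this
    simp only [mul_zero, zero_smul, add_zero, EmbeddingLike.apply_eq_iff_eq] at this
    simpa [Ne.symm hne] using congrFun this j
  have h6 : ∀ (n : ℕ) w, ∃ d : F, (t ^ n) (g (ee w)) = d • g (ee ((σ ^ n) w)) := fun n w ↦ by
    induction n with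
    | zero => exact ⟨1, by simp⟩
    | succ n ih =>
      obtain ⟨d, hd⟩ := ih
      exact ⟨d * c ((σ ^ n) w), by
        rw [pow_succ', LinearEquiv.mul_apply, hd, map_smul, hc, smul_smul, pow_succ']
        rfl⟩
  have h7 : ∀ (n : ℕ) v i, (t ^ n) v i =
      (if i = p then μ else if i = p' then μ⁻¹ else 1) ^ n * v i := fun n v i ↦ by
    induction n with
    | zero => simp
    | succ n ih =>
      rw [pow_succ', LinearEquiv.mul_apply, e]
      split_ifs at ih ⊢ with e1 e2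
      · simp [e1, hp, e1 ▸ ih]
        ring
      · simp [e2, hp.symm, e2 ▸ ih]
        ring
      · simp [e1, e2, ih]
  obtain ⟨w, hw⟩ := exists_row_ne_zero g p
  obtain ⟨i, hi, hi'⟩ : ∃ i, i ≠ p ∧ g (ee w) i ≠ 0 := by
    by_contra! hc
    exact hm (hX.col g hg w p hc)
  obtain ⟨d, hd⟩ := h6 6 w
  rw [pow_six_of_fix hι h5, Perm.one_apply] at hd
  have h8 := congrFun hd p
  have h9 := congrFun hd i
  rw [h7, if_pos rfl, Pi.smul_apply, smul_eq_mul, mul_left_inj' hw] at h8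
  rw [h7, if_neg hi, Pi.smul_apply, smul_eq_mul, mul_left_inj' hi', ← h8] at h9
  refine h4 (h1.trans ?_)
  split_ifs at h9
  · field_simp at h9
    linear_combination -h9 - (μ ^ 8 - μ ^ 4 + 1) * h1
  · linear_combination -(μ ^ 6 + 1) * h9 - (μ ^ 8 - μ ^ 4 + 1) * h1

theorem Ctx.isMon_four (hX : Ctx X) (hq : 7 ≤ Fintype.card F) (hι : Fintype.card ι = 4)
    (hg : g ∈ X) : IsMon g := by
  by_contra hm
  obtain ⟨μ, h0, h4⟩ := exists_pow_four_ne hq
  have f := Fintype.equivFinOfCardEq hι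
  let u := f.symm 0
  have n1 := hX.nz hι h0 h4 hg hm
  have n2 := hX.nz hι h0 h4 (X.inv_mem hg) fun h ↦ hm (by simpa using h.inv)
  have ha : ∀ k, g⁻¹ (ee u) k * g (ee k) u ≠ 0 := fun k ↦ mul_ne_zero (n2 _ _) (n1 _ _)
  obtain ⟨z, z1, z2, k, l, z3⟩ := exists_sum_zero h0 h4
    (Finset.prod_ne_zero_iff.2 fun k (_ : k ∈ Finset.univ) ↦ ha k)
  have z0 : ∀ i, z i ≠ 0 := fun i ↦ Finset.prod_ne_zero_iff.1
    (z2 ▸ Finset.prod_ne_zero_iff.2 fun k _ ↦ ha k) i (Finset.mem_univ i)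
  obtain ⟨k, rfl⟩ := f.surjective k
  obtain ⟨l, rfl⟩ := f.surjective l
  have hkl : k ≠ l := fun e ↦ z3 (by rw [e])
  have ht : mono 1 (fun i ↦ Units.mk0 _ (div_ne_zero (z0 (f i)) (ha i))) ∈ X := hX.mon _ _ (by
    ext
    simp only [det_mono, Units.val_mk0, Finset.prod_div_distrib, f.prod_comp z, z2]
    simpa using div_self (Finset.prod_ne_zero_iff.2 fun k _ ↦ ha k))
  set t := mono 1 fun i ↦ Units.mk0 _ (div_ne_zero (z0 (f i)) (ha i))
  have h1 : ∀ i, t (g⁻¹ (ee u)) i * g (ee i) u = z (f i) := fun i ↦ by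
    rw [mono_one_apply, Units.val_mk0, mul_assoc, div_mul_cancel₀ _ (ha i)]
  have h2 : g (t (g⁻¹ (ee u))) u = 0 := by
    have := dual_apply_eq_sum (pr u ∘ₗ g.toLinearMap) (t (g⁻¹ (ee u)))
    simp only [LinearMap.comp_apply, LinearEquiv.coe_coe, LinearMap.proj_apply, h1] at this
    rw [this, f.sum_comp z, z1]
  have hr := div_ne_zero (z0 (f l)) (z0 (f k))
  obtain ⟨d, hd, e, -⟩ := hX.mon.exists_dg hkl hr
  have h3 : IsMon (g * t * g⁻¹) := by
    by_contra hc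
    exact hX.nz hι h0 h4 (X.mul_mem (X.mul_mem hg ht) (X.inv_mem hg)) hc u u h2
  have h5 : IsMon (g * d * t * g⁻¹) := by
    by_contra hc
    refine hX.nz hι h0 h4 (X.mul_mem (X.mul_mem (X.mul_mem hg hd) ht) (X.inv_mem hg)) hc u u ?_
    simp only [LinearEquiv.mul_apply, e, map_add, map_smul, Pi.add_apply, Pi.smul_apply,
      smul_eq_mul, h2, mul_assoc, h1]
    have := z0 (f k)
    have := z0 (f l)
    field_simp
    ring
  have h6 : IsMon (g * d * g⁻¹) := by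
    convert h5.mul h3.inv using 1
    group
  set r := z (f l) / z (f k)
  have r1 : r ^ 2 ≠ 1 := fun e ↦ z3 (by
    rw [div_pow, div_eq_one_iff_eq (pow_ne_zero 2 (z0 _))] at e
    exact e.symm)
  have h7 : ∀ i, (g * d * g⁻¹) (ee i) i = 0 := fun i ↦ by
    obtain ⟨n, hn⟩ := h6 i
    refine hn i ?_
    rintro rfl
    obtain ⟨p, p1, p2, -⟩ := exists_ne_three hι.ge k l l
    have h8 : d (g⁻¹ (ee i)) = (g * d * g⁻¹) (ee i) i • g⁻¹ (ee i) := by
      rw [← map_smul, ← show (g * d * g⁻¹) (ee i) = (g * d * g⁻¹) (ee i) i • ee i from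
        funext fun m ↦ by by_cases e : m = i <;> simp [e, hn, -LinearEquiv.mul_apply]]
      simp
    generalize (g * d * g⁻¹) (ee i) i = s at h8
    have h9 := congrFun h8 p
    have h10 := congrFun h8 k
    simp only [e, Pi.add_apply, Pi.smul_apply, smul_eq_mul, Pi.single_eq_same,
      Pi.single_eq_of_ne p1, Pi.single_eq_of_ne p2, Pi.single_eq_of_ne hkl] at h9 h10
    have h11 : s = 1 := mul_right_cancel₀ (n2 i p) (by linear_combination -h9)
    have h12 : r = 1 := mul_right_cancel₀ (n2 i k) (by rw [h11] at h10; linear_combination h10)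
    exact r1 (by simp [h12])
  have h8 : ∀ m, ∑ i, g (ee m) i * g⁻¹ (ee i) m = 1 := fun m ↦ by
    simpa using (dual_apply_eq_sum (pr m ∘ₗ (g⁻¹).toLinearMap) (g (ee m))).symm
  have h9 : ∑ i, (g * d * g⁻¹) (ee i) i =
      ∑ i, (1 + (r - 1) * (g (ee k) i * g⁻¹ (ee i) k) + (r⁻¹ - 1) * (g (ee l) i * g⁻¹ (ee i) l)) :=
    Finset.sum_congr rfl fun i _ ↦ by
      simp only [LinearEquiv.mul_apply, e, map_add, map_smul, Pi.add_apply, Pi.smul_apply,
        smul_eq_mul]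
      rw [show g (g⁻¹ (ee i)) = ee i by simp, ee, Pi.single_eq_same]
      ring
  simp only [h7, Finset.sum_add_distrib, ← Finset.mul_sum, h8, Finset.sum_const, Finset.card_univ,
    hι, nsmul_eq_mul] at h9
  have h10 : (r + 1) ^ 2 = 0 := by
    field_simp at h9
    push_cast at h9
    linear_combination -h9
  exact r1 (by linear_combination (r - 1) * (pow_eq_zero_iff two_ne_zero).1 h10)

theorem MonSL.SLV_le_four (hX : MonSL X) (hq : 7 ≤ Fintype.card F) (hι : Fintype.card ι = 4)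
    (hg : g ∈ X) (hm : ¬ IsMon g) : SLV F (ι → F) ≤ X := by
  by_cases hE : Elem X
  · exact SLV_le_of_elementary (LinearEquiv.refl F _) X fun i j hij c ↦ hE i j hij c
  · exact (hm (Ctx.isMon_four ⟨hX, fun _ hx _ _ h ↦
      hX.isMon_of_col' (by omega) hι.ge hE hx h⟩ hq hι hg)).elim

end Cfsg.Lib.Class.Mono
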