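import Cfsg.Agent.Class.TensBasic

/-!
# Overgroups of the monomial group in the general linear group
-/

set_option autoImplicit false
set_option linter.unusedSectionVars false

namespace Cfsg.Lib.Class.Mono

open Module Submodule FE Equiv

section Hom

variable {F V : Type*} [Field F] [AddCommGroup V] [Module F V] {Y : Subgroup (V ≃ₗ[F] V)}
  {a a' b : V} {α α' β : Dual F V}

/-- All homologies with centre `a` and axis `α` lie in `Y`. -/
def HomIn (Y : Subgroup (V ≃ₗ[F] V)) (a : V) (α : Dual F V) : Prop :=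
  α a = 1 ∧ ∀ l : F, l ≠ 0 → ∃ h ∈ Y, ∀ x, h x = x + ((l - 1) * α x) • a

/-- All transvections with centre `b` and axis `β` lie in `Y`. -/
def FullTv (Y : Subgroup (V ≃ₗ[F] V)) (b : V) (β : Dual F V) : Prop :=
  ∀ c : F, TvIn Y (c • b) β

theorem HomIn.conj (h : HomIn Y a α) {k : V ≃ₗ[F] V} (hk : k ∈ Y) (hα : ∀ x, α' (k x) = α x) :
    HomIn Y (k a) α' := by
  refine ⟨by rw [hα, h.1], fun l hl ↦ ?_⟩
  obtain ⟨g, hg, e⟩ := h.2 l hl
  refine ⟨k * g * k⁻¹, Y.mul_mem (Y.mul_mem hk hg) (Y.inv_mem hk), fun x ↦ ?_⟩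
  obtain ⟨x, rfl⟩ := k.surjective x
  simp [e, hα]

theorem FullTv.conj (h : FullTv Y b β) {k : V ≃ₗ[F] V} (hk : k ∈ Y) (hβ : ∀ x, α (k x) = β x) :
    FullTv Y (k b) α := fun c ↦ by simpa using (h c).conj hk hβ

theorem FullTv.of_smul {c : F} (hc : c ≠ 0) (h : FullTv Y (c • b) β) : FullTv Y b β := fun d ↦ by
  simpa [smul_smul, hc] using h (d / c)

theorem FullTv.of_smul_right {c : F} (hc : c ≠ 0) (h : FullTv Y b (c • β)) : FullTv Y b β :=
  FullTv.of_smul hc fun d ↦ by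
    rw [smul_comm, TvIn.smul_iff]
    exact h d

theorem FullTv.sub_left (h : FullTv Y a β) (h' : FullTv Y b β) : FullTv Y (a - b) β := fun c ↦ by
  simpa [smul_sub] using (h c).sub_left (h' c)

theorem FullTv.sub_right (h : FullTv Y b α) (h' : FullTv Y b β) : FullTv Y b (α - β) := fun c ↦
  (h c).sub_right (h' c)

theorem FullTv.apply_eq (h : FullTv Y b β) : β b = 0 := by simpa using (h 1).apply_eq

/-- Two groups of homologies in degenerate position produce transvections. -/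
theorem HomIn.fullTv {μ : F} (h0 : μ ≠ 0) (h1 : μ ≠ 1) (h : HomIn Y a α) (h' : HomIn Y a' α')
    (h2 : α a' = 0) (h3 : α' a ≠ 0) : FullTv Y a' α := by
  obtain ⟨k, hk, ek⟩ := h'.2 μ h0
  obtain ⟨g₂, hg₂, e₂⟩ := (h.conj hk (α' := α) fun x ↦ by simp [ek, h2]).2 μ h0
  obtain ⟨g₁, hg₁, e₁⟩ := h.2 μ⁻¹ (inv_ne_zero h0)
  have h4 : TvIn Y (((1 - μ⁻¹) * ((μ - 1) * α' a)) • a') α := by
    refine ⟨by simp [h2], g₂ * g₁, Y.mul_mem hg₂ hg₁, fun x ↦ ?_⟩
    simp only [LinearEquiv.mul_apply, e₁, e₂, ek, map_add, map_smul, h.1, smul_eq_mul]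
    match_scalars <;> field_simp <;> ring
  have h5 : (1 - μ⁻¹) * ((μ - 1) * α' a) ≠ 0 :=
    mul_ne_zero (sub_ne_zero.2 fun e ↦ h1 (inv_eq_one.1 e.symm))
      (mul_ne_zero (sub_ne_zero.2 h1) h3)
  refine FullTv.of_smul h5 fun c ↦ ?_
  by_cases hc : c = 0
  · simpa [hc] using TvIn.zero_left Y α
  obtain ⟨k', hk', ek'⟩ := h'.2 c hc
  convert h4.conj hk' (ψ := α) fun x ↦ by simp [ek', h2] using 1
  rw [map_smul, ek', h'.1]
  module

end Hom

variable {F : Type*} [Field F] {ι : Type} [Fintype ι] [DecidableEq ι]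

/-- The standard basis vector. -/
abbrev ee (i : ι) : ι → F := Pi.single i 1

/-- The coordinate functional. -/
abbrev pr (i : ι) : Dual F (ι → F) := LinearMap.proj i

theorem dual_apply_eq_sum (α : Dual F (ι → F)) (v : ι → F) : α v = ∑ i, v i * α (ee i) := by
  rw [LinearMap.pi_apply_eq_sum_univ]
  refine Finset.sum_congr rfl fun i _ ↦ ?_
  rw [smul_eq_mul]
  congr 2
  ext j
  simp [Pi.single_apply, eq_comm]

theorem exists_ee_ne_zero {α : Dual F (ι → F)} (h : α ≠ 0) : ∃ i, α (ee i) ≠ 0 := by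
  by_contra! hc
  exact h (LinearMap.ext fun v ↦ by simp [dual_apply_eq_sum α v, hc])

/-- A monomial transformation. -/
def mono (σ : Perm ι) (c : ι → Fˣ) : (ι → F) ≃ₗ[F] (ι → F) where
  toFun v i := c (σ.symm i) * v (σ.symm i)
  invFun v i := ((c i)⁻¹ : Fˣ) * v (σ i)
  map_add' u v := by
    ext i
    simp [mul_add]
  map_smul' r v := by
    ext i
    simp [mul_left_comm]
  left_inv v := by
    ext i
    simp
  right_inv v := by
    ext i
    simp

@[simp] theorem mono_one_apply (c : ι → Fˣ) (v : ι → F) (i : ι) :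
    mono 1 c v i = c i * v i := rfl

@[simp] theorem mono_apply (σ : Perm ι) (c : ι → Fˣ) (v : ι → F) (i : ι) :
    mono σ c v i = c (σ.symm i) * v (σ.symm i) := rfl

theorem mono_inv_apply (σ : Perm ι) (c : ι → Fˣ) (v : ι → F) (i : ι) :
    (mono σ c)⁻¹ v i = ((c i)⁻¹ : Fˣ) * v (σ i) := rfl

theorem mono_ee (σ : Perm ι) (c : ι → Fˣ) (j : ι) :
    mono σ c (ee j) = (c j : F) • ee (σ j) := by
  ext i
  obtain ⟨i, rfl⟩ := σ.surjective i
  by_cases h : i = j <;> simp [h]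

theorem det_mono (σ : Perm ι) (c : ι → Fˣ) :
    (LinearEquiv.det (mono σ c) : F) = Perm.sign σ * ∏ i, (c i : F) := by
  have : (mono σ c : (ι → F) →ₗ[F] (ι → F)) =
      Matrix.toLin' ((Matrix.diagonal fun i ↦ (c i : F)).submatrix σ.symm id) := by
    ext j i
    simp [Matrix.diagonal_apply, Pi.single_apply]
  rw [LinearEquiv.coe_det, this, LinearMap.det_toLin', Matrix.det_permute, Matrix.det_diagonal,
    Perm.sign_symm]

/-- The homology with centre `ee i`. -/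
def dg (i : ι) {μ : F} (h : μ ≠ 0) : (ι → F) ≃ₗ[F] (ι → F) :=
  mono 1 (Function.update 1 i (Units.mk0 μ h))

theorem dg_apply (i : ι) {μ : F} (h : μ ≠ 0) (v : ι → F) :
    dg i h v = v + ((μ - 1) * v i) • ee i := by
  ext j
  by_cases hj : j = i
  · subst hj
    simp [dg, -mono_apply]
    ring
  · simp [dg, hj, -mono_apply]

/-- A map sending each basis vector to a multiple of a basis vector. -/
def IsMon (g : (ι → F) ≃ₗ[F] (ι → F)) : Prop := ∀ j, ∃ i, ∀ k, k ≠ i → g (ee j) k = 0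

theorem exists_two_of_not {v : ι → F} [Nonempty ι] (h : ¬ ∃ i, ∀ k, k ≠ i → v k = 0) :
    ∃ i j, i ≠ j ∧ v i ≠ 0 ∧ v j ≠ 0 := by
  push Not at h
  obtain ⟨i, -, hi⟩ := h (Classical.arbitrary ι)
  obtain ⟨j, hj, hj'⟩ := h i
  exact ⟨i, j, hj.symm, hi, hj'⟩

variable {Y : Subgroup ((ι → F) ≃ₗ[F] (ι → F))}

theorem homIn_ee (hY : ∀ c, mono 1 c ∈ Y) (i : ι) : HomIn Y (ee i) (pr i) :=
  ⟨by simp, fun _ hl ↦ ⟨dg i hl, hY _, dg_apply i hl⟩⟩

open Classical in
theorem exists_fullTv_ee (hY : ∀ c, mono 1 c ∈ Y) {μ : F} (h0 : μ ≠ 0) (h1 : μ ≠ 1) (n : ℕ) :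
    ∀ (b : ι → F) (β : Dual F (ι → F)), (Finset.univ.filter fun i ↦ b i ≠ 0).card = n → b ≠ 0 →
      β ≠ 0 → FullTv Y b β → ∃ i β', β' ≠ 0 ∧ FullTv Y (ee i) β' := by
  induction n using Nat.strong_induction_on with
  | _ n ih =>
  intro b β hn hb hβ h
  have h2 := sub_ne_zero.2 h1
  obtain ⟨i, hi⟩ := Function.ne_iff.1 hb
  replace hi : b i ≠ 0 := hi
  by_cases h3 : β (ee i) = 0
  · refine ⟨i, β, hβ, FullTv.of_smul (mul_ne_zero h2 hi) ?_⟩
    simpa [dg_apply] using (h.conj (k := dg i h0) (hY _) (α := β)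
      fun x ↦ by simp [dg_apply, h3]).sub_left h
  have h4 := h.conj (k := dg i h0) (hY _) (α := β + ((μ⁻¹ - 1) * β (ee i)) • pr i) fun x ↦ by
    simp only [dg_apply, LinearMap.add_apply, map_add, map_smul, LinearMap.smul_apply,
      LinearMap.proj_apply, smul_eq_mul, Pi.single_eq_same]
    field_simp
    ring
  have h5 : μ⁻¹ - 1 ≠ 0 := sub_ne_zero.2 fun e ↦ h1 (inv_eq_one.1 e)
  set β' := β + ((μ⁻¹ - 1) * β (ee i)) • pr i
  have h6 : β' b = (μ⁻¹ - 1) * β (ee i) * b i := by simp [β', h.apply_eq]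
  have h7 : β' b ≠ 0 := h6 ▸ mul_ne_zero (mul_ne_zero h5 h3) hi
  set κ := -(μ * β' b)⁻¹
  have h8 : FullTv Y (b + (κ * β' b) • dg i h0 b) (β - β (κ • dg i h0 b) • β') := fun c ↦ by
    convert (h c).conj_tv (h4 κ) using 1
    rw [map_smul]
    module
  have h9 : ∀ j, (b + (κ * β' b) • dg i h0 b) j = if j = i then 0 else (1 - μ⁻¹) * b j :=
    fun j ↦ by
      split_ifs with hj
      · simp only [hj, dg_apply, κ, Pi.add_apply, Pi.smul_apply, smul_eq_mul, Pi.single_eq_same]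
        field_simp
        ring
      · simp only [dg_apply, κ, Pi.add_apply, Pi.smul_apply, smul_eq_mul, Pi.single_eq_of_ne hj]
        field_simp
        ring
  refine ih _ ?_ _ _ rfl (fun e ↦ ?_) (fun e ↦ hβ (LinearMap.ext fun x ↦ ?_)) h8
  · rw [← hn]
    refine Finset.card_lt_card ⟨fun j hj ↦ ?_, fun hc ↦ ?_⟩
    · simp only [Finset.mem_filter, Finset.mem_univ, true_and, h9] at hj ⊢
      exact fun e ↦ hj (by simp [e])
    · simpa [h9] using hc (x := i) (by simpa using hi)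
  · have h10 : b = b i • ee i := by
      ext j
      by_cases hj : j = i
      · simp [hj]
      · have := h9 j
        rw [e, if_neg hj, Pi.zero_apply, eq_comm, mul_eq_zero] at this
        simpa [hj] using this.resolve_left fun e ↦ h5 (by linear_combination -e)
    have := h.apply_eq
    rw [h10, map_smul, smul_eq_mul] at this
    exact mul_ne_zero hi h3 this
  · have := LinearMap.congr_fun e (x + β' x • κ • dg i h0 b)
    simpa [h4.apply_eq, mul_comm] using this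

theorem exists_elementary_of_fullTv (hY : ∀ c, mono 1 c ∈ Y) {μ : F} (h0 : μ ≠ 0) (h1 : μ ≠ 1)
    {b : ι → F} {β : Dual F (ι → F)} (hb : b ≠ 0) (hβ : β ≠ 0) (h : FullTv Y b β) :
    ∃ i j, i ≠ j ∧ FullTv Y (ee i) (pr j) := by
  classical
  obtain ⟨i, β', h2, h3⟩ := exists_fullTv_ee hY h0 h1 _ b β rfl hb hβ h
  obtain ⟨j, hj⟩ := exists_ee_ne_zero h2
  have hij : i ≠ j := by
    rintro rfl
    exact hj h3.apply_eq
  have h4 := h3.conj (k := dg j h0) (hY _) (α := β' + ((μ⁻¹ - 1) * β' (ee j)) • pr j) fun x ↦ by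
    simp only [dg_apply, LinearMap.add_apply, map_add, map_smul, LinearMap.smul_apply,
      LinearMap.proj_apply, smul_eq_mul, Pi.single_eq_same]
    field_simp
    ring
  rw [show dg j h0 (ee i) = ee i by simp [dg_apply, hij.symm]] at h4
  refine ⟨i, j, hij, FullTv.of_smul_right
    (mul_ne_zero (sub_ne_zero.2 fun e ↦ h1 (inv_eq_one.1 e)) hj) ?_⟩
  simpa using h4.sub_right h3

variable [Fintype F]

theorem exists_ne_four (hq : 5 ≤ Fintype.card F) (a b c d : F) :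
    ∃ x, x ≠ a ∧ x ≠ b ∧ x ≠ c ∧ x ≠ d := by
  classical
  by_contra! h
  have h1 : (Finset.univ : Finset F) ⊆ {a, b, c, d} := fun x _ ↦ by
    simp only [Finset.mem_insert, Finset.mem_singleton]
    by_contra! hc
    exact hc.2.2.2 (h x hc.1 hc.2.1 hc.2.2.1)
  have h2 := (Finset.card_le_card h1).trans Finset.card_le_four
  rw [Finset.card_univ] at h2
  omega

open Polynomial in
theorem exists_torus (hq : 5 ≤ Fintype.card F) {s : ι → F} {i j k : ι} (hij : i ≠ j) (hik : i ≠ k)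
    (hjk : j ≠ k) (hi : s i ≠ 0) (hj : s j ≠ 0) (hk : s k ≠ 0) :
    ∃ t : ι → Fˣ, ∑ l, s l * t l = 0 ∧ ∑ l, s l * ((t l)⁻¹ : Fˣ) ≠ 0 := by
  classical
  let R := ((Finset.univ.erase i).erase j).erase k
  have hsum : ∀ f : ι → F, ∑ l, f l = f i + f j + f k + ∑ l ∈ R, f l := fun f ↦ by
    rw [← Finset.add_sum_erase _ f (Finset.mem_univ i),
      ← Finset.add_sum_erase _ f (a := j) (by simp [hij.symm]),
      ← Finset.add_sum_erase _ f (a := k) (by simp [hik.symm, hjk.symm])]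
    ring
  set ρ := ∑ l ∈ R, s l
  obtain ⟨z, hz0, hz, -⟩ := exists_ne_four hq 0 (-ρ / s k) 0 0
  have hσ : s k * z + ρ ≠ 0 := fun e ↦ hz (by field_simp; linear_combination e)
  set σ := s k * z + ρ
  set τ := s k * z⁻¹ + ρ
  let p : F[X] := X * (C σ + C (s i) * X) *
    (C (s i) * (C σ + C (s i) * X) - C (s j ^ 2) * X + C τ * X * (C σ + C (s i) * X))
  obtain ⟨x, hx⟩ : ∃ x, p.eval x ≠ 0 := by
    by_contra! hc
    have h1 : p.natDegree ≤ 4 := by
      unfold p
      compute_degree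
    have h2 := p.eq_zero_of_natDegree_lt_card_of_eval_eq_zero Function.injective_id hc (by omega)
    simp only [p, mul_eq_zero, X_ne_zero, false_or] at h2
    rcases h2 with h2 | h2 <;> simpa [hσ, hi] using congrArg (eval 0) h2
  simp only [p, eval_mul, eval_X, eval_add, eval_C, eval_sub, ne_eq, mul_eq_zero, not_or] at hx
  obtain ⟨⟨h1, h2⟩, h3⟩ := hx
  have h4 : -(σ + s i * x) / s j ≠ 0 := div_ne_zero (neg_ne_zero.2 h2) hj
  refine ⟨fun l ↦ if l = i then Units.mk0 x h1 else if l = j then Units.mk0 _ h4 else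
    if l = k then Units.mk0 z hz0 else 1, ?_, ?_⟩
  · rw [hsum, Finset.sum_congr rfl (g := s) fun l hl ↦ by simp_all [R]]
    simp only [if_true, hij.symm, hik.symm, hjk.symm, if_false, Units.val_mk0, σ]
    field_simp
    ring
  · rw [hsum, Finset.sum_congr rfl (g := s) fun l hl ↦ by simp_all [R]]
    simp only [if_true, hij.symm, hik.symm, hjk.symm, if_false, Units.val_inv_eq_inv_val,
      Units.val_mk0]
    intro e
    apply h3
    have e' : s i * x⁻¹ + s j * (-(σ + s i * x) / s j)⁻¹ + τ = 0 := by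
      rw [← e]
      ring
    field_simp at e'
    linear_combination e'

theorem exists_fullTv_of_homIn (hq : 5 ≤ Fintype.card F) (hY : ∀ c, mono 1 c ∈ Y) {a : ι → F}
    {α : Dual F (ι → F)} (h : HomIn Y a α) {i j : ι} (hij : i ≠ j) (hi : a i ≠ 0) (hj : a j ≠ 0)
    (h3 : (∃ k, i ≠ k ∧ j ≠ k ∧ a k ≠ 0) ∨ a i * α (ee i) ≠ a j * α (ee j)) :
    ∃ b β, b ≠ 0 ∧ β ≠ 0 ∧ FullTv Y b β := by
  obtain ⟨μ, h0, h1, -⟩ := exists_ne_four hq 0 1 0 0
  have hα : α ≠ 0 := fun e ↦ by simpa [e] using h.1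
  have ha : a ≠ 0 := fun e ↦ hi (by simp [e])
  by_cases c1 : ∃ k, a k ≠ 0 ∧ α (ee k) = 0
  · obtain ⟨k, h4, h5⟩ := c1
    exact ⟨ee k, α, by simp, hα, h.fullTv h0 h1 (homIn_ee hY k) h5 h4⟩
  by_cases c2 : ∃ k, a k = 0 ∧ α (ee k) ≠ 0
  · obtain ⟨k, h4, h5⟩ := c2
    exact ⟨a, pr k, ha, fun e ↦ by simpa using LinearMap.congr_fun e (ee k),
      (homIn_ee hY k).fullTv h0 h1 h h4 h5⟩
  push Not at c1 c2
  obtain ⟨t, h4, h5⟩ : ∃ t : ι → Fˣ, ∑ l, a l * α (ee l) * t l = 0 ∧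
      ∑ l, a l * α (ee l) * ((t l)⁻¹ : Fˣ) ≠ 0 := by
    by_cases c3 : ∃ k, i ≠ k ∧ j ≠ k ∧ a k ≠ 0
    · obtain ⟨k, hik, hjk, hk⟩ := c3
      exact exists_torus hq hij hik hjk (mul_ne_zero hi (c1 i hi)) (mul_ne_zero hj (c1 j hj))
        (mul_ne_zero hk (c1 k hk))
    · replace h3 := h3.resolve_left c3
      push Not at c3
      have hsum : ∀ f : ι → F, ∑ l, a l * α (ee l) * f l =
          a i * α (ee i) * f i + a j * α (ee j) * f j := fun f ↦
        Fintype.sum_eq_add i j hij fun l hl ↦ by rw [c3 l hl.1.symm hl.2.symm]; simp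
      have h6 := mul_ne_zero hi (c1 i hi)
      have h7 := mul_ne_zero hj (c1 j hj)
      have h8 := hsum 1
      simp only [Pi.one_apply, mul_one, ← dual_apply_eq_sum, h.1] at h8
      refine ⟨fun l ↦ if l = i then Units.mk0 _ (neg_ne_zero.2 h7) else Units.mk0 _ h6, ?_, ?_⟩
      · rw [hsum]
        simp only [if_true, hij.symm, if_false, Units.val_mk0]
        ring
      · rw [hsum]
        simp only [if_true, hij.symm, if_false, Units.val_inv_eq_inv_val, Units.val_mk0]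
        generalize a i * α (ee i) = x at *
        generalize a j * α (ee j) = y at *
        intro e
        field_simp at e
        exact h3 (by linear_combination -e + (x - y) * h8)
  refine ⟨mono 1 t a, α, (map_ne_zero_iff _ (mono 1 t).injective).2 ha, hα,
    h.fullTv h0 h1 (h.conj (hY t) (α' := α ∘ₗ (mono 1 t)⁻¹.toLinearMap) fun x ↦ by simp) ?_ ?_⟩
  · rw [dual_apply_eq_sum, ← h4]
    exact Finset.sum_congr rfl fun l _ ↦ by rw [mono_one_apply]; ring
  · rw [LinearMap.comp_apply, dual_apply_eq_sum]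
    convert h5 using 2 with l
    rw [LinearEquiv.coe_coe, mono_inv_apply, Perm.one_apply]
    ring

/-- An overgroup of the monomial group contains an elementary root subgroup. -/
theorem exists_elementary (hq : 5 ≤ Fintype.card F) (hι : 3 ≤ Fintype.card ι)
    (hY : ∀ σ c, mono σ c ∈ Y) {y : (ι → F) ≃ₗ[F] (ι → F)} (hy : y ∈ Y) (hm : ¬ IsMon y) :
    ∃ i j, i ≠ j ∧ FullTv Y (ee i) (pr j) := by
  obtain ⟨μ, h0, h1, h2, -⟩ := exists_ne_four hq 0 1 (-1) 0
  suffices ∃ b β, b ≠ 0 ∧ β ≠ 0 ∧ FullTv Y b β by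
    obtain ⟨b, β, hb, hβ, h⟩ := this
    exact exists_elementary_of_fullTv (hY 1) h0 h1 hb hβ h
  obtain ⟨l, hl⟩ := not_forall.1 hm
  have : Nonempty ι := ⟨l⟩
  obtain ⟨i, j, hij, hi, hj⟩ := exists_two_of_not hl
  have h := (homIn_ee (hY 1) l).conj hy (α' := pr l ∘ₗ y⁻¹.toLinearMap) fun x ↦ by simp
  generalize y (ee l) = a at *
  generalize pr l ∘ₗ y⁻¹.toLinearMap = α at *
  by_cases h3 : (∃ k, i ≠ k ∧ j ≠ k ∧ a k ≠ 0) ∨ a i * α (ee i) ≠ a j * α (ee j)
  · exact exists_fullTv_of_homIn hq (hY 1) h hij hi hj h3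
  push Not at h3
  obtain ⟨h3, h4⟩ := h3
  obtain ⟨k, hik, hjk⟩ : ∃ k, i ≠ k ∧ j ≠ k := by
    by_contra! hc
    have h5 : (Finset.univ : Finset ι) ⊆ {i, j} := fun x _ ↦ by
      by_cases e : i = x
      · simp [e]
      · simp [hc x e]
    have := (Finset.card_le_card h5).trans Finset.card_le_two
    rw [Finset.card_univ] at this
    omega
  have hsum : ∀ v : ι → F, v k = 0 → (∀ l, i ≠ l → j ≠ l → k ≠ l → v l = 0) →
      α v = v i * α (ee i) + v j * α (ee j) := fun v h5 h6 ↦ by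
    rw [dual_apply_eq_sum]
    refine Fintype.sum_eq_add i j hij fun l hl ↦ ?_
    by_cases e : k = l
    · rw [← e, h5, zero_mul]
    · rw [h6 l hl.1.symm hl.2.symm e, zero_mul]
  have h5 := hsum a (h3 k hik hjk) fun l h5 h6 _ ↦ h3 l h5 h6
  rw [h.1, h4] at h5
  by_cases c2 : α (ee k) = 0
  swap
  · exact ⟨a, pr k, fun e ↦ hi (by simp [e]), fun e ↦ by simpa using LinearMap.congr_fun e (ee k),
      (homIn_ee (hY 1) k).fullTv h0 h1 h (h3 k hik hjk) c2⟩
  obtain ⟨g, hg, e⟩ := h.2 μ h0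
  have h6 := (h.conj (hY (swap i k) 1) (α' := α ∘ₗ (mono (swap i k) 1)⁻¹.toLinearMap)
    fun x ↦ by simp).conj hg (α' := (α ∘ₗ (mono (swap i k) 1)⁻¹.toLinearMap) ∘ₗ g⁻¹.toLinearMap)
    fun x ↦ by simp
  have h7 : mono (swap i k) 1 a = a j • ee j + a i • ee k := by
    ext l
    by_cases e1 : l = i
    · simp [e1, hij, hik, h3 k hik hjk]
    by_cases e2 : l = k
    · simp [e2, hjk.symm]
    by_cases e3 : l = j
    · simp [e3, hjk, swap_apply_of_ne_of_ne hij.symm hjk]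
    · simp [swap_apply_of_ne_of_ne e1 e2, e2, e3, h3 l (Ne.symm e1) (Ne.symm e3)]
  have h8 : a j * α (ee j) ≠ 0 := fun e ↦ by simp [e] at h5
  refine exists_fullTv_of_homIn hq (hY 1) h6 hij ?_ ?_ (Or.inl ⟨k, hik, hjk, ?_⟩)
  · simp [e, h7, c2, hij, hik, hi, sub_ne_zero.2 h1, hj, right_ne_zero_of_mul h8]
  · simp only [e, h7, c2, map_add, map_smul, smul_eq_mul, mul_zero, add_zero, Pi.add_apply,
      Pi.smul_apply, Pi.single_eq_same, Pi.single_eq_of_ne hjk, mul_one]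
    intro e
    apply mul_ne_zero (mul_ne_zero hj h8) (add_eq_zero_iff_eq_neg.not.2 h2)
    linear_combination e - a j * h5
  · simp [e, h7, hjk.symm, hi, h3 k hik hjk]

end Cfsg.Lib.Class.Mono
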