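import Cfsg.Agent.Class.MonoSL

/-!
# Maximality of the monomial group in the special linear group
-/

set_option autoImplicit false
set_option linter.unusedSectionVars false

namespace Cfsg.Lib.Class.Mono

open Module Submodule FE Equiv

variable {F : Type*} [Field F] {ι : Type} [Fintype ι] [DecidableEq ι]
  {X : Subgroup ((ι → F) ≃ₗ[F] (ι → F))}

theorem exists_even (hι : 6 ≤ Fintype.card ι) {a b z z' : ι} (h1 : z ≠ a) (h2 : z ≠ b)
    (h3 : z' ≠ a) (h4 : z' ≠ b) :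
    ∃ σ : Perm ι, Perm.sign σ = 1 ∧ σ a = b ∧ σ z = z ∧ σ z' = z' := by
  by_cases hab : a = b
  · exact ⟨1, by simp, hab, rfl, rfl⟩
  obtain ⟨k, k1, k2, k3, k4, -⟩ := exists_ne_five hι a b z z' a
  obtain ⟨l, l1, l2, l3, l4, l5⟩ := exists_ne_five hι a b z z' k
  refine ⟨swap a b * swap k l, by simp [hab, l5.symm], ?_, ?_, ?_⟩
  · simp [swap_apply_of_ne_of_ne k1.symm l1.symm]
  · simp [swap_apply_of_ne_of_ne k3.symm l3.symm, swap_apply_of_ne_of_ne h1 h2]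
  · simp [swap_apply_of_ne_of_ne k4.symm l4.symm, swap_apply_of_ne_of_ne h3 h4]

theorem false_of_const (hι : 6 ≤ Fintype.card ι) {B : ι → ι → F} {u : ι} (hu : ∀ i, B u i = 1)
    (hB : ∀ σ : Perm ι, Perm.sign σ = 1 →
      ∃ (τ : Perm ι) (c : ι → Fˣ), ∀ w i, B w i = c w * B (τ w) (σ i))
    (hind : ∀ w w' s, (∀ i, B w i = s * B w' i) → w = w')
    (hz : ∀ w i j, B w i = 0 → B w j = 0 → i = j) : False := by
  obtain ⟨x, hx, -⟩ := exists_ne_five hι u u u u u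
  let H : Subgroup (alternatingGroup ι) :=
    { carrier := {σ | ∃ s : Fˣ, ∀ i, B x i = s * B x (σ.1 i)}
      one_mem' := ⟨1, by simp⟩
      mul_mem' := by
        rintro σ τ ⟨s, hs⟩ ⟨s', hs'⟩
        exact ⟨s' * s, fun i ↦ by rw [hs', hs (τ.1 i), Units.val_mul, mul_assoc]; rfl⟩
      inv_mem' := by
        rintro σ ⟨s, hs⟩
        exact ⟨s⁻¹, fun i ↦ by rw [hs (σ⁻¹.1 i)]; simp⟩ }
  have hH : H = ⊤ := by
    by_contra hne
    have := alternatingGroup.isSimpleGroup (α := ι) (by rw [Nat.card_eq_fintype_card]; omega)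
    have h1 : H.normalCore = ⊥ := (IsSimpleGroup.eq_bot_or_eq_top_of_normal _ inferInstance
      ).resolve_right fun e ↦ hne (top_le_iff.1 (e ▸ H.normalCore_le))
    rw [Subgroup.normalCore_eq_ker, MonoidHom.ker_eq_bot_iff] at h1
    have h2 := Nat.card_le_card_of_injective _ h1
    choose τ c hc using fun σ : alternatingGroup ι ↦ hB σ.1 σ.2
    have h3 : Function.Injective fun q : alternatingGroup ι ⧸ H ↦
        (⟨τ q.out x, fun e ↦ hx (hind x u (c q.out x) fun i ↦ by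
          rw [hc q.out x i, e, hu, hu])⟩ : {i // i ≠ u}) := fun q q' e ↦ by
      rw [← q.out_eq, ← q'.out_eq, QuotientGroup.eq]
      refine ⟨c q'.out x * (c q.out x)⁻¹, fun i ↦ ?_⟩
      rw [hc q'.out x i, hc q.out x ((q.out⁻¹ * q'.out).1 i), Subtype.mk.inj e]
      simp [mul_assoc]
    have h4 := Nat.card_le_card_of_injective _ h3
    have : Nontrivial ι := ⟨x, u, hx⟩
    have h5 := two_mul_nat_card_alternatingGroup (α := ι)
    rw [Nat.card_perm] at h2 h5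
    simp only [Nat.card_eq_fintype_card (α := {i // i ≠ u}), Fintype.card_subtype_compl,
      Fintype.card_unique] at h4
    obtain ⟨n, hn⟩ : ∃ n, Fintype.card ι = n + 1 := ⟨Fintype.card ι - 1, by omega⟩
    rw [Nat.card_eq_fintype_card (α := ι), hn, Nat.factorial_succ] at h5
    have h6 := h2.trans (Nat.factorial_le (h4.trans (show _ ≤ n by omega)))
    nlinarith [Nat.factorial_pos n]
  refine hx (hind x u (B x u) fun i ↦ ?_)
  obtain ⟨m, hmi, hmu, hm⟩ : ∃ m, m ≠ i ∧ m ≠ u ∧ B x m ≠ 0 := by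
    obtain ⟨m, h1, h2, -⟩ := exists_ne_five hι i u u u u
    obtain ⟨m', h3, h4, h5, -⟩ := exists_ne_five hι i u m u u
    by_cases e : B x m = 0
    · exact ⟨m', h3, h4, fun e' ↦ h5 (hz x _ _ e' e)⟩
    · exact ⟨m, h1, h2, e⟩
  obtain ⟨σ, h1, h2, h3, -⟩ := exists_even hι hmi hmu hmi hmu
  obtain ⟨s, hs⟩ : (⟨σ, h1⟩ : alternatingGroup ι) ∈ H := hH ▸ Subgroup.mem_top _
  have h4 := hs m
  rw [hs i]
  simp only [h2, h3, hu] at h4 ⊢
  rw [(mul_eq_right₀ hm).1 h4.symm, mul_comm]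

theorem struct_of_one_zero (hι : 6 ≤ Fintype.card ι) {B : ι → ι → F} {u : ι} {ζ : ι → ι}
    (hζ : ∀ w i, B w i = 0 ↔ i = ζ w) (hu : ∀ i, i ≠ ζ u → B u i = 1)
    (hB : ∀ σ : Perm ι, Perm.sign σ = 1 → σ (ζ u) = ζ u →
      ∃ (τ : Perm ι) (c : ι → Fˣ), ∀ w i, B w i = c w * B (τ w) (σ i))
    (hrow : ∃ x, ζ x ≠ ζ u) :
    Function.Bijective ζ ∧ ∃ r : ι → Fˣ, ∀ x i, i ≠ ζ u → i ≠ ζ x → B x i = r x := by
  obtain ⟨x, hx⟩ := hrow
  have h0 : ∀ {σ τ : Perm ι} {c : ι → Fˣ}, (∀ w i, B w i = c w * B (τ w) (σ i)) →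
      ∀ w, σ (ζ w) = ζ (τ w) := fun h w ↦ by
    have := h w (ζ w)
    rw [(hζ w _).2 rfl, eq_comm, Units.mul_right_eq_zero] at this
    exact (hζ _ _).1 this
  have h1 : Function.Bijective ζ := Finite.surjective_iff_bijective.1 fun i ↦ by
    by_cases e : ζ u = i
    · exact ⟨u, e⟩
    obtain ⟨σ, h1, h2, h3, -⟩ := exists_even hι hx.symm e hx.symm e
    obtain ⟨τ, c, h⟩ := hB σ h1 h3
    exact ⟨τ x, by rw [← h0 h, h2]⟩
  refine ⟨h1, ?_⟩
  have h2 : ∀ x, ∃ r : Fˣ, ∀ i, i ≠ ζ u → i ≠ ζ x → B x i = r := fun x ↦ by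
    obtain ⟨j, hj1, hj2, -⟩ := exists_ne_five hι (ζ u) (ζ x) u u u
    refine ⟨Units.mk0 (B x j) ((hζ _ _).not.2 hj2), fun i hi1 hi2 ↦ ?_⟩
    by_cases e : x = u
    · simp [e, hu i hi1, hu j hj1]
    obtain ⟨σ, s1, s2, s3, s4⟩ := exists_even hι hi1.symm hj1.symm hi2.symm hj2.symm
    obtain ⟨τ, c, h⟩ := hB σ s1 s3
    have h3 : τ x = x := h1.1 (by rw [← h0 h, s4])
    have h4 := h x (ζ u)
    rw [h3, s3, eq_comm, mul_eq_right₀ ((hζ _ _).not.2 (h1.1.ne (Ne.symm e)))] at h4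
    rw [h x i, h3, s2, h4, one_mul, Units.val_mk0]
  choose r hr using h2
  exact ⟨r, hr⟩

/-- The standing hypotheses on a proper overgroup of the monomial group. -/
structure Ctx (X : Subgroup ((ι → F) ≃ₗ[F] (ι → F))) : Prop where
  mon : MonSL X
  col : ∀ x ∈ X, ∀ j k, (∀ i, i ≠ k → x (ee j) i = 0) → IsMon x

variable {g : (ι → F) ≃ₗ[F] (ι → F)}

theorem Ctx.exists_perm (hX : Ctx X) (hg : g ∈ X) {y : (ι → F) ≃ₗ[F] (ι → F)} (hy : y ∈ X) {u : ι}
    (h : y (g (ee u)) = g (ee u)) :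
    ∃ (σ : Perm ι) (c : ι → Fˣ), ∀ w, y (g (ee w)) = (c w : F) • g (ee (σ w)) := by
  obtain ⟨σ, c, e⟩ := (hX.col _ (X.mul_mem (X.mul_mem (X.inv_mem hg) hy) hg) u u fun i hi ↦ by
    simp [h, hi]).exists_eq_mono
  refine ⟨σ, c, fun w ↦ ?_⟩
  rw [← map_smul, ← mono_ee, ← e]
  simp

theorem exists_row_ne_zero (g : (ι → F) ≃ₗ[F] (ι → F)) (k : ι) : ∃ w, g (ee w) k ≠ 0 := by
  refine exists_ee_ne_zero (α := pr k ∘ₗ g.toLinearMap) fun e ↦ ?_
  simpa using LinearMap.congr_fun e (g.symm (ee k))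

theorem Ctx.exists_col_two (hX : Ctx X) (hg : g ∈ X) {μ : F} (h0 : μ ≠ 0) (h1 : μ ≠ 1)
    (h2 : μ ≠ -1) (h3 : μ ^ 2 + μ + 1 ≠ 0) {u k l : ι} (hkl : k ≠ l) (hk : g (ee u) k = 0)
    (hl : g (ee u) l = 0) : ∃ w, ∀ m, m ≠ k → m ≠ l → g (ee w) m = 0 := by
  obtain ⟨t, ht, e, -⟩ := hX.mon.exists_dg hkl h0
  obtain ⟨σ, c, hc⟩ := hX.exists_perm hg ht (u := u) (by simp [e, hk, hl])
  by_cases h : ∃ w, σ w ≠ w
  · obtain ⟨w, hw⟩ := h
    have h4 : ∀ v, t (t (t v)) - (1 + μ + μ⁻¹) • t (t v) + (1 + μ + μ⁻¹) • t v - v = 0 := fun v ↦ by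
      simp only [e, Pi.add_apply, Pi.smul_apply, smul_eq_mul, Pi.single_eq_same,
        Pi.single_eq_of_ne hkl, Pi.single_eq_of_ne hkl.symm]
      match_scalars <;> field_simp <;> ring
    have h5 := congrFun (congrArg g.symm (h4 (g (ee w)))) (σ w)
    simp only [hc, map_smul, map_sub, map_add, g.symm_apply_apply, map_zero, Pi.sub_apply,
      Pi.add_apply, Pi.smul_apply, smul_eq_mul, Pi.single_eq_same, Pi.single_eq_of_ne hw,
      Pi.single_eq_of_ne (σ.injective.ne hw).symm, Pi.zero_apply] at h5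
    by_cases h6 : σ (σ w) = w
    · refine ⟨w, fun m hmk hml ↦ ?_⟩
      have h7 : t (t (g (ee w))) m = c w * (c (σ w) * g (ee w) m) := by simp [hc, h6]
      rw [h6, ee, Pi.single_eq_same] at h5
      have h8 : (c w : F) * c (σ w) = -(1 + μ + μ⁻¹) :=
        mul_left_cancel₀ (c w).ne_zero (by linear_combination h5)
      rw [← mul_assoc, h8] at h7
      simp only [e, Pi.add_apply, Pi.smul_apply, smul_eq_mul, Pi.single_eq_of_ne hmk,
        Pi.single_eq_of_ne hml, mul_zero, add_zero] at h7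
      field_simp at h7
      refine (mul_eq_zero.1 (show (μ + 1) ^ 2 * g (ee w) m = 0 by linear_combination h7)
        ).resolve_left (pow_ne_zero 2 (add_eq_zero_iff_eq_neg.not.2 h2))
    · rw [ee, Pi.single_eq_of_ne (σ.injective.ne h6).symm] at h5
      refine (mul_ne_zero h3 (c w).ne_zero ?_).elim
      field_simp at h5
      linear_combination h5
  push Not at h
  obtain ⟨w, hw⟩ := exists_row_ne_zero g k
  refine ⟨w, fun m hmk hml ↦ ?_⟩
  have h4 := congrFun (hc w) k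
  have h5 := congrFun (hc w) m
  simp only [e, h, Pi.add_apply, Pi.smul_apply, smul_eq_mul, Pi.single_eq_of_ne hmk,
    Pi.single_eq_of_ne hml, Pi.single_eq_of_ne hkl, Pi.single_eq_same] at h4 h5
  have h6 : (c w : F) = μ := mul_right_cancel₀ hw (by linear_combination -h4)
  exact (mul_eq_zero.1 (show (μ - 1) * g (ee w) m = 0 by rw [← h6]; linear_combination -h5)
    ).resolve_left (sub_ne_zero.2 h1)

variable [Fintype F]

theorem exists_order_four (hq : 5 ≤ Fintype.card F) :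
    ∃ μ : F, μ ≠ 0 ∧ μ ≠ 1 ∧ μ ≠ -1 ∧ μ ^ 2 + μ + 1 ≠ 0 := by
  classical
  obtain ⟨μ, hμ⟩ := IsCyclic.exists_ofOrder_eq_natCard (α := Fˣ)
  rw [Nat.card_eq_fintype_card, Fintype.card_units] at hμ
  have h : ∀ n, n ≠ 0 → n < 4 → (μ : F) ^ n ≠ 1 := fun n h1 h2 e ↦
    pow_ne_one_of_lt_orderOf h1 (show n < orderOf μ by omega) (Units.ext (by simpa using e))
  refine ⟨μ, μ.ne_zero, by simpa using h 1, fun e ↦ h 2 two_ne_zero (by omega) (by simp [e]),
    fun e ↦ h 3 three_ne_zero (by omega) (by linear_combination (μ - 1 : F) * e)⟩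

theorem Ctx.eq_of_zero (hX : Ctx X) (hq : 5 ≤ Fintype.card F) (hι : 6 ≤ Fintype.card ι)
    (hg : g ∈ X) (hm : ¬ IsMon g) {u k l : ι} (hk : g (ee u) k = 0) (hl : g (ee u) l = 0) :
    k = l := by
  by_contra hkl
  obtain ⟨μ, h0, h1, h2, h3⟩ := exists_order_four hq
  obtain ⟨w, hw⟩ := hX.exists_col_two hg h0 h1 h2 h3 hkl hk hl
  obtain ⟨p, p1, p2, -⟩ := exists_ne_five hι k l k k k
  obtain ⟨q, q1, q2, q3, -⟩ := exists_ne_five hι k l p k k
  obtain ⟨r, r1, r2, r3, r4, -⟩ := exists_ne_five hι k l p q k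
  obtain ⟨x, hx⟩ := hX.exists_col_two hg h0 h1 h2 h3 r3 (hw r r1 r2) (hw p p1 p2)
  obtain ⟨t, ht, e, -⟩ := hX.mon.exists_dg q3.symm h0
  obtain ⟨σ, c, hc⟩ := hX.exists_perm hg ht (u := w) (by simp [e, hw p p1 p2, hw q q1 q2])
  have h4 : σ x = x := by
    by_contra hw
    have h4 : t (t (g (ee x))) - (μ + 1) • t (g (ee x)) + μ • g (ee x) = 0 := by
      simp only [e, Pi.add_apply, Pi.smul_apply, smul_eq_mul, Pi.single_eq_same,
        Pi.single_eq_of_ne q3, Pi.single_eq_of_ne q3.symm, hx q r4.symm q3]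
      module
    have h5 := congrFun (congrArg g.symm h4) (σ x)
    simp only [hc, map_smul, map_sub, map_add, g.symm_apply_apply, map_zero, Pi.sub_apply,
      Pi.add_apply, Pi.smul_apply, smul_eq_mul, Pi.single_eq_same, Pi.single_eq_of_ne hw,
      Pi.single_eq_of_ne (σ.injective.ne hw).symm, Pi.zero_apply] at h5
    exact mul_ne_zero (add_eq_zero_iff_eq_neg.not.2 h2) (c x).ne_zero (by linear_combination -h5)
  have h5 := congrFun (hc x) p
  have h6 := congrFun (hc x) r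
  simp only [e, h4, Pi.add_apply, Pi.smul_apply, smul_eq_mul, Pi.single_eq_of_ne r3,
    Pi.single_eq_of_ne r4, Pi.single_eq_of_ne q3.symm, Pi.single_eq_same, mul_zero,
    add_zero] at h5 h6
  by_cases h7 : g (ee x) r = 0
  · refine hm (hX.col g hg x p fun i hi ↦ ?_)
    by_cases e : i = r
    · rw [e, h7]
    · exact hx i e hi
  · refine hm (hX.col g hg x r fun i hi ↦ ?_)
    by_cases e : i = p
    · rw [(mul_eq_right₀ h7).1 h6.symm] at h5
      rw [e]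
      exact (mul_eq_zero.1 (by linear_combination h5)).resolve_left (sub_ne_zero.2 h1)
    · exact hx i hi e

theorem Ctx.exists_norm (hX : Ctx X) (hg : g ∈ X) (u : ι) :
    ∃ v : ι → Fˣ, (∀ i, g (ee u) i ≠ 0 → g (ee u) i = v i) ∧ ∀ σ : Perm ι, Perm.sign σ = 1 →
      (∀ i, g (ee u) i = 0 → σ i = i) → ∃ (τ : Perm ι) (c : ι → Fˣ), ∀ w i,
        g (ee w) i / v i = c w * (g (ee (τ w)) (σ i) / v (σ i)) := by
  classical
  let v : ι → Fˣ := fun i ↦ if h : g (ee u) i = 0 then 1 else Units.mk0 _ h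
  have hv : ∀ i, g (ee u) i ≠ 0 → g (ee u) i = v i := fun i hi ↦ by simp [v, hi]
  refine ⟨v, hv, fun σ h1 h2 ↦ ?_⟩
  have h3 : mono σ (fun i ↦ v (σ i) / v i) ∈ X := hX.mon _ _ (by
    ext
    rw [det_mono, ← Units.coe_prod, Finset.prod_div_distrib, Equiv.prod_comp, h1]
    simp)
  obtain ⟨τ, c, hc⟩ := hX.exists_perm hg h3 (u := u) (by
    ext i
    obtain ⟨i, rfl⟩ := σ.surjective i
    by_cases e : g (ee u) i = 0
    · rw [mono_apply, symm_apply_apply, h2 i e, e, mul_zero]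
    · rw [mono_apply, symm_apply_apply, hv i e,
        hv (σ i) fun e' ↦ e (by rwa [σ.injective (h2 _ e')] at e')]
      simp)
  refine ⟨τ, c, fun w i ↦ ?_⟩
  have h4 := congrFun (hc w) (σ i)
  simp only [mono_apply, symm_apply_apply, Pi.smul_apply, smul_eq_mul,
    Units.val_div_eq_div_val] at h4
  rw [← mul_div_assoc, ← h4]
  field_simp

theorem Ctx.exists_zero (hX : Ctx X) (hq : 5 ≤ Fintype.card F) (hι : 6 ≤ Fintype.card ι)
    (hg : g ∈ X) (hm : ¬ IsMon g) (u : ι) : ∃ z, ∀ i, g (ee u) i = 0 ↔ i = z := by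
  by_cases h : ∃ z, g (ee u) z = 0
  · obtain ⟨z, hz⟩ := h
    exact ⟨z, fun i ↦ ⟨fun hi ↦ hX.eq_of_zero hq hι hg hm hi hz, fun hi ↦ hi ▸ hz⟩⟩
  push Not at h
  obtain ⟨v, hv, h1⟩ := hX.exists_norm hg u
  refine (false_of_const hι (B := fun w i ↦ g (ee w) i / v i) (u := u)
    (fun i ↦ by simp [hv i (h i)]) (fun σ hσ ↦ h1 σ hσ fun i hi ↦ (h i hi).elim)
    (fun w w' s hs ↦ ?_) fun w i j hi hj ↦ hX.eq_of_zero hq hι hg hm (u := w)
      (by simpa using hi) (by simpa using hj)).elim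
  have h2 : g (ee w) = g (s • ee w') := by
    ext i
    have := hs i
    field_simp at this
    simpa using this
  by_contra hne
  simpa [hne] using congrFun (g.injective h2) w

theorem Ctx.isMon (hX : Ctx X) (hq : 5 ≤ Fintype.card F) (hι : 6 ≤ Fintype.card ι)
    (hg : g ∈ X) : IsMon g := by
  classical
  by_contra hm
  obtain ⟨m⟩ : Nonempty ι := Fintype.card_pos_iff.1 (by omega)
  obtain ⟨z, hz⟩ := hX.exists_zero hq hι (X.inv_mem hg) (fun h ↦ hm (by simpa using h.inv)) m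
  choose ζ hζ using hX.exists_zero hq hι hg hm
  obtain ⟨u, hu, -⟩ := exists_ne_five hι z z z z z
  obtain ⟨v, hv, h1⟩ := hX.exists_norm hg u
  obtain ⟨h2, r, hr⟩ := struct_of_one_zero hι (B := fun w i ↦ g (ee w) i / v i) (u := u) (ζ := ζ)
    (fun w i ↦ by simp [hζ]) (fun i hi ↦ by simp [hv i ((hζ u i).not.2 hi)])
    (fun σ hσ e ↦ h1 σ hσ fun i hi ↦ by rwa [(hζ u i).1 hi]) (by
      obtain ⟨w, hw⟩ := exists_row_ne_zero g (ζ u)
      exact ⟨w, Ne.symm ((hζ _ _).not.1 hw)⟩)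
  obtain ⟨x, x1, x2, -⟩ := exists_ne_five hι z u z z z
  obtain ⟨y, y1, y2, y3, -⟩ := exists_ne_five hι z u x z z
  obtain ⟨y', y4, y5, y6, y7, -⟩ := exists_ne_five hι z u x y z
  let R := ((Finset.univ.erase z).erase u).erase x
  obtain ⟨α, a0, a1, a2, -⟩ := exists_ne_four hq 0 1 (1 - ∑ _i ∈ R, (1 : F)) 0
  let c : ι → F := fun i ↦ if i = z then 0 else if i = u then 1 - ∑ _i ∈ R, (1 : F) - α else
    if i = x then α else 1
  have hc : ∑ i, c i = 1 := by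
    rw [← Finset.add_sum_erase _ c (Finset.mem_univ z),
      ← Finset.add_sum_erase _ c (a := u) (by simp [hu]),
      ← Finset.add_sum_erase _ c (a := x) (by simp [x1, x2]),
      Finset.sum_congr rfl (g := fun _ ↦ 1) fun l hl ↦ by
        simp only [Finset.mem_erase] at hl
        simp [c, hl.1, hl.2.1, hl.2.2.1]]
    simp only [c, hu, x1, x2, if_true, if_false]
    ring
  have hc0 : ∀ i, i ≠ z → c i / (r i * g⁻¹ (ee m) i) ≠ 0 := fun i hi ↦ by
    refine div_ne_zero ?_ (mul_ne_zero (r i).ne_zero ((hz i).not.2 hi))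
    simp only [c, hi, if_false]
    split_ifs
    exacts [sub_ne_zero.2 a2.symm, a0, one_ne_zero]
  obtain ⟨d, hd, e⟩ := hX.mon.exists_mono 1
    (fun i ↦ if h : i = z then 1 else Units.mk0 _ (hc0 i h)) z
  have h3 : ∀ w, w ≠ u → (g * mono 1 d * g⁻¹) (ee m) (ζ w) = v (ζ w) * (1 - c w) := fun w hw ↦ by
    have h4 := dual_apply_eq_sum (pr (ζ w) ∘ₗ g.toLinearMap) (mono 1 d (g⁻¹ (ee m)))
    simp only [LinearMap.comp_apply, LinearEquiv.coe_coe, LinearMap.proj_apply] at h4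
    rw [LinearEquiv.mul_apply, LinearEquiv.mul_apply, h4, ← hc,
      ← Finset.add_sum_erase _ c (Finset.mem_univ w), add_sub_cancel_left,
      ← Finset.add_sum_erase _ _ (Finset.mem_univ w), (hζ w _).2 rfl, mul_zero, zero_add,
      Finset.mul_sum]
    refine Finset.sum_congr rfl fun i hi ↦ ?_
    rw [mono_one_apply]
    by_cases e' : i = z
    · simp [c, e', (hz z).2 rfl]
    have h5 := hr i (ζ w) (h2.1.ne hw) (h2.1.ne (Finset.ne_of_mem_erase hi).symm)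
    have h6 := (hz i).not.2 e'
    rw [e i e', dif_neg e', Units.val_mk0, (div_eq_iff (v _).ne_zero).1 h5]
    field_simp
  have h4 := X.mul_mem (X.mul_mem hg hd) (X.inv_mem hg)
  by_cases h5 : IsMon (g * mono 1 d * g⁻¹)
  · obtain ⟨i, hi⟩ := h5 m
    by_cases e : ζ z = i
    · simpa [h3 x x2, c, x1, x2, sub_eq_zero, a1.symm] using hi (ζ x) (e ▸ h2.1.ne x1)
    · simpa [h3 z hu.symm, c] using hi _ e
  · exact y7 (h2.1 (hX.eq_of_zero hq hι h4 h5 (u := m) (by simp [h3 y' y5, c, y4, y5, y6])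
      (by simp [h3 y y2, c, y1, y2, y3])))

/-- A proper overgroup of the monomial group contains the special linear group. -/
theorem MonSL.SLV_le (hX : MonSL X) (hq : 5 ≤ Fintype.card F) (hι : 6 ≤ Fintype.card ι)
    (hg : g ∈ X) (hm : ¬ IsMon g) : SLV F (ι → F) ≤ X := by
  by_cases hE : Elem X
  · exact SLV_le_of_elementary (LinearEquiv.refl F _) X fun i j hij c ↦ hE i j hij c
  · exact (hm (Ctx.isMon ⟨hX, fun _ hx _ _ h ↦ hX.isMon_of_col hq hι hE hx h⟩ hq hι hg)).elim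

end Cfsg.Lib.Class.Mono
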