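import Cfsg.Agent.Class.MonoGL

/-!
# Overgroups of the monomial group in the special linear group: point stabilisers
-/

set_option autoImplicit false
set_option linter.unusedSectionVars false

namespace Cfsg.Lib.Class.Mono

open Module Submodule FE Equiv

variable {F : Type*} [Field F] {ι : Type} [Fintype ι] [DecidableEq ι]
  {X : Subgroup ((ι → F) ≃ₗ[F] (ι → F))}

/-- `X` contains the monomial transformations of determinant one. -/
def MonSL (X : Subgroup ((ι → F) ≃ₗ[F] (ι → F))) : Prop :=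
  ∀ σ c, LinearEquiv.det (mono σ c) = 1 → mono σ c ∈ X

/-- `X` contains all elementary root subgroups. -/
def Elem (X : Subgroup ((ι → F) ≃ₗ[F] (ι → F))) : Prop :=
  ∀ i j, i ≠ j → FullTv X (ee i) (pr j)

theorem exists_ne_five (hι : 6 ≤ Fintype.card ι) (a b c d e : ι) :
    ∃ x, x ≠ a ∧ x ≠ b ∧ x ≠ c ∧ x ≠ d ∧ x ≠ e := by
  by_contra! h
  have h1 : (Finset.univ : Finset ι) ⊆ {a, b, c, d, e} := fun x _ ↦ by
    simp only [Finset.mem_insert, Finset.mem_singleton]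
    by_contra! hc
    exact hc.2.2.2.2 (h x hc.1 hc.2.1 hc.2.2.1 hc.2.2.2.1)
  have h2 := (Finset.card_le_card h1).trans Finset.card_le_five
  rw [Finset.card_univ] at h2
  omega

theorem IsMon.exists_eq_mono {g : (ι → F) ≃ₗ[F] (ι → F)} (h : IsMon g) :
    ∃ σ c, g = mono σ c := by
  choose σ hσ using h
  have h1 : ∀ j, g (ee j) = g (ee j) (σ j) • ee (σ j) := fun j ↦ by
    ext k
    by_cases e : k = σ j
    · simp [e]
    · simp [e, hσ j k e]
  have h2 : ∀ j, g (ee j) (σ j) ≠ 0 := fun j e ↦ by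
    have := h1 j
    rw [e, zero_smul, g.map_eq_zero_iff] at this
    simpa using congrFun this j
  have h3 : Function.Injective σ := fun j j' e ↦ by
    by_contra hne
    have : g (g (ee j') (σ j') • ee j - g (ee j) (σ j) • ee j') = 0 := by
      have e1 := h1 j
      have e2 := h1 j'
      generalize g (ee j) (σ j) = a at *
      generalize g (ee j') (σ j') = b at *
      rw [map_sub, map_smul, map_smul, e1, e2, e, smul_comm, sub_self]
    rw [g.map_eq_zero_iff] at this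
    exact h2 j' (by simpa [hne] using congrFun this j)
  refine ⟨Equiv.ofBijective σ (Finite.injective_iff_bijective.1 h3), fun j ↦ Units.mk0 _ (h2 j),
    LinearEquiv.toLinearMap_injective (LinearMap.pi_ext' fun j ↦ LinearMap.ext_ring ?_)⟩
  simpa [mono_ee, -mono_apply] using h1 j

theorem isMon_mono (σ : Perm ι) (c : ι → Fˣ) : IsMon (mono σ c) := fun j ↦
  ⟨σ j, fun k hk ↦ by simp [mono_ee, hk, -mono_apply]⟩

theorem IsMon.mul {g h : (ι → F) ≃ₗ[F] (ι → F)} (hg : IsMon g) (hh : IsMon h) : IsMon (g * h) := by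
  obtain ⟨σ, c, rfl⟩ := hh.exists_eq_mono
  intro j
  obtain ⟨i, hi⟩ := hg (σ j)
  exact ⟨i, fun k hk ↦ by simp [mono_ee, hi k hk, -mono_apply]⟩

theorem IsMon.inv {g : (ι → F) ≃ₗ[F] (ι → F)} (hg : IsMon g) : IsMon g⁻¹ := by
  obtain ⟨σ, c, rfl⟩ := hg.exists_eq_mono
  refine fun j ↦ ⟨σ.symm j, fun k hk ↦ ?_⟩
  rw [mono_inv_apply, ee, Pi.single_eq_of_ne fun e ↦ hk (by simp [← e]), mul_zero]

theorem MonSL.exists_mono (hX : MonSL X) (σ : Perm ι) (c : ι → Fˣ) (z : ι) :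
    ∃ c' : ι → Fˣ, mono σ c' ∈ X ∧ ∀ i, i ≠ z → c' i = c i := by
  refine ⟨Function.update c z (LinearEquiv.det (mono σ (Function.update c z 1)))⁻¹, hX _ _ ?_,
    fun i hi ↦ Function.update_of_ne hi _ _⟩
  have h1 : ∀ e : Fˣ, LinearEquiv.det (mono σ (Function.update c z e)) =
      e * LinearEquiv.det (mono σ (Function.update c z 1)) := fun e ↦ by
    ext
    simp only [det_mono, Units.val_mul, ← Units.coe_prod,
      Finset.prod_update_of_mem (Finset.mem_univ z)]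
    simp [mul_left_comm]
  rw [h1, inv_mul_cancel]

theorem MonSL.exists_dg (hX : MonSL X) {j l : ι} (hjl : j ≠ l) {μ : F} (h0 : μ ≠ 0) :
    ∃ t ∈ X, (∀ v, t v = v + ((μ - 1) * v j) • ee j + ((μ⁻¹ - 1) * v l) • ee l) ∧
      ∀ v, t⁻¹ v = v + ((μ⁻¹ - 1) * v j) • ee j + ((μ - 1) * v l) • ee l := by
  let c : ι → Fˣ := Function.update (Function.update 1 j (Units.mk0 μ h0)) l (Units.mk0 μ h0)⁻¹
  refine ⟨mono 1 c, hX _ _ ?_, fun v ↦ ?_, fun v ↦ ?_⟩
  · ext
    simp only [det_mono, ← Units.coe_prod, c, Finset.prod_update_of_mem (Finset.mem_univ l)]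
    rw [Finset.prod_update_of_mem (by simpa using hjl)]
    simp
  · ext i
    rw [mono_one_apply]
    by_cases e : i = l
    · simp [c, e, hjl.symm]
      ring
    by_cases e' : i = j
    · simp [c, e', hjl]
      ring
    · simp [c, e, e']
  · ext i
    rw [mono_inv_apply]
    by_cases e : i = l
    · simp [c, e, hjl.symm]
      ring
    by_cases e' : i = j
    · simp [c, e', hjl]
      ring
    · simp [c, e, e']

theorem MonSL.elem_of_fullTv (hX : MonSL X) {i j : ι} (hij : i ≠ j) (h : FullTv X (ee i) (pr j)) :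
    Elem X := by
  intro i' j' hij'
  let σ := swap (swap i i' j) j' * swap i i'
  have h1 : σ i = i' := by
    simp only [σ, Perm.mul_apply, swap_apply_left]
    refine swap_apply_of_ne_of_ne (fun e ↦ hij ?_) hij'
    exact (swap i i').injective ((swap_apply_left i i').trans e)
  have h2 : σ j = j' := by simp [σ]
  obtain ⟨c, hc, -⟩ := hX.exists_mono σ 1 i
  have h3 := h.conj hc (α := ((c j)⁻¹ : Fˣ) • pr j') fun x ↦ by simp [← h2, Units.smul_def]
  rw [mono_ee, h1] at h3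
  exact FullTv.of_smul_right (c j)⁻¹.ne_zero (FullTv.of_smul (c i).ne_zero h3)

theorem MonSL.elem_of_tvIn (hX : MonSL X) (hι : 6 ≤ Fintype.card ι) {μ : F} (h0 : μ ≠ 0)
    (h1 : μ ≠ 1) {k : ι} {χ : Dual F (ι → F)} (hχ : χ ≠ 0) (h : TvIn X (ee k) χ) : Elem X := by
  obtain ⟨j, hj⟩ := exists_ee_ne_zero hχ
  have hkj : k ≠ j := by
    rintro rfl
    exact hj h.apply_eq
  obtain ⟨l, hl1, hl2, -⟩ := exists_ne_five hι j k k k k
  obtain ⟨m, hm1, hm2, hm3, -⟩ := exists_ne_five hι j k l l l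
  have key : ∀ {l : ι} {ν : F} {χ : Dual F (ι → F)}, ν ≠ 0 → l ≠ j → l ≠ k → TvIn X (ee k) χ →
      TvIn X (ee k) (χ + ((ν - 1) * χ (ee j)) • pr j + ((ν⁻¹ - 1) * χ (ee l)) • pr l) := by
    intro l ν χ hν e1 e2 h
    obtain ⟨t, ht, e, -⟩ := hX.exists_dg e1.symm (inv_ne_zero hν)
    convert h.conj ht (ψ := χ + ((ν - 1) * χ (ee j)) • pr j + ((ν⁻¹ - 1) * χ (ee l)) • pr l)
      fun x ↦ ?_ using 1
    · simp [e, hkj.symm, e2]
    · simp only [e, LinearMap.add_apply, map_add, map_smul, LinearMap.smul_apply,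
        LinearMap.proj_apply, smul_eq_mul, Pi.single_eq_same, Pi.single_eq_of_ne e1,
        Pi.single_eq_of_ne e1.symm]
      field_simp
      ring
  have h2 := (key h0 hl1 hl2 h).sub_right h
  have h3 := (key h0 hm1 hm2 h2).sub_right h2
  have h4 : TvIn X (ee k) (((μ - 1) * ((μ - 1) * χ (ee j))) • pr j) := by
    convert h3 using 1
    simp [hl1, hm1.symm, hm3.symm]
  have h5 : (μ - 1) * ((μ - 1) * χ (ee j)) ≠ 0 :=
    mul_ne_zero (sub_ne_zero.2 h1) (mul_ne_zero (sub_ne_zero.2 h1) hj)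
  refine hX.elem_of_fullTv hkj (FullTv.of_smul_right h5 fun c ↦ ?_)
  by_cases hc : c = 0
  · simpa [hc] using TvIn.zero_left X _
  rw [TvIn.smul_iff]
  convert key hc hl1 hl2 h4 using 1
  simp only [LinearMap.smul_apply, LinearMap.proj_apply, Pi.single_eq_same,
    Pi.single_eq_of_ne hl1.symm, smul_eq_mul]
  module

theorem MonSL.elem_of_sub (hX : MonSL X) (hι : 6 ≤ Fintype.card ι) {μ : F} (h0 : μ ≠ 0)
    (h1 : μ ≠ 1) {k : ι} {x x' : (ι → F) ≃ₗ[F] (ι → F)} (hx : x ∈ X) (hx' : x' ∈ X)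
    {ρ : Dual F (ι → F)} (h : ∀ w, x' w = x w + ρ w • ee k) {s : F} (hk : x (ee k) = s • ee k)
    (h2 : ρ (ee k) = 0) (h3 : ρ ≠ 0) : Elem X := by
  refine hX.elem_of_tvIn hι h0 h1 (k := k) (χ := ρ ∘ₗ x.symm.toLinearMap) (fun e ↦ h3 ?_)
    ⟨?_, x' * x⁻¹, X.mul_mem hx' (X.inv_mem hx), fun v ↦ by simp [h]⟩
  · exact LinearMap.ext fun w ↦ by simpa using LinearMap.congr_fun e (x w)
  · have hs : s ≠ 0 := fun e ↦ by
      rw [e, zero_smul, x.map_eq_zero_iff] at hk
      simpa using congrFun hk k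
    have : x.symm (ee k) = s⁻¹ • ee k := by
      rw [LinearEquiv.symm_apply_eq, map_smul, hk, smul_smul, inv_mul_cancel₀ hs, one_smul]
    simp [this, h2]

/-- Restriction of coordinates. -/
abbrev res (k : ι) : (ι → F) →ₗ[F] ({i // i ≠ k} → F) := LinearMap.funLeft F F Subtype.val

theorem exists_res_eq (k : ι) (w : {i // i ≠ k} → F) : ∃ v, res k v = w :=
  LinearMap.funLeft_surjective_of_injective _ _ _ Subtype.val_injective w

theorem eq_add_of_res {k : ι} {u v : ι → F} (h : res k u = res k v) :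
    u = v + (u k - v k) • ee k := by
  ext i
  by_cases e : i = k
  · simp [e]
  · simpa [e] using congrFun h ⟨i, e⟩

theorem res_ee {k : ι} (i : {i // i ≠ k}) : res k (ee i.1 : ι → F) = ee i := by
  ext j
  simp [Pi.single_apply, Subtype.ext_iff]

/-- The group induced on the quotient by a coordinate axis. -/
def quo (X : Subgroup ((ι → F) ≃ₗ[F] (ι → F))) (k : ι) :
    Subgroup (({i // i ≠ k} → F) ≃ₗ[F] ({i // i ≠ k} → F)) where
  carrier := {y | ∃ x ∈ X, ∀ v, y (res k v) = res k (x v)}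
  one_mem' := ⟨1, X.one_mem, fun _ ↦ rfl⟩
  mul_mem' := by
    rintro y y' ⟨x, hx, e⟩ ⟨x', hx', e'⟩
    exact ⟨x * x', X.mul_mem hx hx', fun v ↦ by simp only [LinearEquiv.mul_apply, e, e']⟩
  inv_mem' := by
    rintro y ⟨x, hx, e⟩
    refine ⟨x⁻¹, X.inv_mem hx, fun v ↦ y.injective ?_⟩
    rw [e]
    simp

theorem MonSL.exists_lift (hX : MonSL X) (k : ι) (σ : Perm {i // i ≠ k}) (c : {i // i ≠ k} → Fˣ) :
    ∃ x ∈ X, IsMon x ∧ ∀ v, mono σ c (res k v) = res k (x v) := by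
  obtain ⟨c', hc', e⟩ := hX.exists_mono (Perm.ofSubtype σ)
    (fun i ↦ if h : i ≠ k then c ⟨i, h⟩ else 1) k
  refine ⟨_, hc', isMon_mono _ _, fun v ↦ ?_⟩
  ext i
  obtain ⟨i, rfl⟩ := σ.surjective i
  simp only [mono_apply, symm_apply_apply, LinearMap.funLeft_apply]
  rw [← Perm.ofSubtype_apply_coe, symm_apply_apply, e _ i.2, dif_pos i.2]

theorem exists_induced {x : (ι → F) ≃ₗ[F] (ι → F)} {k : ι} (hk : ∀ i, i ≠ k → x (ee k) i = 0) :
    ∃ y : ({i // i ≠ k} → F) ≃ₗ[F] ({i // i ≠ k} → F), ∀ v, y (res k v) = res k (x v) := by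
  obtain ⟨s, hs⟩ := (res (F := F) k).exists_rightInverse_of_surjective
    (LinearMap.range_eq_top.2 (exists_res_eq k))
  replace hs : ∀ w, res k (s w) = w := LinearMap.congr_fun hs
  have h1 : res k (x (ee k)) = 0 := funext fun i ↦ hk i i.2
  have h2 : ∀ v, (res k ∘ₗ x.toLinearMap ∘ₗ s) (res k v) = res k (x v) := fun v ↦ by
    simp only [LinearMap.comp_apply, LinearEquiv.coe_coe]
    rw [eq_add_of_res (hs (res k v)), map_add, map_add, map_smul, map_smul, h1, smul_zero, add_zero]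
  have h3 : Function.Surjective (res k ∘ₗ x.toLinearMap ∘ₗ s) := fun w ↦ by
    obtain ⟨v, rfl⟩ := exists_res_eq k w
    exact ⟨res k (x.symm v), by rw [h2, x.apply_symm_apply]⟩
  exact ⟨LinearEquiv.ofBijective _ ⟨LinearMap.injective_iff_surjective.2 h3, h3⟩, h2⟩

variable [Fintype F]

theorem MonSL.elem_of_lift (hX : MonSL X) (hq : 5 ≤ Fintype.card F) (hι : 6 ≤ Fintype.card ι)
    {x : (ι → F) ≃ₗ[F] (ι → F)} (hx : x ∈ X) {i j k : ι} (hij : i ≠ j) (hik : i ≠ k)
    (hjk : j ≠ k) {c : F} {χ : Dual F (ι → F)} (e : ∀ v, x v = v + (c * v j) • ee i + χ v • ee k)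
    (h : c ≠ 0 ∨ ∃ l, l ≠ k ∧ χ (ee l) ≠ 0) : Elem X := by
  obtain ⟨μ, h0, h1, h2, -⟩ := exists_ne_four hq 0 1 (-1) 0
  have hk : x (ee k) = (1 + χ (ee k)) • ee k := by simp [e, hjk, add_smul]
  obtain ⟨l, hli, hlj, hlk, -⟩ := exists_ne_five hι i j k k k
  by_cases h3 : ∃ m, m ≠ k ∧ χ (ee m) ≠ 0
  · obtain ⟨m, hmk, hm⟩ := h3
    obtain ⟨t, ht, e1, e2⟩ := hX.exists_dg hlk.symm h0
    refine hX.elem_of_sub hι h0 h1 hx (X.mul_mem (X.mul_mem ht hx) (X.inv_mem ht))
      (ρ := (μ - 1) • (χ - χ (ee k) • pr k + (μ * χ (ee l)) • pr l)) (fun w ↦ ?_) hk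
      (by simp [hlk]) fun e3 ↦ ?_
    · simp only [LinearEquiv.mul_apply, e, e1, e2, map_add, map_smul, Pi.add_apply, Pi.smul_apply,
        smul_eq_mul, Pi.single_eq_same, Pi.single_eq_of_ne hlk, Pi.single_eq_of_ne hlk.symm,
        Pi.single_eq_of_ne hjk, Pi.single_eq_of_ne hlj.symm, Pi.single_eq_of_ne hik.symm,
        Pi.single_eq_of_ne hli, LinearMap.smul_apply, LinearMap.add_apply, LinearMap.sub_apply,
        LinearMap.proj_apply]
      match_scalars <;> field_simp <;> ring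
    · rw [smul_eq_zero_iff_right (sub_ne_zero.2 h1)] at e3
      have e4 := LinearMap.congr_fun e3 (ee l)
      have e5 := LinearMap.congr_fun e3 (ee m)
      simp only [LinearMap.add_apply, LinearMap.sub_apply, LinearMap.smul_apply,
        LinearMap.proj_apply, Pi.single_eq_of_ne hlk.symm, Pi.single_eq_of_ne hmk.symm,
        Pi.single_eq_same, smul_eq_mul, LinearMap.zero_apply] at e4 e5
      have e6 : χ (ee l) = 0 :=
        (mul_eq_zero.1 (by linear_combination e4)).resolve_left (add_eq_zero_iff_eq_neg.not.2 h2)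
      exact hm (by simpa [e6] using e5)
  replace h := h.resolve_right h3
  push Not at h3
  have h4 : ∀ v, χ v = v k * χ (ee k) := fun v ↦ by
    rw [dual_apply_eq_sum, Finset.sum_eq_single k (fun m _ hm ↦ by simp [h3 m hm]) (by simp)]
  obtain ⟨t, ht, e1, e2⟩ := hX.exists_dg hlj.symm h0
  refine hX.elem_of_sub hι h0 h1 hx (X.mul_mem (X.mul_mem ht hx) (X.inv_mem ht)) (k := i)
    (ρ := ((μ⁻¹ - 1) * c) • pr j) (fun w ↦ ?_) (s := 1) (by simp [e, hij.symm, h3 i hik])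
    (by simp [hij.symm]) (smul_ne_zero (mul_ne_zero
      (sub_ne_zero.2 fun e ↦ h1 (inv_eq_one.1 e)) h) fun e ↦ by
        simpa using LinearMap.congr_fun e (ee j))
  simp only [LinearEquiv.mul_apply, e, e1, e2, map_add, map_smul, Pi.add_apply, Pi.smul_apply,
    smul_eq_mul, Pi.single_eq_same, Pi.single_eq_of_ne hlk, Pi.single_eq_of_ne hjk,
    Pi.single_eq_of_ne hlj.symm, Pi.single_eq_of_ne hlj, Pi.single_eq_of_ne hij.symm,
    Pi.single_eq_of_ne hli, LinearMap.smul_apply, LinearMap.proj_apply, h3 l hlk, h3 j hjk]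
  match_scalars <;> field_simp <;> ring

/-- An element fixing a coordinate axis is monomial unless `X` contains all root subgroups. -/
theorem MonSL.isMon_of_fix (hX : MonSL X) (hq : 5 ≤ Fintype.card F) (hι : 6 ≤ Fintype.card ι)
    (hE : ¬ Elem X) {x : (ι → F) ≃ₗ[F] (ι → F)} (hx : x ∈ X) {k : ι}
    (hk : ∀ i, i ≠ k → x (ee k) i = 0) : IsMon x := by
  obtain ⟨y, hy⟩ := exists_induced hk
  by_cases hm : IsMon y
  · obtain ⟨σ, c, rfl⟩ := hm.exists_eq_mono
    obtain ⟨n, hn, hn', e⟩ := hX.exists_lift k σ c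
    have h1 : ∀ v, res k ((n⁻¹ * x) v) = res k v := fun v ↦ (mono σ c).injective (by
      rw [e, hy]
      simp)
    obtain ⟨i, hik, -⟩ := exists_ne_five hι k k k k k
    obtain ⟨j, hjk, hji, -⟩ := exists_ne_five hι k i k k k
    have h2 : ∀ l, l ≠ k → (pr k ∘ₗ (n⁻¹ * x).toLinearMap - pr k : Dual F (ι → F)) (ee l) = 0 := by
      by_contra! hc
      exact hE (hX.elem_of_lift hq hι (X.mul_mem (X.inv_mem hn) hx) hji.symm hik hjk (c := 0)
        (fun v ↦ by simpa using eq_add_of_res (h1 v)) (Or.inr hc))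
    have h3 : IsMon (n⁻¹ * x) := fun l ↦ ⟨l, fun m hm ↦ by
      by_cases e : m = k
      · simpa [e, e ▸ hm] using h2 l (e ▸ hm.symm)
      · simpa [hm] using congrFun (h1 (ee l)) ⟨m, e⟩⟩
    simpa using hn'.mul h3
  obtain ⟨i, j, hij, h⟩ := exists_elementary (Y := quo X k) hq (by simp; omega) (fun σ c ↦ by
    obtain ⟨n, hn, -, e⟩ := hX.exists_lift k σ c
    exact ⟨n, hn, e⟩) ⟨x, hx, hy⟩ hm
  obtain ⟨-, y', ⟨x', hx', e⟩, e'⟩ := h 1
  have h1 : ∀ v, res k (x' v) = res k (v + (1 * v j) • ee i.1) := fun v ↦ by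
    rw [← e, e', map_add, map_smul, res_ee]
    simp
  refine (hE (hX.elem_of_lift hq hι hx' (Subtype.val_injective.ne hij) i.2 j.2 (c := 1)
    (χ := pr k ∘ₗ x'.toLinearMap - pr k) (fun v ↦ ?_) (Or.inl one_ne_zero))).elim
  simpa [i.2.symm] using eq_add_of_res (h1 v)

theorem MonSL.isMon_of_col (hX : MonSL X) (hq : 5 ≤ Fintype.card F) (hι : 6 ≤ Fintype.card ι)
    (hE : ¬ Elem X) {x : (ι → F) ≃ₗ[F] (ι → F)} (hx : x ∈ X) {j k : ι}
    (hk : ∀ i, i ≠ k → x (ee j) i = 0) : IsMon x := by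
  obtain ⟨c, hc, -⟩ := hX.exists_mono (swap j k) 1 j
  have := hX.isMon_of_fix hq hι hE (X.mul_mem hx hc) (k := k) fun i hi ↦ by
    simp [mono_ee, hk i hi, -mono_apply]
  simpa using this.mul (isMon_mono (swap j k) c).inv

end Cfsg.Lib.Class.Mono
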