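import Cfsg.Agent.Class.OrthMat
import Cfsg.Agent.Class.OrthOmega

/-!
# Crossed homomorphisms of orthogonal groups over the field with two elements
-/

set_option autoImplicit false

namespace Cfsg.Lib.Class.Orth

open QuadraticMap Module

variable {V : Type*} [AddCommGroup V] [Module (ZMod 2) V] [FiniteDimensional (ZMod 2) V]
  {Q : QuadraticForm (ZMod 2) V}

omit [FiniteDimensional (ZMod 2) V] in
theorem refl_apply_two {a : V} (ha : Q a = 1) (x : V) : (refl Q a).1 x = x + polar Q x a • a := by
  rw [refl_apply, ha, inv_one, one_mul]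
  linear_combination (norm := module) (-polar Q x a * (show (2 : ZMod 2) = 0 from rfl)) • a

theorem cocycle_principal (hQ : (polarBilin Q).Nondegenerate) (hE : ¬ Exc Q) {κ : Type*}
    [Fintype κ] [DecidableEq κ] (e d : κ → V) (he : ∀ i, Q (e i) = 1)
    (hd : ∀ i j, polar Q (d i) (e j) = if i = j then 1 else 0) (i₀ : κ)
    (hr : ∀ P : V → Prop, P (e i₀) → (∀ a i, P a → polar Q a (e i) = 1 → P (a + e i)) →
      ∀ a, Q a = 1 → P a) (f : O Q → V)
    (hf : ∀ g ∈ commutator (O Q), ∀ h ∈ commutator (O Q), f (g * h) = f g + g.1 (f h)) :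
    ∃ v, ∀ g ∈ commutator (O Q), f g = g.1 v - v := by
  have h2 : (2 : ZMod 2) = 0 := rfl
  have h01 : ∀ a : ZMod 2, a ≠ 0 → a = 1 := by decide
  have hV : ∀ x : V, x + x = 0 := fun x => by rw [← two_smul (ZMod 2), h2, zero_smul]
  have hs : ∀ x : V, polar Q x x = 0 := fun x => by rw [polar_self', h2, zero_mul]
  have hm : ∀ {a b : V}, Q a = 1 → Q b = 1 → refl Q a * refl Q b ∈ commutator (O Q) :=
    fun ha hb => refl_mul_refl_mem_commutator hQ (by simp [ha]) one_ne_zero (by simp [ha, hb])
  have f1 : f 1 = 0 := by simpa using hf 1 (one_mem _) 1 (one_mem _)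
  have hadd : ∀ {a b : V}, Q a = 1 → Q b = 1 → polar Q a b = 1 → Q (a + b) = 1 := fun ha hb h => by
    rw [Q_add, ha, hb, h]; rfl
  have hcj : ∀ {a b : V}, Q a = 1 → polar Q a b = 1 →
      refl Q a * refl Q b = refl Q (a + b) * refl Q a := fun ha h => by
    rw [mul_refl, refl_apply_two ha, polar_comm, h, one_smul, add_comm]
  have hswap : ∀ {a b : V}, Q a = 1 → Q b = 1 → ∀ x, polar Q (f (refl Q b * refl Q a)) x =
      polar Q (f (refl Q a * refl Q b)) ((refl Q a * refl Q b).1 x) := fun {a b} ha hb x => by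
    have := hf _ (hm ha hb) _ (hm hb ha)
    rw [mul_assoc, ← mul_assoc (refl Q b), refl_mul_self, one_mul, refl_mul_self, f1] at this
    rw [eq_neg_of_add_eq_zero_left this.symm, polar_neg_left, O_polar]
    linear_combination polar Q (f (refl Q b * refl Q a)) x * h2
  have hP : ∀ {a b : V}, Q a = 1 → Q b = 1 → polar Q a b = 1 → f (refl Q a * refl Q b) =
      polar Q (f (refl Q a * refl Q b)) a • b + polar Q (f (refl Q a * refl Q b)) b • a := by
    intro a b ha hb h
    have h3 : refl Q a * refl Q b * (refl Q a * refl Q b * (refl Q a * refl Q b)) = 1 := by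
      have e1 := hcj ha h
      have e2 := hcj hb ((polar_comm Q b a).trans h)
      rw [add_comm] at e2
      calc _ = refl Q a * (refl Q b * refl Q a) * refl Q b * (refl Q a * refl Q b) := by group
        _ = refl Q a * refl Q (a + b) * (refl Q b * refl Q b) * (refl Q (a + b) * refl Q a) := by
          rw [e1, e2]; group
        _ = 1 := by
          rw [refl_mul_self, mul_one, mul_assoc, ← mul_assoc (refl Q (a + b)), refl_mul_self,
            one_mul, refl_mul_self]
    have h4 := hf _ (hm ha hb) _ (mul_mem (hm ha hb) (hm ha hb))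
    rw [h3, f1, hf _ (hm ha hb) _ (hm ha hb)] at h4
    generalize f (refl Q a * refl Q b) = y at h4 ⊢
    simp only [O_mul_apply, refl_apply_two ha, refl_apply_two hb, map_add, map_smul,
      polar_add_left, polar_smul_left', hs, h, (polar_comm Q b a).trans h] at h4
    linear_combination (norm := module) -h4 - h2 • (y + (2 * polar Q y b + polar Q y a) • b +
      (2 * polar Q y a + 3 * polar Q y b) • a)
  let L : V → V → ZMod 2 := fun a b => polar Q (f (refl Q a * refl Q b)) (a + b)
  have L1 : ∀ {a b : V}, Q a = 1 → Q b = 1 → polar Q a b = 1 →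
      L b a = polar Q (f (refl Q a * refl Q b)) a := fun {a b} ha hb h => by
    simp only [L, hswap ha hb, O_mul_apply, refl_apply_two ha, refl_apply_two hb,
      polar_add_left, hs, h, zero_add, one_smul, add_right_comm b a b, hV, zero_smul, add_zero]
  have L2 : ∀ {a b : V}, Q a = 1 → Q b = 1 → polar Q a b = 1 → L a (a + b) = L a b :=
    fun {a b} ha hb h => by
      rw [L1 (hadd ha hb h) ha (by simp [hs, (polar_comm Q b a).trans h]), ← hcj ha h]
  have L3 : ∀ {a b b' : V}, Q a = 1 → Q b = 1 → Q b' = 1 → polar Q a b = 1 → polar Q a b' = 1 →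
      polar Q b' b = 1 → a + b' ≠ b → L a b' = L a b := by
    intro a b b' ha hb hb' h h' h'' hne
    have hx := hadd ha hb' h'
    have hxb : polar Q (a + b') b = 0 := by rw [polar_add_left, h, h'']; rfl
    have e1 : refl Q a * refl Q b' * (refl Q a * refl Q b) = refl Q (a + b') * refl Q b := by
      rw [hcj ha h', mul_assoc, ← mul_assoc (refl Q a), refl_mul_self, one_mul]
    have e2 := hf _ (hm hx hb) _ (hm hx hb)
    rw [mul_assoc, ← mul_assoc (refl Q b), mul_refl (refl Q b), refl_apply_of_orth hxb,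
      mul_assoc (refl Q (a + b')), refl_mul_self, mul_one, refl_mul_self, f1, O_mul_apply,
      refl_apply_two hb, refl_apply_two hx, polar_add_left, polar_smul_left',
      (polar_comm Q b _).trans hxb, mul_zero, add_zero, ← add_assoc, ← add_assoc, hV,
      zero_add] at e2
    have e3 : polar Q (f (refl Q (a + b') * refl Q b)) (a + b') = 0 := by
      by_contra e3
      rw [h01 _ e3, one_smul] at e2
      by_cases e4 : polar Q (f (refl Q (a + b') * refl Q b)) b = 0
      · rw [e4, zero_smul, zero_add] at e2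
        simp [← e2] at hx
      · rw [h01 _ e4, one_smul] at e2
        exact hne (by linear_combination (norm := module) -e2 - hV b)
    rw [← e1, hf _ (hm ha hb') _ (hm ha hb), polar_add_left, hcj ha h', O_polar_left, mul_inv_rev,
      refl_inv, refl_inv, O_mul_apply, refl_apply_two hx, hs, zero_smul, add_zero,
      refl_apply_two ha, ← hcj ha h', hP ha hb h] at e3
    simp only [L]
    rw [hP ha hb h]
    simp only [polar_add_left, polar_add_right, polar_smul_left', polar_smul_right', hs, h, h',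
      (polar_comm Q b a).trans h, (polar_comm Q b' a).trans h', (polar_comm Q b b').trans h''] at e3 ⊢
    linear_combination e3 - h2 * (polar Q (f (refl Q a * refl Q b)) a * 2 +
      polar Q (f (refl Q a * refl Q b)) b)
  have L4 : ∀ {a b b' : V}, Q a = 1 → Q b = 1 → Q b' = 1 → polar Q a b = 1 → polar Q a b' = 1 →
      L a b' = L a b := by
    intro a b b' ha hb hb' h h'
    by_cases h1 : b' = b
    · rw [h1]
    by_cases h3 : polar Q b' b = 0
    · rw [← L2 ha hb' h']
      exact L3 ha hb (hadd ha hb' h') h (by simp [hs, h']) (by simp [h, h3])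
        (by rwa [← add_assoc, hV, zero_add])
    by_cases h4 : a + b' = b
    · rw [← h4, L2 ha hb' h']
    · exact L3 ha hb hb' h h' (h01 _ h3) h4
  classical
  let l : V → ZMod 2 := fun a => if h : ∃ b, Q b = 1 ∧ polar Q a b = 1 then L a h.choose else 0
  have hl : ∀ {a b : V}, Q a = 1 → Q b = 1 → polar Q a b = 1 → l a = L a b := fun {a b} ha hb h => by
    have h' : ∃ b, Q b = 1 ∧ polar Q a b = 1 := ⟨b, hb, h⟩
    simp only [l, dif_pos h']
    exact L4 ha hb h'.choose_spec.1 h h'.choose_spec.2
  have hl1 : ∀ {a b : V}, Q a = 1 → Q b = 1 → polar Q a b = 1 →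
      l b = polar Q (f (refl Q a * refl Q b)) a := fun ha hb h => by
    rw [hl hb ha ((polar_comm Q _ _).trans h), L1 ha hb h]
  have hl2 : ∀ {a b : V}, Q a = 1 → Q b = 1 → polar Q a b = 1 →
      l a + l b = polar Q (f (refl Q a * refl Q b)) b := fun {a b} ha hb h => by
    rw [hl ha hb h, hl1 ha hb h]
    simp only [L, polar_add_right]
    linear_combination h2 * polar Q (f (refl Q a * refl Q b)) a
  have hl3 : ∀ {a b : V}, Q a = 1 → Q b = 1 → polar Q a b = 1 → l (a + b) = l a + l b :=
    fun {a b} ha hb h => by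
      rw [hl2 ha hb h, hl (hadd ha hb h) ha (by simp [hs, (polar_comm Q b a).trans h])]
      simp only [L]
      rw [← hcj ha h, add_right_comm, hV, zero_add]
  obtain ⟨v, hv⟩ : ∃ v, ∀ a, Q a = 1 → l a = polar Q v a := by
    refine ⟨∑ i, l (e i) • d i, fun a ha => ?_⟩
    have h1 : ∀ j, polar Q (∑ i, l (e i) • d i) (e j) = l (e j) := fun j => by
      change polarBilin Q _ _ = _
      simp [hd]
    refine (hr (fun a => Q a = 1 ∧ l a = polar Q (∑ i, l (e i) • d i) a) ⟨he _, (h1 _).symm⟩
      (fun a i h h' => ⟨hadd h.1 (he i) h', ?_⟩) a ha).2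
    rw [hl3 h.1 (he i) h', h.2, polar_add_right, h1]
  let K : Subgroup (O Q) :=
    { carrier := {g | g ∈ commutator (O Q) ∧ f g = g.1 v - v}
      one_mem' := ⟨one_mem _, by simp [f1]⟩
      mul_mem' := fun {g k} hg hk => ⟨mul_mem hg.1 hk.1, by
        rw [hf g hg.1 k hk.1, hg.2, hk.2, O_mul_apply, map_sub]; abel⟩
      inv_mem' := fun {g} hg => ⟨inv_mem hg.1, by
        have := hf _ (inv_mem hg.1) _ hg.1
        rw [inv_mul_cancel, f1, hg.2, map_sub, O_inv_apply] at this
        linear_combination (norm := module) -this⟩ }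
  have hK : ∀ {a b : V}, Q a = 1 → Q b = 1 → polar Q a b = 1 → refl Q a * refl Q b ∈ K :=
    fun {a b} ha hb h => ⟨hm ha hb, by
      rw [hP ha hb h, ← hl1 ha hb h, ← hl2 ha hb h, hv a ha, hv b hb, O_mul_apply,
        refl_apply_two hb, refl_apply_two ha, polar_add_left, polar_smul_left',
        (polar_comm Q b a).trans h]
      module⟩
  have hK' : ∀ a, Q a = 1 → refl Q (e i₀) * refl Q a ∈ K := fun a ha =>
    (hr (fun a => Q a = 1 ∧ refl Q (e i₀) * refl Q a ∈ K) ⟨he _, by simp⟩ (fun a i h h' =>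
      ⟨hadd h.1 (he i) h', by
        simpa [mul_assoc, ← mul_assoc (refl Q a)] using
          mul_mem h.2 (hK h.1 (hadd h.1 (he i) h') (by simp [hs, h']))⟩) a ha).2
  refine ⟨v, fun g hg => (mem_of_dick_eq_one hQ hE (K := K) (fun a b ha hb => ?_)
    (dick_eq_one_of_mem_commutator hQ hE hg)).2⟩
  simpa [mul_assoc, ← mul_assoc (refl Q (e i₀))] using
    mul_mem (inv_mem (hK' a (h01 _ ha))) (hK' b (h01 _ hb))

/-- Vectors reached from a list by adding generators. -/
def reachL {X κ : Type*} [Add X] (e : κ → X) (x : X) : List (ℕ × κ) → List X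
  | [] => [x]
  | c :: C => let l := reachL e x C; (l.getD c.1 x + e c.2) :: l

/-- Validity of a reaching certificate. -/
def reachOk {X κ : Type*} [Add X] (e : κ → X) (x : X) (p : X → κ → Bool) : List (ℕ × κ) → Bool
  | [] => true
  | c :: C => p ((reachL e x C).getD c.1 x) c.2 && reachOk e x p C

theorem reachL_ind {X κ : Type*} [Add X] {e : κ → X} {x : X} {p : X → κ → Bool} {P : X → Prop}
    (h0 : P x) (h : ∀ a i, P a → p a i = true → P (a + e i)) (C : List (ℕ × κ))
    (hC : reachOk e x p C = true) : ∀ a ∈ reachL e x C, P a := by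
  induction C with
  | nil => simpa [reachL]
  | cons c C ih =>
    simp only [reachOk, Bool.and_eq_true] at hC
    simp only [reachL, List.forall_mem_cons]
    refine ⟨h _ _ ?_ hC.1, ih hC.2⟩
    rw [List.getD_eq_getElem?_getD]
    cases e' : (reachL e x C)[c.1]? with
    | none => exact h0
    | some a => exact ih hC.2 a (List.mem_of_getElem? e')

theorem cocycle_principal_mat {ι : Type} [Fintype ι] [DecidableEq ι]
    {Q : QuadraticForm (ZMod 2) (ι → ZMod 2)} (hQ : (polarBilin Q).Nondegenerate) (hE : ¬ Exc Q)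
    (e d : ι → ι → ZMod 2) (he : ∀ i, Q (e i) = 1)
    (hd : ∀ i j, polar Q (d i) (e j) = if i = j then 1 else 0) (i₀ : ι) (p : (ι → ZMod 2) → ι → Bool)
    (hp : ∀ a i, p a i = true ↔ polar Q a (e i) = 1) (C : List (ℕ × ι))
    (hC : reachOk e (e i₀) p C = true) (hC' : ∀ a, Q a = 1 → a ∈ reachL e (e i₀) C)
    (f : Omega (ZMod 2) Q → ι → ZMod 2)
    (hf : ∀ g h, f (g * h) = f g + Matrix.mulVec (mat g.1) (f h)) :
    ∃ v, ∀ g, f g = Matrix.mulVec (mat g.1) v - v := by
  classical
  obtain ⟨v, hv⟩ := cocycle_principal hQ hE e d he hd i₀ (fun P h0 h a ha =>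
    reachL_ind h0 (fun a i h1 h2 => h a i h1 ((hp a i).1 h2)) C hC a (hC' a ha))
    (fun g => if h : g ∈ commutator (O Q) then f ((omegaEquiv Q).symm ⟨g, h⟩) else 0)
    (fun g hg k hk => by
      rw [dif_pos hg, dif_pos hk, dif_pos (mul_mem hg hk), ← oEquivIsom_symm_mulVec]
      exact (congrArg f (map_mul (omegaEquiv Q).symm ⟨g, hg⟩ ⟨k, hk⟩)).trans (hf _ _))
  refine ⟨v, fun g => ?_⟩
  have := hv _ (omegaEquiv Q g).2
  rw [dif_pos (omegaEquiv Q g).2, Subtype.coe_eta, MulEquiv.symm_apply_apply] at this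
  exact this

end Cfsg.Lib.Class.Orth
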