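import Cfsg.Agent.Class.ODecLem

/-!
Subgroups of `Ω` for which the members of an orthogonal decomposition into subspaces of dimension
at least three are hulls.
-/

set_option autoImplicit false

namespace Cfsg.Lib.Class.OMax

open QuadraticMap Module Orth

variable {F V : Type*} [Field F] [AddCommGroup V] [Module F V] {Q : QuadraticForm F V}
  {τ : Type*} [Fintype τ] {D : τ → Submodule F V} {π : τ → V →ₗ[F] V} {X : Subgroup (O Q)}

/-- `x` has the norm of `v` and the product of the two reflections lies in `X`. -/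
def Cls (X : Subgroup (O Q)) (v x : V) : Prop := Q x = Q v ∧ refl Q v * refl Q x ∈ X

theorem Cls.mul {v x y : V} (hx : Cls X v x) (hy : Cls X v y) : refl Q x * refl Q y ∈ X := by
  have := X.mul_mem (X.inv_mem hx.2) hy.2
  rwa [mul_inv_rev, refl_inv, refl_inv, mul_assoc, ← mul_assoc (refl Q v), refl_mul_self,
    one_mul] at this

theorem Cls.apply {v x : V} (hx : Cls X v x) {n : O Q} (hn : n ∈ X) (hv : Cls X v (n.1 v)) :
    Cls X v (n.1 x) := ⟨(O_map _ _).trans hx.1, by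
  have := X.mul_mem hv.2 (X.mul_mem (X.mul_mem hn hx.2) (X.inv_mem hn))
  rw [← conj_refl] at this ⊢
  convert this using 1
  simp only [mul_assoc, inv_mul_cancel_left]
  rw [← mul_assoc (refl Q v) (refl Q v), refl_mul_self, one_mul]⟩

theorem Cls.refl_apply {v x y : V} (hx : Cls X v x) (hy : Cls X v y) : Cls X v ((refl Q y).1 x) :=
  ⟨(O_map _ _).trans hx.1, by
    rw [← conj_refl, refl_inv, ← mul_assoc, ← mul_assoc, mul_assoc]
    exact X.mul_mem hy.2 (hx.mul hy)⟩

/-- The setting: an orthogonal decomposition whose members are hulls for `X`. -/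
structure OCtx (Q : QuadraticForm F V) (D : τ → Submodule F V) (π : τ → V →ₗ[F] V)
    (X : Subgroup (O Q)) : Prop where
  nd : (polarBilin Q).Nondegenerate
  five : 5 ≤ finrank F V
  proj : IsDecProj D π
  nondeg : ∀ i, Disjoint (D i) (orth Q (D i))
  perp : ∀ i j, i ≠ j → D i ≤ orth Q (D j)
  three : ∀ i, 3 ≤ finrank F (D i)
  two : ∀ i : τ, ∃ j, j ≠ i
  base : ∀ g ∈ commutator (O Q), (∀ i, g ∈ stab Q (D i)) → g ∈ X
  hull : ∀ i, Hull X (D i)

theorem sub_proj_mem_orth (hp : IsDecProj D π) (ho : ∀ i j, i ≠ j → D i ≤ orth Q (D j)) (j : τ)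
    (x : V) : x - π j x ∈ orth Q (D j) := by
  classical
  have := Finset.add_sum_erase Finset.univ (fun i => π i x) (Finset.mem_univ j)
  rw [hp.sum] at this
  rw [sub_eq_of_eq_add' this.symm]
  exact Submodule.sum_mem _ fun i hi => ho i j (Finset.ne_of_mem_erase hi) (hp.mem i x)

theorem polar_proj (hp : IsDecProj D π) (ho : ∀ i j, i ≠ j → D i ≤ orth Q (D j)) {j : τ}
    (x : V) {y : V} (hy : y ∈ D j) : polar Q (π j x) y = polar Q x y := by
  have := mem_orth'.1 (sub_proj_mem_orth hp ho j x) y hy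
  rw [polar_sub_left] at this
  exact (sub_eq_zero.1 this).symm

theorem eich_proj (hp : IsDecProj D π) (ho : ∀ i j, i ≠ j → D i ≤ orth Q (D j)) {j : τ}
    {p u : V} (h1 : p ∈ D j) (h2 : u ∈ D j) (x : V) :
    (eich Q p u).1 x - x = (eich Q p u).1 (π j x) - π j x := by
  have := sub_proj_mem_orth hp ho j x
  have h3 := eich_apply_of_orth_orth (mem_orth'.1 this p h1) (mem_orth'.1 this u h2)
  rw [map_sub] at h3
  rw [sub_eq_sub_iff_sub_eq_sub, h3]

omit [Fintype τ] in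
theorem refl_mem_stab_block (ho : ∀ i j, i ≠ j → D i ≤ orth Q (D j)) {i : τ} {a : V}
    (ha : a ∈ D i) (j : τ) : refl Q a ∈ stab Q (D j) := by
  by_cases hij : i = j
  · exact refl_mem_stab (hij ▸ ha)
  · exact fixG_le_stab _ (refl_mem_fixG (ho i j hij ha))

namespace OCtx

theorem polar_proj (h : OCtx Q D π X) {j : τ} (x : V) {y : V} (hy : y ∈ D j) :
    polar Q (π j x) y = polar Q x y := OMax.polar_proj h.proj h.perp x hy

theorem proj_eq_zero_iff (h : OCtx Q D π X) {j : τ} {x : V} : π j x = 0 ↔ x ∈ orth Q (D j) := by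
  have := sub_proj_mem_orth h.proj h.perp j x
  refine ⟨fun h0 => by rwa [h0, sub_zero] at this, fun h0 => ?_⟩
  exact Submodule.disjoint_def.1 (h.nondeg j) _ (h.proj.mem j x)
    ((Submodule.sub_mem_iff_right _ h0).1 this)

theorem exists_nonsing (h : OCtx Q D π X) {x : V} (hx : Q x ≠ 0) : ∃ i, Q (π i x) ≠ 0 := by
  by_contra! hc
  apply hx
  rw [← h.proj.sum x, Known.quad_sum_of_orth Q _ _ fun i _ j _ hij =>
    mem_orth'.1 (h.perp i j hij (h.proj.mem i x)) _ (h.proj.mem j x)]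
  exact Finset.sum_eq_zero fun i _ => hc i

variable [FiniteDimensional F V]

theorem cls_of_mem (h : OCtx Q D π X) {i j : τ} {v w : V} (hv : v ∈ D i) (hv0 : Q v ≠ 0)
    (hw : w ∈ D j) (hw0 : Q w = Q v) : Cls X v w :=
  ⟨hw0, h.base _ (refl_mul_refl_mem_commutator h.nd hv0 one_ne_zero (by rw [hw0]; ring)) fun l =>
    (stab Q _).mul_mem (refl_mem_stab_block h.perp hv l) (refl_mem_stab_block h.perp hw l)⟩

variable [Finite F]

theorem tri (h : OCtx Q D π X) (i : τ) : Tri Q (D i) := tri_of_three_le (h.nondeg i) (h.three i)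

/-- A non-singular component in a member of dimension at least four. -/
theorem mem_of_four (h : OCtx Q D π X) {i l : τ} {v x : V} (hv : v ∈ D i) (hv0 : Q v ≠ 0)
    (hx : Cls X v x) (h4 : 4 ≤ finrank F (D l)) (hl : Q (π l x) ≠ 0) : x ∈ D l := by
  obtain ⟨m, hm⟩ := h.two l
  obtain ⟨w, hw, hw0⟩ := exists_norm_mem (h.nondeg m) (by have := h.three m; omega) (Q v)
  have := finrank_le_inf_orth_singleton (Q := Q) (D l) x
  obtain ⟨p, hp, hp1, hp0⟩ := exists_singular_mem Q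
    (S := D l ⊓ orth Q (Submodule.span F {x})) (by omega)
  obtain ⟨z, hz, hpz⟩ := exists_ne_of_disjoint (h.nondeg l) hp.1 hp1
  obtain ⟨y, hy, h1, h2⟩ : ∃ y ∈ D l, polar Q p y = 0 ∧ polar Q x y ≠ 0 := by
    by_contra! hc
    obtain ⟨c, hc⟩ := Submodule.mem_span_singleton.1 (mem_span_of_orth (h.nondeg l) hp.1
      (h.proj.mem l x) fun u hu h1 => (h.polar_proj x hu).trans (hc u hu h1))
    exact hl (by rw [← hc, Q_smul, hp0, mul_zero])
  have h3 : ∀ u ∈ D l, (refl Q w).1 u = u := refl_mem_fixG (h.perp m l hm hw)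
  have h5 := (h.hull l).apply_mem_of_fix (h.tri l) hp.1 hz hp0 hpz
    (hx.mul (h.cls_of_mem hv hv0 hw hw0)) (by
      rw [O_mul_apply, h3 p hp.1, refl_apply_of_orth (pc (mem_orth_singleton.1 hp.2))]) hy h1
  rw [O_mul_apply, h3 y hy, refl_apply, Submodule.sub_mem_iff_right _ hy] at h5
  exact (Submodule.smul_mem_iff _ (mul_ne_zero (inv_ne_zero (hx.1 ▸ hv0)) (pc' h2))).1 h5

/-- The key lemma in odd characteristic. -/
theorem proj_eq_zero_of_eich (h : OCtx Q D π X) (h2 : (2 : F) ≠ 0) {j : τ} {p y : V}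
    (hp0 : Q p = 0) (hp1 : p ≠ 0) (hp : p ∈ orth Q (D j)) (hpy : polar Q p y = 0)
    (hX : eich Q p y ∈ X) : π j y = 0 := by
  by_contra hy
  obtain ⟨z, hz, hyz⟩ := exists_ne_of_disjoint (h.nondeg j) (h.proj.mem j y) hy
  have h1 := mt ((h.tri j).le_of_forall_singular (T := orth Q (Submodule.span F {y})))
    fun h1 => hyz ((h.polar_proj y hz).trans (mem_orth_singleton.1 (h1 hz)))
  push Not at h1
  obtain ⟨s, hs, hs0, ⟨s', hs', hss'⟩, hys⟩ := h1
  rw [mem_orth_singleton] at hys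
  have h3 := finrank_le_inf_orth_pair (Q := Q) (D j) s y
  have h4 := h.three j
  obtain ⟨a, ha, ha0⟩ := Submodule.exists_mem_ne_zero_of_ne_bot
    (p := D j ⊓ orth Q (Submodule.span F {s, y})) (by rintro h; rw [h, finrank_bot] at h3; omega)
  obtain ⟨h5, h6⟩ := mem_orth_pair.1 ha.2
  have fix : ∀ {e u}, e ∈ D j → u ∈ D j → (eich Q e u).1 p = p := fun he hu =>
    eich_apply_of_orth_orth (mem_orth'.1 hp _ he) (mem_orth'.1 hp _ hu)
  have h7 : ∀ c : F, polar Q p ((eich Q s (c • a)).1 y) = 0 ∧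
      eich Q p ((eich Q s (c • a)).1 y) ∈ X := fun c => by
    have h7 := (h.hull j).1 s hs _ ((D j).smul_mem c ha.1)
    have h8 := X.mul_mem (X.mul_mem h7 hX) (X.inv_mem h7)
    rw [conj_eich, fix hs ((D j).smul_mem c ha.1)] at h8
    exact ⟨by rw [← fix hs ((D j).smul_mem c ha.1), O_polar, hpy], h8⟩
  have h8 : a ∈ rootSp X p := ⟨mem_orth'.1 hp _ ha.1, fun c => by
    set d := c / (2 * polar Q y s)
    have h8 := X.mul_mem (h7 (-d)).2 (X.inv_mem (h7 d).2)
    rw [← eich_neg, ← eich_add hp0 (h7 _).1 (by rw [polar_neg_right, (h7 _).1, neg_zero]),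
      eich_apply hs0 (by rw [polar_smul_right', h5, mul_zero]),
      eich_apply hs0 (by rw [polar_smul_right', h5, mul_zero])] at h8
    convert h8 using 2
    qsimp
    rw [h6]
    match_scalars
    · simp only [d]; field_simp; ring
    · ring
    · ring⟩
  rcases eq_of_eich_invariant (U := D j ⊓ rootSp X p) (h.nondeg j) (h.tri j) h4 inf_le_left
    (fun e he u hu x hx => ⟨eich_apply_mem le_rfl he hu hx.1,
      apply_mem_rootSp_of_fix ((h.hull j).1 e he u hu) (fix he hu) hx.2⟩) with h9 | h9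
  · exact ha0 ((Submodule.eq_bot_iff _).1 h9 a ⟨ha.1, h8⟩)
  have h10 := mem_rootSp_swap hp0 hs0 (h9.ge hs).2
  exact hp1 (Submodule.disjoint_def.1 (h.nondeg j) p
    ((h.hull j).mem (h.tri j) hs hs' hs0 hss' h10.1 h10.2) hp)

theorem proj_eq_zero_of_cls (h : OCtx Q D π X) (h2 : (2 : F) ≠ 0) {j : τ} {v x p : V}
    (hv0 : Q v ≠ 0) (hx : Cls X v x) (hx' : Cls X v (x - p)) (hp0 : Q p = 0) (hp1 : p ≠ 0)
    (hp : p ∈ orth Q (D j)) : π j x = 0 := by
  have hx0 : Q x ≠ 0 := hx.1 ▸ hv0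
  have h1 : polar Q p x = 0 := by
    have := hx'.1.trans hx.1.symm
    rw [Q_sub, hp0] at this
    rw [polar_comm]; linear_combination -this
  have h3 : Q ((Q x)⁻¹ • p) = 0 := by rw [Q_smul, hp0, mul_zero]
  have h4 : polar Q ((Q x)⁻¹ • p) x = 0 := by rw [polar_smul_left', h1, mul_zero]
  refine h.proj_eq_zero_of_eich h2 h3 (smul_ne_zero (inv_ne_zero hx0) hp1)
    (Submodule.smul_mem _ _ hp) h4 ?_
  rw [eich_eq_refl_mul_refl h3 h4 hx0, smul_smul, mul_inv_cancel₀ hx0, one_smul]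
  exact hx.mul hx'

/-- In odd characteristic the class is invariant under the stabiliser of the decomposition. -/
theorem cls_apply (h : OCtx Q D π X) (h2 : (2 : F) ≠ 0) {i j : τ} {v x : V} (hv : v ∈ D i)
    (hv0 : Q v ≠ 0) (hx : Cls X v x) {g : O Q} (hg : ∀ y ∈ D i, g.1 y ∈ D j)
    (hX : ∀ k, (∀ l, k ∈ stab Q (D l)) → g * k ∈ commutator (O Q) → g * k ∈ X) :
    Cls X v (g.1 x) := by
  obtain ⟨l, hl⟩ := h.exists_nonsing (hx.1 ▸ hv0 : Q x ≠ 0)
  have := finrank_le_inf_orth_singleton (Q := Q) (D l) (π l x)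
  have := h.three l
  obtain ⟨k, ⟨hk, hk'⟩, hgk⟩ := exists_mul_mem_Om h.nd h.five
    (disjoint_inf_orth_singleton h2 (h.nondeg l) (h.proj.mem l x) hl) (by omega)
    (H := (⨅ l, stab Q (D l)) ⊓ fixG Q (Submodule.span F {x})) (fun a ha =>
      ⟨Subgroup.mem_iInf.2 (refl_mem_stab_block h.perp ha.1), refl_mem_fixG
        (mem_orth_singleton.2 ((h.polar_proj x ha.1).symm.trans (mem_orth_singleton.1 ha.2)))⟩) g
  have hk := Subgroup.mem_iInf.1 hk
  have h3 := hx.apply (hX k hk hgk) (h.cls_of_mem hv hv0 (hg _ ((hk i v).1 hv)) (O_map _ _))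
  rwa [O_mul_apply, hk' x (Submodule.mem_span_singleton_self x)] at h3

theorem cls_refl (h : OCtx Q D π X) (h2 : (2 : F) ≠ 0) {i l : τ} {v x z : V} (hv : v ∈ D i)
    (hv0 : Q v ≠ 0) (hx : Cls X v x) (hz : z ∈ D l) : Cls X v ((refl Q z).1 x) :=
  h.cls_apply h2 hv hv0 hx (fun y => (refl_mem_stab_block h.perp hz i y).1) fun _ hk hg =>
    h.base _ hg fun m => (stab Q _).mul_mem (refl_mem_stab_block h.perp hz m) (hk m)

theorem proj_eq_zero_of_singular (h : OCtx Q D π X) (h2 : (2 : F) ≠ 0) {i l : τ} {v x : V}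
    (hv : v ∈ D i) (hv0 : Q v ≠ 0) (hx : Cls X v x) (hl : Q (π l x) = 0) : π l x = 0 := by
  by_contra h0
  have he := h.proj.mem l x
  obtain ⟨y, hy, hxy⟩ := exists_ne_of_disjoint (h.nondeg l) he h0
  obtain ⟨f, hf, hf0, hef⟩ := exists_partner_mem he hy hl hxy
  have h3 := h.cls_refl h2 hv hv0 (h.cls_refl h2 hv hv0 hx ((D l).sub_mem he hf))
    ((D l).add_mem he hf)
  have h4 : polar Q x (π l x) = 0 := by rw [← h.polar_proj x he, polar_self', hl, mul_zero]
  have h5 : polar Q x f = 1 := by rw [← h.polar_proj x hf, hef]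
  have h6 : (refl Q (π l x + f)).1 ((refl Q (π l x - f)).1 x) = x - (2 : F) • π l x := by
    rw [refl_apply, refl_apply]
    qsimp
    rw [hl, hf0, hef, pc hef, h4, h5]
    match_scalars <;> norm_num
  rw [h6] at h3
  have h7 : x ∈ D l := h.proj.mem_iff.2 fun j hj => h.proj_eq_zero_of_cls h2 hv0 hx h3
    (by rw [Q_smul, hl, mul_zero]) (smul_ne_zero h2 h0)
    (h.perp l j hj.symm ((D l).smul_mem _ he))
  rw [h.proj.self l x h7, hx.1] at hl
  exact hv0 hl

theorem proj_eq_zero_of_two (h : OCtx Q D π X) (h2 : (2 : F) ≠ 0) {i l m j : τ} {v x : V}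
    (hv : v ∈ D i) (hv0 : Q v ≠ 0) (hx : Cls X v x) (hlm : l ≠ m) (hlj : l ≠ j) (hmj : m ≠ j)
    (hl : π l x ≠ 0) (hm : π m x ≠ 0) : π j x = 0 := by
  obtain ⟨z, hz, h3, h4⟩ := exists_polar_norm h2 (h.nondeg l) (h.three l) (h.proj.mem l x) hl
    one_ne_zero 1
  obtain ⟨z', hz', h5, h6⟩ := exists_polar_norm h2 (h.nondeg m) (h.three m) (h.proj.mem m x) hm
    (neg_ne_zero.2 one_ne_zero) (-1)
  rw [h.polar_proj x hz] at h3
  rw [h.polar_proj x hz'] at h5
  have h7 : polar Q z z' = 0 := mem_orth'.1 (h.perp l m hlm hz) z' hz'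
  have h8 := h.cls_refl h2 hv hv0 (h.cls_refl h2 hv hv0 hx hz) hz'
  have h9 : (refl Q z').1 ((refl Q z).1 x) = x - (z + z') := by
    rw [refl_apply, refl_apply]
    qsimp
    rw [h3, h4, h5, h6, h7]
    match_scalars <;> norm_num
  rw [h9] at h8
  refine h.proj_eq_zero_of_cls h2 hv0 hx h8 (by rw [Q_add, h4, h6, h7]; ring) (fun h0 => h2 ?_)
    (Submodule.add_mem _ (h.perp l j hlj hz) (h.perp m j hmj hz'))
  have := congrArg (polar Q z) h0
  rwa [polar_add_right, h7, polar_self', h4, polar_zero_right, add_zero, mul_one] at this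

end OCtx

end Cfsg.Lib.Class.OMax
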