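import Cfsg.Agent.Class.ONonMax

/-!
Orthogonal decompositions and their canonical refinements.
-/

set_option autoImplicit false

namespace Cfsg.Lib.Class.OMax

open QuadraticMap Module Orth
open scoped commutatorElement

variable {F V : Type*} [Field F] [AddCommGroup V] [Module F V] {Q : QuadraticForm F V}

/-- An orthogonal decomposition into pairwise isometric non-degenerate `k`-spaces. -/
structure ODec (Q : QuadraticForm F V) (k : ℕ) {τ : Type*} (D : τ → Submodule F V) : Prop where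
  rank : ∀ i, finrank F (D i) = k
  nondeg : ∀ i, Disjoint (D i) (orth Q (D i))
  orth : ∀ i j, i ≠ j → D i ≤ orth Q (D j)
  top : iSup D = ⊤
  iso : ∀ i j, ∃ e : D i ≃ₗ[F] D j, ∀ w : D i, Q (e w : V) = Q (w : V)

theorem exists_O_map_eq [FiniteDimensional F V] (hQ : (polarBilin Q).Nondegenerate)
    {A B : Submodule F V} (e : A ≃ₗ[F] B) (he : ∀ w : A, Q (e w : V) = Q (w : V)) :
    ∃ g : O Q, A.map g.1.toLinearMap = B := by
  obtain ⟨g, hg⟩ := witt hQ A (B.subtype ∘ₗ e.toLinearMap)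
    (Subtype.val_injective.comp e.injective) he
  exact ⟨g, map_eq_of_forall_mem g.1 (fun v hv => by rw [hg ⟨v, hv⟩]; exact (e ⟨v, hv⟩).2)
    e.finrank_eq.ge⟩

theorem map_O_inv_map (U : Submodule F V) (g : O Q) :
    (U.map g.1.toLinearMap).map (g⁻¹).1.toLinearMap = U := by
  rw [← map_O_mul, inv_mul_cancel, map_O_one]

theorem map_O_map_inv (U : Submodule F V) (g : O Q) :
    (U.map (g⁻¹).1.toLinearMap).map g.1.toLinearMap = U := by
  rw [← map_O_mul, mul_inv_cancel, map_O_one]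

theorem mem_stabDec_of_range {τ : Type*} [Finite τ] {D : τ → Submodule F V}
    (hD : Function.Injective D) {g : V ≃ₗ[F] V}
    (h : ∀ i, (D i).map g.toLinearMap ∈ Set.range D) : g ∈ stabDec D := by
  choose σ hσ using h
  exact ⟨Equiv.ofBijective σ (Finite.injective_iff_bijective.1 fun i j hij => hD
    (Submodule.map_injective_of_injective g.injective (by rw [← hσ, hij, hσ]))),
    fun i => (hσ i).symm⟩

namespace ODec

variable {k : ℕ} {τ : Type*} {D : τ → Submodule F V}

theorem indep (h : ODec Q k D) : iSupIndep D := fun i =>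
  (h.nondeg i).mono_right (iSup₂_le fun j hj => h.orth j i hj)

theorem polar_eq_zero (h : ODec Q k D) {i j : τ} (hij : i ≠ j) {x y : V} (hx : x ∈ D i)
    (hy : y ∈ D j) : polar Q x y = 0 := h.orth j i hij.symm hy x hx

theorem ne_bot (h : ODec Q k D) (hk : 0 < k) (i : τ) : D i ≠ ⊥ := fun h0 => by
  have := h.rank i
  rw [h0, finrank_bot] at this
  omega

theorem injective (h : ODec Q k D) (hk : 0 < k) : Function.Injective D := fun i j hij => by
  by_contra hne
  exact h.ne_bot hk i (disjoint_self.1 ((h.nondeg i).mono_right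
    (by conv_lhs => rw [hij]
        exact h.orth j i (Ne.symm hne))))

theorem eq_of_le (h : ODec Q k D) {U : Submodule F V} (hU : U ≠ ⊥) {i j : τ} (hi : U ≤ D i)
    (hj : U ≤ D j) : i = j := by
  by_contra hne
  exact hU (disjoint_self.1 ((h.nondeg j).mono hj (hi.trans (h.orth i j hne))))

theorem exists_proj [Fintype τ] (h : ODec Q k D) : ∃ p, IsDecProj D p :=
  exists_isDecProj h.indep h.top

theorem comp_equiv (h : ODec Q k D) {τ' : Type*} (e : τ' ≃ τ) : ODec Q k (D ∘ e) :=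
  ⟨fun _ => h.rank _, fun _ => h.nondeg _, fun _ _ hij => h.orth _ _ (e.injective.ne hij),
    (e.iSup_comp (g := D)).trans h.top, fun _ _ => h.iso _ _⟩

theorem exists_perm [Fintype τ] (h : ODec Q k D) (σ : Equiv.Perm τ) :
    ∃ g : O Q, ∀ i, (D i).map g.1.toLinearMap = D (σ i) := by
  obtain ⟨p, hp⟩ := h.exists_proj
  choose e he using h.iso
  obtain ⟨g, h1, h2⟩ := hp.exists_glue_equiv σ fun i => e i (σ i)
  refine ⟨⟨g, mem_O.2 fun v => ?_⟩, h2⟩
  have h3 : ∀ i, g (p i v) = e i (σ i) ⟨p i v, hp.mem i v⟩ := fun i => h1 i ⟨_, hp.mem i v⟩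
  conv_rhs => rw [← hp.sum v]
  conv_lhs => rw [← hp.sum v, map_sum]
  rw [Known.quad_sum_of_orth Q _ _ fun i _ j _ hij => h.polar_eq_zero hij (hp.mem i v) (hp.mem j v),
    Known.quad_sum_of_orth Q _ _ fun i _ j _ hij => by
      rw [h3, h3]; exact h.polar_eq_zero (σ.injective.ne hij) (Subtype.property _)
        (Subtype.property _)]
  exact Finset.sum_congr rfl fun i _ => by rw [h3, he]

theorem exists_three_cycle [Fintype τ] (h : ODec Q k D) {a b c : τ} (hab : a ≠ b) (hac : a ≠ c)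
    (hbc : b ≠ c) : ∃ g ∈ commutator (O Q), g.1 ∈ stabDec D ∧
      (D a).map g.1.toLinearMap = D b ∧ (D b).map g.1.toLinearMap = D c := by
  classical
  obtain ⟨g, hg⟩ := h.exists_perm (Equiv.swap a b)
  obtain ⟨g', hg'⟩ := h.exists_perm (Equiv.swap a c)
  have inv : ∀ (g : O Q) (x y : τ), (∀ i, (D i).map g.1.toLinearMap = D (Equiv.swap x y i)) →
      ∀ i, (D i).map (g⁻¹).1.toLinearMap = D (Equiv.swap x y i) := fun g x y hg i => by
    conv_lhs => rw [← Equiv.swap_apply_self x y i, ← hg, map_O_inv_map]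
  let S := (stabDec D).comap (O Q).subtype
  have h1 : g ∈ S := ⟨_, hg⟩
  have h2 : g' ∈ S := ⟨_, hg'⟩
  refine ⟨⁅g, g'⁆, Subgroup.commutator_mem_commutator (Subgroup.mem_top _) (Subgroup.mem_top _),
    ?_, ?_, ?_⟩
  · exact S.mul_mem (S.mul_mem (S.mul_mem h1 h2) (S.inv_mem h1)) (S.inv_mem h2)
  all_goals
    rw [commutatorElement_def, map_O_mul, map_O_mul, map_O_mul, inv g' _ _ hg', inv g _ _ hg, hg',
      hg]
    simp [Equiv.swap_apply_def, hab, hac, hbc, hab.symm, hac.symm, hbc.symm]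

theorem card_mul [Fintype τ] [FiniteDimensional F V] (h : ODec Q k D) :
    Fintype.card τ * k = finrank F V := by
  classical
  have := (DirectSum.isInternal_submodule_of_iSupIndep_of_iSup_eq_top h.indep h.top)
  rw [← (LinearEquiv.ofBijective (DirectSum.coeLinearMap D) this).finrank_eq,
    Module.finrank_directSum]
  simp [h.rank]

theorem exists_not_stabDec [Fintype τ] [FiniteDimensional F V] [Finite F] (h : ODec Q k D)
    (hQ : (polarBilin Q).Nondegenerate) (hk : 0 < k) (hn : k + 4 ≤ finrank F V) :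
    ∃ g ∈ commutator (O Q), g.1 ∉ stabDec D := by
  obtain ⟨p, hp⟩ := h.exists_proj
  have := h.card_mul
  obtain ⟨i⟩ : Nonempty τ := Fintype.card_pos_iff.1 (Nat.pos_of_ne_zero fun h0 => by
    rw [h0] at this; omega)
  exact OMax.exists_not_stabDec hQ hp (h.ne_bot hk i) (by rwa [h.rank])

/-- Canonical refinement of an orthogonal decomposition. -/
theorem refine [FiniteDimensional F V] [Finite V] (h : ODec Q k D)
    (hQ : (polarBilin Q).Nondegenerate) {P : Submodule F V → Prop}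
    (hP : ∀ (g : O Q) U, P U → P (U.map g.1.toLinearMap)) {i₀ : τ} {k' : ℕ}
    (h1 : ∀ U U', U ≤ D i₀ → U' ≤ D i₀ → P U → P U' → U ≠ U' → U ≤ Orth.orth Q U')
    (h2 : D i₀ ≤ sSup {U | U ≤ D i₀ ∧ P U})
    (h3 : ∀ U, P U → finrank F U = k' ∧ Disjoint U (Orth.orth Q U))
    (h4 : ∀ U U', P U → P U' → ∃ e : U ≃ₗ[F] U', ∀ w : U, Q (e w : V) = Q (w : V)) :
    ∃ (t : ℕ) (D' : Fin t → Submodule F V), ODec Q k' D' ∧ Function.Injective D' ∧
      (∀ U, U ∈ Set.range D' ↔ P U ∧ ∃ i, U ≤ D i) ∧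
      ∀ g : O Q, g.1 ∈ stabDec D → g.1 ∈ stabDec D' := by
  let S := {U | P U ∧ ∃ i, U ≤ D i}
  let e := (Finite.equivFin S).symm
  have hr : ∀ U, U ∈ Set.range (fun i => (e i : Submodule F V)) ↔ P U ∧ ∃ i, U ≤ D i := fun U =>
    ⟨by rintro ⟨i, rfl⟩; exact (e i).2, fun hU => ⟨e.symm ⟨U, hU⟩, congrArg Subtype.val (e.apply_symm_apply _)⟩⟩
  have hi : Function.Injective fun i => (e i : Submodule F V) :=
    Subtype.val_injective.comp e.injective
  have hg : ∀ i j, ∃ g : O Q, (D i).map g.1.toLinearMap = D j := fun i j => by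
    obtain ⟨e, he⟩ := h.iso i j
    exact exists_O_map_eq hQ e he
  refine ⟨_, fun i => e i, ⟨fun i => (h3 _ (e i).2.1).1, fun i => (h3 _ (e i).2.1).2,
    fun i j hij => ?_, ?_, fun i j => h4 _ _ (e i).2.1 (e j).2.1⟩, hi, hr, fun g ⟨σ, hσ⟩ =>
      mem_stabDec_of_range hi fun i => (hr _).2 ⟨hP g _ (e i).2.1, ?_⟩⟩
  · obtain ⟨a1, a, ha⟩ := (e i).2
    obtain ⟨b1, b, hb⟩ := (e j).2
    by_cases hab : a = b
    · subst hab
      obtain ⟨g, hg⟩ := hg a i₀
      have := h1 _ _ (hg ▸ Submodule.map_mono ha) (hg ▸ Submodule.map_mono hb) (hP g _ a1)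
        (hP g _ b1) fun h => hij (hi (Submodule.map_injective_of_injective g.1.injective h))
      rwa [← map_orth, Submodule.map_le_map_iff_of_injective g.1.injective] at this
    · exact ha.trans ((h.orth a b hab).trans (orth_anti hb))
  · rw [eq_top_iff, ← h.top, iSup_le_iff]
    intro i
    obtain ⟨g, hg⟩ := hg i₀ i
    rw [← hg]
    refine (Submodule.map_mono h2).trans ?_
    rw [sSup_eq_iSup', Submodule.map_iSup, iSup_le_iff]
    rintro ⟨U, hU, hU'⟩
    obtain ⟨j, hj⟩ := (hr _).2 ⟨hP g U hU', i, hg ▸ Submodule.map_mono hU⟩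
    exact le_iSup_of_le j hj.ge
  · obtain ⟨-, a, ha⟩ := (e i).2
    exact ⟨σ a, hσ a ▸ Submodule.map_mono ha⟩

/-- A proper refinement has a larger stabiliser. -/
theorem notMaxOm_of_refine [Fintype τ] [FiniteDimensional F V] [Finite F] (h : ODec Q k D)
    (hQ : (polarBilin Q).Nondegenerate) {τ' : Type*} [Fintype τ'] {D' : τ' → Submodule F V}
    {k' : ℕ} (h' : ODec Q k' D') (hk : 0 < k') (hk' : k' < k) (hn : k < finrank F V)
    (hn' : k' + 4 ≤ finrank F V) (hle : ∀ j, ∃ i, D' j ≤ D i)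
    (hs : ∀ g : O Q, g.1 ∈ stabDec D → g.1 ∈ stabDec D') : NotMaxOm Q (stabDec D) := by
  choose f hf using hle
  have h1 : ¬ Function.Injective f := fun hi => by
    have h1 := Fintype.card_le_of_injective f hi
    have h2 := h.card_mul
    have h3 := h'.card_mul
    have h4 : 0 < Fintype.card τ := Nat.pos_of_ne_zero fun h0 => by rw [h0] at h2; omega
    nlinarith
  obtain ⟨a, b, hab, hne⟩ := Function.not_injective_iff.1 h1
  obtain ⟨c, hc⟩ : ∃ c, f c ≠ f a := by
    by_contra! hc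
    have : (⊤ : Submodule F V) ≤ D (f a) := by
      rw [← h'.top, iSup_le_iff]
      exact fun j => hc j ▸ hf j
    have := Submodule.finrank_mono this
    rw [finrank_top, h.rank] at this
    omega
  obtain ⟨g, hg, h2, h3, h4⟩ := h'.exists_three_cycle hne (by rintro rfl; exact hc rfl)
    (show b ≠ c by rintro rfl; exact hc hab.symm)
  refine ⟨stabDec D', fun g _ => hs g, ⟨g, hg, h2, ?_⟩, h'.exists_not_stabDec hQ hk hn'⟩
  rintro ⟨σ, hσ⟩
  have h5 := h.eq_of_le (h'.ne_bot hk b) (hf b) (by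
    rw [← h3, ← hσ]; exact Submodule.map_mono (hf a))
  have h6 := h.eq_of_le (h'.ne_bot hk c) (hf c) (by
    rw [← h4, ← hσ]; exact Submodule.map_mono (hf b))
  exact hc (by rw [h6, ← hab, ← h5, hab])

end ODec

section Geo

open Cfsg.Geo

variable {ι : Type} [Fintype ι] [DecidableEq ι] {Q : QuadraticForm F (ι → F)} {k t : ℕ}
  {D : Fin t → Submodule F (ι → F)}

theorem odec_of_geo (h : IsOrthogonalMDecomposition Q k D) : ODec Q k D :=
  ⟨h.decomp.decomp.finrank_eq, fun i => disjoint_orth_of_isNondegenerateOn (h.decomp.nondegenerate i),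
    fun i j hij _ hx y hy => h.decomp.orthogonal j i hij.symm y hy _ hx,
    h.decomp.decomp.iSup_eq_top, h.isometric⟩

theorem ODec.toGeo (h : ODec Q k D) (hk : 0 < k) (hn : k < Fintype.card ι) :
    IsOrthogonalMDecomposition Q k D := by
  have h1 := h.card_mul
  rw [Fintype.card_fin, Module.finrank_fintype_fun_eq_card] at h1
  refine ⟨⟨⟨?_, hk, h.rank, h.indep, h.top⟩, fun i => isNondegenerateOn_of_disjoint (h.nondeg i),
    fun i j hij _ hx _ hy => h.polar_eq_zero hij hx hy⟩, h.iso⟩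
  by_contra h2
  obtain rfl | rfl : t = 0 ∨ t = 1 := by omega
  all_goals omega

end Geo

end Cfsg.Lib.Class.OMax
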