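import Cfsg.Agent.Class.OFourFour
import Cfsg.Agent.Class.OPair
import Cfsg.Agent.Class.ODecRefine

/-!
Lemmas on non-degenerate subspaces of dimension at least three, used for the maximality of the
stabilisers of orthogonal decompositions.
-/

set_option autoImplicit false

namespace Cfsg.Lib.Class.OMax

open QuadraticMap Module Orth

variable {F V : Type*} [Field F] [AddCommGroup V] [Module F V] {Q : QuadraticForm F V}
  {A B D T : Submodule F V}

theorem mem_span_of_orth (hD : Disjoint D (orth Q D)) {x y : V} (hx : x ∈ D) (hy : y ∈ D)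
    (h : ∀ u ∈ D, polar Q x u = 0 → polar Q y u = 0) : y ∈ Submodule.span F {x} := by
  by_cases hx0 : x = 0
  · rw [Submodule.disjoint_def.1 hD y hy (mem_orth'.2 fun u hu => h u hu (by simp [hx0]))]
    exact Submodule.zero_mem _
  obtain ⟨z, hz, hxz⟩ := exists_ne_of_disjoint hD hx hx0
  refine Submodule.mem_span_singleton.2 ⟨polar Q y z / polar Q x z, (sub_eq_zero.1 ?_).symm⟩
  refine Submodule.disjoint_def.1 hD _ (D.sub_mem hy (D.smul_mem _ hx)) (mem_orth'.2 fun u hu => ?_)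
  have := h (u - (polar Q x u / polar Q x z) • z) (D.sub_mem hu (D.smul_mem _ hz))
    (by qsimp; field_simp; ring)
  revert this
  qsimp
  intro this
  field_simp at this ⊢
  linear_combination this

theorem disjoint_inf_orth_singleton (h2 : (2 : F) ≠ 0) (hD : Disjoint D (orth Q D)) {x : V}
    (hx : x ∈ D) (hx0 : Q x ≠ 0) : Disjoint (D ⊓ orth Q (Submodule.span F {x}))
      (orth Q (D ⊓ orth Q (Submodule.span F {x}))) := by
  refine Submodule.disjoint_def.2 fun r hr hr' => ?_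
  obtain ⟨c, rfl⟩ := Submodule.mem_span_singleton.1 (mem_span_of_orth hD hx hr.1 fun u hu h =>
    mem_orth'.1 hr' u ⟨hu, mem_orth_singleton.2 h⟩)
  have := mem_orth_singleton.1 hr.2
  rw [polar_smul_right', polar_self'] at this
  simp only [mul_eq_zero, h2, hx0, or_false] at this
  rw [this, zero_smul]

variable [FiniteDimensional F V]

/-- A vector fixed by all Eichler transformations fixing a singular vector `x`. -/
theorem mem_span_of_eich_fix [Finite F] (hD : Disjoint D (orth Q D)) (h3 : 3 ≤ finrank F D)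
    {x y : V} (hx : x ∈ D) (hx0 : Q x = 0) (hy : y ∈ D)
    (h : ∀ p ∈ D, ∀ u ∈ D, polar Q x p = 0 → polar Q x u = 0 → (eich Q p u).1 y = y) :
    y ∈ Submodule.span F {x} := by
  by_cases hx1 : x = 0
  · rcases eq_of_eich_invariant (U := Submodule.span F {y}) hD (tri_of_three_le hD h3) h3
      ((Submodule.span_singleton_le_iff_mem _ _).2 hy) (fun p hp w hw u hu => by
        obtain ⟨c, rfl⟩ := Submodule.mem_span_singleton.1 hu
        rw [map_smul, h p hp w hw (by simp [hx1]) (by simp [hx1])]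
        exact hu) with h1 | h1
    · rw [Submodule.span_singleton_eq_bot.1 h1]; exact Submodule.zero_mem _
    · have := finrank_span_singleton_le (F := F) y
      rw [h1] at this
      omega
  have key : ∀ u ∈ D, polar Q x u = 0 →
      (polar Q y u - Q u * polar Q y x) • x - polar Q y x • u = 0 := fun u hu hxu => by
    have := h x hx u hu (by rw [polar_self', hx0, mul_zero]) hxu
    rwa [eich_apply hx0 hxu, add_sub_assoc, add_eq_left] at this
  have h1 : polar Q y x = 0 := by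
    by_contra h1
    have h4 : D ⊓ orth Q (Submodule.span F {x}) ≤ Submodule.span F {x} := fun u hu =>
      Submodule.mem_span_singleton.2 ⟨(polar Q y x)⁻¹ * (polar Q y u - Q u * polar Q y x), by
        rw [mul_smul, sub_eq_zero.1 (key u hu.1 (mem_orth_singleton.1 hu.2)), smul_smul,
          inv_mul_cancel₀ h1, one_smul]⟩
    have := Submodule.finrank_mono h4
    have := finrank_le_inf_orth_singleton (Q := Q) D x
    have := finrank_span_singleton_le (F := F) x
    omega
  refine mem_span_of_orth hD hx hy fun u hu hxu => ?_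
  simpa [h1, hx1] using key u hu hxu

theorem exists_polar_norm [Finite F] (h2 : (2 : F) ≠ 0) (hD : Disjoint D (orth Q D))
    (h3 : 3 ≤ finrank F D) {x : V} (hx : x ∈ D) (hx1 : x ≠ 0) {b : F} (hb : b ≠ 0) (c : F) :
    ∃ z ∈ D, polar Q x z = b ∧ Q z = c := by
  by_cases hx0 : Q x = 0
  · obtain ⟨y, hy, hxy⟩ := exists_ne_of_disjoint hD hx hx1
    obtain ⟨f, hf, hf0, hxf⟩ := exists_partner_mem hx hy hx0 hxy
    refine ⟨b • f + (c / b) • x, D.add_mem (D.smul_mem _ hf) (D.smul_mem _ hx), ?_, ?_⟩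
    · qsimp; rw [hxf, hx0]; ring
    · qsimp; rw [hf0, hx0, pc hxf]; field_simp; ring
  have := finrank_le_inf_orth_singleton (Q := Q) D x
  obtain ⟨a, ha, ha'⟩ := exists_norm_mem (disjoint_inf_orth_singleton h2 hD hx hx0) (by omega)
    (c - (b / (2 * Q x)) ^ 2 * Q x)
  have h4 := mem_orth_singleton.1 ha.2
  refine ⟨(b / (2 * Q x)) • x + a, D.add_mem (D.smul_mem _ hx) ha.1, ?_, ?_⟩
  · qsimp; rw [h4]; field_simp; ring
  · qsimp; rw [h4, ha']; ring

/-- Correcting an isometry into `Ω` by reflections in a non-degenerate subspace. -/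
theorem exists_mul_mem_Om [Finite F] (hQ : (polarBilin Q).Nondegenerate) (hn : 5 ≤ finrank F V)
    (hD : Disjoint D (orth Q D)) (h2 : 2 ≤ finrank F D) {H : Subgroup (O Q)}
    (hH : ∀ a ∈ D, refl Q a ∈ H) (g : O Q) : ∃ h ∈ H, g * h ∈ commutator (O Q) := by
  obtain ⟨a, ha, ha1⟩ := exists_norm_mem hD h2 1
  have ha0 : Q a ≠ 0 := by rw [ha1]; exact one_ne_zero
  refine Known.exists_mul_mem_commutator hQ (not_exc_of_finrank (by omega)) H g
    (Or.inr ⟨_, hH a ha, dick_refl hQ ha0⟩) fun h => ?_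
  obtain ⟨t, ht⟩ := Known.exists_not_isSquare h
  obtain ⟨b, hb, hb1⟩ := exists_norm_mem hD h2 t
  have hb0 : Q b ≠ 0 := by rw [hb1]; rintro rfl; exact ht IsSquare.zero
  exact ⟨_, H.mul_mem (hH a ha) (hH b hb), Known.dick_refl_mul_refl hQ ha0 hb0, by
    rw [Known.spinA_refl_mul_refl hQ ha0 hb0, ha1, hb1, one_mul, Known.sqs_of_not_isSquare ht]⟩

/-- The non-degenerate subspaces of dimension at least three on which the isometry group acts
primitively. -/
def Prim [Fintype F] (Q : QuadraticForm F V) (T : Submodule F V) : Prop :=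
  3 ≤ finrank F T ∧ (finrank F T = 3 → 3 < Fintype.card F) ∧
    (finrank F T = 4 → Fintype.card F = 2 → ¬ Known.IsPlus (Q.restrict T))

omit [FiniteDimensional F V] in
theorem Prim.map [Fintype F] (h : Prim Q T) (g : O Q) : Prim Q (T.map g.1.toLinearMap) := by
  rw [Prim, LinearEquiv.finrank_map_eq]
  exact ⟨h.1, h.2.1, fun h1 h2 h3 => h.2.2 h1 h2 ((Known.isPlus_congr (Q := Q.restrict T)
    (Q' := Q.restrict (T.map g.1.toLinearMap)) (LinearEquiv.ofSubmodules g.1 T _ rfl) one_ne_zero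
      fun v => (O_map g v).trans (one_mul _).symm).1 h3)⟩

omit [FiniteDimensional F V] in
theorem disjoint_orth_of_sup (hT : Disjoint T (orth Q T)) (h : A ⊔ B = T) (ho : A ≤ orth Q B) :
    Disjoint A (orth Q A) := Submodule.disjoint_def.2 fun r hr hr' =>
  Submodule.disjoint_def.1 hT r (h ▸ Submodule.mem_sup_left hr) (mem_orth.2 fun u hu => by
    obtain ⟨a, ha, b, hb, rfl⟩ := Submodule.mem_sup.1 (h ▸ hu : u ∈ A ⊔ B)
    rw [polar_add_left, mem_orth.1 hr' a ha, mem_orth.1 (ho hr) b hb, add_zero])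

theorem Prim.exists_sum [Fintype F] (hp : Prim Q T) (hT : Disjoint T (orth Q T)) (h : A ⊔ B = T)
    (ho : A ≤ orth Q B) {v w : V} (hv : v ∈ A) (hw : w ∈ B) (hv0 : Q v ≠ 0) (hw0 : Q w = Q v) :
    ∃ a ∈ A, ∃ b ∈ B, a ≠ 0 ∧ b ≠ 0 ∧ Q a + Q b = Q v := by
  have hA := disjoint_orth_of_sup hT h ho
  have hB := disjoint_orth_of_sup hT ((sup_comm _ _).trans h) (le_orth_comm.1 ho)
  have hv1 : v ≠ 0 := by rintro rfl; simp at hv0
  have hw1 : w ≠ 0 := by rintro rfl; rw [← hw0] at hv0; simp at hv0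
  have hd : finrank F T ≤ finrank F A + finrank F B :=
    h ▸ Submodule.finrank_add_le_finrank_add_finrank _ _
  have ne : ∀ {a : V} {c : F}, Q a = c → c ≠ 0 → a ≠ 0 := by
    rintro a c h1 h2 rfl
    exact h2 (by simpa using h1.symm)
  obtain ⟨p1, p2, p3⟩ := hp
  by_cases hq : 3 < Fintype.card F
  · obtain ⟨d, hd0, hd1⟩ := AL.exists_sq_ne_one (F := F) hq
    have h1 : (1 - d ^ 2) * Q v ≠ 0 := mul_ne_zero (sub_ne_zero.2 hd1.symm) hv0
    by_cases h2 : 2 ≤ finrank F A
    · obtain ⟨a, ha, ha'⟩ := exists_norm_mem hA h2 ((1 - d ^ 2) * Q v)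
      exact ⟨a, ha, d • w, B.smul_mem _ hw, ne ha' h1, smul_ne_zero hd0 hw1, by
        rw [ha', Q_smul, hw0]; ring⟩
    · obtain ⟨b, hb, hb'⟩ := exists_norm_mem hB (by omega) ((1 - d ^ 2) * Q v)
      exact ⟨d • v, A.smul_mem _ hv, b, hb, smul_ne_zero hd0 hv1, ne hb' h1, by
        rw [hb', Q_smul]; ring⟩
  by_cases h1 : ∀ e ∈ A, Q e = 0 → e = 0
  swap
  · push Not at h1
    obtain ⟨e, he, he0, he1⟩ := h1
    exact ⟨e, he, w, hw, he1, hw1, by rw [he0, hw0, zero_add]⟩
  by_cases h2 : ∀ e ∈ B, Q e = 0 → e = 0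
  swap
  · push Not at h2
    obtain ⟨e, he, he0, he1⟩ := h2
    exact ⟨v, hv, e, he, hv1, he1, by rw [he0, add_zero]⟩
  have h3 : ∀ {S : Submodule F V}, (∀ e ∈ S, Q e = 0 → e = 0) → finrank F S ≤ 2 := fun {S} hS => by
    by_contra hc
    obtain ⟨e, he, he1, he0⟩ := exists_singular_mem Q (S := S) (by omega)
    exact he1 (hS e he he0)
  have a2 := h3 h1
  have b2 := h3 h2
  have := Fintype.one_lt_card (α := F)
  by_cases h4 : Fintype.card F = 2
  · have h5 := finrank_inf_orth_add hT (h ▸ le_sup_left : A ≤ T)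
    have h6 : B = T ⊓ orth Q A := Submodule.eq_of_le_of_finrank_le
      (le_inf (h ▸ le_sup_right) (le_orth_comm.1 ho)) (by omega)
    refine absurd ((isPlus_sub_iff hT (h ▸ le_sup_left) hA ⟨1, by omega⟩ ⟨2, by omega⟩).2
      (iff_of_false (disjoint_orth_of_aniso (by omega) h1).2 ?_)) (p3 (by omega) h4)
    rw [← h6]
    exact (disjoint_orth_of_aniso (by omega) h2).2
  obtain ⟨a, ha, ha'⟩ := exists_norm_mem hA (by omega) (-Q v)
  obtain ⟨b, hb, hb'⟩ := exists_norm_mem hB (by omega) (-Q v)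
  have h5 : ((Fintype.card F : ℕ) : F) = 0 := FiniteField.cast_card_eq_zero F
  rw [show Fintype.card F = 3 by omega] at h5
  exact ⟨a, ha, b, hb, ne ha' (neg_ne_zero.2 hv0), ne hb' (neg_ne_zero.2 hv0), by
    rw [ha', hb']; push_cast at h5; linear_combination -Q v * h5⟩

/-- If all vectors of `T` of the norm of `v ∈ T ∩ D` lie in `D` or in its orthogonal complement,
then `T ≤ D`. -/
theorem Prim.le_of_norm [Fintype F] (hp : Prim Q T) (hT : Disjoint T (orth Q T))
    (hD : Disjoint D (orth Q D)) {v : V} (hv : v ∈ T) (hvD : v ∈ D) (hv0 : Q v ≠ 0)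
    (h : ∀ x ∈ T, Q x = Q v → x ∈ D ∨ x ∈ orth Q D) : T ≤ D := by
  have hU : Submodule.span F {x | x ∈ T ∧ Q x = Q v} = T := by
    refine (eq_of_eich_invariant hT (tri_of_three_le hT hp.1) hp.1
      (Submodule.span_le.2 fun x hx => hx.1) fun p hp w hw u hu => ?_).resolve_left fun h0 => ?_
    · exact (Submodule.span_le (p := (Submodule.span F {x | x ∈ T ∧ Q x = Q v}).comap
        (eich Q p w).1.toLinearMap)).2 (fun x hx => Submodule.subset_span
          ⟨eich_apply_mem le_rfl hp hw hx.1, (O_map _ _).trans hx.2⟩) hu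
    · have : v ∈ Submodule.span F {x | x ∈ T ∧ Q x = Q v} := Submodule.subset_span ⟨hv, rfl⟩
      rw [h0, Submodule.mem_bot] at this
      rw [this] at hv0
      simp at hv0
  by_contra hc
  obtain ⟨w, hw, hw0, hwD⟩ : ∃ w ∈ T, Q w = Q v ∧ w ∉ D := by
    by_contra! h1
    exact hc (hU ▸ Submodule.span_le.2 fun x hx => h1 x hx.1 hx.2)
  obtain ⟨a, ha, b, hb, ha0, hb0, hab⟩ := hp.exists_sum hT (A := T ⊓ D) (B := T ⊓ orth Q D)
    (le_antisymm (sup_le inf_le_left inf_le_left) (hU.ge.trans (Submodule.span_le.2 fun x hx =>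
      (h x hx.1 hx.2).elim (fun h1 => Submodule.mem_sup_left ⟨hx.1, h1⟩)
        fun h1 => Submodule.mem_sup_right ⟨hx.1, h1⟩)))
    (fun x hx => mem_orth'.2 fun u hu => mem_orth.1 hu.2 x hx.2) ⟨hv, hvD⟩
    ⟨hw, (h w hw hw0).resolve_left hwD⟩ hv0 hw0
  rcases h (a + b) (T.add_mem ha.1 hb.1) (by rw [Q_add, hab, mem_orth.1 hb.2 a ha.2, add_zero])
    with h1 | h1
  · exact hb0 (Submodule.disjoint_def.1 hD b ((D.add_mem_iff_right ha.2).1 h1) hb.2)
  · exact ha0 (Submodule.disjoint_def.1 hD a ha.2 (((orth Q D).add_mem_iff_left hb.2).1 h1))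

end Cfsg.Lib.Class.OMax
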