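import Cfsg.Agent.Class.ODecCtx

/-!
Maximality in `Ω` of the stabiliser of an orthogonal decomposition into isometric subspaces of
dimension at least three, and of the stabiliser of a non-degenerate four-space in dimension seven.
-/

set_option autoImplicit false

namespace Cfsg.Lib.Class.OMax

open QuadraticMap Module Orth

variable {F V : Type*} [Field F] [AddCommGroup V] [Module F V] {Q : QuadraticForm F V}
  {τ : Type*} [Fintype τ] {D : τ → Submodule F V} {π : τ → V →ₗ[F] V} {X : Subgroup (O Q)}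
  [FiniteDimensional F V] [Fintype F]

namespace OCtx

/-- A conjugate of a member meeting another member lies in it. -/
theorem map_le_of_mem (h : OCtx Q D π X)
    (hC : ∀ j, ∀ v ∈ D j, Q v ≠ 0 → ∀ x, Cls X v x → ∃ l, x ∈ D l) {i j : τ} (hi : Prim Q (D i))
    {g : O Q} (hg : g ∈ X) {v : V} (hv : v ∈ (D i).map g.1.toLinearMap) (hvj : v ∈ D j)
    (hv1 : v ≠ 0) : (D i).map g.1.toLinearMap ≤ D j := by
  have hT := disjoint_orth_map (h.nondeg i) g
  wlog hv0 : Q v ≠ 0 generalizing v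
  · push Not at hv0
    obtain ⟨y, hy, hvy⟩ := exists_ne_of_disjoint hT hv hv1
    obtain ⟨f, hf, hf0, hvf⟩ := exists_partner_mem hv hy hv0 hvy
    obtain ⟨w, hw, h1, -, h2⟩ := ((h.tri i).map g).exists_nonsing hv hf hv0 hf0 hvf
    obtain ⟨z, hz, hvz⟩ := exists_ne_of_disjoint (h.nondeg j) hvj hv1
    exact this hw ((h.hull j).mem (h.tri j) hvj hz hv0 hvz h1 fun c =>
      (h.hull i).1.map hg v hv _ (Submodule.smul_mem _ c hw)) (by rintro rfl; simp at h2) h2
  refine (hi.map g).le_of_norm hT (h.nondeg j) hv hvj hv0 fun x hx hx0 => ?_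
  obtain ⟨l, hl⟩ := hC j v hvj hv0 x ⟨hx0, by
    obtain ⟨v, hv, rfl⟩ := hv
    obtain ⟨x, hx, rfl⟩ := hx
    have h1 := (h.cls_of_mem hv (by simpa using hv0) hx (by simpa using hx0)).2
    have h2 := X.mul_mem (X.mul_mem hg h1) (X.inv_mem hg)
    rwa [← conj_mul, conj_refl, conj_refl] at h2⟩
  by_cases hlj : l = j
  · exact Or.inl (hlj ▸ hl)
  · exact Or.inr (h.perp l j hlj hl)

/-- Every conjugate of a member lies in a member. -/
theorem exists_map_le (h : OCtx Q D π X)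
    (hC : ∀ j, ∀ v ∈ D j, Q v ≠ 0 → ∀ x, Cls X v x → ∃ l, x ∈ D l) {i : τ} (hi : Prim Q (D i))
    {g : O Q} (hg : g ∈ X) : ∃ j, (D i).map g.1.toLinearMap ≤ D j := by
  by_contra! hc
  set T := (D i).map g.1.toLinearMap with hT
  have h3 : 3 ≤ finrank F T := (hi.map g).1
  have h1 : ∀ n ∈ X, ∀ x ∈ T, x ≠ 0 → n.1 x = x → ∀ y ∈ T, n.1 y ∈ T := by
    rintro n hn _ ⟨x, hx, rfl⟩ hx0 hnx _ ⟨y, hy, rfl⟩
    refine ⟨(g⁻¹ * n * g).1 y, h.map_le_of_mem hC hi (X.mul_mem (X.mul_mem (X.inv_mem hg) hn) hg)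
      (v := x) ⟨x, hx, ?_⟩ hx (by rintro rfl; simp at hx0) ⟨y, hy, rfl⟩, O_apply_inv g _⟩
    exact (congrArg (g⁻¹).1 hnx).trans (O_inv_apply g x)
  have h2 : ∀ j, ∀ x ∈ T, x ≠ 0 → Q (π j x) = 0 → ∀ y ∈ T, π j y ∈ Submodule.span F {π j x} := by
    intro j x hx hx0 hx1 y hy
    refine mem_span_of_eich_fix (h.nondeg j) (h.three j) (h.proj.mem j x) hx1 (h.proj.mem j y)
      fun p hp u hu a1 a2 => ?_
    rw [h.polar_proj x hp] at a1
    rw [h.polar_proj x hu] at a2
    rw [← sub_eq_zero, ← eich_proj h.proj h.perp hp hu]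
    by_contra h0
    exact hc j (h.map_le_of_mem hC hi hg (T.sub_mem (h1 _ ((h.hull j).1 p hp u hu) x hx hx0
      (eich_apply_of_orth_orth a1 a2) y hy) hy) (eich_apply_sub_mem hp hu y) h0)
  have h4 : ∀ j, ∃ x ∈ T, x ≠ 0 ∧ π j x = 0 := fun j => by
    obtain ⟨x, hx, hx0, hx1⟩ := exists_singular_mem (Q.comp (π j)) h3
    by_cases h0 : π j x = 0
    · exact ⟨x, hx, hx0, h0⟩
    obtain ⟨z, hz, hxz⟩ := exists_ne_of_disjoint (h.nondeg j) (h.proj.mem j x) h0
    have h5 := finrank_le_inf_orth_singleton (Q := Q) T z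
    obtain ⟨y, hy, hy0⟩ := Submodule.exists_mem_ne_zero_of_ne_bot
      (p := T ⊓ orth Q (Submodule.span F {z})) (by rintro h; rw [h, finrank_bot] at h5; omega)
    obtain ⟨c, hc⟩ := Submodule.mem_span_singleton.1 (h2 j x hx hx0 hx1 y hy.1)
    have h6 := (h.polar_proj y hz).trans (pc (mem_orth_singleton.1 hy.2))
    rw [← hc, polar_smul_left', mul_eq_zero] at h6
    exact ⟨y, hy.1, hy0, by rw [← hc, h6.resolve_right hxz, zero_smul]⟩
  obtain ⟨y, hy, hy0, -⟩ := h4 i
  refine hy0 ((h.proj.sum y).symm.trans (Finset.sum_eq_zero fun j _ => ?_))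
  obtain ⟨x, hx, hx0, hx1⟩ := h4 j
  simpa [hx1] using h2 j x hx hx0 (by simp [hx1]) y hy

theorem exists_mem_of_three (h : OCtx Q D π X) (h2 : (2 : F) ≠ 0) (hq : 3 < Fintype.card F)
    {k : ℕ} (hD : ODec Q k D) (ht : 2 < Fintype.card τ)
    (hN : ∀ g ∈ commutator (O Q), g.1 ∈ stabDec D → g ∈ X) {i : τ} {v x : V} (hv : v ∈ D i)
    (hv0 : Q v ≠ 0) (hx : Cls X v x) : ∃ l, x ∈ D l := by
  classical
  by_contra! hc
  have hx0 : Q x ≠ 0 := hx.1 ▸ hv0
  obtain ⟨l, hl⟩ := h.exists_nonsing hx0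
  have hl0 : π l x ≠ 0 := fun h0 => hl (by simp [h0])
  obtain ⟨m, hml, hm⟩ : ∃ m, m ≠ l ∧ π m x ≠ 0 := by
    by_contra! h1
    exact hc l (h.proj.mem_iff.2 h1)
  obtain ⟨j, hjl, hjm⟩ : ∃ j, j ≠ l ∧ j ≠ m := by
    by_contra! h1
    have : (Finset.univ : Finset τ) ⊆ {l, m} := fun j _ => by
      by_cases h0 : j = l
      · simp [h0]
      · simp [h1 j h0]
    have := (Finset.card_le_card this).trans Finset.card_le_two
    rw [Finset.card_univ] at this
    omega
  have hxs : x = π l x + π m x := by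
    conv_lhs => rw [← h.proj.sum x]
    refine Finset.sum_eq_add_of_mem l m (Finset.mem_univ _) (Finset.mem_univ _) hml.symm
      fun c _ hc => h.proj_eq_zero_of_two h2 hv hv0 hx hml.symm hc.1.symm hc.2.symm hl0 hm
  obtain ⟨g, hg⟩ := hD.exists_perm (Equiv.swap m j)
  have hg' : ∀ a, ∀ y ∈ D a, g.1 y ∈ D (Equiv.swap m j a) := fun a y hy => hg a ▸ ⟨y, hy, rfl⟩
  have c1 := h.cls_apply h2 hv hv0 hx (hg' i) fun n hn hgn => hN _ hgn
    ((stabDec D).mul_mem ⟨_, hg⟩ (mem_stabDec_of_forall fun a y => (hn a y).1))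
  have hy : g.1 (π l x) ∈ D l := by
    simpa [Equiv.swap_apply_of_ne_of_ne hml.symm hjl.symm] using hg' l _ (h.proj.mem l x)
  have hu : g.1 (π m x) ∈ D j := by simpa using hg' m _ (h.proj.mem m x)
  have hu0 : g.1 (π m x) ≠ 0 := by simpa using hm
  rw [hxs, map_add] at c1
  have hy0 := O_map g (π l x)
  generalize g.1 (π l x) = y at c1 hy hy0
  generalize g.1 (π m x) = u at c1 hu hu0
  obtain ⟨d, hd0, hd1⟩ := AL.exists_sq_ne_one (F := F) hq
  obtain ⟨z, hz, z1, z2⟩ := exists_polar_norm h2 (h.nondeg l) (h.three l) (h.proj.mem l x) hl0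
    (mul_ne_zero hd0 (mul_ne_zero h2 hl)) (Q (π l x))
  have z3 : z ∉ Submodule.span F {π l x} := fun h0 => by
    obtain ⟨c, rfl⟩ := Submodule.mem_span_singleton.1 h0
    rw [polar_smul_right', polar_self', mul_left_inj' (mul_ne_zero h2 hl)] at z1
    rw [Q_smul, z1] at z2
    exact hd1 (mul_right_cancel₀ hl (z2.trans (one_mul _).symm))
  have key : ∀ z ∈ D l, Q z = Q (π l x) → polar Q (π l x) z ≠ 0 → z ∉ Submodule.span F {π l x} →
      Q (y - z) = 0 := by
    intro z hz a1 a2 a3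
    by_contra a4
    have c2 := h.cls_refl h2 hv hv0 c1 ((D l).sub_mem hy hz)
    rw [map_add, refl_sub_apply (hy0.trans a1.symm) a4, refl_apply_of_orth
      (mem_orth'.1 (h.perp j l hjl hu) _ ((D l).sub_mem hy hz))] at c2
    have hj := h.proj_eq_zero_of_two h2 hv hv0 hx hml.symm hjl.symm hjm.symm hl0 hm
    have c3 := hx.refl_apply c2
    have b1 : (Q (z + u))⁻¹ * polar Q x (z + u) ≠ 0 := by
      rw [c2.1, polar_add_right, ← h.polar_proj x hu, hj, polar_zero_left, add_zero,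
        ← h.polar_proj x hz]
      exact mul_ne_zero (inv_ne_zero hv0) a2
    have b2 := h.proj_eq_zero_of_two h2 hv hv0 c3 hml.symm hjl.symm hjm.symm (fun h0 => by
      rw [refl_apply, map_sub, map_smul, LinearMap.map_add, h.proj.self l z hz, h.proj.ne l j hjl.symm u hu,
        add_zero, sub_eq_zero] at h0
      exact a3 (Submodule.mem_span_singleton.2 ⟨_, by
        rw [h0, smul_smul, inv_mul_cancel₀ b1, one_smul]⟩)) (by
      rwa [refl_apply, map_sub, map_smul, LinearMap.map_add, h.proj.ne m l hml z hz,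
        h.proj.ne m j hjm.symm u hu, add_zero, smul_zero, sub_zero])
    rw [refl_apply, map_sub, map_smul, LinearMap.map_add, h.proj.ne j l hjl z hz, h.proj.self j u hu, hj,
      zero_add, zero_sub, neg_eq_zero] at b2
    exact smul_ne_zero b1 hu0 b2
  have z4 : polar Q (π l x) z ≠ 0 := z1 ▸ mul_ne_zero hd0 (mul_ne_zero h2 hl)
  have k1 := key z hz z2 z4 z3
  have k2 := key (-z) ((D l).neg_mem hz) (by rw [QuadraticMap.map_neg, z2])
    (by rwa [polar_neg_right, neg_ne_zero]) (by rwa [Submodule.neg_mem_iff])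
  rw [Q_sub, hy0, z2] at k1
  rw [sub_neg_eq_add, Q_add, hy0, z2] at k2
  exact mul_ne_zero h2 (mul_ne_zero h2 hl) (by linear_combination k1 + k2)

end OCtx

theorem ODec.hull {k : ℕ} (hD : ODec Q k D) (hQ : (polarBilin Q).Nondegenerate) (h3 : 3 ≤ k)
    (hn : 5 ≤ finrank F V) (hN : ∀ g ∈ commutator (O Q), g.1 ∈ stabDec D → g ∈ X)
    (hX : ¬ commutator (O Q) ≤ X) (j : τ) : Hull X (D j) := by
  classical
  obtain ⟨π, hπ⟩ := hD.exists_proj
  have r3 : ∀ i, 3 ≤ finrank F (D i) := fun i => by rw [hD.rank]; exact h3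
  have h1 : ∀ l, ∀ p ∈ D l, ∀ w ∈ D l, ∀ i, eich Q p w ∈ stab Q (D i) := fun l p hp w hw i => by
    by_cases hi : l = i
    · exact eich_mem_stab (congrArg D hi).le hp hw
    · exact fixG_le_stab _ (eich_mem_fixG (hD.orth l i hi hp) (hD.orth l i hi hw))
  have h2 : ∀ l, EL X (D l) := fun l p hp w hw => hN _ (eich_mem_Om hQ hn p w)
    (mem_stabDec_of_forall fun i y => (h1 l p hp w hw i y).1)
  obtain ⟨S, hS1, hS⟩ := exists_hull (h2 j)
  have h4 : ∀ g ∈ X, g ∈ stab Q (D j) → ∀ x ∈ S, g.1 x ∈ S := fun g hg hgj x hx =>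
    hS.apply_mem (tri_of_three_le (hD.nondeg j) (r3 j)) hS1 hg hgj hx
  by_cases h5 : S ≤ D j
  · exact le_antisymm h5 hS1 ▸ hS
  obtain ⟨u, hu, huj⟩ := SetLike.not_le_iff_exists.1 h5
  obtain ⟨l, hlj, hl⟩ : ∃ l, l ≠ j ∧ π l u ≠ 0 := by
    by_contra! h1
    exact huj (hπ.mem_iff.2 h1)
  have h6 : D l ≤ S := by
    rcases eq_of_eich_invariant (U := D l ⊓ S) (hD.nondeg l) (tri_of_three_le (hD.nondeg l) (r3 l))
      (r3 l) inf_le_left (fun p hp w hw x hx => ⟨eich_apply_mem le_rfl hp hw hx.1,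
        h4 _ (h2 l p hp w hw) (h1 l p hp w hw j) x hx.2⟩) with h6 | h6
    · refine absurd (mem_span_of_eich_fix (hD.nondeg l) (r3 l) (D l).zero_mem (map_zero Q)
        (hπ.mem l u) fun p hp w hw _ _ => ?_) (by simpa using hl)
      rw [← sub_eq_zero, ← eich_proj hπ hD.orth hp hw]
      exact (Submodule.eq_bot_iff _).1 h6 _ ⟨eich_apply_sub_mem hp hw u,
        S.sub_mem (h4 _ (h2 l p hp w hw) (h1 l p hp w hw j) u hu) hu⟩
    · exact h6.ge.trans inf_le_right
  refine absurd (commutator_le_of_el hQ hn (hS.1.mono (hD.top.ge.trans (iSup_le fun m => ?_)))) hX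
  by_cases hm : m = j
  · exact hm ▸ hS1
  obtain ⟨g, hg⟩ := hD.exists_perm (Equiv.swap l m)
  obtain ⟨n, hn, hgn⟩ := exists_mul_mem_Om hQ hn (hD.nondeg j) (by have := r3 j; omega)
    (H := ⨅ i, stab Q (D i)) (fun a ha => Subgroup.mem_iInf.2 (refl_mem_stab_block hD.orth ha)) g
  have h7 : ∀ i, (D i).map (g * n).1.toLinearMap = D (Equiv.swap l m i) := fun i => by
    rw [map_O_mul, mem_stab_iff_map.1 (Subgroup.mem_iInf.1 hn i), hg]
  rw [← Equiv.swap_apply_left l m, ← h7]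
  rintro _ ⟨y, hy, rfl⟩
  exact h4 _ (hN _ hgn ⟨_, h7⟩) (mem_stab_iff_map.2 (by
    rw [h7, Equiv.swap_apply_of_ne_of_ne hlj.symm (Ne.symm hm)])) y (h6 hy)

/-- Stabilisers of orthogonal decompositions into subspaces of dimension at least three. -/
theorem maxOm_dec {k : ℕ} (hD : ODec Q k D) (hQ : (polarBilin Q).Nondegenerate) (h3 : 3 ≤ k)
    (hn : k + 4 ≤ finrank F V) (hk3 : k = 3 → 3 < Fintype.card F)
    (hk4 : k = 4 → Fintype.card F = 2 → ∀ i, ¬ Known.IsPlus (Q.restrict (D i))) :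
    MaxOm Q (stabDec D) := by
  refine ⟨hD.exists_not_stabDec hQ (by omega) hn, fun X _ hN hX g hg => ?_⟩
  obtain ⟨π, hπ⟩ := hD.exists_proj
  have hc := hD.card_mul
  have ht : 1 < Fintype.card τ := by
    by_contra h0
    have := Nat.mul_le_mul_right k (not_lt.1 h0)
    omega
  have h : OCtx Q D π X := ⟨hQ, by omega, hπ, hD.nondeg, hD.orth, fun i => by rw [hD.rank]; exact h3,
    Fintype.exists_ne_of_one_lt_card ht,
    fun g hg h => hN g hg (mem_stabDec_of_forall fun a y => (h a y).1),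
    hD.hull hQ h3 (by omega) hN hX⟩
  refine mem_stabDec_of_range (hD.injective (by omega)) fun i => ?_
  obtain ⟨j, hj⟩ := h.exists_map_le (fun j v hv hv0 x hx => by
    by_cases hk : k = 3
    · exact h.exists_mem_of_three (AO.two_ne_zero_of_odd (hD.nondeg j) (by rw [hD.rank, hk]; decide))
        (hk3 hk) hD (by subst hk; omega) hN hv hv0 hx
    · obtain ⟨l, hl⟩ := h.exists_nonsing (hx.1 ▸ hv0 : Q x ≠ 0)
      exact ⟨l, h.mem_of_four hv hv0 hx (by rw [hD.rank]; omega) hl⟩)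
    (i := i) (by rw [Prim, hD.rank]; exact ⟨h3, hk3, fun a b => hk4 a b i⟩) hg
  exact ⟨j, (Submodule.eq_of_le_of_finrank_eq hj
    (by rw [LinearEquiv.finrank_map_eq, hD.rank, hD.rank])).symm⟩

/-- The stabiliser of a non-degenerate four-space in dimension seven. -/
theorem maxOm_four_three {A : Submodule F V} (hQ : (polarBilin Q).Nondegenerate)
    (hn : finrank F V = 7) (hA : Disjoint A (orth Q A)) (h4 : finrank F A = 4) :
    MaxOm Q (stabSub A) := by
  have hd := finrank_orth hQ A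
  have hB : Disjoint (orth Q A) (orth Q (orth Q A)) := by rw [orth_orth hQ]; exact hA.symm
  have h2 : (2 : F) ≠ 0 := AO.two_ne_zero_of_odd hB ⟨1, by omega⟩
  refine ⟨exists_not_stab hQ (by omega) (by rintro rfl; simp at h4)
    (by rintro rfl; rw [finrank_top] at h4; omega), fun X _ hN hX g hg => ?_⟩
  let D : Bool → Submodule F V := fun b => cond b A (orth Q A)
  have ho : ∀ i j, i ≠ j → D i ≤ orth Q (D j) := by
    rintro (_ | _) (_ | _) h
    · exact absurd rfl h
    · exact le_rfl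
    · exact (orth_orth hQ A).ge
    · exact absurd rfl h
  have hnd : ∀ i, Disjoint (D i) (orth Q (D i)) := by rintro (_ | _) <;> assumption
  obtain ⟨π, hπ⟩ := exists_isDecProj (D := D) (fun i => (hnd i).mono_right
    (iSup₂_le fun j hj => ho j i hj)) (by rw [iSup_bool_eq]; exact (isCompl_orth hQ hA).sup_eq_top)
  have h : OCtx Q D π X := ⟨hQ, by omega, hπ, hnd, ho, by
    rintro (_ | _)
    · exact (by omega : 3 ≤ finrank F (orth Q A))
    · exact (by omega : 3 ≤ finrank F A), fun i => ⟨!i, by simp⟩, fun g hg h => hN g hg (h true), by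
    rintro (_ | _)
    · exact hull_of_stab (A := orth Q A) hQ (by omega) hB (by omega) (by omega)
        (fun g hg h => hN g hg ((mem_stab_orth_iff hQ).1 h)) hX
    · exact hull_of_stab (A := A) hQ (by omega) hA (by omega) (by omega) hN hX⟩
  obtain ⟨_ | _, hj⟩ := h.exists_map_le (fun j v hv hv0 x hx => by
    by_cases h0 : Q (π true x) = 0
    · refine ⟨false, hπ.mem_iff.2 fun i hi => ?_⟩
      rw [Bool.eq_true_of_not_eq_false hi]
      exact h.proj_eq_zero_of_singular h2 hv hv0 hx h0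
    · exact ⟨true, h.mem_of_four hv hv0 hx h4.ge h0⟩) (i := true)
    ⟨(by omega : 3 ≤ finrank F A), fun h => by have : finrank F A = 3 := h; omega,
      fun _ h => absurd (two_eq_zero_of_not_odd (by rw [h]; decide)) h2⟩ hg
  · have h5 : finrank F (A.map g.1.toLinearMap) ≤ finrank F (orth Q A) := Submodule.finrank_mono hj
    rw [LinearEquiv.finrank_map_eq] at h5
    omega
  · exact mem_stab_of_map_le hj

end Cfsg.Lib.Class.OMax
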