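import Cfsg.Agent.Class.OFieldAvg
import Cfsg.Agent.Class.AO.Descent
import Cfsg.Agent.Class.Asch.FieldSub

/-!
The normaliser in `Ω(V, F)` of a self-adjoint extension field of prime degree is maximal.
-/

set_option autoImplicit false
set_option linter.unusedSectionVars false

namespace Cfsg.Lib.Class.OMax

open QuadraticMap Module Orth FAvg

variable {F K V : Type*} [Field F] [Field K] [Algebra F K] [AddCommGroup V] [Module F V]
  [Module K V] [IsScalarTower F K V] {Q : QuadraticForm F V} {Φ : QuadraticForm K V}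
  {X : Subgroup (O Q)}

theorem sub_mem_of_fix_orth [FiniteDimensional F V] (hQ : (polarBilin Q).Nondegenerate)
    {P : Submodule F V} {z : O Q} (hz : ∀ x ∈ orth Q P, z.1 x = x) (v : V) : z.1 v - v ∈ P := by
  rw [← orth_orth hQ P]
  intro x hx
  change polar Q x _ = 0
  rw [polar_sub_right, sub_eq_zero]
  conv_lhs => rw [← hz x hx]
  exact O_polar z x v

theorem comm_of_fix_orth [FiniteDimensional F V] (hQ : (polarBilin Q).Nondegenerate)
    {P : Submodule F V} {z g : O Q} (hz : ∀ x ∈ orth Q P, z.1 x = x) (hg : ∀ y ∈ P, g.1 y = y) :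
    g * z = z * g := O_ext fun v => by
  have h1 := hg _ (sub_mem_of_fix_orth hQ hz v)
  have h2 := hz (g.1 v - v) fun y hy => by
    change polar Q y _ = 0
    rw [polar_sub_right, sub_eq_zero]
    conv_lhs => rw [← hg y hy]
    exact O_polar g y v
  rw [map_sub, sub_eq_iff_eq_add] at h1 h2
  rw [O_mul_apply, O_mul_apply, h1, h2]
  abel

/-- The centre of the unipotent radical of a totally singular subspace is generated by long root
elements. -/
theorem mem_of_fix_orth [FiniteDimensional F V] (hQ : (polarBilin Q).Nondegenerate)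
    {P : Submodule F V} (hP : ∀ u ∈ P, Q u = 0) (hX : ∀ u ∈ P, ∀ u' ∈ P, eich Q u u' ∈ X)
    {z : O Q} (hz : ∀ x ∈ orth Q P, z.1 x = x) : z ∈ X := by
  induction h : fixs z using WellFoundedGT.induction generalizing z with
  | ind S ih =>
  by_cases h1 : z = 1
  · exact h1 ▸ X.one_mem
  obtain ⟨v, hv⟩ : ∃ v, z.1 v - v ≠ 0 := by
    by_contra! hc
    exact h1 (O_ext fun v => sub_eq_zero.1 (hc v))
  obtain ⟨v', hv'⟩ := Orth.exists_polar_eq_one hQ hv
  have h2 := sub_mem_of_fix_orth hQ hz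
  have h3 : ∀ x y, polar Q x (z.1 y - y) = -polar Q (z.1 x - x) y := fun x y => by
    have h3 := polar_eq_zero_of_forall hP (h2 x) (h2 y)
    qsimp_at h3
    qsimp
    rw [O_polar] at h3
    linear_combination -h3
  have h4 : polar Q v (z.1 v - v) = 0 := by
    have h4 := hP _ (h2 v)
    qsimp_at h4
    qsimp
    rw [O_map, polar_comm] at h4
    linear_combination -h4
  have h5 := eich_apply_long (hP _ (h2 v)) (hP _ (h2 v')) (polar_eq_zero_of_forall hP (h2 v) (h2 v'))
  have h6 : ∀ x, z.1 x = x → (z * eich Q (z.1 v - v) (z.1 v' - v')).1 x = x := fun x hx => by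
    rw [O_mul_apply, h5, h3, h3, hx]
    simp [hx]
  refine (X.mul_mem_cancel_right (hX _ (h2 v) _ (h2 v'))).1 (ih _ (h ▸ lt_of_le_of_ne
    (fun x hx => mem_fixs.2 (h6 x (mem_fixs.1 hx))) fun H => hv (sub_eq_zero.2 (mem_fixs.1
      (H.ge (mem_fixs.2 ?_))))) (fun x hx => h6 x (hz x hx)) rfl)
  rw [O_mul_apply, h5, h3, h4, hv', map_add, zero_smul, sub_zero, map_smul,
    hz _ (le_orth_of_forall hP (h2 v))]
  simp

/-- The maps `p^⊥ → K p` induced by elements of `X` in the unipotent radical. -/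
def InRad (X : Subgroup (O Q)) (Φ : QuadraticForm K V) (p : V) (A : V →ₗ[F] K) : Prop :=
  (∀ k : K, A (k • p) = 0) ∧ ∃ g ∈ X, ∀ x, polar Φ p x = 0 → g.1 x = x + A x • p

/-- The ring of left multipliers of `InRad`. -/
def radRing (X : Subgroup (O Q)) {p : V} (hp : Φ p = 0) : Subring (End F K) :=
  have hadd : ∀ {A B : V →ₗ[F] K}, InRad X Φ p A → InRad X Φ p B → InRad X Φ p (A + B) :=
    fun ⟨a1, a, ha, a2⟩ ⟨b1, b, hb, b2⟩ => ⟨fun k => by simp [a1, b1], _, X.mul_mem ha hb,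
      fun x hx => by
        rw [O_mul_apply, b2 x hx, a2 _ (by qsimp; rw [hx, hp]; ring), map_add, a1,
          LinearMap.add_apply]
        module⟩
  have hneg : ∀ {A : V →ₗ[F] K}, InRad X Φ p A → InRad X Φ p (-A) :=
    fun ⟨a1, a, ha, a2⟩ => ⟨fun k => by simp [a1], _, X.inv_mem ha, fun x hx =>
      O_inv_apply_of_eq (by
        rw [a2 _ (by qsimp; rw [hx, hp]; ring), map_add, a1, LinearMap.neg_apply]
        module)⟩
  { carrier := {ρ | ∀ A, InRad X Φ p A → InRad X Φ p (ρ ∘ₗ A)}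
    mul_mem' := fun ha hb A hA => ha _ (hb A hA)
    one_mem' := fun _ hA => hA
    add_mem' := fun ha hb A hA => by rw [LinearMap.add_comp]; exact hadd (ha A hA) (hb A hA)
    zero_mem' := fun A hA => by simpa using hadd hA (hneg hA)
    neg_mem' := fun ha A hA => by rw [LinearMap.neg_comp]; exact hneg (ha A hA) }

namespace TrForm

variable [Finite K]

theorem mem_orth_iff (h : TrForm Q Φ) {p x : V} :
    x ∈ orth Q ((Submodule.span K {p}).restrictScalars F) ↔ polar Φ p x = 0 :=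
  ⟨fun H => h.eq_zero_of_forall fun k =>
    H _ (Submodule.smul_mem _ _ (Submodule.mem_span_singleton_self p)), fun H y hy => by
    obtain ⟨k, rfl⟩ := Submodule.mem_span_singleton.1 hy
    exact h.polar_zero (by rw [polar_smul_left', H, mul_zero])⟩

theorem inRad_conj (h : TrForm Q Φ) {p : V} {b : O Q} (hb : b ∈ X) {β β' : End F K}
    (h1 : ∀ k : K, b.1 (k • p) = β k • p) (h2 : ∀ k : K, (b⁻¹).1 (k • p) = β' k • p)
    {A : V →ₗ[F] K} (hA : InRad X Φ p A) : InRad X Φ p (β ∘ₗ A ∘ₗ (b⁻¹).1.toLinearMap) := by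
  obtain ⟨a1, a, ha, a2⟩ := hA
  refine ⟨fun k => by simp only [LinearMap.comp_apply, LinearEquiv.coe_coe, h2, a1, map_zero], _,
    X.mul_mem (X.mul_mem hb ha) (X.inv_mem hb), fun x hx => ?_⟩
  rw [O_mul_apply, O_mul_apply, a2 _ (h.eq_zero_of_forall fun k => by
    rw [← O_polar_left, h1]
    exact h.polar_zero (by rw [polar_smul_left', hx, mul_zero])), map_add, O_apply_inv, h1]
  rfl

theorem mulLeft_mem (h : TrForm Q Φ) (hX : ∀ g ∈ commutator (O Φ), h.res g ∈ X) {p : V}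
    (hp : Φ p = 0) (hp0 : p ≠ 0) (k : K) : LinearMap.mulLeft F k ∈ radRing X hp := by
  have := h.fin
  obtain ⟨f, hf, hpf⟩ := exists_partner h.nondeg hp0 hp
  have H : ∀ k : K, LinearMap.mulLeft F (k ^ 2) ∈ radRing X hp := fun k A hA => by
    by_cases hk : k = 0
    · simpa [hk] using (radRing X hp).zero_mem A hA
    have h1 := pow_ne_zero 2 hk
    have h2 := tor_apply_left hp hf hpf h1
    have h3 : ∀ l : K, (tor Φ p f (k ^ 2))⁻¹.1 (l • p) = ((k ^ 2)⁻¹ * l) • p := fun l =>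
      O_inv_apply_of_eq (by rw [map_smul, h2, smul_smul]; congr 1; field_simp)
    obtain ⟨a1, a, ha, a2⟩ := h.inRad_conj (hX _ (EG_le (fun p w _ _ => h.eich_mem p w)
      (tor_sq_mem_EG h.nondeg h.three hp hf hpf hk))) (β := LinearMap.mulLeft F (k ^ 2))
      (β' := LinearMap.mulLeft F (k ^ 2)⁻¹) (fun l => by
        rw [res_apply, map_smul, h2, smul_smul, mul_comm]; rfl) h3 hA
    refine ⟨fun l => by simp [hA.1], a, ha, fun x hx => ?_⟩
    obtain ⟨h4, h5⟩ := hyp_proj_orth hp hf hpf x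
    rw [hx, zero_smul, sub_zero] at h4 h5
    have h6 : (h.res (tor Φ p f (k ^ 2)))⁻¹.1 x =
        x - polar Φ f x • p + ((k ^ 2)⁻¹ * polar Φ f x) • p := by
      rw [← h3, ← O_inv_apply_of_eq (tor_apply_orth (k ^ 2) h4 h5), ← map_add, sub_add_cancel]
      rfl
    rw [a2 x hx]
    simp only [LinearMap.comp_apply, LinearEquiv.coe_coe, h6, map_add, map_sub, hA.1, sub_zero,
      add_zero]
  have h1 : LinearMap.mulLeft F k = LinearMap.mulLeft F (((k + 1) / 2) ^ 2) -
      LinearMap.mulLeft F (((k - 1) / 2) ^ 2) := LinearMap.ext fun x => by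
    have := h.twoK
    simp only [LinearMap.mulLeft_apply, LinearMap.sub_apply]
    field_simp
    ring
  exact h1 ▸ sub_mem (H _) (H _)

theorem radRing_eq_top (h : TrForm Q Φ) (hX : ∀ g ∈ commutator (O Φ), h.res g ∈ X) {p : V}
    (hp : Φ p = 0) (hp0 : p ≠ 0) {b : O Q} (hb : b ∈ X)
    (h1 : ∀ k : K, b.1 (k • p) ∈ Submodule.span K {p}) {k : K}
    (hk : ∀ k' : K, ∃ l : K, b.1 (k • l • p) ≠ k' • b.1 (l • p)) : radRing X hp = ⊤ := by
  have hi := smul_left_injective K hp0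
  choose σ hσ using fun k => Submodule.mem_span_singleton.1 (h1 k)
  let β : End F K :=
    { toFun := σ
      map_add' := fun a b => hi (by simp only [hσ, add_smul, map_add])
      map_smul' := fun c a => hi (by simp only [hσ, smul_assoc, map_smul, RingHom.id_apply]) }
  let e := LinearEquiv.ofBijective β (Finite.injective_iff_bijective.1 fun a c hac =>
    hi (b.1.injective ((hσ a).symm.trans ((congrArg (· • p) hac).trans (hσ c)))))
  have h2 : ∀ k : K, b.1 (k • p) = e k • p := fun k => (hσ k).symm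
  have h3 : ∀ k : K, (b⁻¹).1 (k • p) = e.symm k • p := fun k =>
    O_inv_apply_of_eq (by rw [h2, e.apply_symm_apply])
  refine subring_end_eq_top h.prime _ (h.mulLeft_mem hX hp hp0)
    (ρ := e ∘ₗ LinearMap.mulLeft F k ∘ₗ e.symm) (fun A hA => ?_) fun k' H => ?_
  · convert h.inRad_conj hb (β := e) (β' := e.symm) h2 h3 (h.mulLeft_mem hX hp hp0 k _
      (h.inRad_conj (X.inv_mem hb) (β := e.symm) (β' := e) h3 (by simpa using h2) hA)) using 1
    ext x
    simp
  · obtain ⟨l, hl⟩ := hk k'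
    have h4 := LinearMap.congr_fun H (e l)
    simp only [LinearMap.comp_apply, LinearEquiv.coe_coe, e.symm_apply_apply,
      LinearMap.mulLeft_apply] at h4
    exact hl (by rw [smul_smul, h2, h2, h4, mul_smul])

theorem exists_pair (h : TrForm Q Φ) {p f : V} (hp : Φ p = 0) (hf : Φ f = 0)
    (hpf : polar Φ p f = 1) : ∃ w w', polar Φ p w = 0 ∧ polar Φ f w = 0 ∧ polar Φ p w' = 0 ∧
      polar Φ f w' = 0 ∧ polar Q w w' = 1 := by
  have := h.fin
  obtain ⟨a, h1, h2, h3⟩ := exists_nonsing_orth_hyp h.nondeg h.three hp hf hpf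
  obtain ⟨k, hk⟩ := h.exists_polar_eq_one (x := a) (y := a)
    (by rw [polar_self']; exact mul_ne_zero h.twoK h3)
  exact ⟨_, a, by rw [polar_smul_right', h1, mul_zero], by rw [polar_smul_right', h2, mul_zero],
    h1, h2, hk⟩

theorem eich_mem_of_eq_top (h : TrForm Q Φ) (hX : ∀ g ∈ commutator (O Φ), h.res g ∈ X) {p : V}
    (hp : Φ p = 0) (hp0 : p ≠ 0) (hR : radRing X hp = ⊤) (c : K) {w : V} (hw : polar Φ p w = 0) :
    eich Q (c • p) w ∈ X := by
  have := h.fin
  have := h.finF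
  set P := (Submodule.span K {p}).restrictScalars F with hP
  have hP0 : ∀ u ∈ P, Q u = 0 := fun u hu => by
    obtain ⟨k, rfl⟩ := Submodule.mem_span_singleton.1 hu
    exact h.zero (by rw [Q_smul, hp, mul_zero])
  have hPP := le_orth_of_forall hP0
  have H1 : ∀ u ∈ P, ∀ w ∈ orth Q P, ∃ g ∈ X, ∀ x ∈ orth Q P, g.1 x = x + polar Q x w • u := by
    intro u hu w hw
    obtain ⟨c, rfl⟩ := Submodule.mem_span_singleton.1 hu
    rw [h.mem_orth_iff] at hw
    obtain ⟨-, g, hg, H⟩ := (hR.ge (Subring.mem_top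
      (LinearMap.toSpanSingleton F K c ∘ₗ Algebra.trace F K))) ((polarBilin Φ w).restrictScalars F)
      ⟨fun k => by simp [pc hw], _, hX _ (h.eich_mem p w), fun x hx => by
        rw [res_apply, eich_apply_of_orth hp hw (pc hx), polar_comm]; rfl⟩
    exact ⟨g, hg, fun x hx => by
      rw [H x (h.mem_orth_iff.1 hx), ← smul_assoc, polar_comm, h.polar_eq]; rfl⟩
  have H2 : ∀ u ∈ P, ∀ w ∈ orth Q P, ∃ z : O Q, (∀ x ∈ orth Q P, z.1 x = x) ∧
      z * eich Q u w ∈ X := by
    intro u hu w hw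
    obtain ⟨g, hg, H⟩ := H1 u hu w hw
    refine ⟨g * (eich Q u w)⁻¹, fun x hx => ?_, by rwa [inv_mul_cancel_right]⟩
    rw [← eich_neg, O_mul_apply, eich_apply_of_orth (hP0 u hu) (by
      rw [polar_neg_right, mem_orth.1 hw u hu, neg_zero]) (mem_orth'.1 hx u hu),
      H _ (Submodule.add_mem _ hx (Submodule.smul_mem _ _ (hPP hu)))]
    qsimp
    rw [mem_orth.1 hw u hu]
    module
  have H3 : ∀ u ∈ P, ∀ u' ∈ P, eich Q u u' ∈ X := by
    intro u hu u' hu'
    obtain ⟨f, hf, hpf⟩ := exists_partner h.nondeg hp0 hp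
    obtain ⟨w, w', h1, -, h2, -, h3⟩ := h.exists_pair hp hf hpf
    rw [← h.mem_orth_iff] at h1 h2
    obtain ⟨z, hz, hz'⟩ := H2 u hu w h1
    obtain ⟨g, hg, H⟩ := H1 u' hu' w' h2
    have h4 : ∀ y ∈ P, g.1 y = y := fun y hy => by
      rw [H y (hPP hy), mem_orth.1 h2 y hy, zero_smul, add_zero]
    convert X.mul_mem (X.inv_mem hz') (X.mul_mem (X.mul_mem hg hz') (X.inv_mem hg)) using 1
    rw [← mul_assoc g, comm_of_fix_orth h.nondegQ hz h4, mul_assoc z, mul_assoc z, conj_eich,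
      h4 u hu, H w h1, h3, one_smul, eich_add (hP0 u hu) (h1 u hu) (hPP hu' u hu)]
    group
  obtain ⟨z, hz, hz'⟩ := H2 _ (Submodule.smul_mem (Submodule.span K {p}) c
    (Submodule.mem_span_singleton_self p)) w (h.mem_orth_iff.2 hw)
  exact (X.mul_mem_cancel_left (mem_of_fix_orth h.nondegQ hP0 H3 hz)).1 hz'

theorem commutator_le (h : TrForm Q Φ) (hX : ∀ g ∈ commutator (O Φ), h.res g ∈ X)
    (hS : ¬ SemiPt Φ X) : commutator (O Q) ≤ X := by
  have := h.fin
  have := h.finF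
  have : Finite F := Finite.of_injective _ (algebraMap F K).injective
  simp only [SemiPt, not_forall, not_exists] at hS
  obtain ⟨p, hp, hp0, b, hb, h1, k, hk⟩ := hS
  have H := h.eich_mem_of_eq_top hX hp hp0 (h.radRing_eq_top hX hp hp0 hb h1 hk)
  replace H : ∀ p, Φ p = 0 → p ≠ 0 → ∀ (c : K) w, polar Φ p w = 0 → eich Q (c • p) w ∈ X := by
    intro q hq hq0 c w hw
    obtain ⟨t, ht, d, hd⟩ := h.exists_apply_mem hp hp0 hq hq0
    have h2 : polar Φ p (t.1 w) = 0 := by
      rw [← O_polar t, hd, polar_smul_left'] at hw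
      exact (mul_eq_zero.1 hw).resolve_left (by rintro rfl; exact hq0 (by simpa using hd))
    have h3 := H (c * d) h2
    rw [mul_smul, ← hd, ← map_smul, ← h.res_apply, ← h.res_apply, ← conj_eich] at h3
    exact (X.mul_mem_cancel_left (hX t ht)).1 ((X.mul_mem_cancel_right (X.inv_mem (hX t ht))).1 h3)
  have H' : ∀ p, Φ p = 0 → p ≠ 0 → Full X ⊤ p := by
    intro p hp hp0
    have h2 : ∀ w, polar Φ p w = 0 → w ∈ rootSp X p := fun w hw => ⟨h.polar_zero hw, fun c => by
      simpa using H p hp hp0 1 (c • w) (by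
        rw [← algebraMap_smul K, polar_smul_right', hw, mul_zero])⟩
    refine full_of_rootSp fun v _ hv => ?_
    obtain ⟨f, hf, hpf⟩ := exists_partner h.nondeg hp0 hp
    obtain ⟨w, w', h3, h4, h5, h6, h7⟩ := h.exists_pair hp hf hpf
    have h8 : polar Q p (polar Φ p v • f) = 0 := by
      rw [h.polar_eq, polar_smul_right', hpf, mul_one, ← h.polar_eq, hv]
    have h9 := apply_mem_rootSp_of_fix (H f hf (ne_zero_of_polar_ne_zero (hpf ▸ one_ne_zero))
      (polar Φ p v) w' h6) (eich_apply_of_orth_orth h8 (h.polar_zero h5)) (h2 w h3)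
    rw [eich_apply_of_orth (h.zero (by rw [Q_smul, hf, mul_zero]))
      (h.polar_zero (by rw [polar_smul_left', h6, mul_zero]))
      (h.polar_zero (by rw [polar_smul_right', pc h4, mul_zero])), h7, one_smul] at h9
    rw [← sub_add_cancel v (polar Φ p v • f)]
    exact Submodule.add_mem _ (h2 _ (by qsimp; rw [hpf]; ring))
      ((Submodule.add_mem_iff_right _ (h2 w h3)).1 h9)
  obtain ⟨f, hf, hpf⟩ := exists_partner h.nondeg hp0 hp
  obtain ⟨l, hl⟩ := h.exists_polar_eq_one (hpf ▸ one_ne_zero)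
  have h2 : Φ (l • p) = 0 := by rw [Q_smul, hp, mul_zero]
  refine commutator_le_of_two_full h.nondegQ ?_ (h.zero h2) (h.zero hf) (hl ▸ one_ne_zero)
    (H' _ h2 (ne_zero_of_polar_ne_zero (pc' (hl ▸ one_ne_zero))))
    (H' _ hf (ne_zero_of_polar_ne_zero (hl ▸ one_ne_zero)))
  rw [← finrank_mul_finrank F K V]
  exact le_trans (by norm_num) (Nat.mul_le_mul h.prime.two_le h.three)

theorem exists_notMem_semiN (h : TrForm Q Φ) :
    ∃ g ∈ commutator (O Q), g.1 ∉ semiN F K V := by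
  have := h.fin
  have := h.finF
  obtain ⟨p, -, hp0, hp⟩ := exists_singular_mem (S := ⊤) Φ (by simpa using h.three)
  obtain ⟨f, hf, hpf⟩ := exists_partner h.nondeg hp0 hp
  obtain ⟨w, w', h3, -, h5, -, h7⟩ := h.exists_pair hp hf hpf
  refine ⟨_, eich_mem_commutator h.nondegQ (not_exc_of_two_ne_zero h.two) p w', fun ⟨σ, hσ⟩ => ?_⟩
  have h1 : ∀ x, polar Φ p x = 0 → (eich Q p w').1 x = x + polar Q x w' • p := fun x hx =>
    eich_apply_of_orth (h.zero hp) (h.polar_zero h5) (h.polar_zero (pc hx))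
  refine h.prime.one_lt.ne' (Subalgebra.bot_eq_top_iff_finrank_eq_one.1
    (eq_top_iff.2 fun k _ => ⟨polar Q (k • w) w', smul_left_injective K hp0 ?_⟩))
  have h2 := hσ k p
  have h4 := hσ k w
  rw [h1 _ (by qsimp; rw [hp]; ring), eich_apply_self, h.polar_zero (by
    rw [polar_smul_left', h5, mul_zero]), zero_smul, add_zero] at h2
  rw [h1 _ (by qsimp; rw [h3]; ring), h1 w h3, h7, one_smul, ← smul_left_injective K hp0 h2,
    smul_add, add_right_inj] at h4
  simpa using h4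

theorem maxOm (h : TrForm Q Φ) (h4 : 4 < (Nat.card F - 1) * (finrank F K * (finrank K V - 2))) :
    MaxOm Q (semiN F K V) :=
  ⟨h.exists_notMem_semiN, fun X _ hN hX' _ hg =>
    have hX : ∀ g ∈ commutator (O Φ), h.res g ∈ X := fun g hg =>
      hN _ (h.res_mem_commutator hg) (h.res_mem_semiN g)
    h.mem_semiN h4 hX (by_contra fun hS => hX' (h.commutator_le hX hS)) hg⟩

end TrForm

open Cfsg.Geo Matrix Asch in
/-- The normaliser in `Ω` of a self-adjoint subfield of prime degree `r` with `n ≥ 3 r` is maximal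
(odd characteristic, `(n, q) ≠ (6, 3)`). -/
theorem isMaximalIn_selfAdjoint [Finite F] {ι : Type} [Fintype ι] [DecidableEq ι]
    {Q : QuadraticForm F (ι → F)} (hQ : (polarBilin Q).Nondegenerate) (h2 : (2 : F) ≠ 0) {r : ℕ}
    (hr : r.Prime) (hn : 3 * r ≤ Fintype.card ι) (h7 : 7 ≤ Fintype.card ι ∨ Nat.card F ≠ 3)
    {K : Subalgebra F (Matrix ι ι F)} (hK : IsFieldSubalgebra r K)
    (hs : IsSelfAdjointFor (polar Q) K) :
    IsMaximalIn (omegaGL Q) (subalgebraNormalizer K ⊓ omegaGL Q) := by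
  have hr2 := hr.two_le
  have : Nonempty ι := Fintype.card_pos_iff.1 (by omega)
  let _ := (isField_of_isFieldSubalgebra hK).toField
  obtain ⟨Φ, hΦ⟩ := AO.exists_isDesc (K := K) (Q := Q) fun k => hs k k.2
  have h1 := finrank_mul_finrank F K (ι → F)
  rw [hK.finrank_eq, finrank_fintype_fun_eq_card] at h1
  have h3 : 3 ≤ finrank K (ι → F) := Nat.le_of_mul_le_mul_left (c := r) (by omega) (by omega)
  have h : TrForm Q Φ := ⟨fun v => (hΦ v).symm, hΦ.nondeg hQ, h2, hK.finrank_eq ▸ hr, h3⟩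
  refine (h.maxOm ?_).isMaximalIn fun g => ⟨fun hg => mem_semiN_of fun k =>
    ⟨⟨_, (hg k).1 k.2⟩, fun x => ?_⟩, fun hg => ?_⟩
  · have h4 := three_le_natCard h2
    rw [hK.finrank_eq]
    obtain ⟨m, hm⟩ : ∃ m, finrank K (ι → F) = m + 3 := ⟨_, (Nat.sub_add_cancel h3).symm⟩
    obtain ⟨q, hq⟩ : ∃ q, Nat.card F = q + 3 := ⟨_, (Nat.sub_add_cancel h4).symm⟩
    obtain ⟨s, rfl⟩ : ∃ s, r = s + 2 := ⟨_, (Nat.sub_add_cancel hr2).symm⟩
    rw [hm] at h1
    rw [hm, hq, show q + 3 - 1 = q + 2 from rfl, show m + 3 - 2 = m + 1 from rfl]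
    rcases h7 with h7 | h7
    · nlinarith [Nat.zero_le (q * s * m), Nat.zero_le (q * s), Nat.zero_le (q * m)]
    · have : 1 ≤ q := by omega
      nlinarith [Nat.zero_le (q * s * m), Nat.zero_le (q * s), Nat.zero_le (q * m),
        Nat.zero_le (s * m)]
  · change (g : Matrix ι ι F) *ᵥ ((k : Matrix ι ι F) *ᵥ x) = _ *ᵥ ((g : Matrix ι ι F) *ᵥ x)
    simp only [mulVec_mulVec, mul_assoc, Units.inv_mul, mul_one]
  · refine Nrm.le_subalgebraNormalizer (H := (semiN F K (ι → F)).comap (glLin ι F).toMonoidHom)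
      (fun g ⟨σ, hσ⟩ k hk => ?_) hg
    have : (g : Matrix ι ι F) * k = σ ⟨k, hk⟩ * g := mat_ext_mulVec fun x => by
      rw [← mulVec_mulVec, ← mulVec_mulVec]
      exact hσ ⟨k, hk⟩ x
    rw [cj_apply, this, mul_assoc, Units.mul_inv, mul_one]
    exact (σ ⟨k, hk⟩).2

end Cfsg.Lib.Class.OMax
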