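import Cfsg.Agent.Class.OPair
import Cfsg.Agent.Class.OrthSimple
import Cfsg.Agent.Class.FieldAvg

/-!
Overgroups of `Ω(V, K)` in `O(V, F)` for a field extension `K/F` of prime degree whose point
stabilisers are semilinear on the point: the conjugates of a singular `K`-point form a partial
spread, so the group normalises `K`.
-/

set_option autoImplicit false
set_option linter.unusedSectionVars false

namespace Cfsg.Lib.Class.OMax

open QuadraticMap Module Orth FAvg

variable {F K V : Type*} [Field F] [Field K] [Algebra F K] [AddCommGroup V] [Module F V]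
  [Module K V] [IsScalarTower F K V] {Q : QuadraticForm F V} {Φ : QuadraticForm K V}
  {X : Subgroup (O Q)}

/-- The `F`-linear automorphisms which are semilinear over `K`. -/
def semiN (F K V : Type*) [Field F] [Field K] [AddCommGroup V] [Module F V] [Module K V] :
    Subgroup (V ≃ₗ[F] V) where
  carrier := {g | ∃ σ : K ≃ K, ∀ k x, g (k • x) = σ k • g x}
  mul_mem' := by
    rintro a b ⟨σ, hσ⟩ ⟨τ, hτ⟩
    exact ⟨τ.trans σ, fun k x => by simp [hσ, hτ]⟩
  one_mem' := ⟨1, fun _ _ => rfl⟩
  inv_mem' := by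
    rintro a ⟨σ, hσ⟩
    exact ⟨σ.symm, fun k x => a.injective (by simp [hσ])⟩

omit [Algebra F K] [IsScalarTower F K V] in
theorem mem_semiN_of [Finite K] [Nontrivial V] {g : V ≃ₗ[F] V}
    (h : ∀ k : K, ∃ k' : K, ∀ x, g (k • x) = k' • g x) : g ∈ semiN F K V := by
  choose σ hσ using h
  obtain ⟨x, hx⟩ := exists_ne (0 : V)
  exact ⟨Equiv.ofBijective σ (Finite.injective_iff_bijective.1 fun k l hkl =>
    smul_left_injective K hx (g.injective (by simp only [hσ, hkl]))), hσ⟩

theorem three_le_natCard [Finite F] (h2 : (2 : F) ≠ 0) : 3 ≤ Nat.card F := by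
  have := Fintype.ofFinite F
  have h1 := Finite.one_lt_card (α := F)
  by_contra h
  exact h2 (by simpa using natCast_card_eq_zero (F := F) (k := 2) (by
    rw [← Nat.card_eq_fintype_card]; omega))

/-- Averaging over the orbits of the unipotent radical of a singular `K`-point. -/
theorem sum_notMem_eq_zero [Finite K] [FiniteDimensional K V] (hΦ : (polarBilin Φ).Nondegenerate)
    (h2 : (2 : K) ≠ 0) (h1 : 2 < (Nat.card F - 1) * finrank F K)
    (h4 : 4 < (Nat.card F - 1) * (finrank F K * (finrank K V - 2))) {p : V} (hp : Φ p = 0)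
    (hp0 : p ≠ 0) {S : Finset V} (hS : ∀ w, polar Φ p w = 0 → ∀ x ∈ S, (eich Φ p w).1 x ∈ S)
    (hS' : ∀ x ∈ S, x ∉ Submodule.span K {p}) (β γ : V →ₗ[F] F) : ∑ x ∈ S, β x * γ x = 0 := by
  classical
  have : Finite F := Finite.of_injective _ (algebraMap F K).injective
  have : Finite V := Module.finite_of_finite K
  have : FiniteDimensional F V := Module.Finite.of_finite
  have : FiniteDimensional F K := Module.Finite.of_finite
  let R : Setoid V := ⟨fun y x => ∃ w, polar Φ p w = 0 ∧ (eich Φ p w).1 x = y,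
    fun x => ⟨0, by simp, by simp⟩,
    fun ⟨w, h, e⟩ => ⟨-w, by simp [h], by rw [eich_neg, ← e, O_inv_apply]⟩,
    fun ⟨w, h, e⟩ ⟨w', h', e'⟩ => ⟨w + w', by simp [h, h'], by
      rw [eich_add hp h h', O_mul_apply, e', e]⟩⟩
  refine Finset.sum_cancels_of_partition_cancels R fun x hx => ?_
  by_cases hb : polar Φ x p = 0
  · have := Fintype.ofFinite K
    have H : ∀ β : V →ₗ[F] F, PolyFn F 1 fun t : K => β (x + t • p) := fun β => by
      simpa using (PolyFn.const (β x)).add
        (PolyFn.linear (β ∘ₗ (LinearMap.toSpanSingleton K V p).restrictScalars F))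
    rw [← ((H β).mul (H γ)).sum_eq_zero h1]
    symm
    refine Finset.sum_bij (fun t _ => x + t • p) (fun t _ => ?_)
      (fun s _ t _ h => smul_left_injective K hp0 (add_left_cancel h)) (fun y hy => ?_)
      fun _ _ => rfl
    · obtain ⟨w, h3, h5⟩ := exists_polar_sep hΦ (hS' x hx)
      have h6 : polar Φ p (t • w) = 0 := by
        rw [polar_smul_right', h3 p (Submodule.mem_span_singleton_self p), mul_zero]
      have h7 : (eich Φ p (t • w)).1 x = x + t • p := by
        rw [eich_apply_of_orth hp h6 hb, polar_smul_right', h5, mul_one]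
      exact Finset.mem_filter.2 ⟨h7 ▸ hS _ h6 x hx, _, h6, h7⟩
    · obtain ⟨-, w, h3, rfl⟩ := Finset.mem_filter.1 hy
      exact ⟨_, Finset.mem_univ _, (eich_apply_of_orth hp h3 hb).symm⟩
  · set A := orth Φ (Submodule.span K {p, x})
    have := Fintype.ofFinite A
    have hA : ∀ w : A, polar Φ p w = 0 ∧ polar Φ x w = 0 := fun w => mem_orth_pair.1 w.2
    have H : ∀ β : V →ₗ[F] F, PolyFn F 2 fun w : A => β ((eich Φ p w).1 x) := fun β => by
      have h3 := ((PolyFn.const (β x)).add (PolyFn.bilin (LinearMap.mk₂ F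
        (fun w w' : A => β ((-(2⁻¹ * polar Φ w w' * polar Φ x p)) • p)) ?_ ?_ ?_ ?_))).add
        ((PolyFn.linear (β ∘ₗ ((-polar Φ x p) • A.subtype).restrictScalars F)).mono one_le_two)
      · convert h3 using 2 with w
        rw [eich_apply hp (hA w).1, (hA w).2, LinearMap.mk₂_apply, polar_self',
          inv_mul_cancel_left₀ h2]
        simp [sub_eq_add_neg]
      · intro a b c
        rw [← map_add, ← add_smul, Submodule.coe_add, polar_add_left]; ring_nf
      · intro c a b
        rw [← map_smul, ← smul_assoc, Submodule.coe_smul_of_tower, ← algebraMap_smul K c,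
          polar_smul_left', Algebra.smul_def]; ring_nf
      · intro a b c
        rw [← map_add, ← add_smul, Submodule.coe_add, polar_add_right]; ring_nf
      · intro c a b
        rw [← map_smul, ← smul_assoc, Submodule.coe_smul_of_tower, ← algebraMap_smul K c,
          polar_smul_right', Algebra.smul_def]; ring_nf
    rw [← ((H β).mul (H γ)).sum_eq_zero (h4.trans_le (Nat.mul_le_mul_left _ (by
      rw [← finrank_mul_finrank F K A]
      have h5 : finrank K A + _ = _ := finrank_orth hΦ (Submodule.span K {p, x})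
      have h6 := finrank_span_pair_le (F := K) p x
      exact Nat.mul_le_mul_left _ (by omega))))]
    symm
    refine Finset.sum_bij (fun w _ => (eich Φ p w).1 x) (fun w _ =>
      Finset.mem_filter.2 ⟨hS _ (hA w).1 x hx, _, (hA w).1, rfl⟩) (fun w _ w' _ h => ?_)
      (fun y hy => ?_) fun _ _ => rfl
    · simp only [eich_apply hp (hA w).1, eich_apply hp (hA w').1] at h
      have h5 := congrArg (polar Φ x) h
      qsimp_at h5
      rw [(hA w).2, (hA w').2] at h5 h
      have h6 : Φ w = Φ w' := mul_right_cancel₀ (mul_ne_zero hb hb) (by linear_combination -h5)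
      rw [h6, sub_right_inj] at h
      exact Subtype.ext (smul_right_injective V hb h)
    · obtain ⟨-, w, h3, rfl⟩ := Finset.mem_filter.1 hy
      refine ⟨⟨w + (-(polar Φ x w / polar Φ x p)) • p, mem_orth_pair.2 ⟨?_, ?_⟩⟩,
        Finset.mem_univ _, by rw [eich_add_smul_self hp h3]⟩
      · qsimp; rw [h3, hp]; ring
      · qsimp; field_simp; ring

/-- `Q` is the trace of the non-degenerate quadratic form `Φ` over the extension field `K`. -/
structure TrForm (Q : QuadraticForm F V) (Φ : QuadraticForm K V) : Prop where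
  tr : ∀ v, Q v = Algebra.trace F K (Φ v)
  nondeg : (polarBilin Φ).Nondegenerate
  two : (2 : F) ≠ 0
  prime : (finrank F K).Prime
  three : 3 ≤ finrank K V

namespace TrForm

theorem polar_eq (h : TrForm Q Φ) (x y : V) : polar Q x y = Algebra.trace F K (polar Φ x y) := by
  simp only [polar, h.tr, map_sub]

theorem polar_smul (h : TrForm Q Φ) (k : K) (x y : V) : polar Q (k • x) y = polar Q x (k • y) := by
  rw [h.polar_eq, h.polar_eq, polar_smul_left', polar_smul_right']

theorem polar_zero (h : TrForm Q Φ) {x y : V} (H : polar Φ x y = 0) : polar Q x y = 0 := by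
  rw [h.polar_eq, H, map_zero]

theorem zero (h : TrForm Q Φ) {x : V} (H : Φ x = 0) : Q x = 0 := by rw [h.tr, H, map_zero]

theorem twoK (h : TrForm Q Φ) : (2 : K) ≠ 0 := by
  rw [← map_ofNat (algebraMap F K) 2]
  exact (_root_.map_ne_zero _).2 h.two

theorem fin (h : TrForm Q Φ) : FiniteDimensional K V :=
  Module.finite_of_finrank_pos (by have := h.three; omega)

/-- Restriction of scalars for isometries. -/
def res (h : TrForm Q Φ) : O Φ →* O Q where
  toFun g := ⟨g.1.restrictScalars F, mem_O.2 fun v => by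
    rw [h.tr, h.tr, LinearEquiv.restrictScalars_apply, O_map]⟩
  map_one' := rfl
  map_mul' _ _ := rfl

@[simp] theorem res_apply (h : TrForm Q Φ) (g : O Φ) (x : V) : (h.res g).1 x = g.1 x := rfl

theorem res_mem_semiN (h : TrForm Q Φ) (g : O Φ) : (h.res g).1 ∈ semiN F K V :=
  ⟨1, fun k x => g.1.map_smul k x⟩

theorem res_mem_commutator (h : TrForm Q Φ) {g : O Φ} (hg : g ∈ commutator (O Φ)) :
    h.res g ∈ commutator (O Q) := by
  have h2 : (commutator _).map h.res ≤ commutator (O Q) := by
    rw [commutator, Subgroup.map_commutator]; exact Subgroup.commutator_mono le_top le_top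
  exact h2 ⟨_, hg, rfl⟩

theorem eich_mem (h : TrForm Q Φ) (p w : V) : eich Φ p w ∈ commutator (O Φ) :=
  have := h.fin
  eich_mem_commutator h.nondeg (not_exc_of_two_ne_zero h.twoK) p w

theorem exists_apply_mem (h : TrForm Q Φ) {p x : V} (hp : Φ p = 0) (hp0 : p ≠ 0) (hx : Φ x = 0)
    (hx0 : x ≠ 0) : ∃ t ∈ commutator (O Φ), ∃ c : K, t.1 x = c • p := by
  have := h.fin
  obtain ⟨s, hs, h1, h2⟩ := exists_singular_ne_ne' h.nondeg h.three hx0 hp0 hx hp
  obtain ⟨w, -, h3⟩ := exists_eich_apply_smul hs hx hp (pc' h1) (pc' h2)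
  exact ⟨_, h.eich_mem s w, _, h3⟩

variable [Finite K]

theorem finF (h : TrForm Q Φ) : FiniteDimensional F V :=
  have := h.fin
  have : Finite V := Module.finite_of_finite K
  Module.Finite.of_finite

theorem eq_zero_of_forall (h : TrForm Q Φ) {x y : V} (H : ∀ k : K, polar Q (k • x) y = 0) :
    polar Φ x y = 0 := by
  have : Finite F := Finite.of_injective _ (algebraMap F K).injective
  refine (traceForm_nondegenerate F K).1 _ fun k => ?_
  rw [Algebra.traceForm_apply, mul_comm, ← polar_smul_left', ← h.polar_eq, H]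

theorem nondegQ (h : TrForm Q Φ) : (polarBilin Q).Nondegenerate :=
  nondeg_of fun x hx => nondeg_left h.nondeg fun y =>
    h.eq_zero_of_forall fun k => by rw [h.polar_smul, hx]

theorem exists_polar_eq_one (h : TrForm Q Φ) {x y : V} (H : polar Φ x y ≠ 0) :
    ∃ k : K, polar Q (k • x) y = 1 := by
  obtain ⟨k, hk⟩ : ∃ k : K, polar Q (k • x) y ≠ 0 := by
    by_contra! hc
    exact H (h.eq_zero_of_forall hc)
  exact ⟨(polar Q (k • x) y)⁻¹ • k, by rw [smul_assoc, polar_smul_left', inv_mul_cancel₀ hk]⟩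

theorem finrank_span (_ : TrForm Q Φ) {p : V} (hp : p ≠ 0) :
    finrank F ((Submodule.span K {p}).restrictScalars F) = finrank F K :=
  ((LinearEquiv.toSpanNonzeroSingleton K V p hp).restrictScalars F).finrank_eq.symm

end TrForm

/-- The stabilisers in `X` of the singular `K`-points act semilinearly on them. -/
def SemiPt (Φ : QuadraticForm K V) (X : Subgroup (O Q)) : Prop :=
  ∀ p, Φ p = 0 → p ≠ 0 → ∀ b ∈ X, (∀ k : K, b.1 (k • p) ∈ Submodule.span K {p}) →
    ∀ k : K, ∃ k' : K, ∀ l : K, b.1 (k • l • p) = k' • b.1 (l • p)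

namespace TrForm

variable [Finite K]

/-- The conjugates of a singular `K`-point form a partial spread. -/
theorem spread (h : TrForm Q Φ) (h4 : 4 < (Nat.card F - 1) * (finrank F K * (finrank K V - 2)))
    (hX : ∀ g ∈ commutator (O Φ), h.res g ∈ X) (hS : SemiPt Φ X) {p : V} (hp : Φ p = 0)
    {g : O Q} (hg : g ∈ X) (hp0 : p ≠ 0) (hgp : g.1 p ∈ Submodule.span K {p}) (k : K) :
    g.1 (k • p) ∈ Submodule.span K {p} := by
  classical
  have := h.fin
  have := h.finF
  have : Finite F := Finite.of_injective _ (algebraMap F K).injective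
  have : Finite V := Module.finite_of_finite K
  have := Fintype.ofFinite V
  have : FiniteDimensional F K := Module.Finite.of_finite
  by_contra hc
  set P := (Submodule.span K {p}).restrictScalars F with hP
  obtain ⟨g₀, ⟨hg₀, hg₀'⟩, hmax⟩ := Set.exists_max_image {g | g ∈ X ∧ ¬ P ≤ P.comap g.1.toLinearMap}
    (fun g => finrank F (P ⊓ P.comap g.1.toLinearMap : Submodule F V)) (Set.toFinite _)
    ⟨g, hg, fun H => hc (H (Submodule.smul_mem _ _ (Submodule.mem_span_singleton_self p)))⟩
  set J := P ⊓ P.comap g₀.1.toLinearMap with hJ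
  obtain ⟨j, hj, hj0⟩ := Submodule.exists_mem_ne_zero_of_ne_bot (p := J) fun H => by
    have h1 := hmax g ⟨hg, fun H => hc (H (Submodule.smul_mem _ _
      (Submodule.mem_span_singleton_self p)))⟩
    rw [H, finrank_bot, Nat.le_zero, Submodule.finrank_eq_zero, Submodule.eq_bot_iff] at h1
    exact hp0 (h1 p ⟨Submodule.mem_span_singleton_self p, hgp⟩)
  have hpj : Submodule.span K {j} = Submodule.span K {p} := by
    obtain ⟨c, rfl⟩ := Submodule.mem_span_singleton.1 hj.1
    exact Submodule.span_singleton_smul_eq (IsUnit.mk0 _ (left_ne_zero_of_smul hj0)) p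
  have hj1 : Φ j = 0 := by
    obtain ⟨c, rfl⟩ := Submodule.mem_span_singleton.1 hj.1
    rw [Q_smul, hp, mul_zero]
  let ι : K →ₗ[F] V := (LinearMap.toSpanSingleton K V j).restrictScalars F
  have hι : ∀ k, ι k ∈ P := fun k =>
    hpj.le (Submodule.smul_mem _ _ (Submodule.mem_span_singleton_self j))
  have hι' : ∀ y ∈ P, ∃ k, ι k = y := fun y hy => Submodule.mem_span_singleton.1 (hpj.ge hy)
  obtain ⟨y, hy, β₀, hβ, hβ'⟩ := exists_sep (J := J.comap ι) fun H => hg₀' fun y hy => by
    obtain ⟨k, rfl⟩ := hι' y hy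
    exact (H.ge (Submodule.mem_top (x := k))).2
  obtain ⟨π, hπ⟩ := ι.exists_leftInverse_of_injective
    (LinearMap.ker_eq_bot.2 (smul_left_injective K hj0))
  have hπ' : ∀ k, π (ι k) = k := LinearMap.congr_fun hπ
  obtain ⟨γ, hγ, hγ'⟩ := LinearMap.exists_extend_of_notMem
    (0 : P.comap g₀.1.toLinearMap →ₗ[F] F) (fun H => hy ⟨hι y, H⟩) 1
  set S := Finset.univ.filter fun x => ∃ t ∈ X, (∀ v ∈ J, t.1 v = v) ∧ t.1 (ι y) = x with hSdef
  have key : ∀ g ∈ X, (∀ v ∈ J, g.1 v ∈ P) →
      ∑ x ∈ S, β₀ (π x) * γ x = ∑ x ∈ S with g.1 x ∈ P, β₀ (π x) * γ x := by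
    intro g hg hgJ
    rw [← Finset.sum_filter_add_sum_filter_not S fun x => g.1 x ∈ P, add_eq_left]
    have H := sum_notMem_eq_zero h.nondeg h.twoK (by
      have h1 := three_le_natCard h.two
      have h2 := h.prime.two_le
      exact lt_of_lt_of_le (by norm_num) (Nat.mul_le_mul (show 2 ≤ _ by omega) h2)) h4 hp hp0
      (S := (S.filter fun x => g.1 x ∉ P).image g.1) ?_ ?_ (β₀ ∘ₗ π ∘ₗ (g⁻¹).1.toLinearMap)
      (γ ∘ₗ (g⁻¹).1.toLinearMap)
    · rw [Finset.sum_image fun _ _ _ _ H => g.1.injective H] at H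
      simpa using H
    · intro w hw x hx
      have hu : ∀ v ∈ P, (eich Φ p w).1 v = v := fun v hv => by
        obtain ⟨c, rfl⟩ := Submodule.mem_span_singleton.1 hv
        rw [map_smul, eich_apply_self]
      obtain ⟨z, hz, rfl⟩ := Finset.mem_image.1 hx
      obtain ⟨hz', hx'⟩ := Finset.mem_filter.1 hz
      obtain ⟨t, ht, ht', rfl⟩ := (Finset.mem_filter.1 hz').2
      refine Finset.mem_image.2 ⟨(g⁻¹ * h.res (eich Φ p w) * g * t).1 (ι y), Finset.mem_filter.2
        ⟨Finset.mem_filter.2 ⟨Finset.mem_univ _, _, X.mul_mem (X.mul_mem (X.mul_mem (X.inv_mem hg)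
          (hX _ (h.eich_mem p w))) hg) ht, fun v hv => ?_, rfl⟩, fun H => hx' ?_⟩, by simp⟩
      · simp [ht' v hv, hu _ (hgJ v hv)]
      · simp only [O_mul_apply, O_apply_inv, res_apply] at H
        rwa [← (eich Φ p w).1.injective (hu _ H)]
    · intro x hx
      obtain ⟨z, hz, rfl⟩ := Finset.mem_image.1 hx
      exact (Finset.mem_filter.1 hz).2
  have k1 := key 1 X.one_mem fun v hv => hv.1
  rw [key g₀ hg₀ fun v hv => hv.2, Finset.sum_eq_zero fun x hx => by
    rw [show γ x = 0 from LinearMap.congr_fun hγ ⟨x, (Finset.mem_filter.1 hx).2⟩, mul_zero],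
    Finset.sum_eq_single_of_mem (s := S.filter fun x => (1 : O Q).1 x ∈ P) (ι y)
      (Finset.mem_filter.2 ⟨Finset.mem_filter.2
      ⟨Finset.mem_univ _, 1, X.one_mem, fun _ _ => rfl, rfl⟩, hι y⟩), hπ', hβ, hγ'] at k1
  · simp at k1
  intro x hx hxy
  obtain ⟨hx, hx'⟩ := Finset.mem_filter.1 hx
  obtain ⟨t, ht, ht', rfl⟩ := (Finset.mem_filter.1 hx).2
  have htP : P ≤ P.comap t.1.toLinearMap := by
    by_contra H
    refine (hmax t ⟨ht, H⟩).not_gt (Submodule.finrank_lt_finrank_of_lt (lt_of_le_of_ne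
      (fun v hv => ⟨hv.1, show t.1 v ∈ P from (ht' v hv).symm ▸ hv.1⟩) fun H' => hy ?_))
    exact H'.ge ⟨hι y, hx'⟩
  choose σ hσ using hS j hj1 hj0 t ht fun k => hpj.ge (htP (hι k))
  have h1 : ∀ k, t.1 (k • j) = σ k • j := fun k => by simpa [ht' j hj] using hσ k 1
  have h2 := smul_left_injective K hj0
  let σ' : K →ₐ[F] K :=
    { toFun := σ
      map_one' := h2 (by simp only [← h1, one_smul, ht' j hj])
      map_mul' := fun a b => h2 (by simp only [← h1, mul_smul, hσ])
      map_zero' := h2 (by simp only [← h1, zero_smul, map_zero])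
      map_add' := fun a b => h2 (by simp only [← h1, add_smul, map_add])
      commutes' := fun c => h2 (by simp only [← h1, algebraMap_smul, map_smul, ht' j hj]) }
  have h3 : t.1 (ι y) = ι (σ' y) := h1 y
  rw [h3, hπ', hβ' σ' (fun k hk => h2 ((h1 k).symm.trans (ht' _ hk))) fun H => hxy (by rw [h3, H]),
    zero_mul]

theorem exists_large_orbit (h : TrForm Q Φ) {x y : V}
    (hy : y ∉ Submodule.span K {x}) : ∃ T : Finset V, Nat.card K ≤ 2 * T.card + 2 ∧
      ∀ z ∈ T, ∃ t ∈ commutator (O Φ), t.1 x = x ∧ t.1 y = z := by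
  classical
  have := h.fin
  have := Fintype.ofFinite K
  obtain ⟨a, b, ha, hb, hb0, hab, hy'⟩ : ∃ a b, polar Φ x a = 0 ∧ polar Φ x b = 0 ∧ Φ b ≠ 0 ∧
      a ∉ Submodule.span K {b} ∧ (polar Φ y a ≠ 0 ∨ polar Φ y b ≠ 0) := by
    obtain ⟨c, hc, hc'⟩ := exists_orth_ne h.nondeg hy
    obtain ⟨b, hb, hb0⟩ := exists_nonsing_orth_one h.nondeg h.three x
    by_cases H : c ∈ Submodule.span K {b}
    · obtain ⟨a, ha, ha'⟩ := SetLike.not_le_iff_exists.1
        (show ¬ orth Φ (Submodule.span K {x}) ≤ Submodule.span K {b} from fun H' => by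
          have h1 := Submodule.finrank_mono H'
          have h2 := finrank_orth h.nondeg (Submodule.span K {x})
          have h3 := finrank_span_singleton_le (F := K) x
          have h4 := finrank_span_singleton_le (F := K) b
          have := h.three
          omega)
      obtain ⟨r, rfl⟩ := Submodule.mem_span_singleton.1 H
      exact ⟨a, b, mem_orth_singleton.1 ha, hb, hb0, ha', Or.inr fun h0 => hc' (by
        rw [polar_smul_right', h0, mul_zero])⟩
    · exact ⟨c, b, hc, hb, hb0, H, Or.inl hc'⟩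
  set T := Finset.univ.filter fun t : K => Φ (a + t • b) ≠ 0 with hT
  have hT2 : Nat.card K ≤ T.card + 2 := by
    have h1 : (Finset.univ.filter fun t : K => ¬ Φ (a + t • b) ≠ 0) ⊆
        (Polynomial.C (Φ b) * Polynomial.X ^ 2 + Polynomial.C (polar Φ a b) * Polynomial.X +
          Polynomial.C (Φ a)).roots.toFinset := fun t ht => by
      have h2 := not_not.1 (Finset.mem_filter.1 ht).2
      qsimp_at h2
      rw [Multiset.mem_toFinset, Polynomial.mem_roots (Polynomial.ne_zero_of_natDegree_gt (n := 0)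
        (by rw [Polynomial.natDegree_quadratic hb0]; omega))]
      simp only [Polynomial.IsRoot, Polynomial.eval_add, Polynomial.eval_mul, Polynomial.eval_C,
        Polynomial.eval_pow, Polynomial.eval_X]
      linear_combination h2
    have h2 := ((Finset.card_le_card h1).trans (Multiset.toFinset_card_le _)).trans
      ((Polynomial.card_roots' _).trans Polynomial.natDegree_quadratic_le)
    have h3 := Finset.card_filter_add_card_filter_not (s := Finset.univ)
      fun t : K => Φ (a + t • b) ≠ 0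
    rw [Finset.card_univ, ← Nat.card_eq_fintype_card, ← hT] at h3
    omega
  obtain ⟨T', hT', h1, h2⟩ : ∃ T' ⊆ T, T.card ≤ 2 * T'.card ∧ ∀ s ∈ T', ∀ t ∈ T',
      (IsSquare (Φ (a + s • b)) ↔ IsSquare (Φ (a + t • b))) := by
    have h3 := Finset.card_filter_add_card_filter_not (s := T) fun t => IsSquare (Φ (a + t • b))
    rcases le_total (T.filter fun t => IsSquare (Φ (a + t • b))).card
      (T.filter fun t => ¬ IsSquare (Φ (a + t • b))).card with h4 | h4
    · exact ⟨_, Finset.filter_subset _ _, by omega, fun s hs t ht =>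
        iff_of_false (Finset.mem_filter.1 hs).2 (Finset.mem_filter.1 ht).2⟩
    · exact ⟨_, Finset.filter_subset _ _, by omega, fun s hs t ht =>
        iff_of_true (Finset.mem_filter.1 hs).2 (Finset.mem_filter.1 ht).2⟩
  rcases T'.eq_empty_or_nonempty with rfl | ⟨s, hs⟩
  · exact ⟨∅, by rw [Finset.card_empty] at h1 ⊢; omega, by simp⟩
  have h3 : ∀ t ∈ T', Φ (a + t • b) ≠ 0 := fun t ht => (Finset.mem_filter.1 (hT' ht)).2
  have h4 : ∀ t : K, (refl Φ (a + t • b)).1 x = x := fun t =>
    refl_apply_of_orth (by qsimp; rw [ha, hb]; ring)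
  refine ⟨T'.image fun t => (refl Φ (a + t • b) * refl Φ (a + s • b)).1 y, ?_, fun z hz => ?_⟩
  · rw [Finset.card_image_of_injOn fun t ht t' ht' H => by_contra fun htt => ?_]
    · omega
    set y' := (refl Φ (a + s • b)).1 y with hy''
    simp only [O_mul_apply, ← hy'', refl_apply, sub_right_inj] at H
    obtain ⟨w, h5, h6⟩ := exists_polar_sep h.nondeg hab
    have h7 := congrArg (polar Φ · w) H
    simp only [polar_smul_left', polar_add_left, h6, h5 b (Submodule.mem_span_singleton_self b),
      mul_zero, add_zero, mul_one] at h7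
    have h8 : (Φ (a + t • b))⁻¹ * polar Φ y' (a + t • b) = 0 := by_contra fun h8 => htt
      (smul_left_injective K (show b ≠ 0 by rintro rfl; simp at hb0)
        (add_left_cancel (smul_right_injective V h8 (H.trans (by rw [← h7])))))
    have h9 := (mul_eq_zero.1 (h7 ▸ h8)).resolve_left (inv_ne_zero (h3 t' ht'))
    replace h8 := (mul_eq_zero.1 h8).resolve_left (inv_ne_zero (h3 t ht))
    qsimp_at h8
    qsimp_at h9
    have h10 : polar Φ y' b = 0 :=
      mul_left_cancel₀ (sub_ne_zero.2 htt) (by linear_combination h8 - h9)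
    have h11 : polar Φ y' a = 0 := by linear_combination h8 - t * h10
    have h12 : y = y' := by
      rw [← refl_refl_apply (Q := Φ) (a + s • b) y, ← hy'', refl_apply_of_orth (by
        qsimp; rw [h10, h11]; ring)]
    rw [h12] at hy'
    tauto
  · obtain ⟨t, ht, rfl⟩ := Finset.mem_image.1 hz
    exact ⟨_, refl_mul_refl_mem_commutator_of_isSquare_iff h.nondeg (h3 t ht) (h3 s hs)
      (h2 t ht s hs), by rw [O_mul_apply, h4, h4], rfl⟩

theorem singular_apply (h : TrForm Q Φ)
    (h4 : 4 < (Nat.card F - 1) * (finrank F K * (finrank K V - 2)))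
    (hX : ∀ g ∈ commutator (O Φ), h.res g ∈ X) (hS : SemiPt Φ X) {p : V} (hp : Φ p = 0)
    {g : O Q} (hg : g ∈ X) : Φ (g.1 p) = 0 := by
  classical
  have := h.finF
  have : Finite F := Finite.of_injective _ (algebraMap F K).injective
  have : Finite V := Module.finite_of_finite F
  by_contra hx
  have hp0 : p ≠ 0 := by rintro rfl; simp at hx
  set P := ((Submodule.span K {p}).restrictScalars F).map g.1.toLinearMap with hP
  have hPr : finrank F P = finrank F K := by
    rw [hP, LinearEquiv.finrank_map_eq, h.finrank_span hp0]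
  have hxP : g.1 p ∈ P := ⟨p, Submodule.mem_span_singleton_self p, rfl⟩
  obtain ⟨_, ⟨_, hy, rfl⟩, hy'⟩ := SetLike.not_le_iff_exists.1
    (show ¬ P ≤ (Submodule.span K {g.1 p}).restrictScalars F from fun H => by
      have h1 := Submodule.eq_of_le_of_finrank_eq H (by
        rw [hPr, h.finrank_span (by rintro h0; simp [h0] at hx)])
      refine mul_ne_zero h.twoK hx (polar_self' (Q := Φ) _ ▸ h.eq_zero_of_forall fun k => ?_)
      obtain ⟨_, hz, hz'⟩ := h1.ge (Submodule.smul_mem (Submodule.span K {g.1 p}) k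
        (Submodule.mem_span_singleton_self _))
      obtain ⟨l, rfl⟩ := Submodule.mem_span_singleton.1 hz
      rw [← hz', LinearEquiv.coe_coe, O_polar]
      exact h.polar_zero (by qsimp; rw [hp]; ring))
  obtain ⟨k, rfl⟩ := Submodule.mem_span_singleton.1 hy
  obtain ⟨T, h1, h2⟩ := h.exists_large_orbit hy'
  set I := P ⊓ (orth Φ (Submodule.span K {g.1 p})).restrictScalars F with hI
  have h3 : finrank F I < finrank F K := hPr ▸ Submodule.finrank_lt_finrank_of_lt
    (lt_of_le_of_ne inf_le_left fun H => mul_ne_zero h.twoK hx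
      (polar_self' (Q := Φ) _ ▸ mem_orth_singleton.1 (H.ge hxP).2))
  have h5 : T.card ≤ Nat.card I := by
    rw [← Nat.card_eq_finsetCard]
    refine Nat.card_le_card_of_injective (fun z : T => (⟨z - g.1 (k • p), ?_⟩ : I))
      fun z z' H => Subtype.ext (sub_left_injective (congrArg Subtype.val H))
    obtain ⟨t, ht, h5, h6⟩ := h2 z z.2
    refine ⟨P.sub_mem ⟨_, h.spread h4 hX hS hp (X.mul_mem (X.mul_mem (X.inv_mem hg) (hX t ht)) hg)
      hp0 (by simp [h5]) k, by simp [← h6]⟩ ⟨_, hy, rfl⟩, mem_orth_singleton.2 ?_⟩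
    rw [polar_sub_right, ← h6, sub_eq_zero]
    conv_lhs => rw [← h5]
    exact O_polar t _ _
  rw [Module.natCard_eq_pow_finrank (K := F) (V := I)] at h5
  rw [Module.natCard_eq_pow_finrank (K := F) (V := K)] at h1
  have h6 := three_le_natCard h.two
  obtain ⟨r, hr⟩ : ∃ r, finrank F K = r + 2 := ⟨_, (Nat.sub_add_cancel h.prime.two_le).symm⟩
  have h7 := Nat.pow_le_pow_right (show 0 < Nat.card F by omega) (show finrank F I ≤ r + 1 by omega)
  have h8 := Nat.le_self_pow (show r + 1 ≠ 0 by omega) (Nat.card F)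
  rw [hr, pow_succ] at h1
  nlinarith

theorem mem_semiN (h : TrForm Q Φ)
    (h4 : 4 < (Nat.card F - 1) * (finrank F K * (finrank K V - 2)))
    (hX : ∀ g ∈ commutator (O Φ), h.res g ∈ X) (hS : SemiPt Φ X) {g : O Q} (hg : g ∈ X) :
    g.1 ∈ semiN F K V := by
  have := h.fin
  have H : ∀ p, Φ p = 0 → p ≠ 0 → ∀ k : K, ∃ k' : K, ∀ l : K,
      g.1 (k • l • p) = k' • g.1 (l • p) := by
    intro p hp hp0 k
    obtain ⟨t, ht, c, hc⟩ := h.exists_apply_mem hp hp0 (h.singular_apply h4 hX hS hp hg)
      (by simpa using hp0)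
    have h1 := X.mul_mem (hX t ht) hg
    obtain ⟨k', hk'⟩ := hS p hp hp0 _ h1 (h.spread h4 hX hS hp h1 hp0
      (Submodule.mem_span_singleton.2 ⟨c, hc.symm⟩)) k
    exact ⟨k', fun l => t.1.injective (by simpa using hk' l)⟩
  choose! σ hσ using H
  have H : ∀ p p', Φ p = 0 → Φ p' = 0 → polar Φ p p' ≠ 0 → ∀ k, σ p k = σ p' k := by
    intro p p' hp hp' hpp k
    have hp0 := ne_zero_of_polar_ne_zero (pc' hpp)
    have hp0' := ne_zero_of_polar_ne_zero hpp
    by_contra hc
    refine hpp (pc (h.eq_zero_of_forall fun l => pc ?_))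
    have h0 : ∀ a, g.1 (a • p') = σ p' a • g.1 p' := fun a => by simpa using hσ p' hp' hp0' a 1
    obtain ⟨m, hm⟩ : ∃ m, σ p' m = (σ p k - σ p' k)⁻¹ * σ p' l :=
      Finite.injective_iff_surjective.1 (fun a b hab => smul_left_injective K hp0' (g.1.injective
        (by simp only [h0, hab]))) _
    have h1 := O_polar g (k • (1 : K) • p) (m • p')
    rw [h.polar_smul, ← O_polar g ((1 : K) • p), hσ p hp hp0, hσ p' hp' hp0', h.polar_smul,
      ← sub_eq_zero, ← polar_sub_right, ← sub_smul, h0, hm, smul_smul,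
      mul_inv_cancel_left₀ (sub_ne_zero.2 hc), ← h0, O_polar] at h1
    simpa using h1
  obtain ⟨e, -, he0, he⟩ := exists_singular_mem (S := ⊤) Φ (by simpa using h.three)
  have : Nontrivial V := ⟨e, 0, he0⟩
  refine mem_semiN_of fun k => ⟨σ e k, fun x => ?_⟩
  let T : Submodule K V :=
    { carrier := {x | ∀ l : K, g.1 (k • l • x) = σ e k • g.1 (l • x)}
      add_mem' := fun ha hb l => by simp only [smul_add, map_add, ha l, hb l]
      zero_mem' := fun l => by simp
      smul_mem' := fun c x hx l => by simpa only [mul_smul] using hx (l * c) }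
  have h1 : ⊤ ≤ T := (tri_of_three_le (disjoint_top_orth h.nondeg)
    (by simpa using h.three)).le_of_forall_singular fun p _ hp ⟨x, _, hx⟩ l => by
      have hp0 := ne_zero_of_polar_ne_zero (pc' hx)
      obtain ⟨s, hs, h1, h2⟩ := exists_singular_ne_ne' h.nondeg h.three hp0 he0 hp he
      rw [H e s he hs h2, ← H p s hp hs h1, hσ p hp hp0]
  simpa using h1 (Submodule.mem_top (x := x)) 1

end TrForm

end Cfsg.Lib.Class.OMax
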