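import Cfsg.Agent.Class.AO.Basic

/-!
The stabiliser in `Ω₈⁻(q)` of a non-degenerate four-dimensional subspace is maximal.
-/

set_option autoImplicit false

namespace Cfsg.Lib.Class.OMax

open QuadraticMap Module Orth

variable {F V : Type*} [Field F] [AddCommGroup V] [Module F V] {Q : QuadraticForm F V}
  {X : Subgroup (O Q)} {A S T : Submodule F V} [FiniteDimensional F V]

/-- Types of orthogonal decompositions of a non-degenerate subspace. -/
theorem isPlus_sub_iff [Finite F] (hT : Disjoint T (orth Q T)) (hST : S ≤ T)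
    (hS : Disjoint S (orth Q S)) (h1 : Even (finrank F S)) (h2 : Even (finrank F T)) :
    Known.IsPlus (Q.restrict T) ↔
      (Known.IsPlus (Q.restrict S) ↔ Known.IsPlus (Q.restrict (T ⊓ orth Q S))) := by
  have h3 : orth (Q.restrict T) (S.comap T.subtype) = (T ⊓ orth Q S).comap T.subtype := by
    ext x
    exact ⟨fun h => ⟨x.2, fun u hu => h ⟨u, hST hu⟩ hu⟩, fun h u hu => h.2 u hu⟩
  rw [AO.isPlus_iff_orth (restrict_nondeg_iff.2 hT) (W := S.comap T.subtype)
    (Submodule.disjoint_def.2 fun x hx hx' => Subtype.ext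
      (Submodule.disjoint_def.1 hS x hx (h3 ▸ hx').2))
    (by rwa [(Submodule.comapSubtypeEquivOfLe hST).finrank_eq]) h2, h3,
    Known.isPlus_congr (Q := (Q.restrict T).restrict (S.comap T.subtype)) (Q' := Q.restrict S)
      (Submodule.comapSubtypeEquivOfLe hST) one_ne_zero fun v => (one_mul _).symm,
    Known.isPlus_congr (Q := (Q.restrict T).restrict ((T ⊓ orth Q S).comap T.subtype))
      (Q' := Q.restrict (T ⊓ orth Q S)) (Submodule.comapSubtypeEquivOfLe inf_le_left) one_ne_zero
      fun v => (one_mul _).symm]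

theorem hull_of_stab [Fintype F] (hQ : (polarBilin Q).Nondegenerate) (hn : 5 ≤ finrank F V)
    (hA : Disjoint A (orth Q A)) (h3 : 3 ≤ finrank F A) (h3' : finrank F A + 3 ≤ finrank F V)
    (hN : ∀ g ∈ commutator (O Q), g ∈ stab Q A → g ∈ X) (hX : ¬ commutator (O Q) ≤ X) :
    Hull X A := by
  obtain ⟨S, hAS, hS⟩ := exists_hull (X := X) (A := A) fun p hp w hw =>
    hN _ (eich_mem_Om hQ hn p w) (eich_mem_stab le_rfl hp hw)
  rcases eq_or_eq_top_of_invariant hQ hn hA (by omega) (by omega) hAS fun g hg hgA x hx =>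
    hS.apply_mem (tri_of_three_le hA h3) hAS (hN g hg hgA) hgA hx with rfl | rfl
  · exact hS
  · exact absurd (commutator_le_of_el hQ hn hS.1) hX

omit [FiniteDimensional F V] in
/-- A long root subgroup whose line meets neither a hull nor its orthogonal complement fixes no
singular vector of the hull. -/
theorem Hull.aniso_of_long (hS : Hull X S) (h : Tri Q S) (hS' : Disjoint S (orth Q S)) {p w : V}
    (hp : Q p = 0) (hw : Q w = 0) (hpw : polar Q p w = 0) (hX : eich Q p w ∈ X) (hp0 : p ≠ 0)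
    (hw0 : w ∉ Submodule.span F {p}) (h1 : ∀ a b : F, a • p - b • w ∈ S → a • p - b • w = 0)
    (h2 : ∀ a b : F, a • p - b • w ∈ orth Q S → a • p - b • w = 0) {e : V}
    (he : e ∈ S ⊓ orth Q (Submodule.span F {p, w})) (he0 : Q e = 0) : e = 0 := by
  by_contra he1
  obtain ⟨h3, h4⟩ := mem_orth_pair.1 he.2
  obtain ⟨z, hz, hez⟩ := exists_ne_of_disjoint hS' he.1 he1
  have h5 : ∀ {a b : F}, a • p - b • w = 0 → a = 0 ∧ b = 0 := fun h => by
    by_contra! hc
    exact smul_sub_smul_ne_zero hp0 hw0 (by tauto) h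
  have h6 : ∀ y ∈ S, polar Q e y = 0 → polar Q y w = 0 ∧ polar Q y p = 0 := fun y hy hey => by
    have h6 := hS.apply_mem_of_fix h he.1 hz he0 hez hX
      (eich_apply_of_orth_orth (pc h3) (pc h4)) hy hey
    rw [eich_apply_long hp hw hpw, S.add_mem_iff_right hy] at h6
    exact h5 (h1 _ _ h6)
  have h7 : ∀ y, (∀ x, polar Q x w = 0 → polar Q x p = 0 → polar Q x y = 0) → polar Q z y = 0 →
      y ∈ orth Q S := fun y hy hzy => mem_orth.2 fun x hx => by
    obtain ⟨h7, h8⟩ := h6 (x - (polar Q e x / polar Q e z) • z)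
      (S.sub_mem hx (S.smul_mem _ hz)) (by qsimp; field_simp; ring)
    have h9 := hy _ h7 h8
    rwa [polar_sub_left, polar_smul_left', hzy, mul_zero, sub_zero] at h9
  obtain ⟨-, h8⟩ := h5 (h2 (polar Q z w) (polar Q z p) (h7 _ (fun x h8 h9 => by
    qsimp; rw [h8, h9]; ring) (by qsimp; ring)))
  exact hp0 (by simpa using h2 1 0 (by simpa using h7 p (fun _ _ h => h) h8))

omit [FiniteDimensional F V] in
theorem disjoint_orth_of_aniso [Finite F] (h2 : finrank F S = 2)
    (h : ∀ e ∈ S, Q e = 0 → e = 0) :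
    Disjoint S (orth Q S) ∧ ¬ Known.IsPlus (Q.restrict S) := by
  refine ⟨Submodule.disjoint_def.2 fun r hr hr' => by_contra fun hr0 => ?_, fun hp => ?_⟩
  · have h3 : Q r ≠ 0 := fun h3 => hr0 (h r hr h3)
    have h4 : (2 : F) = 0 := by
      have := mem_orth.1 hr' r hr
      rw [polar_self, two_nsmul, ← two_mul] at this
      exact (mul_eq_zero.1 this).resolve_right h3
    obtain ⟨x, hx, hx'⟩ : ∃ x ∈ S, x ∉ Submodule.span F {r} := by
      by_contra! hc
      have := Submodule.finrank_mono (show S ≤ Submodule.span F {r} from hc)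
      rw [finrank_span_singleton hr0] at this
      omega
    obtain ⟨c, hc⟩ := isSquare_of_char_two h4 (Q x / Q r)
    have h5 := h (x - c • r) (S.sub_mem hx (S.smul_mem c hr)) (by
      have h5 := mem_orth.1 hr' x hx
      qsimp
      rw [h5, div_eq_iff h3] at *
      linear_combination hc + c * c * Q r * h4)
    exact hx' (Submodule.mem_span_singleton.2 ⟨c, (sub_eq_zero.1 h5).symm⟩)
  obtain ⟨U, h3, h4, h5⟩ := AO.isPlus_restrict_iff.1 hp
  obtain ⟨e, he, he1⟩ := Submodule.exists_mem_ne_zero_of_ne_bot (p := U)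
    (by rintro rfl; rw [finrank_bot] at h5; omega)
  exact he1 (h e (h3 he) (h4 e he))

theorem maxOm_four_plus [Fintype F] (hQ : (polarBilin Q).Nondegenerate) (hn : finrank F V = 8)
    (hm : ¬ Known.IsPlus Q) (hA : Disjoint A (orth Q A)) (h4 : finrank F A = 4)
    (hp : Known.IsPlus (Q.restrict A)) : MaxOm Q (stabSub A) := by
  have hd := finrank_orth hQ A
  have hB : Disjoint (orth Q A) (orth Q (orth Q A)) := by rw [orth_orth hQ]; exact hA.symm
  have hB' : ¬ Known.IsPlus (Q.restrict (orth Q A)) := fun h => hm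
    ((AO.isPlus_iff_orth hQ hA (by rw [h4]; decide) (by rw [hn]; decide)).2 (iff_of_true hp h))
  refine ⟨exists_not_stab hQ (by omega) (by rintro rfl; simp at h4)
    (by rintro rfl; rw [finrank_top] at h4; omega), fun X _ hN hX g hg => ?_⟩
  have H1 : Hull X A := hull_of_stab hQ (by omega) hA (by omega) (by omega) hN hX
  have H2 : Hull X (orth Q A) := hull_of_stab hQ (by omega) hB (by omega) (by omega)
    (fun g hg h => hN g hg ((mem_stab_orth_iff hQ).1 h)) hX
  have T1 := tri_of_three_le hA (by omega)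
  have T2 := tri_of_three_le hB (by omega)
  have key : ∀ p w, Q p = 0 → Q w = 0 → polar Q p w = 0 → (∀ c : F, eich Q p (c • w) ∈ X) →
      p ≠ 0 → w ∉ Submodule.span F {p} → p ∈ A := by
    intro p w hp hw hpw hX hp0 hw0
    by_contra hpA
    have h1 : ∀ {S}, Hull X S → Tri Q S → Disjoint S (orth Q S) → ¬ (p ∈ S ∧ w ∈ S) →
        ∀ a b : F, a • p - b • w ∈ S → a • p - b • w = 0 := by
      intro S hS hT hS' h a b hy
      by_contra hy0
      obtain ⟨x, hx, hx'⟩ := exists_ne_of_disjoint hS' hy hy0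
      rw [sub_eq_add_neg, ← neg_smul] at hy hx'
      exact h (hS.mem_of_long hT hp hw hpw hX hy hx hx')
    have hL : ∀ u ∈ Submodule.span F {p, w}, Q u = 0 := fun u hu => by
      obtain ⟨a, b, rfl⟩ := Submodule.mem_span_pair.1 hu
      qsimp; rw [hp, hw, hpw]; ring
    have hL2 : finrank F (Submodule.span F {p, w}) = 2 := by
      rw [Submodule.span_insert, finrank_sup_span_singleton' hw0, finrank_span_singleton hp0]
    have h2 := h1 H1 T1 hA fun h => hpA h.1
    have h3 := h1 H2 T2 hB fun h => hB' (AO.isPlus_restrict_iff.2 ⟨_, Submodule.span_le.2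
      (Set.insert_subset h.1 (Set.singleton_subset_iff.2 h.2)), hL, by omega⟩)
    have hX1 : eich Q p w ∈ X := by simpa using hX 1
    have h5 := fun e => H1.aniso_of_long T1 hA hp hw hpw hX1 hp0 hw0 h2 h3 (e := e)
    have h6 := fun e => H2.aniso_of_long T2 hB hp hw hpw hX1 hp0 hw0 h3
      (by rwa [orth_orth hQ]) (e := e)
    have h7 : ∀ {S : Submodule F V}, finrank F S = 4 →
        (∀ e ∈ S ⊓ orth Q (Submodule.span F {p, w}), Q e = 0 → e = 0) →
        finrank F (S ⊓ orth Q (Submodule.span F {p, w}) : Submodule F V) = 2 := fun {S} hS h => by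
      have := finrank_le_inf_orth_pair (Q := Q) S p w
      by_contra hc
      obtain ⟨e, he, he1, he0⟩ := exists_singular_mem Q
        (S := S ⊓ orth Q (Submodule.span F {p, w})) (by omega)
      exact he1 (h e he he0)
    set C := A ⊓ orth Q (Submodule.span F {p, w})
    set D := orth Q A ⊓ orth Q (Submodule.span F {p, w})
    have c1 : finrank F C = 2 := h7 h4 h5
    have d1 : finrank F D = 2 := h7 (by omega) h6
    obtain ⟨c2, c3⟩ := disjoint_orth_of_aniso c1 h5
    obtain ⟨d2, d3⟩ := disjoint_orth_of_aniso d1 h6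
    have c4 := finrank_orth hQ C
    have c5 : Disjoint (orth Q C) (orth Q (orth Q C)) := by rw [orth_orth hQ]; exact c2.symm
    have d4 : D ≤ orth Q C := inf_le_left.trans (orth_anti inf_le_left)
    have d5 := finrank_inf_orth_add c5 d4
    refine hm ((AO.isPlus_iff_orth hQ c2 (by rw [c1]; decide) (by rw [hn]; decide)).2
      (iff_of_false c3 fun h => d3 (((isPlus_sub_iff c5 d4 d2 (by rw [d1]; decide)
        ⟨3, by omega⟩).1 h).2 (AO.isPlus_restrict_iff.2 ⟨_, le_inf (le_orth_comm.1 inf_le_right)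
          (le_orth_comm.1 inf_le_right), hL, by omega⟩))))
  obtain ⟨U, hU1, hU2, hU3⟩ := AO.isPlus_restrict_iff.1 hp
  refine mem_stab_of_map_le (Submodule.map_le_iff_le_comap.2
    (T1.le_of_forall_singular fun p hpA hp0 ⟨x, _, hx⟩ => ?_))
  have hp1 : p ≠ 0 := by rintro rfl; simp at hx
  obtain ⟨w, hw, hw'⟩ : ∃ w ∈ U ⊓ orth Q (Submodule.span F {p}), w ∉ Submodule.span F {p} := by
    by_contra! hc
    by_cases h : p ∈ U
    · have h1 := Submodule.finrank_mono (show U ≤ Submodule.span F {p} from fun u hu =>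
        hc u ⟨hu, mem_orth_singleton.2 (polar_eq_zero_of_forall hU2 h hu)⟩)
      rw [finrank_span_singleton hp1] at h1
      omega
    · have h1 := finrank_le_inf_orth_singleton (Q := Q) U p
      obtain ⟨u, hu, hu0⟩ := Submodule.exists_mem_ne_zero_of_ne_bot
        (p := U ⊓ orth Q (Submodule.span F {p})) (by intro h2; rw [h2, finrank_bot] at h1; omega)
      obtain ⟨c, rfl⟩ := Submodule.mem_span_singleton.1 (hc u hu)
      exact h ((U.smul_mem_iff (left_ne_zero_of_smul hu0)).1 hu.1)
  change g.1 p ∈ A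
  refine key _ (g.1 w) (by rw [O_map, hp0]) (by rw [O_map, hU2 w hw.1])
    (by rw [O_polar, mem_orth_singleton.1 hw.2]) (fun c => ?_) (by simpa using hp1) fun h => hw' ?_
  · rw [← map_smul, ← conj_eich]
    exact X.mul_mem (X.mul_mem hg (H1.1 p hpA _ (A.smul_mem c (hU1 hw.1)))) (X.inv_mem hg)
  · obtain ⟨c, hc⟩ := Submodule.mem_span_singleton.1 h
    exact Submodule.mem_span_singleton.2 ⟨c, g.1.injective (by rw [map_smul, hc])⟩

theorem maxOm_four_four [Fintype F] (hQ : (polarBilin Q).Nondegenerate) (hn : finrank F V = 8)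
    (hm : ¬ Known.IsPlus Q) (hA : Disjoint A (orth Q A)) (h4 : finrank F A = 4) :
    MaxOm Q (stabSub A) := by
  by_cases hp : Known.IsPlus (Q.restrict A)
  · exact maxOm_four_plus hQ hn hm hA h4 hp
  have hd := finrank_orth hQ A
  exact (maxOm_orth_iff hQ).1 (maxOm_four_plus hQ hn hm (by rw [orth_orth hQ]; exact hA.symm)
    (by omega) (by_contra fun h => hm ((AO.isPlus_iff_orth hQ hA (by rw [h4]; decide)
      (by rw [hn]; decide)).2 (iff_of_false hp h))))

end Cfsg.Lib.Class.OMax
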