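import Cfsg.Agent.Class.OPair
import Cfsg.Agent.Class.Decomp

/-!
Orthonormal frames: coordinates, monomial isometries, sign changes and permutations.
-/

set_option autoImplicit false

namespace Cfsg.Lib.Class.OMax

open QuadraticMap Module Orth

variable {F V : Type*} [Field F] [AddCommGroup V] [Module F V] {Q : QuadraticForm F V}
  {ι : Type*} {e : ι → V}

/-- An orthonormal basis in odd characteristic. -/
structure Frame (Q : QuadraticForm F V) (e : ι → V) : Prop where
  two : (2 : F) ≠ 0
  norm : ∀ i, Q (e i) = 1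
  perp : ∀ i j, i ≠ j → polar Q (e i) (e j) = 0
  span : ⊤ ≤ Submodule.span F (Set.range e)

/-- The isometries permuting the lines of a frame. -/
def Mon (Q : QuadraticForm F V) (e : ι → V) : Subgroup (O Q) :=
  (stabDec fun i => Submodule.span F {e i}).comap (O Q).subtype

theorem exists_even_perm [Fintype ι] [DecidableEq ι] (σ : Equiv.Perm ι) (A : Finset ι)
    (h : A.card + 2 ≤ Fintype.card ι) :
    ∃ τ : Equiv.Perm ι, Equiv.Perm.sign τ = 1 ∧ ∀ a ∈ A, τ a = σ a := by
  rcases Int.units_eq_one_or (Equiv.Perm.sign σ) with h1 | h1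
  · exact ⟨σ, h1, fun _ _ => rfl⟩
  obtain ⟨x, hx, y, hy, hxy⟩ := Finset.one_lt_card.1
    (show 1 < Aᶜ.card by rw [Finset.card_compl]; omega)
  rw [Finset.mem_compl] at hx hy
  refine ⟨σ * Equiv.swap x y, by simp [h1, hxy], fun a ha => ?_⟩
  rw [Equiv.Perm.mul_apply, Equiv.swap_apply_of_ne_of_ne (by rintro rfl; exact hx ha)
    (by rintro rfl; exact hy ha)]

theorem exists_even_perm_pair [Fintype ι] [DecidableEq ι] (h : 4 ≤ Fintype.card ι) {a b c d : ι}
    (hab : a ≠ b) (hcd : c ≠ d) :
    ∃ τ : Equiv.Perm ι, Equiv.Perm.sign τ = 1 ∧ τ a = c ∧ τ b = d := by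
  obtain ⟨σ, hσ⟩ := Equiv.Perm.exists_extending_pair (f := ![a, b]) (g := ![c, d])
    (by intro i j; fin_cases i <;> fin_cases j <;> simp [hab, hab.symm])
    (by intro i j; fin_cases i <;> fin_cases j <;> simp [hcd, hcd.symm])
  obtain ⟨τ, h1, h2⟩ := exists_even_perm σ {a, b} (by have := Finset.card_le_two (a := a) (b := b); omega)
  exact ⟨τ, h1, (h2 a (by simp)).trans (hσ 0), (h2 b (by simp)).trans (hσ 1)⟩

theorem exists_notMem_of_card_lt [Fintype ι] {A : Finset ι} (h : A.card < Fintype.card ι) :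
    ∃ i, i ∉ A := by
  by_contra! hc
  rw [Finset.eq_univ_iff_forall.2 hc, Finset.card_univ] at h
  omega

namespace Frame

theorem polar_self (h : Frame Q e) (i : ι) : polar Q (e i) (e i) = 2 := by
  rw [polar_self', h.norm, mul_one]

theorem polar_e [DecidableEq ι] (h : Frame Q e) (i j : ι) :
    polar Q (e i) (e j) = if i = j then 2 else 0 := by
  split_ifs with hij
  · rw [hij, h.polar_self]
  · exact h.perp i j hij

theorem ne_zero (h : Frame Q e) (i : ι) : e i ≠ 0 := fun h0 => by
  have := h.norm i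
  rw [h0, map_zero] at this
  exact zero_ne_one this

theorem norm_ne (h : Frame Q e) (i : ι) : Q (e i) ≠ 0 := by rw [h.norm]; exact one_ne_zero

theorem four_ne (h : Frame Q e) : (4 : F) ≠ 0 := by
  rw [show (4 : F) = 2 * 2 by norm_num]; exact mul_ne_zero h.two h.two

theorem refl_apply (h : Frame Q e) (i : ι) (x : V) :
    (refl Q (e i)).1 x = x - polar Q x (e i) • e i := by
  rw [Orth.refl_apply, h.norm, inv_one, one_mul]

theorem co_refl [DecidableEq ι] (h : Frame Q e) (i : ι) (x : V) (j : ι) :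
    polar Q ((refl Q (e i)).1 x) (e j) = if j = i then -polar Q x (e j) else polar Q x (e j) := by
  rw [h.refl_apply, polar_sub_left, polar_smul_left']
  split_ifs with hij
  · rw [hij, h.polar_self]; ring
  · rw [h.perp i j (Ne.symm hij)]; ring

theorem refl_comm (h : Frame Q e) (i j : ι) : Commute (refl Q (e i)) (refl Q (e j)) := by
  by_cases hij : i = j
  · rw [hij]
  · rw [Commute, SemiconjBy, mul_refl, refl_apply_of_orth (h.perp j i (Ne.symm hij))]

theorem refl_pairwise (h : Frame Q e) (T : Finset ι) :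
    (T : Set ι).Pairwise (Function.onFun Commute fun i => refl Q (e i)) :=
  fun i _ j _ _ => h.refl_comm i j

/-- The sign change on a set of coordinates. -/
noncomputable def sg (h : Frame Q e) (T : Finset ι) : O Q :=
  T.noncommProd (fun i => refl Q (e i)) (h.refl_pairwise T)

theorem sg_insert [DecidableEq ι] (h : Frame Q e) {T : Finset ι} {i : ι} (hi : i ∉ T) :
    h.sg (insert i T) = refl Q (e i) * h.sg T :=
  Finset.noncommProd_insert_of_notMem _ _ _ _ hi

theorem co_sg [DecidableEq ι] (h : Frame Q e) (T : Finset ι) (x : V) (j : ι) :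
    polar Q ((h.sg T).1 x) (e j) = if j ∈ T then -polar Q x (e j) else polar Q x (e j) := by
  induction T using Finset.induction_on with
  | empty => simp [sg]
  | insert i T hi ih =>
    rw [h.sg_insert hi, O_mul_apply, h.co_refl, ih]
    by_cases hj : j = i
    · subst hj; simp [hi]
    · simp [hj]

theorem sg_mem (h : Frame Q e) {X : Subgroup (O Q)} {T : Finset ι}
    (hX : ∀ i ∈ T, refl Q (e i) ∈ X) : h.sg T ∈ X := X.noncommProd_mem _ hX

variable [Fintype ι]

theorem sum_repr (h : Frame Q e) (x : V) : ∑ i, (2⁻¹ * polar Q x (e i)) • e i = x := by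
  classical
  have hx : x ∈ Submodule.span F (Set.range e) := h.span Submodule.mem_top
  induction hx using Submodule.span_induction with
  | mem x hx =>
    obtain ⟨j, rfl⟩ := hx
    simp [h.polar_e, inv_mul_cancel₀ h.two]
  | zero => simp
  | add x y _ _ hx hy =>
    simp only [polar_add_left, mul_add, add_smul, Finset.sum_add_distrib, hx, hy]
  | smul c x _ hx =>
    conv_rhs => rw [← hx, Finset.smul_sum]
    simp only [polar_smul_left', smul_smul, mul_left_comm]

theorem ext (h : Frame Q e) {x y : V} (H : ∀ i, polar Q x (e i) = polar Q y (e i)) : x = y := by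
  rw [← h.sum_repr x, ← h.sum_repr y]
  simp only [H]

theorem exists_co_ne (h : Frame Q e) {x : V} (hx : x ≠ 0) : ∃ i, polar Q x (e i) ≠ 0 := by
  by_contra! hc
  exact hx (h.ext fun i => by rw [hc, polar_zero_left])

theorem nondeg (h : Frame Q e) : (polarBilin Q).Nondegenerate :=
  ⟨fun _ hx => h.ext fun i => (hx (e i)).trans (polar_zero_left _ _).symm,
    fun _ hx => h.ext fun i => (pc (hx (e i))).trans (polar_zero_left _ _).symm⟩

theorem two_mul_polar (h : Frame Q e) (x y : V) :
    2 * polar Q x y = ∑ i, polar Q x (e i) * polar Q y (e i) := by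
  conv_lhs => rw [← h.sum_repr y]
  rw [show ∀ z, polar Q x z = polarBilin Q x z from fun _ => rfl, map_sum, Finset.mul_sum]
  refine Finset.sum_congr rfl fun i _ => ?_
  rw [map_smul, polarBilin_apply_apply, smul_eq_mul]
  field_simp [h.two]

theorem four_mul (h : Frame Q e) (x : V) : 4 * Q x = ∑ i, polar Q x (e i) ^ 2 := by
  have := h.two_mul_polar x x
  rw [polar_self'] at this
  simp only [pow_two, ← this]
  ring

theorem four_mul_of_subset (h : Frame Q e) {x : V} {T : Finset ι}
    (H : ∀ i, i ∉ T → polar Q x (e i) = 0) : 4 * Q x = ∑ i ∈ T, polar Q x (e i) ^ 2 := by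
  rw [h.four_mul]
  exact (Finset.sum_subset (Finset.subset_univ T) fun i _ hi => by rw [H i hi]; ring).symm

theorem mem_of_co (h : Frame Q e) {S : Submodule F V} {x : V}
    (H : ∀ i, polar Q x (e i) ≠ 0 → e i ∈ S) : x ∈ S := by
  rw [← h.sum_repr x]
  refine S.sum_mem fun i _ => ?_
  by_cases hi : polar Q x (e i) = 0
  · simp [hi]
  · exact S.smul_mem _ (H i hi)

theorem eq_top (h : Frame Q e) {S : Submodule F V} (H : ∀ i, e i ∈ S) : S = ⊤ :=
  eq_top_iff.2 fun _ _ => h.mem_of_co fun i _ => H i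

theorem mem_span_singleton (h : Frame Q e) {x : V} {i : ι}
    (H : ∀ j, j ≠ i → polar Q x (e j) = 0) : x ∈ Submodule.span F {e i} :=
  h.mem_of_co fun j hj => by
    rw [show j = i from by_contra fun hc => hj (H j hc)]
    exact Submodule.mem_span_singleton_self _

omit [Fintype ι] in
theorem eq_or_of_mem_span (h : Frame Q e) {x : V} {i : ι} (hx : Q x = 1)
    (H : x ∈ Submodule.span F {e i}) : x = e i ∨ x = -e i := by
  obtain ⟨c, rfl⟩ := Submodule.mem_span_singleton.1 H
  rw [Q_smul, h.norm, mul_one, pow_two, mul_self_eq_one_iff] at hx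
  rcases hx with rfl | rfl <;> simp

omit [Fintype ι] in
theorem linearIndependent (h : Frame Q e) : LinearIndependent F e := by
  classical
  rw [linearIndependent_iff']
  intro s g hg i hi
  have h1 := congrArg (polarBilin Q (e i)) hg
  simp only [map_sum, map_smul, polarBilin_apply_apply, h.polar_e, smul_eq_mul, mul_ite, mul_zero,
    Finset.sum_ite_eq, hi, if_true, map_zero] at h1
  exact (mul_eq_zero.1 h1).resolve_right h.two

/-- The basis given by a frame. -/
noncomputable def basis (h : Frame Q e) : Basis ι F V := Basis.mk h.linearIndependent h.span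

omit [Fintype ι] in
theorem basis_apply (h : Frame Q e) (i : ι) : h.basis i = e i := Basis.mk_apply _ _ _

theorem finrank_eq (h : Frame Q e) : finrank F V = Fintype.card ι :=
  finrank_eq_card_basis h.basis

theorem finiteDimensional (h : Frame Q e) : FiniteDimensional F V :=
  Module.Basis.finiteDimensional_of_finite h.basis

omit [Fintype ι] in
theorem O_ext' (h : Frame Q e) {g k : O Q} (H : ∀ i, g.1 (e i) = k.1 (e i)) : g = k :=
  Subtype.ext (h.basis.ext' fun i => by rw [h.basis_apply, H])

theorem mem_Mon_iff (h : Frame Q e) {g : O Q} :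
    g ∈ Mon Q e ↔ ∀ i, ∃ j, g.1 (e i) ∈ Submodule.span F {e j} := by
  refine ⟨fun hg i => ?_, fun H => ?_⟩
  · obtain ⟨σ, hσ⟩ := mem_stabDec.1 hg
    exact ⟨σ i, by rw [← hσ i]; exact ⟨e i, Submodule.mem_span_singleton_self _, rfl⟩⟩
  choose f hf using H
  have hf' : ∀ i, g.1 (e i) = e (f i) ∨ g.1 (e i) = -e (f i) := fun i =>
    h.eq_or_of_mem_span (by rw [O_map, h.norm]) (hf i)
  have hinj : Function.Injective f := fun i j hij => by
    by_contra hc
    have h1 := h.perp i j hc
    rw [← O_polar g] at h1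
    rcases hf' i with h2 | h2 <;> rcases hf' j with h3 | h3 <;> rw [h2, h3, hij] at h1 <;>
      simp [h.norm, h.two] at h1
  refine mem_stabDec.2 ⟨Equiv.ofBijective f (Finite.injective_iff_bijective.1 hinj), fun i => ?_⟩
  rw [Submodule.map_span, Set.image_singleton]
  change Submodule.span F {g.1 (e i)} = Submodule.span F {e (f i)}
  rcases hf' i with h2 | h2 <;> rw [h2]
  rw [← neg_one_smul F, Submodule.span_singleton_smul_eq (by simp)]

omit [Fintype ι] in
theorem exists_perm_of_mem_Mon (h : Frame Q e) {g : O Q} (hg : g ∈ Mon Q e) :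
    ∃ σ : Equiv.Perm ι, ∀ i, g.1 (e i) = e (σ i) ∨ g.1 (e i) = -e (σ i) := by
  obtain ⟨σ, hσ⟩ := mem_stabDec.1 hg
  exact ⟨σ, fun i => h.eq_or_of_mem_span (by rw [O_map, h.norm])
    (by rw [← hσ i]; exact ⟨e i, Submodule.mem_span_singleton_self _, rfl⟩)⟩

theorem refl_mem_Mon (h : Frame Q e) (i : ι) : refl Q (e i) ∈ Mon Q e := by
  classical
  exact h.mem_Mon_iff.2 fun j => ⟨j, h.mem_span_singleton fun k hk => by
    rw [h.co_refl, h.perp j k hk.symm]; simp⟩

theorem sg_mem_Mon (h : Frame Q e) (T : Finset ι) : h.sg T ∈ Mon Q e :=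
  h.sg_mem fun i _ => h.refl_mem_Mon i

theorem negO_mem_Mon (h : Frame Q e) : negO Q ∈ Mon Q e :=
  h.mem_Mon_iff.2 fun j => ⟨j, Submodule.neg_mem _ (Submodule.mem_span_singleton_self _)⟩

theorem sg_mem_commutator (h : Frame Q e) {T : Finset ι} (hT : Even T.card) :
    h.sg T ∈ commutator (O Q) := by
  have := h.finiteDimensional
  rw [← Abelianization.ker_of, MonoidHom.mem_ker, sg, Finset.map_noncommProd,
    Finset.noncommProd_eq_prod]
  rcases T.eq_empty_or_nonempty with rfl | ⟨i, -⟩
  · simp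
  rw [Finset.prod_congr rfl fun j _ => map_refl_eq h.nondeg Abelianization.of (h.norm_ne j)
    one_ne_zero (b := e i) (by rw [h.norm, h.norm]; ring), Finset.prod_const]
  obtain ⟨k, hk⟩ := hT
  rw [hk, ← two_mul, pow_mul, ← map_pow, pow_two, refl_mul_self, map_one, one_pow]

theorem two_mul_polar_sg [DecidableEq ι] (h : Frame Q e) (T : Finset ι) (x : V) :
    polar Q x ((h.sg T).1 x) = 2 * Q x - ∑ i ∈ T, polar Q x (e i) ^ 2 := by
  refine mul_left_cancel₀ h.two ?_
  rw [h.two_mul_polar, mul_sub, ← mul_assoc, show (2 : F) * 2 = 4 by norm_num, h.four_mul,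
    ← Finset.sum_filter_add_sum_filter_not Finset.univ (· ∈ T),
    ← Finset.sum_filter_add_sum_filter_not Finset.univ (· ∈ T) (fun i => polar Q x (e i) ^ 2),
    Finset.filter_mem_eq_inter, Finset.univ_inter,
    Finset.sum_congr rfl (g := fun i => -polar Q x (e i) ^ 2) fun i hi => by
      rw [h.co_sg, if_pos hi]; ring,
    Finset.sum_congr rfl (g := fun i => polar Q x (e i) ^ 2) (s₁ := Finset.filter _ _) fun i hi => by
      rw [h.co_sg, if_neg (Finset.mem_filter.1 hi).2]; ring, Finset.sum_neg_distrib]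
  ring

/-- The isometry permuting the vectors of a frame. -/
noncomputable def perm (h : Frame Q e) : Equiv.Perm ι →* O Q where
  toFun σ := ⟨h.basis.equiv h.basis σ, mem_O.2 fun x => by
    classical
    refine mul_left_cancel₀ h.four_ne ?_
    rw [h.four_mul, h.four_mul, ← Equiv.sum_comp σ]
    refine Finset.sum_congr rfl fun i _ => congrArg (· ^ 2) ?_
    refine LinearMap.congr_fun (f := (polarBilin Q).flip (e (σ i)) ∘ₗ
      (h.basis.equiv h.basis σ).toLinearMap) (g := (polarBilin Q).flip (e i))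
      (h.basis.ext fun j => ?_) x
    rw [LinearMap.comp_apply, LinearEquiv.coe_coe, Basis.equiv_apply]
    simp [h.basis_apply, h.polar_e]⟩
  map_one' := h.O_ext' fun i => by simp [← h.basis_apply]
  map_mul' σ τ := h.O_ext' fun i => by simp [← h.basis_apply]

theorem perm_apply (h : Frame Q e) (σ : Equiv.Perm ι) (i : ι) : (h.perm σ).1 (e i) = e (σ i) := by
  simp [perm, ← h.basis_apply]

theorem co_perm (h : Frame Q e) (σ : Equiv.Perm ι) (x : V) (i : ι) :
    polar Q ((h.perm σ).1 x) (e (σ i)) = polar Q x (e i) := by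
  rw [← h.perm_apply, O_polar]

theorem co_perm' (h : Frame Q e) (σ : Equiv.Perm ι) (x : V) (i : ι) :
    polar Q ((h.perm σ).1 x) (e i) = polar Q x (e (σ.symm i)) := by
  rw [← h.co_perm σ x, Equiv.apply_symm_apply]

theorem two_mul_polar_perm (h : Frame Q e) (σ : Equiv.Perm ι) (x y : V) :
    2 * polar Q x ((h.perm σ).1 y) = ∑ i, polar Q x (e (σ i)) * polar Q y (e i) := by
  rw [h.two_mul_polar, ← Equiv.sum_comp σ]
  simp only [h.co_perm]

theorem perm_mem_Mon (h : Frame Q e) (σ : Equiv.Perm ι) : h.perm σ ∈ Mon Q e :=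
  h.mem_Mon_iff.2 fun j => ⟨σ j, by rw [h.perm_apply]; exact Submodule.mem_span_singleton_self _⟩

theorem perm_mem_commutator [DecidableEq ι] (h : Frame Q e) (h5 : 5 ≤ Fintype.card ι)
    {σ : Equiv.Perm ι} (hσ : Equiv.Perm.sign σ = 1) : h.perm σ ∈ commutator (O Q) := by
  have h1 : σ ∈ commutator (Equiv.Perm ι) := by
    rw [alternatingGroup.commutator_perm_eq (by simpa using h5)]; exact hσ
  have h2 : (commutator (Equiv.Perm ι)).map h.perm ≤ commutator (O Q) := by
    rw [commutator, Subgroup.map_commutator]; exact Subgroup.commutator_mono le_top le_top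
  exact h2 ⟨σ, h1, rfl⟩

end Frame

end Cfsg.Lib.Class.OMax
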