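import Cfsg.Agent.Class.OFrameBasic
import Cfsg.Agent.Class.OrthEich

/-!
Groups containing the reflections in an orthonormal frame and the even permutations of the frame:
the case where the group contains Eichler transformations.
-/

set_option autoImplicit false

namespace Cfsg.Lib.Class.OMax

open QuadraticMap Module Orth

variable {F V : Type*} [Field F] [AddCommGroup V] [Module F V] {Q : QuadraticForm F V}
  {ι : Type*} {e : ι → V} {X : Subgroup (O Q)} {S S' : Submodule F V}

theorem mem_rootSp_of_prime (hF : ∀ A : AddSubgroup F, (1 : F) ∈ A → A = ⊤) {p w : V}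
    (hp : Q p = 0) (hw : polar Q p w = 0) (h : eich Q p w ∈ X) : w ∈ rootSp X p := by
  have h0 : ∀ c : F, polar Q p (c • w) = 0 := fun c => by rw [polar_smul_right', hw, mul_zero]
  let A : AddSubgroup F :=
    { carrier := {c | eich Q p (c • w) ∈ X}
      add_mem' := fun {a b} ha hb => by
        change eich Q p ((a + b) • w) ∈ X
        rw [add_smul, eich_add hp (h0 a) (h0 b)]; exact X.mul_mem ha hb
      zero_mem' := by simp
      neg_mem' := fun {a} ha => by
        change eich Q p ((-a) • w) ∈ X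
        rw [neg_smul, eich_neg]; exact X.inv_mem ha }
  have h1 := hF A (by simpa [A] using h)
  exact ⟨hw, fun c => (h1 ▸ AddSubgroup.mem_top c : c ∈ A)⟩

theorem el_sup_of_refl {ρ a : V} (hρ : Q ρ = 0) (ha : Q a ≠ 0) (hρa : polar Q ρ a ≠ 0)
    (hX : refl Q a ∈ X) : EL X (rootSp X ρ ⊔ Submodule.span F {a}) := by
  have h1 : ρ ∈ rootSp X ρ ⊔ Submodule.span F {a} := Submodule.mem_sup_left (self_mem_rootSp hρ)
  have h2 : a ∈ rootSp X ρ ⊔ Submodule.span F {a} :=
    Submodule.mem_sup_right (Submodule.mem_span_singleton_self a)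
  have h3 : Full X (rootSp X ρ ⊔ Submodule.span F {a}) ρ := full_of_rootSp fun w hw hρw => by
    obtain ⟨u, hu, _, hv, rfl⟩ := Submodule.mem_sup.1 hw
    obtain ⟨c, rfl⟩ := Submodule.mem_span_singleton.1 hv
    rw [polar_add_right, hu.1, zero_add, polar_smul_right', mul_eq_zero, or_iff_left hρa] at hρw
    simpa [hρw] using hu
  refine el_of_two_full h1 ((refl_mem_stab h2 ρ).1 h1) hρ (by rw [O_map, hρ]) ?_ h3
    (h3.apply hX (refl_mem_stab h2))
  rw [refl_apply]
  qsimp
  rw [hρ]
  simp [ha, hρa]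

theorem EL.refl_mul_refl (h : EL X S) {a p w : V} (ha : a ∈ S) (hp : p ∈ S) (hw : w ∈ S) :
    refl Q a * refl Q ((eich Q p w).1 a) ∈ X := by
  rw [← conj_refl, ← mul_assoc, ← mul_assoc]
  refine X.mul_mem ?_ (X.inv_mem (h p hp w hw))
  conv => arg 2; arg 2; rw [← refl_inv]
  rw [conj_eich]
  exact h _ ((refl_mem_stab ha p).1 hp) _ ((refl_mem_stab ha w).1 hw)

theorem EL.tor_mem (h : EL X S) (h2 : (2 : F) ≠ 0) {p f u : V} (hp : p ∈ S) (hf : f ∈ S)
    (hu : u ∈ S) (hp0 : Q p = 0) (hf0 : Q f = 0) (hpf : polar Q p f = 1) (hpu : polar Q p u = 0)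
    (hu0 : Q u ≠ 0) {t : F} (ht : t ≠ 0) : tor Q p f (t ^ 2) ∈ X := by
  wlog hfu : polar Q f u = 0 generalizing u
  · refine this (u := u - polar Q f u • p) (S.sub_mem hu (S.smul_mem _ hp)) ?_ ?_ ?_
    · qsimp; rw [hpu, hp0]; ring
    · qsimp; rw [pc hpu, hp0]; simpa using hu0
    · qsimp; rw [pc hpf]; ring
  have key : ∀ u ∈ S, polar Q p u = 0 → polar Q f u = 0 → Q u ≠ 0 →
      refl Q u * refl Q (p + Q u • f) ∈ X := by
    intro u hu hpu hfu hu0
    have h1 : (eich Q p ((2 * Q u)⁻¹ • u)).1 u = u + p := by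
      rw [eich_apply_of_orth hp0 (by rw [polar_smul_right', hpu, mul_zero]) (pc hpu),
        polar_smul_right', polar_self', inv_mul_cancel₀ (mul_ne_zero h2 hu0), one_smul]
    have h3 : (eich Q f u).1 (u + p) = p + Q u • f := by
      rw [eich_apply hf0 hfu]
      qsimp
      rw [pc hfu, hpf, hpu]
      module
    have h4 := X.mul_mem (h.refl_mul_refl hu hp (S.smul_mem (2 * Q u)⁻¹ hu))
      (h.refl_mul_refl (S.add_mem hu hp) hf hu)
    rwa [h1, h3, mul_assoc, ← mul_assoc (refl Q (u + p)), refl_mul_self, one_mul] at h4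
  have h3 := X.mul_mem (X.inv_mem (key u hu hpu hfu hu0)) (key (t • u) (S.smul_mem t hu)
    (by rw [polar_smul_right', hpu, mul_zero]) (by rw [polar_smul_right', hfu, mul_zero])
    (by rw [Q_smul]; positivity))
  rw [refl_smul ht, mul_inv_rev, refl_inv, refl_inv, mul_assoc, ← mul_assoc (refl Q u),
    refl_mul_self, one_mul, refl_hyp_mul_refl_hyp hp0 hf0 hpf hu0 (by rw [Q_smul]; positivity),
    Q_smul, mul_div_cancel_right₀ _ hu0] at h3
  exact h3

theorem conj_tor (g : O Q) (p f : V) (t : F) :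
    g * tor Q p f t * g⁻¹ = tor Q (g.1 p) (g.1 f) t := by
  rw [tor, tor, ← map_smul, ← map_add, ← map_add, ← conj_refl, ← conj_refl]
  group

theorem sub_mem_rootSp (hF : ∀ A : AddSubgroup F, (1 : F) ∈ A → A = ⊤) {p f f' : V}
    (hp0 : Q p = 0) (hf0 : Q f = 0) (hf0' : Q f' = 0) (hpf : polar Q p f = 1)
    (hpf' : polar Q p f' = 1) {s : F} (hs : s ≠ 0) (hs1 : s ≠ 1) (h1 : tor Q p f s ∈ X)
    (h2 : tor Q p f' s ∈ X) : f - f' ∈ rootSp X p := by
  obtain ⟨h3, h4⟩ := eich_apply_eq hp0 (hf0.trans hf0'.symm) (hpf.trans hpf'.symm)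
    (by rw [hpf]; exact one_ne_zero)
  rw [hpf, inv_one, one_smul] at h3 h4
  obtain ⟨a, b, y, hy1, hy2, hy⟩ := exists_hyp_decomp hp0 hf0 hpf (f - f')
  have hb : b = 0 := by
    rw [hy] at h3
    qsimp_at h3
    rw [hp0, hpf, hy1] at h3
    simpa using h3
  rw [hb, zero_smul, add_zero, add_comm] at hy
  rw [hy, eich_add_smul_self hp0 hy1] at h4
  have h5 := X.mul_mem h2 (X.inv_mem h1)
  have h7 := conj_tor (eich Q p y) p f s
  rw [eich_apply_self, h4] at h7
  rw [← h7, mul_assoc, mul_assoc,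
    ← mul_assoc (tor Q p f s), ← eich_neg, conj_eich, tor_apply_left hp0 hf0 hpf hs, map_neg,
    tor_apply_orth s hy1 hy2, eich_smul_left' _ _ hs, ← eich_add hp0 hy1
      (by qsimp; rw [hy1]; ring)] at h5
  have h6 := mem_rootSp_of_prime hF hp0 (by qsimp; rw [hy1]; ring) h5
  rw [show y + s • -y = (1 - s) • y by module,
    Submodule.smul_mem_iff _ (sub_ne_zero.2 hs1.symm)] at h6
  rw [hy]
  exact Submodule.add_mem _ h6 (Submodule.smul_mem _ _ (self_mem_rootSp hp0))

theorem EL.inf_le_rootSp (h : EL X S) {p : V} (hp : p ∈ S) :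
    S ⊓ orth Q (Submodule.span F {p}) ≤ rootSp X p := fun _ hw =>
  Full.mem_rootSp (h p hp) hw.1 (mem_orth_singleton.1 hw.2)

variable [Fintype ι] [DecidableEq ι]

/-- Groups containing the reflections in a frame and the even permutations of the frame. -/
structure ROver (Q : QuadraticForm F V) (e : ι → V) (X : Subgroup (O Q)) : Prop where
  frame : Frame Q e
  prime : ∀ A : AddSubgroup F, (1 : F) ∈ A → A = ⊤
  card : 7 ≤ Fintype.card ι
  refl : ∀ i, refl Q (e i) ∈ X
  perm : ∀ σ, Equiv.Perm.sign σ = 1 → frame.perm σ ∈ X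

variable [Finite F]

theorem ROver.of_eich (h : ROver Q e X) (h3 : (3 : F) ≠ 0) {ρ w : V} (hρ : ρ ≠ 0) (hρ0 : Q ρ = 0)
    (hw : w ∈ rootSp X ρ) (hw1 : w ∉ Submodule.span F {ρ}) :
    commutator (O Q) ≤ X ∨ X ≤ Mon Q e := by
  have hf := h.frame
  have := hf.finiteDimensional
  have : Finite V := Module.finite_of_finite F
  obtain ⟨ρ₀, ⟨hρ₀, hρ₀'⟩, hmax⟩ := Set.exists_max_image {p : V | p ≠ 0 ∧ Q p = 0}
    (fun p => finrank F (rootSp X p)) (Set.toFinite _) ⟨ρ, hρ, hρ0⟩
  set d := finrank F (rootSp X ρ₀) with hd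
  have hd2 : 2 ≤ d := by
    refine le_trans ?_ (hmax ρ ⟨hρ, hρ0⟩)
    have h1 := finrank_sup_span_singleton' hw1
    rw [finrank_span_singleton hρ] at h1
    rw [show 2 = 1 + 1 from rfl, ← h1]
    exact Submodule.finrank_mono (sup_le ((Submodule.span_singleton_le_iff_mem _ _).2
      (self_mem_rootSp hρ0)) ((Submodule.span_singleton_le_iff_mem _ _).2 hw))
  have A : ∀ S, EL X S → finrank F S = d + 1 → ∀ p ∈ S, p ≠ 0 → Q p = 0 →
      rootSp X p ≤ S ∧ ∃ f ∈ S, Q f = 0 ∧ polar Q p f = 1 := by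
    intro S hS hd p hp hp1 hp0
    have h1 := finrank_le_inf_orth_singleton (Q := Q) S p
    have h2 := hmax p ⟨hp1, hp0⟩
    have h4 := hS.inf_le_rootSp hp
    refine ⟨(Submodule.eq_of_le_of_finrank_le h4 (by omega)).ge.trans inf_le_left,
      ?_⟩
    by_contra hc
    have h5 : S ≤ rootSp X p := le_trans (le_inf le_rfl fun x hx => mem_orth_singleton.2 (by
      by_contra hx'; exact hc (exists_partner_mem hp hx hp0 hx'))) h4
    have := Submodule.finrank_mono h5
    omega
  have C : ∀ S, EL X S → finrank F S = d + 1 → ∀ p ∈ S, p ≠ 0 → Q p = 0 → ∀ i,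
      polar Q p (e i) ≠ 0 → e i ∈ S := by
    intro S hS hd p hp hp1 hp0 i hi
    obtain ⟨h1, f, hfS, hf0, hpf⟩ := A S hS hd p hp hp1 hp0
    obtain ⟨u, hu, hu0⟩ : ∃ u ∈ rootSp X p, Q u ≠ 0 := by
      by_contra! hc
      have h2 := finrank_le_inf_orth_pair (Q := Q) S p f
      obtain ⟨x, hx, hx0⟩ := Submodule.exists_mem_ne_zero_of_ne_bot
        (p := S ⊓ orth Q (Submodule.span F {p, f}))
        (by rintro h; rw [h, finrank_bot] at h2; omega)
      obtain ⟨a1, a2⟩ := mem_orth_pair.1 hx.2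
      have hxp : x ∈ rootSp X p := Full.mem_rootSp (hS p hp) hx.1 a1
      obtain ⟨-, y, hy, -, hxy⟩ := A S hS hd x hx.1 hx0 (hc x hxp)
      have h4 := polar_eq_zero_of_forall hc hxp (Full.mem_rootSp (w := y - polar Q p y • f)
        (hS p hp) (S.sub_mem hy (S.smul_mem _ hfS)) (by qsimp; rw [hpf]; ring))
      qsimp_at h4
      rw [hxy, pc a2] at h4
      simp at h4
    have hS' := el_sup_of_refl hp0 (hf.norm_ne i) hi (h.refl i)
    have b1 : p ∈ rootSp X p ⊔ Submodule.span F {e i} :=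
      Submodule.mem_sup_left (self_mem_rootSp hp0)
    have b2 : e i ∈ rootSp X p ⊔ Submodule.span F {e i} :=
      Submodule.mem_sup_right (Submodule.mem_span_singleton_self _)
    obtain ⟨f', hf', hf0', hpf'⟩ := exists_partner_mem b1 b2 hp0 hi
    have h2 := h1 (sub_mem_rootSp h.prime hp0 hf0 hf0' hpf hpf' (pow_ne_zero 2 hf.two)
      (fun h4 => h3 (by linear_combination h4))
      (hS.tor_mem hf.two hp hfS (h1 hu) hp0 hf0 hpf hu.1 hu0 hf.two)
      (hS'.tor_mem hf.two b1 hf' (Submodule.mem_sup_left hu) hp0 hf0' hpf' hu.1 hu0 hf.two))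
    have h4 := h1 (Full.mem_rootSp (w := e i - polar Q p (e i) • f') (hS' p b1)
      (Submodule.sub_mem _ b2 (Submodule.smul_mem _ _ hf')) (by qsimp; rw [hpf']; ring))
    have h5 := S.sub_mem hfS h2
    rw [sub_sub_cancel] at h5
    simpa using S.add_mem h4 (S.smul_mem (polar Q p (e i)) h5)
  have D : ∀ S, EL X S → finrank F S = d + 1 → ∀ x ∈ S, ∀ i, polar Q x (e i) ≠ 0 → e i ∈ S := by
    intro S hS hd x hx i hi
    obtain ⟨p, hp, hp1, hp0⟩ := exists_singular_mem Q (S := S) (by omega)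
    obtain ⟨-, f, hfS, hf0, hpf⟩ := A S hS hd p hp hp1 hp0
    by_contra hc
    refine hi (pc (mem_orth_singleton.1 (le_of_forall_singular (T := orth Q
      (Submodule.span F {e i})) hp hfS hp0 hf0 hpf (fun q hq hq0 _ => ?_) hx)))
    by_contra hq1
    rw [mem_orth_singleton] at hq1
    exact hc (C S hS hd q hq (by rintro rfl; simp at hq1) hq0 i (pc' hq1))
  obtain ⟨a, ha⟩ := hf.exists_co_ne hρ₀
  have hS := el_sup_of_refl hρ₀' (hf.norm_ne a) ha (h.refl a)
  have hd1 : finrank F ↥(rootSp X ρ₀ ⊔ Submodule.span F {e a}) = d + 1 :=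
    finrank_sup_span_singleton' fun hc => ha hc.1
  have haS : e a ∈ rootSp X ρ₀ ⊔ Submodule.span F {e a} :=
    Submodule.mem_sup_right (Submodule.mem_span_singleton_self _)
  generalize rootSp X ρ₀ ⊔ Submodule.span F {e a} = S at hS hd1 haS
  have hcard := h.card
  by_cases htop : ∀ i, e i ∈ S
  · rw [hf.eq_top htop] at hS
    exact Or.inl (commutator_le_of_el hf.nondeg (by rw [hf.finrank_eq]; omega) hS)
  push Not at htop
  obtain ⟨b, hb⟩ := htop
  refine Or.inr fun g hg => hf.mem_Mon_iff.2 fun i => ?_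
  obtain ⟨k, hk⟩ := hf.exists_co_ne (x := g.1 (e i)) (by simpa using hf.ne_zero i)
  have h1 : (g⁻¹).1 (e k) ∈ Submodule.span F {e i} := hf.mem_span_singleton fun j hj => by
    obtain ⟨τ, hτ, h1, h2⟩ := exists_even_perm_pair (by omega) (a := a) (b := b)
      (by rintro rfl; exact hb haS) hj.symm
    have h4 := h.perm τ hτ
    obtain ⟨x, hx, h5⟩ := D _ (hS.map (X.mul_mem hg h4)) (by rw [LinearEquiv.finrank_map_eq, hd1])
      (g.1 (e i)) ⟨e a, haS, by rw [← h1, ← hf.perm_apply]; rfl⟩ k hk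
    by_contra hc
    refine hb (D S hS hd1 x hx b ?_)
    rwa [← h5, ← h2, LinearEquiv.coe_coe, O_mul_apply, O_inv_apply, hf.co_perm] at hc
  obtain ⟨c, hc⟩ := Submodule.mem_span_singleton.1 h1
  have hc0 : c ≠ 0 := by
    rintro rfl
    exact hf.ne_zero k (by simpa using hc.symm)
  refine ⟨k, Submodule.mem_span_singleton.2 ⟨c⁻¹, ?_⟩⟩
  rw [← O_apply_inv g (e k), ← hc, map_smul, smul_smul, inv_mul_cancel₀ hc0, one_smul]

omit [Finite F] in
theorem Frame.perm_swap (h : Frame Q e) {a b : ι} (hab : a ≠ b) :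
    h.perm (Equiv.swap a b) = refl Q (e a - e b) := by
  have h1 : Q (e a - e b) ≠ 0 := by
    rw [Q_sub, h.norm, h.norm, h.perp a b hab, sub_zero, one_add_one_eq_two]; exact h.two
  have h2 := refl_sub_apply ((h.norm a).trans (h.norm b).symm) h1
  refine h.O_ext' fun i => ?_
  rw [h.perm_apply]
  by_cases ha : i = a
  · rw [ha, Equiv.swap_apply_left, h2]
  by_cases hb : i = b
  · rw [hb, Equiv.swap_apply_right]
    exact ((congrArg _ h2.symm).trans (refl_refl_apply _ _)).symm
  rw [Equiv.swap_apply_of_ne_of_ne ha hb, refl_apply_of_orth]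
  rw [polar_sub_right, h.perp i a ha, h.perp i b hb, sub_zero]

omit [DecidableEq ι] [Finite F] in
theorem refl_apply_mem {g : O Q} (hg : g ∈ X) {u : V} (hu : refl Q u ∈ X) :
    refl Q (g.1 u) ∈ X := by
  rw [← conj_refl]; exact X.mul_mem (X.mul_mem hg hu) (X.inv_mem hg)

theorem ROver.of_three (h : ROver Q e X) (h3 : (3 : F) = 0) {u : V} (hu : Q u = 1)
    (hX : Orth.refl Q u ∈ X) (hu1 : ∀ i, u ∉ Submodule.span F {e i}) : commutator (O Q) ≤ X := by
  have hf := h.frame
  have := hf.finiteDimensional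
  have hcard := h.card
  have hsq : ∀ x : F, x ≠ 0 → x ^ 2 = 1 := fun x hx => by
    let A : AddSubgroup F :=
      { carrier := {x | x ^ 3 = x}
        add_mem' := fun {a b} ha hb => by
          simp only [Set.mem_ofPred_eq] at *
          linear_combination ha + hb + (a ^ 2 * b + a * b ^ 2) * h3
        zero_mem' := by simp
        neg_mem' := fun {a} ha => by
          simp only [Set.mem_ofPred_eq] at *
          linear_combination -ha }
    have h1 : x ^ 3 = x := (h.prime A (one_pow 3) ▸ AddSubgroup.mem_top x : x ∈ A)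
    exact mul_left_cancel₀ hx (by linear_combination h1)
  classical
  set s := Finset.univ.filter fun i => polar Q u (e i) ≠ 0 with hs
  have hs1 : (s.card : F) = 1 := by
    have h1 := hf.four_mul_of_subset (x := u) (T := s) fun i hi => by simpa [hs] using hi
    rw [Finset.sum_congr rfl (g := fun _ => 1) fun i hi => hsq _ (Finset.mem_filter.1 hi).2,
      Finset.sum_const, hu, nsmul_eq_mul] at h1
    linear_combination h3 - h1
  have hs4 : 4 ≤ s.card := by
    by_contra! hc
    have h1 : s.card = 1 := by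
      interval_cases s.card
      · simp at hs1
      · rfl
      · exact absurd (by push_cast at hs1; linear_combination hs1) (one_ne_zero (α := F))
      · exact absurd (by push_cast at hs1; linear_combination h3 - hs1) (one_ne_zero (α := F))
    obtain ⟨i, hi⟩ := Finset.card_eq_one.1 h1
    refine hu1 i (hf.mem_span_singleton fun j hj => ?_)
    by_contra hc
    exact hj (Finset.mem_singleton.1 (hi ▸ Finset.mem_filter.2 ⟨Finset.mem_univ j, hc⟩))
  obtain ⟨T, hTs, hT⟩ := Finset.exists_subset_card_eq hs4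
  have hT' : ∀ i ∈ T, polar Q u (e i) ^ 2 = 1 := fun i hi =>
    hsq _ (Finset.mem_filter.1 (hTs hi)).2
  have hsg : ∀ T, hf.sg T ∈ X := fun T => hf.sg_mem fun i _ => h.refl i
  have h1 : Orth.refl Q (∑ i ∈ T, e i) ∈ X := by
    have h2 := refl_apply_mem (hsg (T.filter fun i => polar Q u (e i) = 1))
      (refl_apply_mem hX (refl_apply_mem (hsg T) hX))
    convert h2 using 2
    refine hf.ext fun j => ?_
    have h4 : polar Q ((hf.sg T).1 u) u = 1 := by
      rw [polar_comm, hf.two_mul_polar_sg, Finset.sum_congr rfl hT', Finset.sum_const, hT, hu]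
      simp only [nsmul_eq_mul]
      linear_combination -h3
    rw [hf.co_sg, refl_apply, h4, hu, polar_sub_left, polar_smul_left', hf.co_sg,
      show ∀ z, polar Q z (e j) = (polarBilin Q).flip (e j) z from fun _ => rfl, map_sum]
    simp only [LinearMap.flip_apply, polarBilin_apply_apply, hf.polar_e, Finset.sum_ite_eq',
      Finset.mem_filter]
    by_cases hj : j ∈ T
    · rcases mul_self_eq_one_iff.1 ((pow_two _).symm.trans (hT' j hj)) with h5 | h5
      · simp [hj, h5]; norm_num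
      · have : (-1 : F) ≠ 1 := fun h6 => hf.two (by linear_combination -h6)
        simp [hj, h5, this]; norm_num
    · simp [hj]
  have h2 : ∀ T' : Finset ι, T'.card = 4 → Orth.refl Q (∑ i ∈ T', e i) ∈ X := by
    intro T' hT'
    obtain ⟨σ, hσ⟩ := exists_perm_map_eq (hT.trans hT'.symm)
    obtain ⟨τ, hτ, h4⟩ := exists_even_perm σ T (by omega)
    have h5 := refl_apply_mem (h.perm τ hτ) h1
    rw [map_sum] at h5
    convert h5 using 2
    refine (Finset.sum_bijective σ σ.bijective (fun i => (hσ i).symm) fun i hi => ?_).symm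
    rw [hf.perm_apply, h4 i hi]
  obtain ⟨a, b, c, hab, hac, hbc⟩ := Fintype.two_lt_card_iff.1 (show 2 < Fintype.card ι by omega)
  have hρ : Q (e a + e b + e c) = 0 := by
    qsimp
    rw [hf.norm, hf.norm, hf.norm, hf.perp a b hab, hf.perp a c hac, hf.perp b c hbc]
    linear_combination h3
  have hρa : polar Q (e a + e b + e c) (e a) = 2 := by
    qsimp; rw [hf.norm, hf.perp b a hab.symm, hf.perp c a hac.symm]; ring
  have hS := el_sup_of_refl hρ (hf.norm_ne a) (by rw [hρa]; exact hf.two) (h.refl a)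
  have b1 : e a ∈ rootSp X (e a + e b + e c) ⊔ Submodule.span F {e a} :=
    Submodule.mem_sup_right (Submodule.mem_span_singleton_self _)
  have b2 : e b ∈ rootSp X (e a + e b + e c) ⊔ Submodule.span F {e a} := by
    have h4 : polar Q (e a + e b + e c) (e a - e b) = 0 := by
      rw [polar_sub_right, hρa]
      qsimp; rw [hf.norm, hf.perp a b hab, hf.perp c b hbc.symm]; ring
    have h5 : Q (e a - e b) = 2 := by rw [Q_sub, hf.norm, hf.norm, hf.perp a b hab]; ring
    have h6 := mem_rootSp_of_prime (X := X) h.prime hρ h4 (by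
      rw [eich_eq_refl_mul_refl hρ h4 (by rw [h5]; exact hf.two), h5,
        show e a - e b - (2 : F) • (e a + e b + e c) = e c - e a - (3 : F) • (e b + e c) by module,
        h3, zero_smul, sub_zero, ← hf.perm_swap hab, ← hf.perm_swap hac.symm, ← map_mul]
      exact h.perm _ (by simp [hab, hac.symm]))
    simpa using Submodule.sub_mem _ b1 (Submodule.mem_sup_left h6)
  rw [hf.eq_top (S := rootSp X (e a + e b + e c) ⊔ Submodule.span F {e a}) fun j => ?_] at hS
  · exact commutator_le_of_el hf.nondeg (by rw [hf.finrank_eq]; omega) hS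
  by_cases ja : j = a
  · rwa [ja]
  by_cases jb : j = b
  · rwa [jb]
  by_cases jc : j = c
  · have := Submodule.sub_mem _ (Submodule.mem_sup_left (self_mem_rootSp hρ))
      (Submodule.add_mem _ b1 b2)
    rwa [add_sub_cancel_left, jc] at *
  have h4 : polar Q (e a + e b + e c) (e j) = 0 := by
    qsimp; rw [hf.perp a j (Ne.symm ja), hf.perp b j (Ne.symm jb), hf.perp c j (Ne.symm jc)]; ring
  refine Submodule.mem_sup_left (mem_rootSp_of_prime h.prime hρ h4 ?_)
  rw [eich_eq_refl_mul_refl hρ h4 (hf.norm_ne j), hf.norm, one_smul]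
  refine X.mul_mem (h.refl j) ?_
  have h5 := refl_apply_mem (h.refl j) (h2 {j, a, b, c} (by
    rw [Finset.card_eq_succ]
    exact ⟨j, {a, b, c}, by simp [ja, jb, jc], rfl, Finset.card_eq_three.2 ⟨a, b, c, hab, hac, hbc, rfl⟩⟩))
  rw [Finset.sum_insert (by simp [ja, jb, jc]), Finset.sum_insert (by simp [hab, hac]),
    Finset.sum_pair hbc, ← add_assoc (e a), map_add, refl_apply_self (hf.norm_ne j),
    refl_apply_of_orth h4, ← refl_neg] at h5
  convert h5 using 2
  abel

end Cfsg.Lib.Class.OMax
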