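import Cfsg.Agent.Class.OFrameRefl

/-!
The stabiliser in `Ω` of an orthonormal frame over a prime field is maximal (odd dimension at
least seven, or dimension at least ten).
-/

set_option autoImplicit false

namespace Cfsg.Lib.Class.OMax

open QuadraticMap Module Orth

variable {F V : Type*} [Field F] [AddCommGroup V] [Module F V] {Q : QuadraticForm F V}
  {ι : Type*} {e : ι → V} {X : Subgroup (O Q)}

theorem eich_nsmul {p w : V} (hp : Q p = 0) (hw : polar Q p w = 0) (n : ℕ) :
    eich Q p ((n : F) • w) = eich Q p w ^ n := by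
  induction n with
  | zero => simp
  | succ n ih =>
    rw [Nat.cast_succ, add_smul, one_smul, eich_add hp (by rw [polar_smul_right', hw, mul_zero]) hw,
      ih, pow_succ]

theorem dihedral_conj {G : Type*} [Group G] {a b : G} (ha : a * a = 1) (hb : b * b = 1) (r : ℕ) :
    (a * b) ^ r * a * ((a * b) ^ r)⁻¹ = (a * b) ^ (r + r) * a := by
  have h : SemiconjBy a (a * b)⁻¹ (a * b) := by
    rw [SemiconjBy, mul_inv_rev, inv_eq_of_mul_eq_one_right ha, inv_eq_of_mul_eq_one_right hb,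
      mul_assoc]
  rw [mul_assoc, ← inv_pow, (h.pow_right r).eq, pow_add, mul_assoc]

theorem dihedral_conj' {G : Type*} [Group G] {a b : G} (ha : a * a = 1) (hb : b * b = 1) (r : ℕ) :
    (a * b) ^ (r + 1) * b * ((a * b) ^ (r + 1))⁻¹ = (a * b) ^ (2 * r + 1) * a := by
  have h : b = (a * b)⁻¹ * a * 1 := by
    rw [mul_inv_rev, inv_eq_of_mul_eq_one_right hb, inv_mul_cancel_right, mul_one]
  have h1 := dihedral_conj ha hb (r + 1)
  generalize a * b = m at *
  rw [h, show m ^ (r + 1) * (m⁻¹ * a * 1) * (m ^ (r + 1))⁻¹ =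
    m⁻¹ * (m ^ (r + 1) * a * (m ^ (r + 1))⁻¹) by group, h1]
  group

theorem succ_le_finrank [FiniteDimensional F V] {S U : Submodule F V} {n : ℕ} {v x : V}
    (hn : n ≤ finrank F S) (hS : S ≤ U) (hv : v ∈ U) (hx : S ≤ orth Q (Submodule.span F {x}))
    (hv' : polar Q v x ≠ 0) : n + 1 ≤ finrank F (S ⊔ Submodule.span F {v} : Submodule F V) ∧
      S ⊔ Submodule.span F {v} ≤ U :=
  ⟨by rw [finrank_sup_span_singleton' fun h => hv' (pc (mem_orth_singleton.1 (hx h)))]; omega,
    sup_le hS ((Submodule.span_singleton_le_iff_mem _ _).2 hv)⟩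

theorem span_le_orth {v x : V} (h : polar Q v x = 0) :
    Submodule.span F {v} ≤ orth Q (Submodule.span F {x}) :=
  (Submodule.span_singleton_le_iff_mem _ _).2 (mem_orth_singleton.2 (pc h))

theorem three_le_finrank [FiniteDimensional F V] {U : Submodule F V} {u v w x y z : V}
    (hu : u ∈ U) (hv : v ∈ U) (hw : w ∈ U) (h1 : polar Q u x ≠ 0) (h2 : polar Q u y = 0)
    (h3 : polar Q v y ≠ 0) (h4 : polar Q u z = 0) (h5 : polar Q v z = 0) (h6 : polar Q w z ≠ 0) :
    3 ≤ finrank F (⊥ ⊔ Submodule.span F {u} ⊔ Submodule.span F {v} ⊔ Submodule.span F {w} :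
      Submodule F V) ∧ ⊥ ⊔ Submodule.span F {u} ⊔ Submodule.span F {v} ⊔ Submodule.span F {w} ≤ U := by
  obtain ⟨a1, a2⟩ := succ_le_finrank (Nat.zero_le _) bot_le hu bot_le h1
  obtain ⟨a3, a4⟩ := succ_le_finrank a1 a2 hv (sup_le bot_le (span_le_orth h2)) h3
  exact succ_le_finrank a3 a4 hw (sup_le (sup_le bot_le (span_le_orth h4)) (span_le_orth h5)) h6

theorem four_le_finrank [FiniteDimensional F V] {U : Submodule F V} {u v w t x y z s : V}
    (hu : u ∈ U) (hv : v ∈ U) (hw : w ∈ U) (ht : t ∈ U) (h1 : polar Q u x ≠ 0)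
    (h2 : polar Q u y = 0) (h3 : polar Q v y ≠ 0) (h4 : polar Q u z = 0) (h5 : polar Q v z = 0)
    (h6 : polar Q w z ≠ 0) (h7 : polar Q u s = 0) (h8 : polar Q v s = 0) (h9 : polar Q w s = 0)
    (h10 : polar Q t s ≠ 0) : 4 ≤ finrank F U := by
  obtain ⟨a1, a2⟩ := three_le_finrank hu hv hw h1 h2 h3 h4 h5 h6
  obtain ⟨a3, a4⟩ := succ_le_finrank a1 a2 ht (sup_le (sup_le (sup_le bot_le (span_le_orth h7))
    (span_le_orth h8)) (span_le_orth h9)) h10
  exact a3.trans (Submodule.finrank_mono a4)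

variable [Fintype ι] [DecidableEq ι]

theorem exists_two_notMem {A : Finset ι} (h : A.card + 2 ≤ Fintype.card ι) :
    ∃ x y, x ≠ y ∧ x ∉ A ∧ y ∉ A := by
  obtain ⟨x, hx, y, hy, hxy⟩ := Finset.one_lt_card.1
    (show 1 < Aᶜ.card by rw [Finset.card_compl]; omega)
  exact ⟨x, y, hxy, Finset.mem_compl.1 hx, Finset.mem_compl.1 hy⟩

namespace Frame

theorem sg_apply_of (h : Frame Q e) {T : Finset ι} {x : V} (hx : ∀ i ∈ T, polar Q x (e i) = 0) :
    (h.sg T).1 x = x := h.ext fun i => by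
  rw [h.co_sg]
  split_ifs with hi
  · rw [hx i hi, neg_zero]
  · rfl

theorem sg_mul_self (h : Frame Q e) (T : Finset ι) : h.sg T * h.sg T = 1 :=
  O_ext fun x => h.ext fun i => by
    rw [O_mul_apply, h.co_sg, h.co_sg]
    split_ifs <;> simp

theorem sg_pair_sub_mem (h : Frame Q e) (a b : ι) (x : V) :
    (h.sg {a, b}).1 x - x ∈ Submodule.span F {e a, e b} := h.mem_of_co fun i hi => by
  rw [polar_sub_left, h.co_sg] at hi
  split_ifs at hi with h1
  · refine Submodule.subset_span ?_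
    rcases Finset.mem_insert.1 h1 with rfl | h1
    · simp
    · simp [Finset.mem_singleton.1 h1]
  · simp at hi

omit [DecidableEq ι] in
theorem perm_apply_of (h : Frame Q e) {σ : Equiv.Perm ι} {x : V}
    (hx : ∀ i, σ i ≠ i → polar Q x (e i) = 0) : (h.perm σ).1 x = x := h.ext fun i => by
  obtain ⟨i, rfl⟩ := σ.surjective i
  rw [h.co_perm]
  by_cases hi : σ i = i
  · rw [hi]
  · rw [hx i hi, hx _ fun hc => hi (σ.injective hc)]

omit [DecidableEq ι] in
theorem disjoint_orth (h : Frame Q e) {U : Submodule F V}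
    (hU : ∀ x ∈ U, ∀ i, polar Q x (e i) ≠ 0 → e i ∈ U) : Disjoint U (orth Q U) :=
  Submodule.disjoint_def.2 fun x hx hx' => h.ext fun i => by
    rw [polar_zero_left]
    by_contra hc
    exact hc (pc (hx' _ (hU x hx i hc)))

omit [Fintype ι] [DecidableEq ι] in
theorem mem_orth_pair' (h : Frame Q e) {i j k : ι} (hi : k ≠ i) (hj : k ≠ j) :
    e k ∈ orth Q (Submodule.span F {e i, e j}) :=
  mem_orth_pair.2 ⟨h.perp i k hi.symm, h.perp j k hj.symm⟩

omit [DecidableEq ι] in
theorem disjoint_orth_pair (h : Frame Q e) (i j : ι) : Disjoint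
    (orth Q (Submodule.span F {e i, e j})) (orth Q (orth Q (Submodule.span F {e i, e j}))) :=
  h.disjoint_orth fun x hx k hk => h.mem_orth_pair'
    (by rintro rfl; exact hk (pc (mem_orth_pair.1 hx).1))
    (by rintro rfl; exact hk (pc (mem_orth_pair.1 hx).2))

omit [DecidableEq ι] in
theorem restrict (h : Frame Q e) (i j : ι) :
    Frame (Q.restrict (orth Q (Submodule.span F {e i, e j})))
      fun k : {k // k ≠ i ∧ k ≠ j} => ⟨e k, h.mem_orth_pair' k.2.1 k.2.2⟩ := by
  refine ⟨h.two, fun k => h.norm k, fun k l hkl => h.perp k l fun hc => hkl (Subtype.ext hc),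
    fun x _ => ?_⟩
  obtain ⟨y, hy, hxy⟩ := h.mem_of_co (x := x) (S := (Submodule.span F (Set.range
    fun k : {k // k ≠ i ∧ k ≠ j} => (⟨e k, h.mem_orth_pair' k.2.1 k.2.2⟩ :
      orth Q (Submodule.span F {e i, e j})))).map (Submodule.subtype _)) fun k hk =>
    ⟨_, Submodule.subset_span ⟨⟨k, by rintro rfl; exact hk (pc (mem_orth_pair.1 x.2).1),
      by rintro rfl; exact hk (pc (mem_orth_pair.1 x.2).2)⟩, rfl⟩, rfl⟩
  rwa [← Subtype.ext hxy]

omit [DecidableEq ι] in
theorem finrank_pair (h : Frame Q e) {i j : ι} (hij : i ≠ j) :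
    finrank F (Submodule.span F {e i, e j}) = 2 := by
  have := h.finiteDimensional
  refine finrank_span_pair (LinearIndependent.pair_iff.2 fun s t hst => ?_)
  have h5 := congrArg (polar Q (e i)) hst
  have h6 := congrArg (polar Q (e j)) hst
  qsimp_at h5
  qsimp_at h6
  rw [h.norm, h.perp i j hij] at h5
  rw [h.norm, h.perp j i hij.symm] at h6
  exact ⟨mul_right_cancel₀ h.two (by linear_combination h5),
    mul_right_cancel₀ h.two (by linear_combination h6)⟩

variable [Finite F]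

omit [DecidableEq ι] in
theorem exists_notMem_Mon (h : Frame Q e) (hn : 5 ≤ Fintype.card ι) :
    ∃ g ∈ commutator (O Q), g ∉ Mon Q e := by
  have := h.finiteDimensional
  have hP : PerpFam Q fun i => Submodule.span F {e i} :=
    ⟨fun i => disjoint_span_singleton_orth (by rw [h.polar_self]; exact h.two),
      fun i j hij x hx y hy => span_le_orth (h.perp j i hij.symm) hy x hx⟩
  obtain ⟨i⟩ : Nonempty ι := Fintype.card_pos_iff.1 (by omega)
  obtain ⟨g, hg, H⟩ := hP.exists_move h.nondeg (by rw [h.finrank_eq]; omega) (i := i)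
    (by rw [h.finrank_eq, finrank_span_singleton (h.ne_zero i)]; omega)
    (Submodule.mem_span_singleton_self _) (h.ne_zero i)
  exact ⟨g, hg, fun hc => let ⟨j, hj⟩ := h.mem_Mon_iff.1 hc i; H j hj⟩

theorem maxOm_odd (h : Frame Q e) (hF : ∀ A : AddSubgroup F, (1 : F) ∈ A → A = ⊤)
    (hn : 7 ≤ Fintype.card ι) (hodd : Odd (Fintype.card ι)) :
    MaxOm Q (stabDec fun i => Submodule.span F {e i}) := by
  have := h.finiteDimensional
  refine ⟨h.exists_notMem_Mon (by omega), fun X hX hN hX' g hg => ?_⟩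
  have H : ROver Q e (withNeg X) := ⟨h, hF, hn, fun i => Or.inr ?_, fun σ hσ =>
    Or.inl (hN _ (h.perm_mem_commutator (by omega) hσ) (h.perm_mem_Mon σ))⟩
  · rcases H.le_or_le with h1 | h1
    · refine absurd (fun k hk => (h1 hk).resolve_right fun h2 => ?_) hX'
      refine negO_notMem_commutator h.nondeg h.two (by rwa [h.finrank_eq]) ?_
      simpa using Subgroup.mul_mem _ (hX h2) (Subgroup.inv_mem _ hk)
    · exact h1 (Or.inl hg)
  · rw [show negO Q * refl Q (e i) = h.sg (Finset.univ.erase i) from O_ext fun x => h.ext fun j => by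
      rw [O_mul_apply, negO_apply, polar_neg_left, h.co_refl, h.co_sg]
      by_cases hj : j = i <;> simp [hj]]
    refine hN _ (h.sg_mem_commutator ?_) (h.sg_mem_Mon _)
    rw [Finset.card_erase_of_mem (Finset.mem_univ i), Finset.card_univ]
    exact Nat.Odd.sub_odd hodd odd_one

end Frame

/-- Proper overgroups of the monomial subgroup of `Ω`. -/
structure EOver (Q : QuadraticForm F V) (e : ι → V) (X : Subgroup (O Q)) : Prop where
  frame : Frame Q e
  prime : ∀ A : AddSubgroup F, (1 : F) ∈ A → A = ⊤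
  card : 9 ≤ Fintype.card ι
  mon : ∀ g ∈ commutator (O Q), g ∈ Mon Q e → g ∈ X
  nle : ¬ commutator (O Q) ≤ X

namespace EOver

theorem perm (h : EOver Q e X) {σ : Equiv.Perm ι} (hσ : Equiv.Perm.sign σ = 1) :
    h.frame.perm σ ∈ X :=
  h.mon _ (h.frame.perm_mem_commutator (by have := h.card; omega) hσ) (h.frame.perm_mem_Mon σ)

omit [DecidableEq ι] in
theorem sg (h : EOver Q e X) {T : Finset ι} (hT : Even T.card) : h.frame.sg T ∈ X :=
  h.mon _ (h.frame.sg_mem_commutator hT) (h.frame.sg_mem_Mon T)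

variable [Finite F]

theorem not_el (h : EOver Q e X) {i j : ι} (hij : i ≠ j) :
    ¬ EL X (orth Q (Submodule.span F {e i, e j})) := fun hE => by
  have hf := h.frame
  have := hf.finiteDimensional
  have hcard := h.card
  obtain ⟨k, l, hkl, hk, hl⟩ := exists_two_notMem (A := {i, j})
    (by have := Finset.card_le_two (a := i) (b := j); omega)
  rw [Finset.mem_insert, Finset.mem_singleton, not_or] at hk hl
  obtain ⟨τ, hτ, h1, h2⟩ := exists_even_perm_pair (by omega) hij hkl
  have hE' := hE.map (h.perm hτ)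
  rw [map_orth, Submodule.map_span, Set.image_pair, LinearEquiv.coe_coe, hf.perm_apply,
    hf.perm_apply, h1, h2] at hE'
  obtain ⟨S, hS1, hS⟩ := exists_hull hE
  have h3 := hS.le_of_le (A := orth Q (Submodule.span F {e i, e j}) ⊓
    orth Q (Submodule.span F {e k, e l})) (tri_of_three_le (hf.disjoint_orth fun x hx m hm =>
      ⟨hf.mem_orth_pair' (by rintro rfl; exact hm (pc (mem_orth_pair.1 hx.1).1))
        (by rintro rfl; exact hm (pc (mem_orth_pair.1 hx.1).2)),
      hf.mem_orth_pair' (by rintro rfl; exact hm (pc (mem_orth_pair.1 hx.2).1))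
        (by rintro rfl; exact hm (pc (mem_orth_pair.1 hx.2).2))⟩) (by
      have h4 := finrank_le_inf_orth_pair (Q := Q) (orth Q (Submodule.span F {e i, e j})) (e k) (e l)
      have h5 := finrank_orth hf.nondeg (Submodule.span F {e i, e j})
      rw [hf.finrank_pair hij, hf.finrank_eq] at h5
      omega)) (inf_le_left.trans hS1) inf_le_right hE'
  have h4 := hS.1
  rw [hf.eq_top (S := S) fun m => ?_] at h4
  · exact h.nle (commutator_le_of_el hf.nondeg (by rw [hf.finrank_eq]; omega) h4)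
  by_cases hm : m = i ∨ m = j
  · exact h3 (hf.mem_orth_pair' (by rintro rfl; tauto) (by rintro rfl; tauto))
  · exact hS1 (hf.mem_orth_pair' (by tauto) (by tauto))

theorem of_stab (h : EOver Q e X) {i j : ι} (hij : i ≠ j) {g : O Q} (hg : g ∈ X)
    (hs : g ∈ stab Q (Submodule.span F {e i, e j})) {k : ι} (hi : k ≠ i) (hj : k ≠ j) :
    ∃ l, g.1 (e k) ∈ Submodule.span F {e l} := by
  classical
  have hf := h.frame
  have := hf.finiteDimensional
  have hcard := h.card
  have hd := hf.disjoint_orth_pair i j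
  have hf' := hf.restrict i j
  set W := orth Q (Submodule.span F {e i, e j}) with hW
  have hc : Fintype.card {k // k ≠ i ∧ k ≠ j} + 2 = Fintype.card ι := by
    rw [← hf'.finrank_eq, ← hf.finrank_eq, ← finrank_orth hf.nondeg (Submodule.span F {e i, e j}),
      hf.finrank_pair hij]
  have hO : orth Q W = Submodule.span F {e i, e j} := orth_orth hf.nondeg _
  have H : ROver (Q.restrict W)
      (fun k : {k // k ≠ i ∧ k ≠ j} => (⟨e k, hf.mem_orth_pair' k.2.1 k.2.2⟩ : W))
      ((X.comap (stab Q W).subtype).map (stabRestrict Q W)) := by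
    refine ⟨hf', h.prime, by omega, fun k => ?_, fun σ hσ => ?_⟩
    · refine ⟨⟨refl Q (e k) * refl Q (e i), Subgroup.mul_mem _
        (refl_mem_stab (hf.mem_orth_pair' k.2.1 k.2.2)) (fixG_le_stab _ (refl_mem_fixG
          (hO ▸ Submodule.subset_span (by simp))))⟩, h.mon _ (refl_mul_refl_mem_commutator hf.nondeg
          (hf.norm_ne _) one_ne_zero (by rw [hf.norm, hf.norm]; ring))
          (Subgroup.mul_mem _ (hf.refl_mem_Mon _) (hf.refl_mem_Mon _)), O_ext fun x => Subtype.ext ?_⟩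
      rw [coe_stabRestrict_apply, O_mul_apply, refl_apply_of_orth (pc (mem_orth_pair.1 x.2).1)]
      rfl
    · have h1 : ∀ k : O (Q.restrict W), extend hf.nondeg hd k ∈ stab Q W := fun k =>
        mem_stab_of_forall_mem fun v hv => by
          rw [extend_apply_left hf.nondeg hd k ⟨v, hv⟩]; exact Subtype.prop _
      refine ⟨⟨extend hf.nondeg hd (hf'.perm σ), h1 _⟩, h.mon _ ?_ (hf.mem_Mon_iff.2 fun m => ?_),
        O_ext fun x => Subtype.ext (extend_apply_left hf.nondeg hd _ x)⟩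
      · have h2 : (commutator _).map (extend hf.nondeg hd) ≤ commutator (O Q) := by
          rw [commutator, Subgroup.map_commutator]; exact Subgroup.commutator_mono le_top le_top
        exact h2 ⟨_, hf'.perm_mem_commutator (by omega) hσ, rfl⟩
      · by_cases hm : m ≠ i ∧ m ≠ j
        · refine ⟨σ ⟨m, hm⟩, ?_⟩
          have h2 := extend_apply_left hf.nondeg hd (hf'.perm σ) ⟨e m, hf.mem_orth_pair' hm.1 hm.2⟩
          rw [hf'.perm_apply σ ⟨m, hm⟩] at h2
          exact h2 ▸ Submodule.mem_span_singleton_self _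
        · refine ⟨m, ?_⟩
          change (extend hf.nondeg hd (hf'.perm σ)).1 (e m) ∈ _
          rw [extend_apply_right hf.nondeg hd _ (hO ▸ Submodule.subset_span (by
            rw [not_and_or, not_not, not_not] at hm
            rcases hm with rfl | rfl <;> simp))]
          exact Submodule.mem_span_singleton_self _
  rcases H.le_or_le with h1 | h1
  · refine absurd (el_of fun p hp hp0 w hw hpw => ?_) (h.not_el hij)
    obtain ⟨⟨c, hc1⟩, hc2, hc3⟩ := h1 (eich_mem_Om hf'.nondeg (by rw [hf'.finrank_eq]; omega)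
      ⟨p, hp⟩ ⟨w, hw⟩)
    obtain ⟨q, hq⟩ := CharP.exists F
    have := Fact.mk (CharP.char_is_prime F q)
    have h2 := not_dvd_card_O_two q hf.two (restrict_orth_nondeg hf.nondeg hd)
      (by rw [hO, hf.finrank_pair hij])
    rw [← CharP.cast_eq_zero_iff F q] at h2
    set N := Nat.card (O (Q.restrict (orth Q W)))
    have h3 : c ^ N = eich Q p ((N : F) • w) := by
      refine O_ext_of_isCompl (isCompl_orth hf.nondeg hd) (fun a ha => ?_) fun b hb => ?_
      · have h4 := coe_stabRestrict_apply (⟨c, hc1⟩ ^ N) ⟨a, ha⟩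
        rw [map_pow, hc3, ← eich_nsmul (Q := Q.restrict W) (p := ⟨p, hp⟩) (w := ⟨w, hw⟩) hp0 hpw,
          ← extend_apply_left hf.nondeg hd, extend_eich] at h4
        exact h4.symm
      · have h4 := coe_stabRestrict_apply (⟨c, mem_stab_orth hc1⟩ ^ N) ⟨b, hb⟩
        rw [map_pow, pow_card_eq_one'] at h4
        rw [eich_apply_of_orth_orth (mem_orth'.1 hb p hp) (mem_orth'.1 hb _ (W.smul_mem _ hw))]
        exact h4.symm
    have h4 := mem_rootSp_of_prime h.prime hp0 (by rw [polar_smul_right', hpw, mul_zero])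
      (h3 ▸ X.pow_mem hc2 N)
    exact eich_mem_of_mem_rootSp ((Submodule.smul_mem_iff _ h2).1 h4)
  · obtain ⟨l, hl⟩ := hf'.mem_Mon_iff.1 (h1 ⟨⟨g, mem_stab_orth hs⟩, hg, rfl⟩) ⟨k, hi, hj⟩
    obtain ⟨c, hc⟩ := Submodule.mem_span_singleton.1 hl
    exact ⟨l, Submodule.mem_span_singleton.2 ⟨c, congrArg Subtype.val hc⟩⟩

theorem of_pair' (h : EOver Q e X) {a b c d : ι} (hab : a ≠ b) (hcd : c ≠ d) {g : O Q}
    (hg : g ∈ X) (ha : g.1 (e a) ∈ Submodule.span F {e c, e d})
    (hb : g.1 (e b) ∈ Submodule.span F {e c, e d}) {k : ι} (hi : k ≠ a) (hj : k ≠ b) :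
    ∃ l, g.1 (e k) ∈ Submodule.span F {e l} := by
  have hf := h.frame
  have := hf.finiteDimensional
  obtain ⟨τ, hτ, h1, h2⟩ := exists_even_perm_pair (by have := h.card; omega) hcd hab
  have key : ∀ x ∈ Submodule.span F {e c, e d}, (hf.perm τ).1 x ∈ Submodule.span F {e a, e b} := by
    intro x hx
    obtain ⟨r, s, rfl⟩ := Submodule.mem_span_pair.1 hx
    rw [map_add, map_smul, map_smul, hf.perm_apply, hf.perm_apply, h1, h2]
    exact Submodule.mem_span_pair.2 ⟨r, s, rfl⟩
  obtain ⟨l, hl⟩ := h.of_stab hab (X.mul_mem (h.perm hτ) hg) (mem_stab_of_map_le (by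
    rw [Submodule.map_span, Set.image_pair, Submodule.span_le]
    rintro _ (rfl | rfl)
    exacts [key _ ha, key _ hb])) hi hj
  obtain ⟨r, hr⟩ := Submodule.mem_span_singleton.1 hl
  refine ⟨τ.symm l, Submodule.mem_span_singleton.2 ⟨r, (hf.perm τ).1.injective ?_⟩⟩
  rw [map_smul, hf.perm_apply, τ.apply_symm_apply, hr, O_mul_apply]

theorem of_pair (h : EOver Q e X) {a b c d : ι} (hab : a ≠ b) {g : O Q}
    (hg : g ∈ X) (ha : g.1 (e a) ∈ Submodule.span F {e c, e d})
    (hb : g.1 (e b) ∈ Submodule.span F {e c, e d}) : g ∈ Mon Q e := by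
  have hcard := h.card
  have key : ∀ {a b c d : ι}, a ≠ b → g.1 (e a) ∈ Submodule.span F {e c, e d} →
      g.1 (e b) ∈ Submodule.span F {e c, e d} → ∀ k, k ≠ a → k ≠ b →
      ∃ l, g.1 (e k) ∈ Submodule.span F {e l} := by
    intro a b c d hab ha hb k hi hj
    by_cases hcd : c = d
    · obtain ⟨d', hd'⟩ := Fintype.exists_ne_of_one_lt_card (by omega) c
      have : Submodule.span F {e c, e d} ≤ Submodule.span F {e c, e d'} :=
        Submodule.span_mono (by simp [hcd])
      exact h.of_pair' hab hd'.symm hg (this ha) (this hb) hi hj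
    · exact h.of_pair' hab hcd hg ha hb hi hj
  obtain ⟨k, k', hkk, hk, hk'⟩ := exists_two_notMem (A := {a, b})
    (by have := Finset.card_le_two (a := a) (b := b); omega)
  rw [Finset.mem_insert, Finset.mem_singleton, not_or] at hk hk'
  obtain ⟨l, hl⟩ := key hab ha hb k hk.1 hk.2
  obtain ⟨l', hl'⟩ := key hab ha hb k' hk'.1 hk'.2
  refine h.frame.mem_Mon_iff.2 fun m => ?_
  by_cases hm : m ≠ k ∧ m ≠ k'
  · exact key (c := l) (d := l') hkk (Submodule.span_mono (by simp) hl)
      (Submodule.span_mono (by simp) hl') m hm.1 hm.2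
  · rw [not_and_or, not_not, not_not] at hm
    rcases hm with rfl | rfl
    exacts [⟨l, hl⟩, ⟨l', hl'⟩]

theorem of_orth (h : EOver Q e X) {a b : ι} (hab : a ≠ b) {g : O Q} (hg : g ∈ X) {T : Finset ι}
    (hT : 5 ≤ T.card) (ha : ∀ k ∈ T, polar Q (g.1 (e a)) (e k) = 0)
    (hb : ∀ k ∈ T, polar Q (g.1 (e b)) (e k) = 0) : g ∈ Mon Q e := by
  have hf := h.frame
  have D : ∀ k ∈ X, k.1 (g.1 (e a)) = g.1 (e a) → k.1 (g.1 (e b)) = g.1 (e b) → ∀ c,
      k.1 (g.1 (e c)) = g.1 (e c) ∨ k.1 (g.1 (e c)) = -g.1 (e c) ∨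
        polar Q (g.1 (e c)) (k.1 (g.1 (e c))) = 0 := by
    intro k hk h1 h2 c
    obtain ⟨σ, hσ⟩ := hf.exists_perm_of_mem_Mon (h.of_pair (c := a) (d := b) hab
      (X.mul_mem (X.mul_mem (X.inv_mem hg) hk) hg)
      (by rw [O_mul_apply, O_mul_apply, h1, O_inv_apply]; exact Submodule.subset_span (by simp))
      (by rw [O_mul_apply, O_mul_apply, h2, O_inv_apply]; exact Submodule.subset_span (by simp)))
    have h3 := (hσ c).imp (congrArg g.1) (congrArg g.1)
    simp only [O_mul_apply, O_apply_inv, map_neg] at h3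
    by_cases h4 : σ c = c
    · rw [h4] at h3; tauto
    · rcases h3 with h3 | h3 <;> rw [h3] <;> simp [hf.perp c _ (Ne.symm h4)]
  have neg : ∀ {x : F}, x = -x → x = 0 := fun hx =>
    mul_left_cancel₀ hf.two (by linear_combination hx)
  have S : ∀ T' ⊆ T, Even T'.card → ∀ c, ∀ k ∈ T', polar Q (g.1 (e c)) (e k) ≠ 0 →
      (∀ m, m ∉ T' → polar Q (g.1 (e c)) (e m) = 0) ∨
        ∑ i ∈ T', polar Q (g.1 (e c)) (e i) ^ 2 = 2 := by
    intro T' hT' hev c k hk hk'
    rcases D _ (h.sg hev) (hf.sg_apply_of fun i hi => ha i (hT' hi))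
      (hf.sg_apply_of fun i hi => hb i (hT' hi)) c with h1 | h1 | h1
    · have := hf.co_sg T' (g.1 (e c)) k
      rw [h1, if_pos hk] at this
      exact absurd (neg this) hk'
    · refine Or.inl fun m hm => ?_
      have := hf.co_sg T' (g.1 (e c)) m
      rw [h1, if_neg hm, polar_neg_left] at this
      exact neg this.symm
    · rw [hf.two_mul_polar_sg, O_map, hf.norm] at h1
      exact Or.inr (by linear_combination -h1)
  have P : ∀ c, ∀ k ∈ T, ∀ l ∈ T, ∀ m ∈ T, k ≠ l → k ≠ m → l ≠ m →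
      polar Q (g.1 (e c)) (e k) ^ 2 = 2 → polar Q (g.1 (e c)) (e l) = 0 →
      polar Q (g.1 (e c)) (e m) ≠ 0 := by
    intro c k hk l hl m hm hkl hkm hlm h1 h2 h3
    have hτ : ∀ i, (Equiv.swap l m * Equiv.swap k m) i ≠ i → i = k ∨ i = l ∨ i = m := fun i hi => by
      by_contra! hc
      exact hi (by rw [Equiv.Perm.mul_apply, Equiv.swap_apply_of_ne_of_ne hc.1 hc.2.2,
        Equiv.swap_apply_of_ne_of_ne hc.2.1 hc.2.2])
    have hT' : ∀ i, (Equiv.swap l m * Equiv.swap k m) i ≠ i → i ∈ T := fun i hi => by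
      rcases hτ i hi with rfl | rfl | rfl <;> assumption
    have hD := D _ (h.perm (σ := Equiv.swap l m * Equiv.swap k m) (by simp [hlm, hkm]))
      (hf.perm_apply_of fun i hi => ha i (hT' i hi))
      (hf.perm_apply_of fun i hi => hb i (hT' i hi)) c
    have hf1 : Q (g.1 (e c)) = 1 := by rw [O_map, hf.norm]
    generalize g.1 (e c) = f at *
    have h4 : (hf.perm (Equiv.swap l m * Equiv.swap k m)).1 f =
        f - (2⁻¹ * polar Q f (e k)) • e k + (2⁻¹ * polar Q f (e k)) • e l := by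
      conv_lhs => rw [← sub_add_cancel f ((2⁻¹ * polar Q f (e k)) • e k)]
      rw [map_add, map_smul, hf.perm_apply, hf.perm_apply_of fun i hi => ?_]
      · simp
      qsimp
      rcases hτ i hi with rfl | rfl | rfl
      · rw [hf.polar_self]; field_simp [hf.two]; ring
      · rw [h2, hf.perp _ _ hkl]; ring
      · rw [h3, hf.perp _ _ hkm]; ring
    have h5 : polar Q f (e k) ≠ 0 := fun h0 => hf.two (by rw [← h1, h0]; ring)
    have h6 : polar Q ((hf.perm (Equiv.swap l m * Equiv.swap k m)).1 f) (e l) ≠ 0 := by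
      rw [h4]; qsimp; rw [h2, hf.perp _ _ hkl, hf.norm]
      simpa [hf.two] using h5
    rcases hD with h7 | h7 | h7
    · exact h6 (by rw [h7, h2])
    · exact h6 (by rw [h7, polar_neg_left, h2, neg_zero])
    · rw [h4] at h7
      qsimp_at h7
      rw [h2, hf1] at h7
      have h8 := mul_inv_cancel₀ hf.two
      exact hf.two (by linear_combination 2 * h7 + h1 + polar Q f (e k) ^ 2 * h8)
  have C : ∀ c, ∀ k ∈ T, polar Q (g.1 (e c)) (e k) ≠ 0 → g.1 (e c) ∈ Submodule.span F {e k} := by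
    intro c k hk hk'
    refine hf.mem_span_singleton fun m hmk => by_contra fun hm => ?_
    have α : ∀ k ∈ T, ∀ l ∈ T, k ≠ l → polar Q (g.1 (e c)) (e k) ≠ 0 →
        (∀ m, m ≠ k → m ≠ l → polar Q (g.1 (e c)) (e m) = 0) ∨
          polar Q (g.1 (e c)) (e k) ^ 2 + polar Q (g.1 (e c)) (e l) ^ 2 = 2 := by
      intro k hk l hl hkl hk'
      refine (S {k, l} (by simp [Finset.insert_subset_iff, hk, hl]) (by simp [hkl]) c k
        (by simp) hk').imp (fun H m h1 h2 => H m (by simp [h1, h2])) fun H => ?_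
      rwa [Finset.sum_pair hkl] at H
    obtain ⟨l, hl, l', hl', hll⟩ := Finset.one_lt_card.1 (show 1 < (T \ {k, m}).card by
      have h1 := Finset.le_card_sdiff {k, m} T
      have h2 := Finset.card_le_two (a := k) (b := m)
      omega)
    simp only [Finset.mem_sdiff, Finset.mem_insert, Finset.mem_singleton, not_or] at hl hl'
    have h1 := (α k hk l hl.1 (Ne.symm hl.2.1) hk').resolve_left fun H =>
      hm (H m hmk (Ne.symm hl.2.2))
    have h2 := (α k hk l' hl'.1 (Ne.symm hl'.2.1) hk').resolve_left fun H =>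
      hm (H m hmk (Ne.symm hl'.2.2))
    by_cases h3 : polar Q (g.1 (e c)) (e l) = 0
    · rw [h3] at h1
      exact P c k hk l hl.1 l' hl'.1 (Ne.symm hl.2.1) (Ne.symm hl'.2.1) hll
        (by linear_combination h1) h3 (pow_eq_zero_iff two_ne_zero |>.1 (by
          linear_combination h2 - h1))
    have h4 := (α l hl.1 l' hl'.1 hll h3).resolve_left fun H =>
      hk' (H k (Ne.symm hl.2.1) (Ne.symm hl'.2.1))
    have h5 : polar Q (g.1 (e c)) (e k) ^ 2 = 1 :=
      mul_left_cancel₀ hf.two (by linear_combination h1 + h2 - h4)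
    have h6 : ∀ i ∈ T, polar Q (g.1 (e c)) (e i) ^ 2 = 1 := fun i hi => by
      by_cases hik : k = i
      · rwa [← hik]
      rcases α k hk i hi hik hk' with H | H
      · by_cases hil : l = i
        · subst hil; linear_combination h1 - h5
        · exact absurd (H l hl.2.1 hil) h3
      · linear_combination H - h5
    obtain ⟨T', hT', hT4⟩ := Finset.exists_subset_card_eq (show 4 ≤ T.card by omega)
    obtain ⟨i, hi⟩ := Finset.card_pos.1 (show 0 < T'.card by omega)
    obtain ⟨j, hj, hj'⟩ := Finset.exists_mem_notMem_of_card_lt_card (show T'.card < T.card by omega)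
    have h7 : ∀ i ∈ T, polar Q (g.1 (e c)) (e i) ≠ 0 := fun i hi h0 =>
      one_ne_zero (α := F) (by rw [← h6 i hi, h0]; ring)
    rcases S T' hT' (by rw [hT4]; decide) c i hi (h7 i (hT' hi)) with H | H
    · exact h7 j hj (H j hj')
    · rw [Finset.sum_congr rfl fun i hi => h6 i (hT' hi), Finset.sum_const, hT4, nsmul_eq_mul] at H
      exact hf.two (by push_cast at H; linear_combination H)
  have E : ∀ k, ∃ c, polar Q (g.1 (e c)) (e k) ≠ 0 := fun k => by
    obtain ⟨c, hc⟩ := hf.exists_co_ne (x := (g⁻¹).1 (e k)) (by simpa using hf.ne_zero k)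
    exact ⟨c, by rwa [O_polar_left, polar_comm]⟩
  obtain ⟨k, hk, l, hl, hkl⟩ := Finset.one_lt_card.1 (show 1 < T.card by omega)
  obtain ⟨c, hc⟩ := E k
  obtain ⟨d, hd⟩ := E l
  refine h.of_pair (a := c) (b := d) (c := k) (d := l) ?_ hg
    (Submodule.span_mono (by simp) (C c k hk hc)) (Submodule.span_mono (by simp) (C d l hl hd))
  rintro rfl
  obtain ⟨r, hr⟩ := Submodule.mem_span_singleton.1 (C c k hk hc)
  exact hd (by rw [← hr, polar_smul_left', hf.perp k l hkl, mul_zero])

theorem of_conj (h : EOver Q e X) {a b : ι} (hab : a ≠ b) {g : O Q} (hg : g ∈ X)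
    (H : g * h.frame.sg {a, b} * g⁻¹ ∈ Mon Q e) : g ∈ Mon Q e := by
  classical
  have hf := h.frame
  have := hf.finiteDimensional
  have hcard := h.card
  set t := g * hf.sg {a, b} * g⁻¹ with ht
  obtain ⟨σ, hσ⟩ := hf.exists_perm_of_mem_Mon H
  set M := Finset.univ.filter fun k => t.1 (e k) ≠ e k with hM
  have h1 : ∀ k, t.1 (e k) - e k ∈ Submodule.span F {g.1 (e a), g.1 (e b)} := fun k => by
    have := Submodule.mem_map_of_mem (f := g.1.toLinearMap)
      (hf.sg_pair_sub_mem a b ((g⁻¹).1 (e k)))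
    rwa [Submodule.map_span, Set.image_pair, map_sub, LinearEquiv.coe_coe, O_apply_inv] at this
  have h2 : ∀ k ∈ M, polar Q (t.1 (e k) - e k) (e k) ≠ 0 := fun k hk => by
    have hk' := (Finset.mem_filter.1 hk).2
    rw [polar_sub_left, hf.polar_self]
    by_cases h3 : σ k = k
    · rw [((hσ k).resolve_left (by rwa [h3])), h3, polar_neg_left, hf.polar_self]
      exact fun h4 => hf.four_ne (by linear_combination -h4)
    · rcases hσ k with h4 | h4 <;> simp [h4, hf.perp _ _ h3, hf.two]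
  have h3 : ∀ k m, m ∉ ({k, σ k} : Finset ι) → polar Q (t.1 (e k) - e k) (e m) = 0 := by
    intro k m hm
    rw [Finset.mem_insert, Finset.mem_singleton, not_or] at hm
    rcases hσ k with h4 | h4 <;>
      simp [h4, polar_sub_left, hf.perp _ _ (Ne.symm hm.1), hf.perp _ _ (Ne.symm hm.2)]
  have h4 : M.card ≤ 4 := by
    by_contra! hc
    obtain ⟨k, hk⟩ := Finset.card_pos.1 (show 0 < M.card by omega)
    have c1 := Finset.card_le_two (a := k) (b := σ k)
    obtain ⟨l, hl, hl'⟩ := Finset.exists_mem_notMem_of_card_lt_card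
      (show ({k, σ k} : Finset ι).card < M.card by omega)
    have c2 := Finset.card_le_two (a := l) (b := σ l)
    obtain ⟨m, hm, hm'⟩ := Finset.exists_mem_notMem_of_card_lt_card
      (show ({k, σ k} ∪ {l, σ l} : Finset ι).card < M.card by
        refine (Finset.card_union_le _ _).trans_lt ?_; omega)
    rw [Finset.mem_union, not_or] at hm'
    obtain ⟨a1, a2⟩ := three_le_finrank (h1 k) (h1 l) (h1 m) (h2 k hk) (h3 k l hl') (h2 l hl)
      (h3 k m hm'.1) (h3 l m hm'.2) (h2 m hm)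
    have := (a1.trans (Submodule.finrank_mono a2)).trans (finrank_span_pair_le _ _)
    omega
  have h5 : ∀ c ∈ ({a, b} : Finset ι), ∀ k ∈ Mᶜ, polar Q (g.1 (e c)) (e k) = 0 := by
    intro c hc k hk
    have h6 : t.1 (e k) = e k := by simpa [hM] using hk
    have h7 := hf.co_sg {a, b} ((g⁻¹).1 (e k)) c
    rw [if_pos hc, ← O_polar g, show g.1 ((hf.sg {a, b}).1 ((g⁻¹).1 (e k))) = t.1 (e k) from rfl,
      h6, ← O_polar_right] at h7
    exact pc (mul_left_cancel₀ hf.two (by linear_combination h7))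
  exact h.of_orth hab hg (T := Mᶜ) (by rw [Finset.card_compl]; omega) (h5 a (by simp))
    (h5 b (by simp))

theorem exists_pow_mul (h : EOver Q e X) {i j a b : ι} (hij : i ≠ j) (hab : a ≠ b) {g : O Q}
    (hg : g ∈ X) :
    ∃ s : ℕ, (h.frame.sg {i, j} * (g * h.frame.sg {a, b} * g⁻¹)) ^ s * g ∈ Mon Q e := by
  have hf := h.frame
  have := hf.finiteDimensional
  have h1 := hf.sg_mul_self {i, j}
  have h2 : g * hf.sg {a, b} * g⁻¹ * (g * hf.sg {a, b} * g⁻¹) = 1 := by
    rw [conj_mul, hf.sg_mul_self, mul_one, mul_inv_cancel]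
  have hm : hf.sg {i, j} * (g * hf.sg {a, b} * g⁻¹) ∈ X := X.mul_mem (h.sg (by simp [hij]))
    (X.mul_mem (X.mul_mem hg (h.sg (by simp [hab]))) (X.inv_mem hg))
  have key : ∀ n, 0 < n → (hf.sg {i, j} * (g * hf.sg {a, b} * g⁻¹)) ^ n ∈ Mon Q e →
      ∃ s : ℕ, (hf.sg {i, j} * (g * hf.sg {a, b} * g⁻¹)) ^ s * g ∈ Mon Q e := by
    intro n
    induction n using Nat.strong_induction_on with
    | _ n ih =>
      intro hn H
      have H' := Subgroup.mul_mem _ H (hf.sg_mem_Mon {i, j})
      rcases Nat.even_or_odd n with ⟨r, rfl⟩ | ⟨r, rfl⟩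
      · rw [← dihedral_conj h1 h2] at H'
        exact ih r (by omega) (by omega) (h.of_conj hij (X.pow_mem hm r) H')
      · rw [← dihedral_conj' h1 h2] at H'
        refine ⟨r + 1, h.of_conj hab (X.mul_mem (X.pow_mem hm _) hg) ?_⟩
        convert H' using 1
        group
  exact key _ (orderOf_pos _) (by rw [pow_orderOf_eq_one]; exact Subgroup.one_mem _)

theorem exists_small (h : EOver Q e X) {i j a b c : ι} (hij : i ≠ j) (hab : a ≠ b) (hac : a ≠ c)
    (hbc : b ≠ c) {g : O Q} (hg : g ∈ X) :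
    ∃ u ∈ Submodule.span F {g.1 (e a), g.1 (e b), g.1 (e c)}, ∃ k, k ≠ i ∧ k ≠ j ∧
      polar Q u (e k) ≠ 0 ∧ ∀ m, m ∉ ({i, j, k} : Finset ι) → polar Q u (e m) = 0 := by
  have hf := h.frame
  obtain ⟨s, hs⟩ := h.exists_pow_mul hij hab hg
  set U := Submodule.span F {g.1 (e a), g.1 (e b), g.1 (e c)} with hU
  have h1 : ∀ x, ((hf.sg {i, j} * (g * hf.sg {a, b} * g⁻¹)) ^ s).1 x - x ∈
      Submodule.span F {e i, e j} ⊔ U := by
    clear hs
    induction s with
    | zero => simp
    | succ s ih =>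
      intro x
      rw [pow_succ, O_mul_apply, ← sub_add_sub_cancel _
        ((hf.sg {i, j} * (g * hf.sg {a, b} * g⁻¹)).1 x), O_mul_apply, ← sub_add_sub_cancel _
        ((g * hf.sg {a, b} * g⁻¹).1 x) x]
      refine Submodule.add_mem _ (ih _) (Submodule.add_mem _
        (Submodule.mem_sup_left (hf.sg_pair_sub_mem _ _ _)) (Submodule.mem_sup_right ?_))
      have := Submodule.mem_map_of_mem (f := g.1.toLinearMap) (hf.sg_pair_sub_mem a b ((g⁻¹).1 x))
      rw [Submodule.map_span, Set.image_pair, map_sub, LinearEquiv.coe_coe, O_apply_inv] at this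
      exact Submodule.span_mono (by simp [Set.insert_subset_iff]) this
  obtain ⟨σ, hσ⟩ := hf.exists_perm_of_mem_Mon hs
  obtain ⟨d, hd, hd'⟩ : ∃ d, g.1 (e d) ∈ U ∧ σ d ≠ i ∧ σ d ≠ j := by
    by_contra! hc
    have h2 := hc a (Submodule.subset_span (by simp))
    have h3 := hc b (Submodule.subset_span (by simp))
    have h4 := hc c (Submodule.subset_span (by simp))
    have h5 := σ.injective.ne hab
    have h6 := σ.injective.ne hac
    have h7 := σ.injective.ne hbc
    by_cases h8 : σ a = i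
    · exact h7 ((h3 fun h9 => h5 (h8.trans h9.symm)).trans (h4 fun h9 => h6 (h8.trans h9.symm)).symm)
    · by_cases h9 : σ b = i
      · exact h6 ((h2 h8).trans (h4 fun h0 => h7 (h9.trans h0.symm)).symm)
      · exact h5 ((h2 h8).trans (h3 h9).symm)
  have h2 : e (σ d) ∈ Submodule.span F {e i, e j} ⊔ U := by
    have h3 := Submodule.add_mem _ (h1 (g.1 (e d))) (Submodule.mem_sup_right hd)
    rw [sub_add_cancel, ← O_mul_apply] at h3
    rcases hσ d with h4 | h4 <;> rw [h4] at h3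
    · exact h3
    · exact neg_mem_iff.1 h3
  obtain ⟨_, hp, u, hu, h3⟩ := Submodule.mem_sup.1 h2
  obtain ⟨r, t, rfl⟩ := Submodule.mem_span_pair.1 hp
  rw [← eq_sub_iff_add_eq'] at h3
  refine ⟨u, hu, σ d, hd'.1, hd'.2, ?_, fun m hm => ?_⟩
  · rw [h3]; qsimp; rw [hf.norm, hf.perp _ _ hd'.1.symm, hf.perp _ _ hd'.2.symm]
    simpa using hf.two
  · simp only [Finset.mem_insert, Finset.mem_singleton, not_or] at hm
    rw [h3]; qsimp
    rw [hf.perp _ _ (Ne.symm hm.1), hf.perp _ _ (Ne.symm hm.2.1), hf.perp _ _ (Ne.symm hm.2.2)]; ring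

theorem le_Mon (h : EOver Q e X) (hn : 10 ≤ Fintype.card ι) : X ≤ Mon Q e := by
  have hf := h.frame
  have := hf.finiteDimensional
  intro g hg
  by_contra hc
  obtain ⟨a, b, c, hab, hac, hbc, H⟩ : ∃ a b c, a ≠ b ∧ a ≠ c ∧ b ≠ c ∧
      ∀ k, e k ∉ Submodule.span F {g.1 (e a), g.1 (e b), g.1 (e c)} := by
    have key : ∀ {a b c k}, e k ∈ Submodule.span F {g.1 (e a), g.1 (e b), g.1 (e c)} →
        ∀ m, m ∉ ({a, b, c} : Finset ι) → polar Q ((g⁻¹).1 (e k)) (e m) = 0 := by
      intro a b c k hk m hm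
      simp only [Finset.mem_insert, Finset.mem_singleton, not_or] at hm
      obtain ⟨r, s, t, h1⟩ := Submodule.mem_span_triple.1 hk
      rw [← O_polar_right, ← h1]
      qsimp
      simp only [O_polar]
      rw [hf.perp _ _ (Ne.symm hm.1), hf.perp _ _ (Ne.symm hm.2.1), hf.perp _ _ (Ne.symm hm.2.2)]
      ring
    by_contra! h1
    obtain ⟨a, b, c, hab, hac, hbc⟩ := Fintype.two_lt_card_iff.1 (show 2 < Fintype.card ι by omega)
    obtain ⟨k, hk⟩ := h1 a b c hab hac hbc
    obtain ⟨d, hd⟩ := hf.exists_co_ne (x := (g⁻¹).1 (e k)) (by simpa using hf.ne_zero k)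
    obtain ⟨x, hx⟩ := exists_notMem_of_card_lt (A := {a, b, c})
      (by have := Finset.card_le_three (a := a) (b := b) (c := c); omega)
    have hd' : d ∈ ({a, b, c} : Finset ι) := by_contra fun h2 => hd (key hk d h2)
    obtain ⟨a', b', c', h2, h3, h4, h5⟩ := Finset.card_eq_three.1
      (show ((insert x {a, b, c} : Finset ι).erase d).card = 3 by
        rw [Finset.card_erase_of_mem (Finset.mem_insert_of_mem hd'), Finset.card_insert_of_notMem hx,
          Finset.card_eq_three.2 ⟨a, b, c, hab, hac, hbc, rfl⟩])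
    obtain ⟨l, hl⟩ := h1 a' b' c' h2 h3 h4
    refine hc (inv_mem_iff.1 (h.of_orth (a := k) (b := l) ?_ (X.inv_mem hg)
      (T := (insert x {a, b, c})ᶜ) ?_ (fun m hm => key hk m fun h6 => ?_) fun m hm =>
        key hl m fun h6 => ?_))
    · rintro rfl
      exact hd (key hl d (h5 ▸ Finset.notMem_erase _ _))
    · have := Finset.card_le_four (a := x) (b := a) (c := b) (d := c)
      rw [Finset.card_compl]; omega
    · exact Finset.mem_compl.1 hm (Finset.mem_insert_of_mem h6)
    · exact Finset.mem_compl.1 hm (Finset.mem_of_mem_erase (h5 ▸ h6))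
  set U := Submodule.span F {g.1 (e a), g.1 (e b), g.1 (e c)} with hU
  have hU3 : finrank F U ≤ 3 := by
    classical
    refine (finrank_span_le_card _).trans ?_
    simpa using Finset.card_le_three
  have K : ∀ A : Finset ι, A.card ≤ 8 → ∃ i j k, ∃ u ∈ U, i ≠ j ∧ i ∉ A ∧ j ∉ A ∧
      polar Q u (e i) ≠ 0 ∧ ∀ m, m ∉ ({i, j, k} : Finset ι) → polar Q u (e m) = 0 := by
    intro A hA
    obtain ⟨i, j, hij, hi, hj⟩ := exists_two_notMem (A := A) (by omega)
    obtain ⟨u, hu, k, -, -, h1, h2⟩ := h.exists_small hij hab hac hbc hg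
    by_cases h3 : polar Q u (e i) = 0
    · refine ⟨j, i, k, u, hu, hij.symm, hj, hi, fun h4 => ?_,
        fun m hm => h2 m (by rwa [Finset.insert_comm])⟩
      obtain ⟨r, hr⟩ := Submodule.mem_span_singleton.1 (hf.mem_span_singleton (x := u) (i := k)
        fun m hm => by
          by_cases h5 : m = i
          · rwa [h5]
          by_cases h6 : m = j
          · rwa [h6]
          exact h2 m (by simp [h5, h6, hm]))
      rw [← hr] at hu h1
      exact H k ((Submodule.smul_mem_iff _ (by rintro rfl; simp at h1)).1 hu)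
    · exact ⟨i, j, k, u, hu, hij, hi, hj, h3, h2⟩
  obtain ⟨i1, j1, k1, u1, hu1, -, -, -, a1, b1⟩ := K ∅ (by simp)
  have c1 := Finset.card_le_three (a := i1) (b := j1) (c := k1)
  obtain ⟨i2, j2, k2, u2, hu2, -, hi2, -, a2, b2⟩ := K {i1, j1, k1} (by omega)
  have c2 := Finset.card_le_three (a := i2) (b := j2) (c := k2)
  have c3 := Finset.card_union_le {i1, j1, k1} {i2, j2, k2}
  obtain ⟨A, hA⟩ : ∃ A, A = ({i1, j1, k1} ∪ {i2, j2, k2} : Finset ι) := ⟨_, rfl⟩
  rw [← hA] at c3
  have d1 : ∀ m, m ∉ A → polar Q u1 (e m) = 0 := fun m hm =>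
    b1 m fun h => hm (hA ▸ Finset.mem_union_left _ h)
  have d2 : ∀ m, m ∉ A → polar Q u2 (e m) = 0 := fun m hm =>
    b2 m fun h => hm (hA ▸ Finset.mem_union_right _ h)
  obtain ⟨i3, j3, k3, u3, hu3, h5, hi3, hj3, a3, b3⟩ := K A (by omega)
  by_cases h3 : polar Q u3 (e j3) = 0
  · obtain ⟨i4, j4, k4, u4, hu4, -, hi4, -, a4, -⟩ := K (A ∪ {i3, k3}) (by
      have := Finset.card_union_le A {i3, k3}
      have := Finset.card_le_two (a := i3) (b := k3)
      omega)
    simp only [Finset.mem_union, Finset.mem_insert, Finset.mem_singleton, not_or] at hi4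
    have := four_le_finrank hu1 hu2 hu3 hu4 a1 (b1 _ hi2) a2 (d1 _ hi3) (d2 _ hi3) a3 (d1 _ hi4.1)
      (d2 _ hi4.1) (by
        by_cases h4 : i4 = j3
        · rwa [h4]
        · exact b3 _ (by simp [h4, hi4.2.1, hi4.2.2])) a4
    omega
  · obtain ⟨i4, j4, k4, u4, hu4, -, hi4, hj4, a4, b4⟩ := K (A ∪ {i3, j3}) (by
      have := Finset.card_union_le A {i3, j3}
      have := Finset.card_le_two (a := i3) (b := j3)
      omega)
    simp only [Finset.mem_union, Finset.mem_insert, Finset.mem_singleton, not_or] at hi4 hj4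
    by_cases h4 : i3 = k4
    · have := four_le_finrank hu1 hu2 hu4 hu3 a1 (b1 _ hi2) a2 (d1 _ hi4.1) (d2 _ hi4.1) a4
        (d1 _ hj3) (d2 _ hj3) (b4 _ (by
          simp [Ne.symm hi4.2.2, Ne.symm hj4.2.2, ← h4, Ne.symm h5])) h3
      omega
    · have := four_le_finrank hu1 hu2 hu4 hu3 a1 (b1 _ hi2) a2 (d1 _ hi4.1) (d2 _ hi4.1) a4
        (d1 _ hi3) (d2 _ hi3) (b4 _ (by simp [Ne.symm hi4.2.1, Ne.symm hj4.2.1, h4])) a3
      omega

end EOver

theorem Frame.maxOm [Finite F] (h : Frame Q e) (hF : ∀ A : AddSubgroup F, (1 : F) ∈ A → A = ⊤)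
    (hn : (7 ≤ Fintype.card ι ∧ Odd (Fintype.card ι)) ∨ 10 ≤ Fintype.card ι) :
    MaxOm Q (stabDec fun i => Submodule.span F {e i}) := by
  rcases hn with hn | hn
  · exact h.maxOm_odd hF hn.1 hn.2
  · exact ⟨h.exists_notMem_Mon (by omega), fun X _ hN hX' g hg =>
      EOver.le_Mon ⟨h, hF, by omega, hN, hX'⟩ hn hg⟩

omit [Fintype ι] [DecidableEq ι] in
theorem MaxOm.of_smul {N : Subgroup (V ≃ₗ[F] V)} {c : F} (hc : c ≠ 0) (h : MaxOm (c • Q) N) :
    MaxOm Q N := by
  let φ : O Q ≃* O (c • Q) := OCongr (LinearEquiv.refl F V) hc fun _ => rfl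
  have h1 : ∀ g, (φ g).1 = g.1 := fun g => LinearEquiv.ext fun _ => rfl
  have h2 : ∀ g, φ g ∈ commutator (O (c • Q)) ↔ g ∈ commutator (O Q) := fun g => by
    rw [show commutator (O (c • Q)) = (commutator (O Q)).map φ.toMonoidHom by
      rw [commutator, commutator, Subgroup.map_commutator, Subgroup.map_top_of_surjective _
        φ.surjective]]
    exact Subgroup.mem_map_iff_mem φ.injective
  obtain ⟨⟨g, hg, hgN⟩, H⟩ := h
  obtain ⟨g, rfl⟩ := φ.surjective g
  refine ⟨⟨g, (h2 g).1 hg, h1 g ▸ hgN⟩, fun X hX hN hX' k hk => h1 k ▸ H (X.map φ.toMonoidHom)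
    ?_ ?_ (fun hle => hX' fun x hx => ?_) (φ k) ⟨k, hk, rfl⟩⟩
  · rintro _ ⟨x, hx, rfl⟩
    exact (h2 x).2 (hX hx)
  · intro x hx hxN
    obtain ⟨x, rfl⟩ := φ.surjective x
    exact ⟨x, hN x ((h2 x).1 hx) (h1 x ▸ hxN), rfl⟩
  · obtain ⟨y, hy, hxy⟩ := hle ((h2 x).2 hx)
    exact φ.injective hxy ▸ hy

omit [Fintype ι] [DecidableEq ι] in
theorem addSubgroup_eq_top_of_prime [Fintype F] (hp : (Fintype.card F).Prime) (A : AddSubgroup F)
    (hA : (1 : F) ∈ A) : A = ⊤ := by
  have := Fact.mk (Nat.card_eq_fintype_card (α := F) ▸ hp)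
  exact (A.eq_bot_or_eq_top_of_prime_card).resolve_left fun h => by simp [h] at hA

open Cfsg.Geo in
/-- The stabiliser in `Ω` of an isometric orthogonal decomposition into lines is maximal over a
prime field, in odd dimension at least seven or in dimension at least ten. -/
theorem maxOm_frame [Fintype F] {κ : Type} [Fintype κ] [DecidableEq κ]
    {Q : QuadraticForm F (κ → F)} (hp : (Fintype.card F).Prime) (h2 : (2 : F) ≠ 0)
    (hn : (7 ≤ Fintype.card κ ∧ Odd (Fintype.card κ)) ∨ 10 ≤ Fintype.card κ) {t : ℕ}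
    {D : Fin t → Submodule F (κ → F)} (hD : IsOrthogonalMDecomposition Q 1 D) :
    MaxOm Q (stabDec D) := by
  have hP := perpFam_of hD
  have ht := card_eq_of_isMDecomposition hD.decomp.decomp
  have i0 : Fin t := ⟨0, by have := hD.decomp.decomp.two_le; omega⟩
  obtain ⟨v, hv, hv'⟩ := finrank_eq_one_iff'.1 (hD.decomp.decomp.finrank_eq i0)
  choose φ hφ using hD.isometric i0
  have h1 : ∀ i, D i = Submodule.span F {(φ i v : κ → F)} := fun i => le_antisymm (fun x hx => by
    obtain ⟨r, hr⟩ := hv' ((φ i).symm ⟨x, hx⟩)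
    refine Submodule.mem_span_singleton.2 ⟨r, ?_⟩
    rw [← Submodule.coe_smul, ← map_smul, hr, LinearEquiv.apply_symm_apply])
    ((Submodule.span_singleton_le_iff_mem _ _).2 (φ i v).2)
  have hc : Q v ≠ 0 := fun h0 => hv (Subtype.ext (Submodule.disjoint_def.1 (hP.nondeg i0) _ v.2
    fun x hx => by
      obtain ⟨r, hr⟩ := hv' ⟨x, hx⟩
      rw [show x = r • (v : κ → F) from (congrArg Subtype.val hr).symm]
      change polar Q _ _ = 0
      qsimp
      rw [h0]; ring))
  have hf : Frame ((Q v)⁻¹ • Q) fun i => (φ i v : κ → F) := by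
    refine ⟨h2, fun i => ?_, fun i j hij => ?_, ?_⟩
    · rw [smul_apply, hφ, smul_eq_mul, inv_mul_cancel₀ hc]
    · refine (polar_of_sim (Q := Q) (Q' := (Q v)⁻¹ • Q) (c := (Q v)⁻¹) LinearMap.id
        (fun _ => rfl) _ _).trans ?_
      rw [hP.perp i j hij _ (φ i v).2 _ (φ j v).2, mul_zero]
    · rw [← hD.decomp.decomp.iSup_eq_top]
      exact iSup_le fun i => (h1 i).trans_le (Submodule.span_mono (by simp))
  rw [funext h1]
  exact (hf.maxOm (addSubgroup_eq_top_of_prime hp) (by simpa [ht] using hn)).of_smul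
    (inv_ne_zero hc)

end Cfsg.Lib.Class.OMax
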