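import Cfsg.Agent.Class.OFrameEich
import Cfsg.Agent.Class.OSO3

/-!
Groups containing the reflections in an orthonormal frame and the even permutations of the frame:
the case without Eichler transformations, and the main theorem `ROver.le_or_le`.
-/

set_option autoImplicit false

namespace Cfsg.Lib.Class.OMax

open QuadraticMap Module Orth

variable {F V : Type*} [Field F] [AddCommGroup V] [Module F V] {Q : QuadraticForm F V}
  {ι : Type*} {e : ι → V} {X : Subgroup (O Q)}

theorem negO_mul_mul_negO_mul (a b : O Q) : negO Q * a * (negO Q * b) = a * b := by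
  rw [← negO_comm a, mul_assoc, ← mul_assoc (negO Q), negO_mul_self, one_mul]

/-- The group generated by `Y` and `-1`. -/
def withNeg (Y : Subgroup (O Q)) : Subgroup (O Q) where
  carrier := {g | g ∈ Y ∨ negO Q * g ∈ Y}
  one_mem' := Or.inl Y.one_mem
  mul_mem' {a b} ha hb := by
    rcases ha with ha | ha <;> rcases hb with hb | hb
    · exact Or.inl (Y.mul_mem ha hb)
    · exact Or.inr (by rw [← mul_assoc, ← negO_comm, mul_assoc]; exact Y.mul_mem ha hb)
    · exact Or.inr (by rw [← mul_assoc]; exact Y.mul_mem ha hb)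
    · exact Or.inl (negO_mul_mul_negO_mul a b ▸ Y.mul_mem ha hb)
  inv_mem' {a} ha := by
    rcases ha with ha | ha
    · exact Or.inl (Y.inv_mem ha)
    · refine Or.inr ?_
      have := Y.inv_mem ha
      rwa [mul_inv_rev, inv_eq_of_mul_eq_one_right negO_mul_self, negO_comm] at this

/-- The values `4 cos² (π k / n)` for `n ≤ 5`. -/
def Al (z : F) : Prop := z = 0 ∨ z = 1 ∨ z = 2 ∨ z ^ 2 - 3 * z + 1 = 0

theorem al_of_pow (h2 : (2 : F) ≠ 0) {y y' : V} (hy : Q y = 1) (hy' : Q y' = 1) (h0 : y ≠ y')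
    (h1 : y ≠ -y') (h : (refl Q y * refl Q y') ^ 3 = 1 ∨ (refl Q y * refl Q y') ^ 4 = 1 ∨
      (refl Q y * refl Q y') ^ 5 = 1) : Al (polar Q y y' ^ 2) := by
  by_cases hβ : polar Q y y' = 0
  · exact Or.inl (by rw [hβ]; ring)
  have hi : ∀ a b : F, a • y + b • y' = y → a = 1 ∧ b = 0 := by
    intro a b hab
    have hb : b = 0 := by
      by_contra hb
      have h3 : y' = (b⁻¹ * (1 - a)) • y := by
        rw [mul_smul, sub_smul, one_smul, ← eq_sub_of_add_eq' hab, smul_smul, inv_mul_cancel₀ hb,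
          one_smul]
      have h4 := hy'
      rw [h3, Q_smul, hy, mul_one, pow_two, mul_self_eq_one_iff] at h4
      rcases h4 with h4 | h4 <;> rw [h4] at h3
      · exact h0 (by rw [h3, one_smul])
      · exact h1 (by rw [h3]; simp)
    have h3 := congrArg (polar Q y) hab
    qsimp_at h3
    rw [hy, hb] at h3
    exact ⟨mul_left_cancel₀ h2 (by linear_combination h3), hb⟩
  set β := polar Q y y' with hβ'
  have hk : ∀ a b : F, (refl Q y * refl Q y').1 (a • y + b • y') =
      (a * (β ^ 2 - 1) + b * β) • y + (-(a * β) - b) • y' := by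
    intro a b
    simp only [O_mul_apply, refl_apply]
    qsimp
    rw [hy, hy', polar_comm Q y' y, ← hβ']
    module
  have hy0 : y = (1 : F) • y + (0 : F) • y' := by simp
  generalize refl Q y * refl Q y' = k at h hk
  rcases h with h | h | h
  · have h3 := congrArg (fun g : O Q => g.1 y) h
    simp only [pow_succ, pow_zero, one_mul, O_mul_apply, O_one_apply] at h3
    conv_lhs at h3 => rw [hy0]
    simp only [hk] at h3
    obtain ⟨a1, a2⟩ := hi _ _ h3
    have a3 : (β ^ 2 - 2) ^ 2 - 1 = 0 := mul_left_cancel₀ hβ (by linear_combination -a2)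
    exact Or.inr (Or.inl (by linear_combination (β ^ 2 - 1) * a3 - a1))
  · have h3 := congrArg (fun g : O Q => g.1 y) h
    simp only [pow_succ, pow_zero, one_mul, O_mul_apply, O_one_apply] at h3
    conv_lhs at h3 => rw [hy0]
    simp only [hk] at h3
    obtain ⟨a1, a2⟩ := hi _ _ h3
    have a3 : (β ^ 2 - 2) ^ 3 - 2 * (β ^ 2 - 2) = 0 :=
      mul_left_cancel₀ hβ (by linear_combination -a2)
    have a4 : (β ^ 2 - 2) ^ 2 = 0 := by linear_combination (β ^ 2 - 1) * a3 - a1
    exact Or.inr (Or.inr (Or.inl (sub_eq_zero.1 (pow_eq_zero_iff two_ne_zero |>.1 a4))))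
  · have h3 := congrArg (fun g : O Q => g.1 y) h
    simp only [pow_succ, pow_zero, one_mul, O_mul_apply, O_one_apply] at h3
    conv_lhs at h3 => rw [hy0]
    simp only [hk] at h3
    obtain ⟨a1, a2⟩ := hi _ _ h3
    have a3 : (β ^ 2 - 2) ^ 4 - 3 * (β ^ 2 - 2) ^ 2 + 1 = 0 :=
      mul_left_cancel₀ hβ (by linear_combination -a2)
    have a4 : (β ^ 2 - 2) ^ 3 - 2 * (β ^ 2 - 2) + 1 = 0 := by
      linear_combination (β ^ 2 - 1) * a3 - a1
    exact Or.inr (Or.inr (Or.inr (by linear_combination (β ^ 2 - 2) * a4 - a3)))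

/-- No non-trivial Eichler transformation lies in `X`. -/
def NoEich (X : Subgroup (O Q)) : Prop :=
  ∀ ρ w, ρ ≠ 0 → Q ρ = 0 → polar Q ρ w = 0 → eich Q ρ w ∈ X → w ∈ Submodule.span F {ρ}

/-- The unit vectors whose reflections lie in `X`. -/
def Rt (X : Subgroup (O Q)) (u : V) : Prop := Q u = 1 ∧ refl Q u ∈ X

theorem Rt.apply {u : V} (h : Rt X u) {g : O Q} (hg : g ∈ X) : Rt X (g.1 u) :=
  ⟨by rw [O_map, h.1], refl_apply_mem hg h.2⟩

theorem Rt.neg {u : V} (h : Rt X u) : Rt X (-u) :=
  ⟨by rw [QuadraticMap.map_neg, h.1], by rw [refl_neg]; exact h.2⟩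

theorem NoEich.eq_of_two (h : NoEich X) {u v : V} (hu : Rt X u) (hv : Rt X v)
    (huv : polar Q u v = 2) : u = v := by
  by_contra hc
  have h1 : Q (u - v) = 0 := by rw [Q_sub, hu.1, hv.1, huv]; ring
  have h2 : polar Q (u - v) u = 0 := by qsimp; rw [hu.1, pc huv]; ring
  obtain ⟨c, h3⟩ := Submodule.mem_span_singleton.1 (h _ u (sub_ne_zero.2 hc) h1 h2 (by
    rw [eich_eq_refl_mul_refl h1 h2 (by rw [hu.1]; exact one_ne_zero), hu.1, one_smul,
      sub_sub_cancel]
    exact X.mul_mem hu.2 hv.2))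
  have h4 := hu.1
  rw [← h3, Q_smul, h1, mul_zero] at h4
  exact zero_ne_one h4

theorem NoEich.eq_neg_of_two (h : NoEich X) {u v : V} (hu : Rt X u) (hv : Rt X v)
    (huv : polar Q u v = -2) : u = -v :=
  h.eq_of_two hu hv.neg (by rw [polar_neg_right, huv, neg_neg])

theorem NoEich.tri [FiniteDimensional F V] [Finite F] (h : NoEich X) (h2 : (2 : F) ≠ 0)
    (hQ : (polarBilin Q).Nondegenerate) {a b x : V} (ha : Rt X a) (hb : Rt X b) (hx : Rt X x)
    (hab : polar Q a b = 0) (hxa : polar Q x a ≠ 0) (hxb : polar Q x b ≠ 0)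
    (hx' : x ∉ Submodule.span F {a, b}) {y y' : V} (hy : Rt X y) (hy' : Rt X y')
    (hyW : y ∈ Submodule.span F {a, b} ⊔ Submodule.span F {x})
    (hyW' : y' ∈ Submodule.span F {a, b} ⊔ Submodule.span F {x}) (h0 : y ≠ y') (h1 : y ≠ -y') :
    Al (polar Q y y' ^ 2) := by
  set W := Submodule.span F {a, b} ⊔ Submodule.span F {x} with hW
  have haW : a ∈ W := Submodule.mem_sup_left (Submodule.subset_span (by simp))
  have hbW : b ∈ W := Submodule.mem_sup_left (Submodule.subset_span (by simp))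
  have hxW : x ∈ W := Submodule.mem_sup_right (Submodule.mem_span_singleton_self x)
  have h4 : 4 - polar Q x a ^ 2 - polar Q x b ^ 2 ≠ 0 := fun h4 => by
    have h5 := h.eq_neg_of_two hx (hx.apply (X.mul_mem ha.2 hb.2)) (by
      simp only [O_mul_apply, refl_apply]
      qsimp
      rw [ha.1, hb.1, hx.1, pc hab]
      linear_combination h4)
    simp only [O_mul_apply, refl_apply] at h5
    qsimp_at h5
    rw [ha.1, hb.1, pc hab] at h5
    refine hx' (Submodule.mem_span_pair.2 ⟨2⁻¹ * polar Q x a, 2⁻¹ * polar Q x b, ?_⟩)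
    refine smul_right_injective V h2 ?_
    simp only [smul_add, smul_smul, mul_inv_cancel_left₀ h2]
    linear_combination (norm := module) -h5
  have hrad : ∀ w ∈ W, polar Q a w = 0 → polar Q b w = 0 → polar Q x w = 0 → w = 0 := by
    intro w hw h5 h6 h7
    obtain ⟨_, hu, _, hv, rfl⟩ := Submodule.mem_sup.1 hw
    obtain ⟨r, s, rfl⟩ := Submodule.mem_span_pair.1 hu
    obtain ⟨t, rfl⟩ := Submodule.mem_span_singleton.1 hv
    qsimp_at h5
    qsimp_at h6
    qsimp_at h7
    rw [ha.1, hab, polar_comm Q a x] at h5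
    rw [hb.1, pc hab, polar_comm Q b x] at h6
    rw [hx.1] at h7
    have ht : t = 0 := mul_right_cancel₀ h4 (by
      linear_combination 2 * h7 - polar Q x a * h5 - polar Q x b * h6)
    rw [ht] at h5 h6
    rw [ht, show r = 0 from mul_right_cancel₀ h2 (by linear_combination h5),
      show s = 0 from mul_right_cancel₀ h2 (by linear_combination h6)]
    simp
  have hd : Disjoint W (orth Q W) := Submodule.disjoint_def.2 fun w hw hw' =>
    hrad w hw (hw' a haW) (hw' b hbW) (hw' x hxW)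
  have h3 : finrank F W = 3 := by
    rw [hW, finrank_sup_span_singleton' hx', finrank_span_pair]
    refine LinearIndependent.pair_iff.2 fun s t hst => ?_
    have h5 := congrArg (polar Q a) hst
    have h6 := congrArg (polar Q b) hst
    qsimp_at h5
    qsimp_at h6
    rw [ha.1, hab] at h5
    rw [hb.1, pc hab] at h6
    exact ⟨mul_right_cancel₀ h2 (by linear_combination h5),
      mul_right_cancel₀ h2 (by linear_combination h6)⟩
  have hQ' := restrict_nondeg_iff.2 hd
  have hE : ¬ Exc (Q.restrict W) := not_exc_of_two_ne_zero h2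
  let K := (dickHom hQ' hE).ker ⊓ withNeg (X.comap (extend hQ hd))
  have hK : ∀ u (hu : u ∈ W), Rt X u → negO _ * refl (Q.restrict W) ⟨u, hu⟩ ∈ K := by
    intro u hu hu'
    refine ⟨?_, Or.inr ?_⟩
    · change dick _ = 1
      rw [dick_mul hQ' hE, dick_negO h2, h3, dick_refl hQ' (v := ⟨u, hu⟩)
        (by rw [restrict_apply', hu'.1]; exact one_ne_zero)]
      decide
    · rw [← mul_assoc, negO_mul_self, one_mul, Subgroup.mem_comap, extend_refl]
      exact hu'.2
  rcases so3_trichotomy h2 hQ' h3 K (fun k hk => hk.1) with ⟨ρ, w, a1, a2, a3, a4, a5⟩ |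
    ⟨v, hv, H⟩ | H
  · exfalso
    have h5 : eich (Q.restrict W) ρ (w + w) ∈ X.comap (extend hQ hd) := by
      rw [eich_add a2 a3 a3]
      rcases a5.2 with h5 | h5
      · exact Subgroup.mul_mem _ h5 h5
      · rw [← negO_mul_mul_negO_mul]; exact Subgroup.mul_mem _ h5 h5
    rw [Subgroup.mem_comap, extend_eich] at h5
    obtain ⟨c, hc⟩ := Submodule.mem_span_singleton.1 (h _ _ (fun h => a1 (Subtype.ext h)) a2
      (by rw [← polar_restrict, polar_add_right, a3, add_zero]) h5)
    refine a4 (Submodule.mem_span_singleton.2 ⟨2⁻¹ * c, Subtype.ext ?_⟩)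
    rw [mul_smul, Submodule.coe_smul, Submodule.coe_smul, hc, Submodule.coe_add, ← two_smul F,
      smul_smul, inv_mul_cancel₀ h2, one_smul]
  · exfalso
    have key : ∀ u ∈ W, Rt X u → polar Q u v = 0 ∨ ∃ c : F, c • (v : V) = u := by
      intro u hu hu'
      obtain ⟨c, hc⟩ := Submodule.mem_span_singleton.1 (H _ (hK u hu hu'))
      have h5 := congrArg Subtype.val hc
      rw [O_mul_apply, negO_apply, refl_apply, polar_restrict, restrict_apply', hu'.1] at h5
      simp only [SetLike.val_smul, inv_one, one_mul, neg_sub, AddSubgroupClass.coe_sub] at h5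
      by_cases h6 : polar Q v u = 0
      · exact Or.inl (pc h6)
      · refine Or.inr ⟨(polar Q v u)⁻¹ * (c + 1), ?_⟩
        rw [mul_smul, add_smul, h5, one_smul, sub_add_cancel, smul_smul, inv_mul_cancel₀ h6,
          one_smul]
    have key2 : ∀ u ∈ W, Rt X u → u ∈ Submodule.span F {a, b} → polar Q x u ≠ 0 →
        polar Q u v = 0 := by
      intro u hu hu' hab' hxu
      refine (key u hu hu').resolve_right ?_
      rintro ⟨c, rfl⟩
      have hc : c ≠ 0 := by rintro rfl; simp at hxu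
      rcases key x hxW hx with h5 | ⟨d, h5⟩
      · exact hxu (by rw [polar_smul_right', h5, mul_zero])
      · exact hx' (h5 ▸ Submodule.smul_mem _ _ ((Submodule.smul_mem_iff _ hc).1 hab'))
    have h5 := key2 a haW ha (Submodule.subset_span (by simp)) hxa
    have h6 := key2 b hbW hb (Submodule.subset_span (by simp)) hxb
    rcases key x hxW hx with h7 | ⟨d, h7⟩
    · exact hv (Subtype.ext (hrad _ v.2 h5 h6 h7))
    · exact hxa (by rw [← h7, polar_smul_left', pc h5, mul_zero])
  · have h5 := H _ (K.mul_mem (hK y hyW hy) (hK y' hyW' hy'))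
    rw [negO_mul_mul_negO_mul] at h5
    refine al_of_pow h2 hy.1 hy'.1 h0 h1 ?_
    rw [← extend_refl hQ hd ⟨y, hyW⟩, ← extend_refl hQ hd ⟨y', hyW'⟩, ← map_mul]
    simpa only [← map_pow, map_eq_one_iff _ (extend_injective hQ hd)] using h5

section Arith

theorem Al.eq_one (h2 : (2 : F) ≠ 0) (h3 : (3 : F) ≠ 0) {z : F} (h0 : z ≠ 0) (hz : Al z)
    (hz2 : Al (z * z)) (a2 : z ≠ 2) (a4 : z ≠ 4) : z = 1 := by
  rcases hz with h | h | h | h
  · exact absurd h h0
  · exact h
  · exact absurd h a2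
  exfalso
  rcases hz2 with h1 | h1 | h1 | h1
  · exact h0 (mul_self_eq_zero.1 h1)
  · rcases mul_self_eq_one_iff.1 h1 with rfl | rfl
    · exact one_ne_zero (α := F) (by linear_combination -h)
    · exact a4 (by linear_combination -h)
  · have : z = 1 := mul_left_cancel₀ h3 (by linear_combination h1 - h)
    exact one_ne_zero (α := F) (by rw [this] at h1; linear_combination -h1)
  · have h5 : 3 * z = 1 := mul_left_cancel₀ (mul_ne_zero h2 h2) (by
      linear_combination h1 - (z ^ 2 + 3 * z + 5) * h)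
    exact h0 (pow_eq_zero_iff two_ne_zero |>.1 (by linear_combination h + h5))

theorem not_al_two_mul (h2 : (2 : F) ≠ 0) (h3 : (3 : F) ≠ 0) {z : F} (h : z ^ 2 - 3 * z + 1 = 0) :
    ¬ Al (2 * z) := by
  have key : 2 * z ≠ 1 := fun h1 => one_ne_zero (α := F) (by
    linear_combination (2 * z - 5) * h1 - 4 * h)
  rintro (h1 | h1 | h1 | h1)
  · rw [(mul_eq_zero.1 h1).resolve_left h2] at h
    exact one_ne_zero (α := F) (by linear_combination h)
  · exact key h1
  · rw [show z = 1 from mul_left_cancel₀ h2 (by linear_combination h1)] at h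
    exact one_ne_zero (α := F) (by linear_combination -h)
  · exact key (mul_left_cancel₀ h3 (by linear_combination h1 - 4 * h))

theorem Al.eq_two {z w : F} (hz0 : z ≠ 0) (hw0 : w ≠ 0) (hz : Al z) (hw : Al w) (h2 : (2 : F) ≠ 0)
    (h : z + w = 4) : z = 2 := by
  have key : ∀ {z w : F}, w ≠ 0 → z = 1 → Al w → z + w ≠ 4 := by
    rintro z w hw0 rfl (hw | hw | hw | hw) h
    · exact hw0 hw
    · exact h2 (by linear_combination hw - h)
    · exact one_ne_zero (α := F) (by linear_combination hw - h)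
    · exact one_ne_zero (α := F) (by linear_combination hw - w * h)
  rcases hz with hz' | hz' | hz' | hz'
  · exact absurd hz' hz0
  · exact absurd h (key hw0 hz' hw)
  · exact hz'
  rcases hw with hw' | hw' | hw' | hw'
  · exact absurd hw' hw0
  · exact absurd (by rw [add_comm, h]) (key hz0 hw' (Or.inr (Or.inr (Or.inr hz'))))
  · linear_combination h - hw'
  · exact mul_left_cancel₀ h2 (by linear_combination hz' - hw' + (w - z + 1) * h)

theorem not_al_pair (h2 : (2 : F) ≠ 0) (h3 : (3 : F) ≠ 0) {x y : F} (hx : 2 * x = 3)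
    (hy : 2 * y = 1) (hx' : Al (x ^ 2)) (hy' : Al (y ^ 2)) (hy2 : y ≠ -2) : False := by
  have h7 : (7 : F) = 0 := by
    rcases hy' with h | h | h | h
    · exact absurd (by linear_combination 4 * h - (2 * y + 1) * hy) (one_ne_zero (α := F))
    · exact absurd (by linear_combination (2 * y + 1) * hy - 4 * h) h3
    · linear_combination (2 * y + 1) * hy - 4 * h
    · refine absurd (mul_left_cancel₀ h2 ?_) hy2
      linear_combination 16 * h + (1 - (2 * y + 1) * (4 * y ^ 2 - 11)) * hy
  rcases hx' with h | h | h | h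
  · exact h2 (by linear_combination 4 * h - (2 * x + 3) * hx - h7)
  · exact h2 (by linear_combination h7 - 4 * h + (2 * x + 3) * hx)
  · exact one_ne_zero (α := F) (by linear_combination 4 * h - (2 * x + 3) * hx)
  · exact mul_ne_zero h2 h2 (by
      linear_combination (2 * x + 3) * (4 * x ^ 2 - 3) * hx - 16 * h - h7)

end Arith

variable [Fintype ι] [DecidableEq ι] [Finite F]

namespace ROver

omit [Finite F] in
theorem rt (h : ROver Q e X) (i : ι) : Rt X (e i) := ⟨h.frame.norm i, h.refl i⟩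

omit [Finite F] in
theorem sg_mem (h : ROver Q e X) (T : Finset ι) : h.frame.sg T ∈ X :=
  h.frame.sg_mem fun i _ => h.refl i

omit [Finite F] in
theorem co_eq_zero (h : ROver Q e X) (hN : NoEich X) {u : V} (hu : Rt X u) {T : Finset ι}
    (hT : ∑ i ∈ T, polar Q u (e i) ^ 2 = 4) {k : ι} (hk : k ∉ T) : polar Q u (e k) = 0 := by
  have h1 := hN.eq_neg_of_two hu (hu.apply (h.sg_mem T)) (by
    rw [h.frame.two_mul_polar_sg, hT, hu.1]; ring)
  have h2 := congrArg (polar Q · (e k)) h1
  simp only [polar_neg_left, h.frame.co_sg, if_neg hk] at h2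
  exact mul_left_cancel₀ h.frame.two (by linear_combination h2)

omit [DecidableEq ι] [Finite F] [Fintype ι] in
theorem ne_of_co {u v : V} {k : ι} (hu : polar Q u (e k) ≠ 0) (hv : polar Q v (e k) = 0) :
    u ≠ v ∧ u ≠ -v :=
  ⟨fun h => hu (h ▸ hv), fun h => hu (by rw [h, polar_neg_left, hv, neg_zero])⟩

theorem al_of_three (h : ROver Q e X) (hN : NoEich X) {u : V} (hu : Rt X u) {i j k : ι}
    (hij : i ≠ j) (hik : i ≠ k) (hjk : j ≠ k) (hi : polar Q u (e i) ≠ 0) (hj : polar Q u (e j) ≠ 0)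
    (hk : polar Q u (e k) ≠ 0) :
    Al (polar Q u (e i) ^ 2) ∧ Al (polar Q u (e i) ^ 2 * polar Q u (e j) ^ 2) := by
  have hf := h.frame
  have := hf.finiteDimensional
  have H := @NoEich.tri _ _ _ _ _ _ _ _ _ hN hf.two hf.nondeg _ _ _ (h.rt i) (h.rt j) hu
    (hf.perp i j hij) hi hj fun hc => by
      obtain ⟨r, s, rfl⟩ := Submodule.mem_span_pair.1 hc
      refine hk ?_
      qsimp; rw [hf.perp i k hik, hf.perp j k hjk]; ring
  have b1 : e i ∈ Submodule.span F {e i, e j} ⊔ Submodule.span F {u} :=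
    Submodule.mem_sup_left (Submodule.subset_span (by simp))
  have b2 : e j ∈ Submodule.span F {e i, e j} ⊔ Submodule.span F {u} :=
    Submodule.mem_sup_left (Submodule.subset_span (by simp))
  have b3 : u ∈ Submodule.span F {e i, e j} ⊔ Submodule.span F {u} :=
    Submodule.mem_sup_right (Submodule.mem_span_singleton_self u)
  obtain ⟨a1, a2⟩ := ne_of_co hk (hf.perp i k hik)
  refine ⟨H hu (h.rt i) b3 b1 a1 a2, ?_⟩
  have h1 : (Orth.refl Q u).1 (e j) = e j - polar Q u (e j) • u := by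
    rw [refl_apply, hu.1, inv_one, one_mul, polar_comm]
  obtain ⟨a3, a4⟩ := ne_of_co (u := (Orth.refl Q u).1 (e j)) (by
    rw [h1]; qsimp; rw [hf.perp j k hjk, zero_sub, neg_ne_zero]; exact mul_ne_zero hj hk)
    (hf.perp i k hik)
  have h2 := H ((h.rt j).apply hu.2) (h.rt i) ((refl_mem_stab b3 _).1 b2) b1 a3 a4
  rw [h1] at h2
  qsimp_at h2
  rw [hf.perp j i hij.symm] at h2
  convert h2 using 1
  ring

theorem add_eq_three (h : ROver Q e X) (hN : NoEich X) (h3 : (3 : F) ≠ 0) {u : V} (hu : Rt X u)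
    {i j k : ι} (hij : i ≠ j) (hik : i ≠ k) (hjk : j ≠ k) (hi : polar Q u (e i) ≠ 0)
    (hj : polar Q u (e j) ≠ 0) (hk : polar Q u (e k) ≠ 0) (hi1 : polar Q u (e i) ^ 2 ≠ 1)
    (hj1 : polar Q u (e j) ^ 2 ≠ 1) : polar Q u (e i) ^ 2 + polar Q u (e j) ^ 2 = 3 ∧
      polar Q u (e i) ^ 2 ≠ polar Q u (e j) ^ 2 := by
  obtain ⟨a1, a2⟩ := h.al_of_three hN hu hij hik hjk hi hj hk
  obtain ⟨a3, -⟩ := h.al_of_three hN hu hij.symm hjk hik hj hi hk
  have hne : polar Q u (e i) ^ 2 ≠ polar Q u (e j) ^ 2 := fun hc => by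
    refine hi1 (a1.eq_one h.frame.two h3 (pow_ne_zero 2 hi) (by rwa [← hc] at a2)
      (fun h4 => hk (h.co_eq_zero hN hu (T := {i, j}) ?_ (by simp [hik.symm, hjk.symm])))
      fun h4 => hk (h.co_eq_zero hN hu (T := {i}) (by simpa using h4) (by simp [hik.symm])))
    rw [Finset.sum_pair hij, ← hc, h4]; norm_num
  refine ⟨?_, hne⟩
  rcases a1 with b | b | b | b
  · exact absurd b (pow_ne_zero 2 hi)
  · exact absurd b hi1
  · rcases a3 with c | c | c | c
    · exact absurd c (pow_ne_zero 2 hj)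
    · exact absurd c hj1
    · exact absurd (b.trans c.symm) hne
    · exact absurd (b ▸ a2) (not_al_two_mul h.frame.two h3 c)
  · rcases a3 with c | c | c | c
    · exact absurd c (pow_ne_zero 2 hj)
    · exact absurd c hj1
    · exact absurd (mul_comm _ (2 : F) ▸ c ▸ a2) (not_al_two_mul h.frame.two h3 b)
    · exact mul_left_cancel₀ (sub_ne_zero.2 hne) (by linear_combination b - c)

theorem move (h : ROver Q e X) (hN : NoEich X) {u x : V} (hu : Rt X u) (hx : Rt X x) {i j l : ι}
    (hj : polar Q u (e j) = 0) (hj' : polar Q x (e j) ≠ 0) (hxu : polar Q x u ≠ 0)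
    (hl : polar Q u (e l) ≠ 0) (hl' : polar Q x (e l) = 0) (hij : i ≠ j)
    (hi : polar Q x (e i) ≠ 0) {y : V} (hy : Rt X y)
    (hyW : y ∈ Submodule.span F {e j, u} ⊔ Submodule.span F {x}) (h0 : u ≠ y) (h1 : u ≠ -y) :
    Al (polar Q u y ^ 2) := by
  have hf := h.frame
  have := hf.finiteDimensional
  refine hN.tri hf.two hf.nondeg (h.rt j) hu hx (pc hj) hj' hxu (fun hc => ?_) hu hy
    (Submodule.mem_sup_left (Submodule.subset_span (by simp))) hyW h0 h1
  obtain ⟨r, s, rfl⟩ := Submodule.mem_span_pair.1 hc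
  qsimp_at hl'
  qsimp_at hi
  rw [hf.perp j l (by rintro rfl; exact hl hj), mul_zero, zero_add, mul_eq_zero,
    or_iff_left hl] at hl'
  rw [hf.perp j i hij.symm, hl'] at hi
  simp at hi

theorem not_three (h : ROver Q e X) (hN : NoEich X) (h3 : (3 : F) ≠ 0) {u : V} (hu : Rt X u)
    {i j k : ι} (hij : i ≠ j) (hik : i ≠ k) (hjk : j ≠ k) (hi : polar Q u (e i) ≠ 0)
    (hj : polar Q u (e j) ≠ 0) (hk : polar Q u (e k) ≠ 0) : False := by
  classical
  have hf := h.frame
  have hcard := h.card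
  set s := Finset.univ.filter fun i => polar Q u (e i) ≠ 0 with hs
  have hmem : ∀ {i}, i ∈ s ↔ polar Q u (e i) ≠ 0 := by simp [hs]
  have hs3 : 2 < s.card := Finset.two_lt_card_iff.2 ⟨i, j, k, hmem.2 hi, hmem.2 hj, hmem.2 hk, hij,
    hik, hjk⟩
  have hsub : ∀ T : Finset ι, ∑ i ∈ T, polar Q u (e i) ^ 2 = 4 → s.card ≤ T.card := fun T hT =>
    Finset.card_le_card fun l hl => by_contra fun hc => hmem.1 hl (h.co_eq_zero hN hu hT hc)
  set o := s.filter fun i => polar Q u (e i) ^ 2 = 1 with ho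
  set n := s.filter fun i => ¬ polar Q u (e i) ^ 2 = 1 with hn
  have hon : o.card + n.card = s.card := Finset.card_filter_add_card_filter_not _
  have hn2 : n.card ≤ 2 := by
    by_contra! hc
    obtain ⟨a, b, c, ha, hb, hc, hab, hac, hbc⟩ := Finset.two_lt_card_iff.1 hc
    rw [Finset.mem_filter, hmem] at ha hb hc
    have b1 := (h.add_eq_three hN h3 hu hab hac hbc ha.1 hb.1 hc.1 ha.2 hb.2).1
    have b2 := (h.add_eq_three hN h3 hu hac hab hbc.symm ha.1 hc.1 hb.1 ha.2 hc.2).1
    exact (h.add_eq_three hN h3 hu hbc hab.symm hac.symm hb.1 hc.1 ha.1 hb.2 hc.2).2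
      (by linear_combination b1 - b2)
  obtain ⟨a, ha⟩ := Finset.card_pos.1 (show 0 < o.card by omega)
  obtain ⟨has, ha1⟩ := Finset.mem_filter.1 ha
  have hs4 : s.card ≤ 4 := by
    by_cases h4 : 4 ≤ o.card
    · obtain ⟨T, hT, hT4⟩ := Finset.exists_subset_card_eq h4
      rw [← hT4]
      refine hsub T ?_
      rw [Finset.sum_congr rfl fun i hi => (Finset.mem_filter.1 (hT hi)).2, Finset.sum_const, hT4]
      simp
    by_contra hc
    obtain ⟨b, hb, c, hc, hbc⟩ := Finset.one_lt_card.1 (show 1 < n.card by omega)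
    rw [Finset.mem_filter, hmem] at hb hc
    have hba : b ≠ a := by rintro rfl; exact hb.2 ha1
    have hca : c ≠ a := by rintro rfl; exact hc.2 ha1
    have b1 := (h.add_eq_three hN h3 hu hbc hba hca hb.1 hc.1 (hmem.1 has) hb.2 hc.2).1
    have b2 := hsub {a, b, c} (by
      rw [Finset.sum_insert (by simp [hba.symm, hca.symm]), Finset.sum_pair hbc, ha1, b1]; norm_num)
    have := Finset.card_le_three (a := a) (b := b) (c := c)
    omega
  obtain ⟨l, hl, hla⟩ := Finset.exists_mem_ne (show 1 < s.card by omega) a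
  have hsum : ∀ τ : Equiv.Perm ι, 2 * polar Q u ((hf.perm τ).1 u) =
      polar Q u (e (τ a)) * polar Q u (e a) +
        ∑ i ∈ s.erase a, polar Q u (e (τ i)) * polar Q u (e i) := fun τ => by
    rw [hf.two_mul_polar_perm, Finset.add_sum_erase s (fun i => polar Q u (e (τ i)) *
      polar Q u (e i)) has]
    exact (Finset.sum_subset (Finset.subset_univ s) fun i _ hi => by
      rw [not_not.1 (mt hmem.2 hi), mul_zero]).symm
  have hW : ∀ j x, x ∈ Submodule.span F {e j, u} ⊔ Submodule.span F {x} := fun j x =>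
    Submodule.mem_sup_right (Submodule.mem_span_singleton_self x)
  -- first move
  obtain ⟨b, hb⟩ := exists_notMem_of_card_lt (A := s) (by omega)
  have hb0 : polar Q u (e b) = 0 := not_not.1 (mt hmem.2 hb)
  obtain ⟨τ, hτ, hτ'⟩ := exists_even_perm (Equiv.swap a b) s (by omega)
  have hτ1 : ∀ i ∈ s.erase a, τ i = i := fun i hi => by
    rw [hτ' i (Finset.mem_of_mem_erase hi), Equiv.swap_apply_of_ne_of_ne (Finset.ne_of_mem_erase hi)
      (by rintro rfl; exact hb (Finset.mem_of_mem_erase hi))]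
  have hτ2 : τ a = b := by rw [hτ' a has, Equiv.swap_apply_left]
  have m1 : 2 * polar Q u ((hf.perm τ).1 u) = 3 := by
    have h4 := hf.four_mul_of_subset (x := u) (T := s) fun i hi => not_not.1 (mt hmem.2 hi)
    rw [← Finset.add_sum_erase s _ has, hu.1, ha1] at h4
    rw [hsum, hτ2, hb0, Finset.sum_congr rfl fun i hi => by rw [hτ1 i hi, ← pow_two]]
    linear_combination -h4
  have m2 : polar Q ((hf.perm τ).1 u) (e a) = 0 := by
    rw [hf.co_perm']
    by_contra hc
    by_cases h5 : τ.symm a = a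
    · rw [Equiv.symm_apply_eq, hτ2] at h5
      exact hb (h5 ▸ has)
    · exact h5 ((hτ1 _ (Finset.mem_erase.2 ⟨h5, hmem.2 hc⟩)).symm.trans (τ.apply_symm_apply a))
  obtain ⟨m3, m4⟩ := ne_of_co (hmem.1 has) m2
  have m5 := h.move hN hu (hu.apply (h.perm τ hτ)) (i := l) hb0
    (by rw [← hτ2, hf.co_perm]; exact hmem.1 has)
    (pc' fun hc => h3 (by rw [← m1, hc, mul_zero])) (hmem.1 has) m2 (by rintro rfl; exact hb hl)
    (by rw [← hτ1 l (Finset.mem_erase.2 ⟨hla, hl⟩), hf.co_perm]; exact hmem.1 hl)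
    (hu.apply (h.perm τ hτ)) (hW _ _) m3 m4
  -- second move
  obtain ⟨B, hB, hB'⟩ := Finset.exists_subset_card_eq (s := sᶜ) (n := s.card - 1)
    (by rw [Finset.card_compl]; omega)
  have haB : a ∉ B := fun hc => Finset.mem_compl.1 (hB hc) has
  obtain ⟨σ, hσ⟩ := exists_perm_map_eq (S := s) (S' := insert a B)
    (by rw [Finset.card_insert_of_notMem haB]; omega)
  obtain ⟨ρ, hρ, hρ'⟩ := exists_even_perm (Equiv.swap (σ a) a * σ) s (by omega)
  have hρ2 : ρ a = a := by rw [hρ' a has, Equiv.Perm.mul_apply, Equiv.swap_apply_left]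
  have hρ1 : ∀ i ∈ s.erase a, polar Q u (e (ρ i)) = 0 := fun i hi => by
    obtain ⟨hi1, hi2⟩ := Finset.mem_erase.1 hi
    have h4 : ρ i ∈ insert a B := by
      rw [hρ' i hi2, Equiv.Perm.mul_apply, Equiv.swap_apply_def]
      split_ifs
      · simp
      · exact (hσ a).2 has
      · exact (hσ i).2 hi2
    have h5 := (Finset.mem_insert.1 h4).resolve_left fun hc =>
      hi1 (ρ.injective (hc.trans hρ2.symm))
    exact not_not.1 (mt hmem.2 (Finset.mem_compl.1 (hB h5)))
  have n1 : 2 * polar Q u ((hf.perm ρ).1 u) = 1 := by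
    rw [hsum, hρ2, Finset.sum_eq_zero fun i hi => by rw [hρ1 i hi, zero_mul]]
    linear_combination ha1
  have n2 : polar Q ((hf.perm ρ).1 u) (e l) = 0 := by
    rw [hf.co_perm']
    by_contra hc
    by_cases h5 : ρ.symm l = a
    · rw [Equiv.symm_apply_eq, hρ2] at h5
      exact hla h5
    · have := hρ1 _ (Finset.mem_erase.2 ⟨h5, hmem.2 hc⟩)
      rw [ρ.apply_symm_apply] at this
      exact hmem.1 hl this
  obtain ⟨n3, n4⟩ := ne_of_co (hmem.1 hl) n2
  have n5 := h.move hN hu (hu.apply (h.perm ρ hρ)) (i := a)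
    (hρ1 l (Finset.mem_erase.2 ⟨hla, hl⟩)) (by rw [hf.co_perm]; exact hmem.1 hl)
    (pc' fun hc => one_ne_zero (α := F) (by rw [← n1, hc, mul_zero])) (hmem.1 hl) n2
    (fun hc => hla (ρ.injective (hc.symm.trans hρ2.symm)))
    (by rw [← hρ2, hf.co_perm]; exact hmem.1 has) (hu.apply (h.perm ρ hρ)) (hW _ _) n3 n4
  exact not_al_pair hf.two h3 m1 n1 m5 n5 fun hc =>
    n4 (hN.eq_neg_of_two hu (hu.apply (h.perm ρ hρ)) hc)

theorem sq_eq_two (h : ROver Q e X) (hN : NoEich X) (h3 : (3 : F) ≠ 0) {u : V} (hu : Rt X u)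
    {i j : ι} (hij : i ≠ j) (hi : polar Q u (e i) ≠ 0) (hj : polar Q u (e j) ≠ 0) :
    polar Q u (e i) ^ 2 = 2 := by
  have hf := h.frame
  have hcard := h.card
  have key : ∀ {i j : ι}, i ≠ j → polar Q u (e i) ≠ 0 → polar Q u (e j) ≠ 0 →
      Al (polar Q u (e i) ^ 2) := by
    intro i j hij hi hj
    have h0 : ∀ k, k ≠ i → k ≠ j → polar Q u (e k) = 0 := fun k hki hkj =>
      by_contra fun hc => h.not_three hN h3 hu hij hki.symm hkj.symm hi hj hc
    obtain ⟨k, hk⟩ := exists_notMem_of_card_lt (A := {i, j})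
      (by have := Finset.card_le_two (a := i) (b := j); omega)
    rw [Finset.mem_insert, Finset.mem_singleton, not_or] at hk
    obtain ⟨τ, hτ, h1, h2⟩ := exists_even_perm_pair (by omega) hij (Ne.symm hk.1)
    have c1 : polar Q ((hf.perm τ).1 u) (e i) = polar Q u (e i) := by
      conv_lhs => rw [← h1, hf.co_perm]
    have c2 : polar Q ((hf.perm τ).1 u) (e k) = polar Q u (e j) := by rw [← h2, hf.co_perm]
    have c3 : ∀ l, l ≠ i → l ≠ k → polar Q ((hf.perm τ).1 u) (e l) = 0 := fun l hl hl' => by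
      rw [hf.co_perm']
      refine h0 _ (fun hc => hl ?_) fun hc => hl' ?_
      · rw [← h1, ← hc, τ.apply_symm_apply]
      · rw [← h2, ← hc, τ.apply_symm_apply]
    obtain ⟨a1, a2⟩ := ne_of_co hj (hf.perp i j hij)
    refine h.move hN hu (hu.apply (h.perm τ hτ)) (i := i) (h0 k hk.1 hk.2) (by rwa [c2])
      (fun hc => ?_) hj (c3 j hij.symm (Ne.symm hk.2)) (Ne.symm hk.1) (by rwa [c1]) (h.rt i) ?_ a1 a2
    · have h4 := hf.two_mul_polar ((hf.perm τ).1 u) u
      rw [hc, Finset.sum_eq_single i (fun l _ hl => ?_) (by simp), c1] at h4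
      · exact mul_ne_zero hi hi (by linear_combination -h4)
      · by_cases hlk : l = k
        · rw [hlk, h0 k hk.1 hk.2, mul_zero]
        · rw [c3 l hl hlk, zero_mul]
    · rw [← Submodule.smul_mem_iff _ hi, show polar Q u (e i) • e i = (2 : F) • (hf.perm τ).1 u -
        polar Q u (e j) • e k from hf.ext fun l => ?_]
      · exact Submodule.sub_mem _ (Submodule.smul_mem _ _ (Submodule.mem_sup_right
          (Submodule.mem_span_singleton_self _))) (Submodule.smul_mem _ _ (Submodule.mem_sup_left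
          (Submodule.subset_span (by simp))))
      qsimp
      by_cases hli : l = i
      · rw [hli, c1, hf.polar_self, hf.perp k i hk.1]; ring
      by_cases hlk : l = k
      · rw [hlk, c2, hf.polar_self, hf.perp i k (Ne.symm hk.1)]; ring
      rw [c3 l hli hlk, hf.perp i l (Ne.symm hli), hf.perp k l (Ne.symm hlk)]; ring
  refine (key hij hi hj).eq_two (pow_ne_zero 2 hi) (pow_ne_zero 2 hj) (key hij.symm hj hi) hf.two ?_
  have h4 := hf.four_mul_of_subset (x := u) (T := {i, j}) fun k hk => by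
    rw [Finset.mem_insert, Finset.mem_singleton, not_or] at hk
    exact by_contra fun hc => h.not_three hN h3 hu hij (Ne.symm hk.1) (Ne.symm hk.2) hi hj hc
  rw [Finset.sum_pair hij, hu.1] at h4
  linear_combination -h4

theorem le_Mon (h : ROver Q e X) (hN : NoEich X) (h3 : (3 : F) ≠ 0) : X ≤ Mon Q e := by
  classical
  have hf := h.frame
  have hcard := h.card
  refine fun g hg => hf.mem_Mon_iff.2 fun k => ?_
  have hu := (h.rt k).apply hg
  obtain ⟨a, ha⟩ := hf.exists_co_ne (x := g.1 (e k)) (by simpa using hf.ne_zero k)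
  refine ⟨a, hf.mem_span_singleton fun b hba => by_contra fun hb => ?_⟩
  have hs : ∀ u, Rt X u → (Finset.univ.filter fun i => polar Q u (e i) ≠ 0).card ≤ 2 := by
    intro u hu
    by_contra! hc
    obtain ⟨a, b, c, ha, hb, hc, hab, hac, hbc⟩ := Finset.two_lt_card_iff.1 hc
    exact h.not_three hN h3 hu hab hac hbc (Finset.mem_filter.1 ha).2 (Finset.mem_filter.1 hb).2
      (Finset.mem_filter.1 hc).2
  obtain ⟨l, hl⟩ := exists_notMem_of_card_lt
    (A := (Finset.univ.filter fun i => polar Q ((g⁻¹).1 (e a)) (e i) ≠ 0) ∪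
      Finset.univ.filter fun i => polar Q ((g⁻¹).1 (e b)) (e i) ≠ 0) (by
      have h1 := hs _ ((h.rt a).apply (X.inv_mem hg))
      have h2 := hs _ ((h.rt b).apply (X.inv_mem hg))
      refine (Finset.card_union_le _ _).trans_lt ?_
      omega)
  simp only [Finset.mem_union, Finset.mem_filter, Finset.mem_univ, true_and, not_or, not_not,
    ← O_polar_right] at hl
  have hkl : k ≠ l := by rintro rfl; exact ha (pc hl.1)
  obtain ⟨c, hc⟩ := hf.exists_co_ne (x := g.1 (e l)) (by simpa using hf.ne_zero l)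
  have hca : a ≠ c := by rintro rfl; exact hc (pc hl.1)
  have hcb : b ≠ c := by rintro rfl; exact hc (pc hl.2)
  have h0 : ∀ m, m ≠ a → m ≠ b → polar Q (g.1 (e k)) (e m) = 0 := fun m h1 h2 =>
    by_contra fun hm => h.not_three hN h3 hu hba.symm h1.symm h2.symm ha hb hm
  obtain ⟨τ, hτ, h1, h2⟩ := exists_even_perm_pair (by omega) hba.symm hkl
  have hv := (hu.apply (h.perm τ hτ)).apply hg
  have hv1 : (2 : F) • (hf.perm τ).1 (g.1 (e k)) =
      polar Q (g.1 (e k)) (e a) • e k + polar Q (g.1 (e k)) (e b) • e l := by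
    suffices H : (2 : F) • g.1 (e k) =
        polar Q (g.1 (e k)) (e a) • e a + polar Q (g.1 (e k)) (e b) • e b by
      rw [← map_smul, H, map_add, map_smul, map_smul, hf.perm_apply, hf.perm_apply, h1, h2]
    refine hf.ext fun m => ?_
    qsimp
    by_cases hma : m = a
    · rw [hma, hf.polar_self, hf.perp b a hba]; ring
    by_cases hmb : m = b
    · rw [hmb, hf.polar_self, hf.perp a b hba.symm]; ring
    rw [h0 m hma hmb, hf.perp a m (Ne.symm hma), hf.perp b m (Ne.symm hmb)]; ring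
  have hv2 : ∀ m, 2 * polar Q (g.1 ((hf.perm τ).1 (g.1 (e k)))) (e m) =
      polar Q (g.1 (e k)) (e a) * polar Q (g.1 (e k)) (e m) +
        polar Q (g.1 (e k)) (e b) * polar Q (g.1 (e l)) (e m) := fun m => by
    rw [← polar_smul_left', ← map_smul, hv1, map_add, map_smul, map_smul]
    qsimp
  refine h.not_three hN h3 hv hba.symm hca hcb (fun h4 => ?_) (fun h4 => ?_) fun h4 => ?_
  · have := hv2 a
    rw [h4, pc hl.1] at this
    exact mul_ne_zero ha ha (by linear_combination -this)
  · have := hv2 b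
    rw [h4, pc hl.2] at this
    exact mul_ne_zero ha hb (by linear_combination -this)
  · have := hv2 c
    rw [h4, h0 c hca.symm hcb.symm] at this
    exact mul_ne_zero hb hc (by linear_combination -this)

/-- A group containing the reflections in an orthonormal frame (prime field, rank at least seven)
and the even permutations of the frame is monomial or contains `Ω`. -/
theorem le_or_le (h : ROver Q e X) : commutator (O Q) ≤ X ∨ X ≤ Mon Q e := by
  by_cases h3 : (3 : F) = 0
  · refine or_iff_not_imp_right.2 fun hc => ?_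
    obtain ⟨g, hg, hg1⟩ := SetLike.not_le_iff_exists.1 hc
    rw [h.frame.mem_Mon_iff, not_forall] at hg1
    obtain ⟨i, hi⟩ := hg1
    exact h.of_three h3 ((h.rt i).apply hg).1 ((h.rt i).apply hg).2 (not_exists.1 hi)
  by_cases hN : NoEich X
  · exact Or.inr (h.le_Mon hN h3)
  simp only [NoEich, not_forall] at hN
  obtain ⟨ρ, w, h1, h2, h4, h5, h6⟩ := hN
  exact h.of_eich h3 h1 h2 (mem_rootSp_of_prime h.prime h2 h4 h5) h6

end ROver

end Cfsg.Lib.Class.OMax
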