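import Cfsg.Agent.Class.OFrameEich
import Cfsg.Agent.Class.ODecRefine
import Cfsg.Agent.Class.ODecCtx

/-!
Non-degenerate planes over finite fields, and groups containing all reflections in a plane.
-/

set_option autoImplicit false

namespace Cfsg.Lib.Class.OMax

open QuadraticMap Module Orth

variable {F V : Type*} [Field F] [AddCommGroup V] [Module F V] {Q : QuadraticForm F V}
  {Y : Subgroup (O Q)} {W : Submodule F V}

open Classical in
/-- The roots of a quadratic. -/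
noncomputable def qr [Fintype F] (a b c : F) : Finset F :=
  Finset.univ.filter fun x => a * x ^ 2 + b * x + c = 0

theorem mem_qr [Fintype F] {a b c x : F} : x ∈ qr a b c ↔ a * x ^ 2 + b * x + c = 0 := by
  simp [qr]

open Polynomial in
theorem card_qr [Fintype F] {a b c : F} (h : a ≠ 0 ∨ b ≠ 0 ∨ c ≠ 0) : (qr a b c).card ≤ 2 := by
  classical
  have h0 : (C a * X ^ 2 + C b * X + C c : F[X]) ≠ 0 := fun h0 => by
    have h1 := congrArg (coeff · 0) h0
    have h2 := congrArg (coeff · 1) h0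
    have h3 := congrArg (coeff · 2) h0
    simp [coeff_X, coeff_C] at h1 h2 h3
    tauto
  refine (Finset.card_le_card (t := (C a * X ^ 2 + C b * X + C c : F[X]).roots.toFinset)
    fun x hx => ?_).trans ((Multiset.toFinset_card_le _).trans
      ((card_roots' _).trans natDegree_quadratic_le))
  simpa [h0] using mem_qr.1 hx

omit [Field F] in
theorem exists_avoid [Fintype F] (s t u : Finset F)
    (h : s.card + t.card + u.card < Fintype.card F) : ∃ c, c ∉ s ∧ c ∉ t ∧ c ∉ u := by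
  classical
  obtain ⟨c, hc⟩ := exists_notMem_of_card_lt (A := s ∪ t ∪ u)
    (by have := Finset.card_union_le (s ∪ t) u; have := Finset.card_union_le s t; omega)
  exact ⟨c, by simpa [not_or, and_assoc] using hc⟩

/-- Non-singular vectors whose reflection lies in `Y`. -/
def Rf (Y : Subgroup (O Q)) (v : V) : Prop := Q v ≠ 0 ∧ refl Q v ∈ Y

theorem Rf.apply {v : V} (h : Rf Y v) {g : O Q} (hg : g ∈ Y) : Rf Y (g.1 v) :=
  ⟨by rw [O_map]; exact h.1, refl_apply_mem hg h.2⟩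

theorem Rf.smul {v : V} (h : Rf Y v) {c : F} (hc : c ≠ 0) : Rf Y (c • v) :=
  ⟨by rw [Q_smul]; exact mul_ne_zero (pow_ne_zero 2 hc) h.1, by rw [refl_smul hc]; exact h.2⟩

theorem Rf.move (hY : ∀ a ∈ W, refl Q a ∈ Y) {u x y : V} (hu : u ∈ orth Q W) (hx : x ∈ W)
    (hy : y ∈ W) (h : Rf Y (u + x)) (hxy : polar Q x y = Q x - Q u) (h0 : Q (u + y) ≠ 0) :
    Rf Y (u + y) := by
  refine ⟨h0, ?_⟩
  have h1 := refl_apply_mem h.2 (hY _ (W.sub_mem hx hy))
  have h2 : polar Q (x - y) (u + x) = Q (u + x) := by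
    qsimp
    rw [mem_orth.1 hu x hx, mem_orth.1 hu y hy, pc (hu x hx), pc hxy]
    ring
  rwa [refl_apply, h2, inv_mul_cancel₀ h.1, one_smul, show x - y - (u + x) = -(u + y) by abel,
    refl_neg] at h1

theorem Rf.of_norm_eq (hY : ∀ a ∈ W, refl Q a ∈ Y) {u x y : V} (hu : u ∈ orth Q W) (hx : x ∈ W)
    (hy : y ∈ W) (h : Rf Y (u + x)) (hxy : Q x = Q y) (h0 : Q (x - y) ≠ 0) : Rf Y (u + y) := by
  have h1 := h.apply (hY _ (W.sub_mem hx hy))
  rwa [map_add, refl_sub_apply hxy h0, refl_apply_of_orth (pc (hu _ (W.sub_mem hx hy)))] at h1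

theorem refl_three {z a : V} {c d : F} (h : c * d * Q a = Q z) (hz : Q z ≠ 0)
    (hc : Q (z + c • a) ≠ 0) : refl Q z = refl Q (z + c • a) * refl Q a * refl Q (z + d • a) := by
  have h1 : c ≠ 0 := by rintro rfl; simp [← h] at hz
  have h2 : d ≠ 0 := by rintro rfl; simp [← h] at hz
  have h3 : Q a ≠ 0 := by rintro h3; simp [← h, h3] at hz
  obtain ⟨k, hk⟩ : ∃ k, polar Q z a = k - (c + d) * Q a := ⟨polar Q z a + (c + d) * Q a, by ring⟩
  have h4 : Q (z + c • a) = c * k := by qsimp; rw [← h, hk]; ring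
  have h5 : Q (z + d • a) = d * k := by qsimp; rw [← h, hk]; ring
  have h6 : k ≠ 0 := by rintro rfl; simp [h4] at hc
  refine O_ext fun x => ?_
  rw [O_mul_apply, O_mul_apply, refl_apply, refl_apply, refl_apply, refl_apply, h4, h5]
  qsimp
  rw [pc hk, hk, ← h]
  match_scalars <;> field_simp <;> ring

theorem Rf.three {z a : V} {c d : F} (h : c * d * Q a = Q z) (hz : Q z ≠ 0) (ha : refl Q a ∈ Y)
    (hc : Rf Y (z + c • a)) (hd : refl Q (z + d • a) ∈ Y) : Rf Y z :=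
  ⟨hz, refl_three h hz hc.1 ▸ Y.mul_mem (Y.mul_mem hc.2 ha) hd⟩

variable [FiniteDimensional F V]

theorem span_pair_eq (h2 : finrank F W = 2) {a b : V} (ha : a ∈ W) (hb : b ∈ W) (hb0 : b ≠ 0)
    (hab : a ∉ Submodule.span F {b}) : Submodule.span F {a, b} = W :=
  Submodule.eq_of_le_of_finrank_eq (Submodule.span_le.2 (by rintro _ (rfl | rfl) <;> assumption))
    (by rw [Set.pair_comm, Submodule.span_insert, finrank_sup_span_singleton' hab,
      finrank_span_singleton hb0, h2])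

omit [FiniteDimensional F V] in
theorem exists_polar_eq (hW : Disjoint W (orth Q W)) {x : V} (hx : x ∈ W) (hx0 : x ≠ 0) (c : F) :
    ∃ y ∈ W, polar Q x y = c := by
  obtain ⟨y, hy, h⟩ := exists_ne_of_disjoint hW hx hx0
  exact ⟨(c / polar Q x y) • y, W.smul_mem _ hy, by rw [polar_smul_right', div_mul_cancel₀ _ h]⟩

/-- The planes whose wreath products are maximal. -/
structure GoodPlane (Q : QuadraticForm F V) [Fintype F] (W : Submodule F V) : Prop where
  nondeg : Disjoint W (orth Q W)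
  rank : finrank F W = 2
  ne_three : Fintype.card F ≠ 3
  plus : ∀ p ∈ W, Q p = 0 → p ≠ 0 → 7 ≤ Fintype.card F

namespace GoodPlane

variable [Fintype F]

theorem exists_perp (h : GoodPlane Q W) {x : V} (hx : x ∈ W) (hx0 : Q x ≠ 0) :
    ∃ b ∈ W, Q b ≠ 0 ∧ polar Q x b = 0 := by
  obtain ⟨b, hb, hb0, h1⟩ := exists_ne_zero_orth (Q := Q) h.rank.ge x
  exact ⟨b, hb, fun h2 => hb0 (eq_zero_of_orth_plane h.nondeg h.rank hx hb hx0 h2 h1), h1⟩

omit [FiniteDimensional F V] in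
theorem aniso_or (h : GoodPlane Q W) : (∀ p ∈ W, Q p = 0 → p = 0) ∨ (7 ≤ Fintype.card F ∧
    ∃ e ∈ W, ∃ f ∈ W, Q e = 0 ∧ Q f = 0 ∧ polar Q e f = 1) := by
  refine or_iff_not_imp_left.2 fun hc => ?_
  push Not at hc
  obtain ⟨e, he, he0, he1⟩ := hc
  obtain ⟨f, hf, h1⟩ := exists_hyp_of_singular h.nondeg he he1 he0
  exact ⟨h.plus e he he0 he1, e, he, f, hf, he0, h1⟩

theorem rf_add_plus (h : GoodPlane Q W) (hY : ∀ a ∈ W, refl Q a ∈ Y) (h7 : 7 ≤ Fintype.card F)
    {e f : V} (he : e ∈ W) (hf : f ∈ W) (he0 : Q e = 0) (hf0 : Q f = 0) (hef : polar Q e f = 1)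
    {u x : V} (hu : u ∈ orth Q W) (hu0 : Q u ≠ 0) (hx : x ∈ W) (hx0 : x ≠ 0) (hr : Rf Y (u + x))
    {y : V} (hy : y ∈ W) (hy0 : Q (u + y) ≠ 0) : Rf Y (u + y) := by
  classical
  have hq : ∀ x ∈ W, Q (u + x) = Q u + Q x := fun x hx => by rw [Q_add, pc (hu x hx), add_zero]
  have h1 : ∀ x ∈ W, x ≠ 0 → ∀ c ≠ (0 : F), ∃ d ≠ (0 : F), polar Q x (d • e) = c ∨
      polar Q x (d • f) = c := fun x hx hx0 c hc => by
    obtain ⟨a, b, rfl⟩ := eq_hyp_of_finrank_two h.rank.le he hf he0 hef hx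
    by_cases ha : a = 0
    · have hb : b ≠ 0 := by rintro rfl; simp [ha] at hx0
      exact ⟨c / b, div_ne_zero hc hb, Or.inl (by qsimp; rw [he0, pc hef]; field_simp; ring)⟩
    · exact ⟨c / a, div_ne_zero hc ha, Or.inr (by qsimp; rw [hf0, hef]; field_simp; ring)⟩
  have h2 : ∀ {e f : V} {c d : F}, e ∈ W → f ∈ W → Q e = 0 → Q f = 0 → polar Q e f = 1 → c ≠ 0 →
      d ≠ 0 → Rf Y (u + c • e) → Rf Y (u + d • f) := fun he hf he0 hf0 hef hc hd hr =>
    hr.of_norm_eq hY hu (W.smul_mem _ he) (W.smul_mem _ hf) (by qsimp; rw [he0, hf0]; ring)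
      (by qsimp; rw [he0, hf0, hef]; simp [hc, hd])
  obtain ⟨x, hx, hx0, hr, hxu⟩ : ∃ x ∈ W, x ≠ 0 ∧ Rf Y (u + x) ∧ Q x ≠ Q u := by
    by_cases hxu : Q x = Q u
    · obtain ⟨b, hb, hb0, hxb⟩ := h.exists_perp hx (hxu ▸ hu0)
      obtain ⟨c, h3, h4, h5⟩ := exists_avoid {0} (qr (Q b) 0 (Q u)) (qr (Q b) 0 (-Q u)) (by
        have := card_qr (b := 0) (c := Q u) (Or.inl hb0)
        have := card_qr (b := 0) (c := -Q u) (Or.inl hb0)
        rw [Finset.card_singleton]; omega)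
      rw [mem_qr] at h4 h5
      refine ⟨c • b, W.smul_mem _ hb, smul_ne_zero (by simpa using h3) (by rintro rfl; simp at hb0),
        hr.move hY hu hx (W.smul_mem _ hb) (by qsimp; rw [hxb, hxu]; ring) fun h6 => h4 ?_,
        fun h6 => h5 ?_⟩
      · rw [hq _ (W.smul_mem _ hb), Q_smul] at h6; linear_combination h6
      · rw [Q_smul] at h6; linear_combination h6
    · exact ⟨x, hx, hx0, hr, hxu⟩
  have h3 : ∀ c ≠ (0 : F), Rf Y (u + c • e) ∧ Rf Y (u + c • f) := by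
    obtain ⟨d, hd, h3 | h3⟩ := h1 x hx hx0 _ (sub_ne_zero.2 hxu)
    · have h4 := hr.move hY hu hx (W.smul_mem _ he) h3
        (by rw [hq _ (W.smul_mem _ he), Q_smul, he0]; simpa using hu0)
      exact fun c hc => ⟨h2 hf he hf0 he0 (pc hef) hd hc (h2 he hf he0 hf0 hef hd hd h4),
        h2 he hf he0 hf0 hef hd hc h4⟩
    · have h4 := hr.move hY hu hx (W.smul_mem _ hf) h3
        (by rw [hq _ (W.smul_mem _ hf), Q_smul, hf0]; simpa using hu0)
      exact fun c hc => ⟨h2 hf he hf0 he0 (pc hef) hd hc h4,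
        h2 he hf he0 hf0 hef hd hc (h2 hf he hf0 he0 (pc hef) hd hd h4)⟩
  have h4 : ∀ y ∈ W, y ≠ 0 → Q (u + y) ≠ 0 → Rf Y (u + y) := fun y hy hy1 hy0 => by
    obtain ⟨d, hd, h4 | h4⟩ := h1 y hy hy1 _ (neg_ne_zero.2 hu0)
    · exact (h3 d hd).1.move hY hu (W.smul_mem _ he) hy (by rw [pc h4, Q_smul, he0]; ring) hy0
    · exact (h3 d hd).2.move hY hu (W.smul_mem _ hf) hy (by rw [pc h4, Q_smul, hf0]; ring) hy0
  rcases eq_or_ne y 0 with rfl | hy1
  swap
  · exact h4 y hy hy1 hy0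
  obtain ⟨c, h5, h6, -⟩ := exists_avoid {0} {-Q u} ∅ (by simp; omega)
  rw [Finset.mem_singleton] at h5 h6
  have h7 : Q (e + c • f) = c := by qsimp; rw [he0, hf0, hef]; ring
  have h8 : e + c • f ∈ W := W.add_mem he (W.smul_mem _ hf)
  have h9 : e + c • f ≠ 0 := fun h9 => h5 (by rw [← h7, h9, map_zero])
  rw [add_zero]
  refine Rf.three (c := 1) (d := Q u / c) (by rw [h7]; field_simp) hu0 (hY _ h8)
    (h4 _ (W.smul_mem _ h8) (by rwa [one_smul]) ?_)
    (h4 _ (W.smul_mem _ h8) (smul_ne_zero (div_ne_zero hu0 h5) h9) ?_).2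
  · rw [one_smul, hq _ h8, h7]
    exact fun h => h6 (by linear_combination h)
  · rw [hq _ (W.smul_mem _ h8), Q_smul, h7, show Q u + (Q u / c) ^ 2 * c = Q u / c * (c + Q u) by
      field_simp]
    exact mul_ne_zero (div_ne_zero hu0 h5) fun h => h6 (by linear_combination h)

theorem rf_add_aniso (h : GoodPlane Q W) (hY : ∀ a ∈ W, refl Q a ∈ Y)
    (ha : ∀ p ∈ W, Q p = 0 → p = 0) {u x : V} (hu : u ∈ orth Q W) (hx : x ∈ W)
    (hx0 : x ≠ 0) (hr : Rf Y (u + x)) {y : V} (hy : y ∈ W) (hy0 : Q (u + y) ≠ 0) :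
    Rf Y (u + y) := by
  classical
  have : Finite V := Module.finite_of_finite F
  have := Fintype.ofFinite V
  have hq : ∀ x ∈ W, Q (u + x) = Q u + Q x := fun x hx => by rw [Q_add, pc (hu x hx), add_zero]
  have ha' : ∀ p ∈ W, p ≠ 0 → Q p ≠ 0 := fun p hp h0 h1 => h0 (ha p hp h1)
  set S := Finset.univ.filter fun y => y ∈ W ∧ y ≠ 0 ∧ Rf Y (u + y) with hS
  have hS' : ∀ y, y ∈ S ↔ y ∈ W ∧ y ≠ 0 ∧ Rf Y (u + y) := by simp [hS]
  have h1 : (Fintype.card F + 1) * (S.image Q).card ≤ S.card := by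
    refine Finset.mul_card_image_le_card _ _ fun c hc => ?_
    obtain ⟨x, hx, rfl⟩ := Finset.mem_image.1 hc
    obtain ⟨hx, hx0, hr⟩ := (hS' x).1 hx
    have h1 := card_orbit_mul_card_stabilizer (G := O (Q.restrict W)) (⟨x, hx⟩ : W)
    have h2 : ∀ v : W, Q.restrict W v = 0 → v = 0 := fun v hv => Subtype.ext (ha v v.2 hv)
    have h3 := restrict_nondeg_iff.2 h.nondeg
    rw [card_stabilizer_of_aniso h3 h.rank h2 fun h => hx0 (congrArg Subtype.val h),
      card_O_of_aniso h3 h.rank h2, Nat.card_eq_fintype_card (α := F)] at h1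
    rw [show Fintype.card F + 1 = _ from (by omega : _ = Nat.card (MulAction.orbit
      (O (Q.restrict W)) (⟨x, hx⟩ : W))), ← Nat.card_eq_finsetCard]
    have h4 : ∀ y : MulAction.orbit (O (Q.restrict W)) (⟨x, hx⟩ : W), Q y.1.1 = Q x := by
      rintro ⟨_, g, rfl⟩
      exact O_map g ⟨x, hx⟩
    refine Nat.card_le_card_of_injective (fun y => ⟨y.1.1, Finset.mem_filter.2 ⟨(hS' _).2
      ⟨y.1.2, fun h5 => ha' x hx hx0 (by rw [← h4 y, h5, map_zero]), ?_⟩, h4 y⟩⟩)
      fun y y' h5 => Subtype.ext (Subtype.ext (Subtype.mk.inj h5))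
    by_cases h5 : x = y.1.1
    · rwa [← h5]
    · exact hr.of_norm_eq hY hu hx y.1.2 (h4 y).symm (ha' _ (W.sub_mem hx y.1.2) (sub_ne_zero.2 h5))
  have h2 : Fintype.card F ≤ 2 * (S.image Q).card + 1 := by
    obtain ⟨b, hb, hb0, hxb⟩ := h.exists_perp hx (ha' x hx hx0)
    obtain ⟨z, hz, hxz⟩ := exists_polar_eq h.nondeg hx hx0 (Q x - Q u)
    have h2 := Finset.card_le_mul_card_image_of_maps_to (f := fun c : F => Q (z + c • b))
      (s := Finset.univ.filter fun c : F => z + c • b ≠ 0) (t := S.image Q) (fun c hc => ?_) 2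
      fun c _ => (Finset.card_le_card fun d hd => mem_qr.2 ?_).trans
        (card_qr (b := polar Q z b) (c := Q z - c) (Or.inl hb0))
    · have h3 := Finset.card_filter_add_card_filter_not (s := Finset.univ)
        (fun c : F => z + c • b = 0)
      have h4 : (Finset.univ.filter fun c : F => z + c • b = 0).card ≤ 1 :=
        Finset.card_le_one.2 fun c hc d hd => smul_left_injective F
          (show b ≠ 0 by rintro rfl; simp at hb0) (add_left_cancel
            ((Finset.mem_filter.1 hc).2.trans (Finset.mem_filter.1 hd).2.symm))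
      rw [Finset.card_univ] at h3
      simp only [ne_eq] at h2
      omega
    · have h3 : z + c • b ∈ W := W.add_mem hz (W.smul_mem _ hb)
      have h4 : polar Q x (z + c • b) = Q x - Q u := by qsimp; rw [hxz, hxb]; ring
      refine Finset.mem_image_of_mem _ ((hS' _).2 ⟨h3, (Finset.mem_filter.1 hc).2,
        hr.move hY hu hx h3 h4 fun h5 => hr.1 ?_⟩)
      have h6 := ha _ (W.sub_mem hx h3) (by rw [Q_sub, h4]; rw [hq _ h3] at h5; linear_combination h5)
      rwa [sub_eq_zero.1 h6]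
    · have h3 := (Finset.mem_filter.1 hd).2
      qsimp_at h3
      linear_combination h3
  by_contra hc
  obtain ⟨s, hs, hs0⟩ := exists_norm_mem h.nondeg h.rank.ge (-Q u)
  let ι : V → V := fun a => (Q (u + y) / Q a) • a
  have h3 : ∀ a ∈ S.image (· - y), a ∈ W ∧ a ≠ 0 ∧ Rf Y (u + y + a) := fun a ha => by
    obtain ⟨b, hb, rfl⟩ := Finset.mem_image.1 ha
    obtain ⟨hb, -, hr⟩ := (hS' b).1 hb
    exact ⟨W.sub_mem hb hy, fun h => hc (by rwa [← sub_eq_zero.1 h]), by simpa using hr⟩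
  have h4 : ∀ a ∈ W, a ≠ 0 → ι (ι a) = a := fun a ha h0 => by
    have := ha' a ha h0
    simp only [ι, Q_smul, smul_smul]
    rw [show Q (u + y) / ((Q (u + y) / Q a) ^ 2 * Q a) * (Q (u + y) / Q a) = 1 by field_simp,
      one_smul]
  have h5 : ∀ a ∈ W, a ≠ 0 → Q (u + y + ι a) = Q (u + y) / Q a * Q (u + y + a) := fun a ha h0 => by
    have := ha' a ha h0
    simp only [ι]
    rw [Q_add, Q_add (u + y) a, Q_smul, polar_smul_right']
    field_simp
    ring
  have h6 : Q (u + y + (s - y)) = 0 := by rw [add_add_sub_cancel, hq s hs, hs0, add_neg_cancel]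
  have h7 := Finset.card_le_card (show S.image (· - y) ∪ (S.image (· - y)).image ι ⊆
      (Finset.univ.filter (· ∈ W)) \ {0, s - y} from fun a ha => by
    rcases Finset.mem_union.1 ha with ha | ha
    · obtain ⟨h7, h8, h9⟩ := h3 a ha
      simp only [Finset.mem_sdiff, Finset.mem_filter, Finset.mem_insert, Finset.mem_singleton]
      exact ⟨⟨Finset.mem_univ _, h7⟩, not_or.2 ⟨h8, fun h => h9.1 (h ▸ h6)⟩⟩
    · obtain ⟨a, ha2, rfl⟩ := Finset.mem_image.1 ha
      obtain ⟨h7, h8, h9⟩ := h3 a ha2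
      have h10 := div_ne_zero hy0 (ha' a h7 h8)
      simp only [Finset.mem_sdiff, Finset.mem_filter, Finset.mem_insert, Finset.mem_singleton]
      exact ⟨⟨Finset.mem_univ _, W.smul_mem _ h7⟩, not_or.2 ⟨smul_ne_zero h10 h8,
        fun h => mul_ne_zero h10 h9.1 (by rw [← h5 a h7 h8, h, h6])⟩⟩)
  rw [Finset.card_union_of_disjoint (Finset.disjoint_left.2 fun a ha ha2 => ?_),
    Finset.card_image_of_injOn (f := ι) fun a ha b hb hab => ?_,
    Finset.card_image_of_injective _ (sub_left_injective), Finset.card_sdiff_of_subset ?_,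
    Finset.card_pair ?_, ← Fintype.card_subtype (· ∈ W), Module.card_eq_pow_finrank (K := F) (V := W),
    h.rank] at h7
  · have := Fintype.one_lt_card (α := F)
    have h8 : 2 ≤ Fintype.card F ^ 2 := by nlinarith
    zify [h8] at h1 h2 h7
    nlinarith
  · exact fun h => hy0 (by rw [← h6, ← h, add_zero])
  · simp [Finset.insert_subset_iff, W.sub_mem hs hy]
  · rw [← h4 a (h3 a ha).1 (h3 a ha).2.1, hab, h4 b (h3 b hb).1 (h3 b hb).2.1]
  · obtain ⟨a, ha3, rfl⟩ := Finset.mem_image.1 ha2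
    obtain ⟨h7, h8, h9⟩ := h3 a ha3
    exact hc (Rf.three (c := 1) (d := Q (u + y) / Q a) (by field_simp [ha' a h7 h8]) hy0 (hY a h7)
      (by rwa [one_smul]) (h3 _ ha).2.2.2)

/-- One reflection joining the plane to a non-singular vector gives all of them. -/
theorem rf_add (h : GoodPlane Q W) (hY : ∀ a ∈ W, refl Q a ∈ Y) {u x : V} (hu : u ∈ orth Q W)
    (hu0 : Q u ≠ 0) (hx : x ∈ W) (hx0 : x ≠ 0) (hr : Rf Y (u + x)) {y : V} (hy : y ∈ W)
    (hy0 : Q (u + y) ≠ 0) : Rf Y (u + y) := by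
  rcases h.aniso_or with ha | ⟨h7, e, he, f, hf, he0, hf0, hef⟩
  · exact h.rf_add_aniso hY ha hu hx hx0 hr hy hy0
  · exact h.rf_add_plus hY h7 he hf he0 hf0 hef hu hu0 hx hx0 hr hy hy0

end GoodPlane

end Cfsg.Lib.Class.OMax
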