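import Cfsg.Agent.Class.OPlaneRot

/-!
The stabiliser in `Ω` of an orthogonal decomposition into at least five isometric planes is
maximal, apart from small fields.
-/

set_option autoImplicit false

namespace Cfsg.Lib.Class.OMax

open QuadraticMap Module Orth

variable {F V : Type*} [Field F] [AddCommGroup V] [Module F V] {Q : QuadraticForm F V}
  {X : Subgroup (O Q)} {W : Submodule F V} [FiniteDimensional F V] [Fintype F]
  {τ : Type*} [Fintype τ] {D : τ → Submodule F V} {π : τ → V →ₗ[F] V}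

namespace PDec

omit [FiniteDimensional F V] in
theorem aniso_or (h : PDec Q D π) : (∀ i, ∀ p ∈ D i, Q p = 0 → p = 0) ∨ (7 ≤ Fintype.card F ∧
    ∀ i, ∃ e ∈ D i, ∃ f ∈ D i, Q e = 0 ∧ Q f = 0 ∧ polar Q e f = 1) := by
  refine or_iff_not_imp_left.2 fun hc => ?_
  push Not at hc
  obtain ⟨i, p, hp, h1, h2⟩ := hc
  refine ⟨(h.good i).plus p hp h1 h2, fun j => (((h.good j).aniso_or).resolve_left fun h3 => ?_).2⟩
  obtain ⟨e, he⟩ := h.dec.iso i j
  have := h3 _ (e ⟨p, hp⟩).2 ((he _).trans h1)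
  exact h2 (congrArg Subtype.val (e.map_eq_zero_iff.1 (Subtype.ext this)))

theorem finrank_ge (h : PDec Q D π) : 10 ≤ finrank F V := by
  have := h.dec.card_mul
  have := h.card
  omega

theorem eq_of_rot (h : PDec Q D π) {a b : V} (hr : Rot Q W a b) (hW : finrank F W = 2)
    (hs : (refl Q a * refl Q b).1 ∈ stabDec D) : ∃ k, D k = W := by
  obtain ⟨σ, hσ⟩ := hs
  have hp := h.proj
  have h0 := hr.sub_mem
  have h00 := @hr.mem_orth_of_fix
  have h01 := @hr.apply_of_orth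
  have h02 := @hr.eq_zero_of_smul
  generalize refl Q a * refl Q b = s at *
  have h1 : ∀ k, ∀ x ∈ D k, s.1 x ∈ D (σ k) := fun k x hx => hσ k ▸ Submodule.mem_map_of_mem hx
  have h2 : ∀ k, σ k = k := fun k => by
    by_contra hk
    have h3 : ∀ x ∈ D k, π k (s.1 x - x) = -x := fun x hx => by
      rw [map_sub, hp.ne k _ (Ne.symm hk) _ (h1 k x hx), hp.self k x hx, zero_sub]
    let φ : D k →ₗ[F] V := (s.1.toLinearMap - LinearMap.id) ∘ₗ (D k).subtype
    have h4 : LinearMap.range φ = W := Submodule.eq_of_le_of_finrank_eq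
      (by rintro _ ⟨x, rfl⟩; exact h0 x) (by
        rw [LinearMap.finrank_range_of_inj, h.dec.rank, hW]
        exact (injective_iff_map_eq_zero _).2 fun x hx => Subtype.ext (neg_eq_zero.1 (by
          rw [← h3 x x.2]; exact (congrArg (π k) hx).trans (map_zero _))))
    obtain ⟨x, hx, hx0⟩ := Submodule.exists_mem_ne_zero_of_ne_bot (h.dec.ne_bot two_pos k)
    obtain ⟨y, hy⟩ : s.1 (s.1 x - x) ∈ LinearMap.range φ := by
      rw [h4]; simpa only [sub_add_cancel] using W.add_mem (h0 (s.1 x - x)) (h0 x)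
    change s.1 y - y = _ at hy
    obtain ⟨z, hz, h5⟩ : (y : V) ∈ (D (σ.symm k)).map s.1.toLinearMap := by
      rw [hσ, Equiv.apply_symm_apply]; exact y.2
    have h6 : s.1 x - x = y - z := s.1.injective (by rw [← hy, map_sub, ← h5]; rfl)
    have h7 := h3 x hx
    rw [h6, map_sub, hp.self k _ y.2, hp.ne k _ (fun h => hk (by
      conv_lhs => rw [h]
      exact σ.apply_symm_apply k)) z hz, sub_zero] at h7
    have h8 := h02 (h0 x) (c := -1) (by ring) (by rw [← hy, h7, map_neg, neg_one_smul]; abel)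
    have h9 := h3 x hx
    rw [h8, map_zero, eq_comm, neg_eq_zero] at h9
    exact hx0 h9
  simp only [h2] at h1
  obtain ⟨k, x, hx, hxW⟩ : ∃ k, ∃ x ∈ D k, x ∉ orth Q W := by
    by_contra! hc
    have h3 : a ∈ orth Q W := by
      rw [← hp.sum a]
      exact Submodule.sum_mem _ fun k _ => hc k _ (hp.mem k a)
    exact hr.ne (by rw [Submodule.disjoint_def.1 hr.nondeg a hr.left h3, map_zero])
  have h3 : s.1 x - x ≠ 0 := fun h3 => hxW (h00 (sub_eq_zero.1 h3))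
  have h4 := h0 x
  have h5 : s.1 x - x ∈ D k := sub_mem (h1 k x hx) hx
  generalize s.1 x - x = y at h3 h4 h5
  by_contra! hc
  have h6 : ∀ z ∈ W, z ∈ D k → z ∈ Submodule.span F {y} := fun z hz hz' => by_contra fun h6 =>
    hc k ((span_pair_eq (h.dec.rank k) hz' h5 h3 h6).symm.trans (span_pair_eq hW hz h4 h3 h6))
  obtain ⟨c, h7⟩ := Submodule.mem_span_singleton.1
    (h6 (s.1 y) (by simpa only [sub_add_cancel] using W.add_mem (h0 y) h4) (h1 k y h5))
  refine h3 (h02 h4 ?_ h7.symm)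
  by_cases h8 : Q y = 0
  · obtain ⟨z, hz, h9⟩ := exists_ne_of_disjoint hr.nondeg h4 h3
    obtain ⟨t, ht⟩ := Submodule.mem_span_singleton.1
      (h6 _ (h0 (π k z)) (sub_mem (h1 k _ (hp.mem k z)) (hp.mem k z)))
    have h10 := O_polar s y (π k z)
    rw [← h7, ← eq_sub_iff_add_eq.1 ht] at h10
    qsimp_at h10
    rw [h8, pc (h.polar_proj z h5), polar_comm] at h10
    rw [mul_right_cancel₀ h9 (show c * _ = 1 * _ by linear_combination h10), one_pow]
  · exact mul_right_cancel₀ h8 (by rw [← Q_smul, h7, O_map, one_mul])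

theorem exists_move (h : PDec Q D π) {i j : τ} (hij : i ≠ j) {v : V} (hi : π i v ≠ 0)
    (hj : π j v ≠ 0) : ∃ a b d, (a ∈ D i ∨ a ∈ D j) ∧ (b ∈ D i ∨ b ∈ D j) ∧ Q a ≠ 0 ∧ Q b = -Q a ∧
      d ∈ D i ⊔ D j ∧ d ≠ 0 ∧ Q d = 0 ∧ (refl Q a * refl Q b).1 v = v - d := by
  have hp := h.proj
  have key : ∀ i, π i v ≠ 0 → Q (π i v) = 0 → ∃ a ∈ D i, ∃ b ∈ D i, ∃ d ∈ D i, Q a ≠ 0 ∧
      Q b = -Q a ∧ d ≠ 0 ∧ Q d = 0 ∧ (refl Q a * refl Q b).1 v = v - d := fun i hi h0 => by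
    obtain ⟨f, hf, hf0, hef⟩ := exists_hyp_of_singular (h.dec.nondeg i) (hp.mem i v) hi h0
    have h7 := (h.good i).plus _ (hp.mem i v) h0 hi
    obtain ⟨s, h1, h2, -⟩ := exists_avoid {0} (qr (1 : F) 0 1) ∅ (by
      have := card_qr (a := (1 : F)) (b := 0) (c := 1) (Or.inl one_ne_zero); simp; omega)
    rw [Finset.mem_singleton] at h1
    rw [mem_qr] at h2
    have h3 : polar Q v (π i v) = 0 := by
      rw [← h.polar_proj v (hp.mem i v), polar_self', h0, mul_zero]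
    have h4 : polar Q v f = 1 := by rw [← h.polar_proj v hf, hef]
    have he := hp.mem i v
    generalize π i v = e at *
    have h5 : Q (e + f) = 1 := by qsimp; rw [h0, hf0, hef]; ring
    have h6 : Q (s⁻¹ • e - s • f) = -1 := by qsimp; rw [h0, hf0, hef]; field_simp; ring
    refine ⟨e + f, add_mem he hf, s⁻¹ • e - s • f, sub_mem (Submodule.smul_mem _ _ he)
      (Submodule.smul_mem _ _ hf), (1 + s ^ 2) • e, Submodule.smul_mem _ _ he, h5 ▸ one_ne_zero,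
      by rw [h5, h6], smul_ne_zero (fun h => h2 (by linear_combination h)) hi,
      by rw [Q_smul, h0, mul_zero], ?_⟩
    simp only [O_mul_apply, refl_apply, h5, h6]
    qsimp
    rw [h0, hf0, hef, pc hef, h3, h4]
    match_scalars <;> field_simp <;> ring
  by_cases h1 : Q (π i v) = 0
  · obtain ⟨a, ha, b, hb, d, hd, H⟩ := key i hi h1
    exact ⟨a, b, d, Or.inl ha, Or.inl hb, H.1, H.2.1, Submodule.mem_sup_left hd, H.2.2⟩
  by_cases h2 : Q (π j v) = 0
  · obtain ⟨a, ha, b, hb, d, hd, H⟩ := key j hj h2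
    exact ⟨a, b, d, Or.inr ha, Or.inr hb, H.1, H.2.1, Submodule.mem_sup_right hd, H.2.2⟩
  obtain ⟨a, ha, b, hb, h3, h4, h5, h6⟩ : ∃ a ∈ D i, ∃ b ∈ D j, Q a ≠ 0 ∧ Q b = -Q a ∧
      polar Q (π i v) a ≠ 0 ∧ polar Q (π j v) b = -polar Q (π i v) a := by
    rcases h.aniso_or with h3 | ⟨h7, h3⟩
    · exact (h.good i).exists_pair_aniso (h.good j) (h3 i) (h3 j) (hp.mem i v) (hp.mem j v) h1 h2
    · exact (h.good i).exists_pair_plus (h.good j) h7 (h3 i) (h3 j) (hp.mem i v) (hp.mem j v) h1 h2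
  rw [h.polar_proj v ha] at h5 h6
  rw [h.polar_proj v hb] at h6
  have h7 := h.dec.polar_eq_zero hij ha hb
  refine ⟨a, b, (polar Q v a / Q a) • (a + b), Or.inl ha, Or.inr hb, h3, h4,
    Submodule.smul_mem _ _ (Submodule.add_mem_sup ha hb), smul_ne_zero (div_ne_zero h5 h3) fun h8 =>
      hp.add_notMem hij ha hb (by rintro rfl; simp at h3) (by rintro rfl; simp [h3] at h4) i
        (h8 ▸ zero_mem _), by qsimp; rw [h4, h7]; ring, ?_⟩
  simp only [O_mul_apply, refl_apply]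
  qsimp
  rw [h4, h6, pc h7]
  match_scalars <;> field_simp <;> ring

theorem exists_nonsing (h : PDec Q D π) (hW : finrank F W = 2)
    (hinj : ∀ k, ∀ x ∈ W, π k x = 0 → x = 0) (i j k : τ) :
    ∃ x ∈ W, Q (π i x) ≠ 0 ∧ Q (π j x) ≠ 0 ∧ Q (π k x) ≠ 0 := by
  have hp := h.proj
  obtain ⟨y, hy, hy0⟩ := Submodule.exists_mem_ne_zero_of_ne_bot (p := W)
    (by rintro rfl; simp at hW)
  rcases h.aniso_or with h1 | ⟨h7, -⟩
  · exact ⟨y, hy, by refine ⟨?_, ?_, ?_⟩ <;> exact fun h => hy0 (hinj _ y hy (h1 _ _ (hp.mem _ y) h))⟩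
  obtain ⟨x, hx, hxy⟩ : ∃ x ∈ W, x ∉ Submodule.span F {y} := by
    by_contra! hc
    have := Submodule.finrank_mono (show W ≤ Submodule.span F {y} from hc)
    rw [finrank_span_singleton hy0] at this
    omega
  have h1 : ∀ i, (qr (Q (π i y)) (polar Q (π i x) (π i y)) (Q (π i x))).card ≤ 2 := fun i =>
    card_qr (by
      by_contra! hc
      have h1 : π i y ≠ 0 := fun h => hy0 (hinj i y hy h)
      refine h1 (Submodule.disjoint_def.1 (h.dec.nondeg i) _ (hp.mem i y) ?_)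
      rw [← span_pair_eq (h.dec.rank i) (hp.mem i x) (hp.mem i y) h1 fun h2 => hxy ?_,
        mem_orth_pair, polar_self', hc.1, mul_zero]
      · exact ⟨hc.2.1, rfl⟩
      obtain ⟨c, h2⟩ := Submodule.mem_span_singleton.1 h2
      exact Submodule.mem_span_singleton.2 ⟨c, (sub_eq_zero.1 (hinj i _ (W.sub_mem
        (W.smul_mem c hy) hx) (by rw [map_sub, map_smul, h2, sub_self])))⟩)
  obtain ⟨c, h2, h3, h4⟩ := exists_avoid _ _ _ (by
    have := h1 i; have := h1 j; have := h1 k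
    exact (by omega : (qr (Q (π i y)) (polar Q (π i x) (π i y)) (Q (π i x))).card +
      (qr (Q (π j y)) (polar Q (π j x) (π j y)) (Q (π j x))).card +
      (qr (Q (π k y)) (polar Q (π k x) (π k y)) (Q (π k x))).card < Fintype.card F))
  have h5 : ∀ {i}, c ∉ qr (Q (π i y)) (polar Q (π i x) (π i y)) (Q (π i x)) →
      Q (π i (x + c • y)) ≠ 0 := fun h5 h6 => h5 (mem_qr.2 (by
    rw [map_add, map_smul] at h6; qsimp_at h6; linear_combination h6))
  exact ⟨_, W.add_mem hx (W.smul_mem c hy), h5 h2, h5 h3, h5 h4⟩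

omit [FiniteDimensional F V] in
theorem exists_four [DecidableEq τ] (h : PDec Q D π) (o : τ) : ∃ i j k l, i ∉ ({o} : Finset τ) ∧
    j ∉ ({o, i} : Finset τ) ∧ k ∉ ({o, i, j} : Finset τ) ∧ l ∉ ({o, i, j, k} : Finset τ) := by
  have := h.card
  obtain ⟨i, hi⟩ := exists_notMem_of_card_lt (A := {o}) (by simp; omega)
  obtain ⟨j, hj⟩ := exists_notMem_of_card_lt (A := {o, i})
    (by have := Finset.card_le_two (a := o) (b := i); omega)
  obtain ⟨k, hk⟩ := exists_notMem_of_card_lt (A := {o, i, j})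
    (by have := Finset.card_le_three (a := o) (b := i) (c := j); omega)
  obtain ⟨l, hl⟩ := exists_notMem_of_card_lt (A := {o, i, j, k})
    (by have := Finset.card_le_four (a := o) (b := i) (c := j) (d := k); omega)
  exact ⟨i, j, k, l, hi, hj, hk, hl⟩

theorem refl_mem (h : PDec Q D π) {i : τ} {a : V} (ha : a ∈ D i) :
    refl Q a ∈ (stabDec D).comap (O Q).subtype :=
  mem_stabDec_of_forall fun j v hv => (refl_mem_stab_block h.dec.orth ha j v).1 hv

end PDec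

/-- Elements stabilising `W` that agree on `W^⊥` with an element of `X`. -/
def offSub (X : Subgroup (O Q)) (W : Submodule F V) : Subgroup (O Q) where
  carrier := {g | g ∈ stab Q W ∧ ∃ k ∈ fixG Q (orth Q W), g * k ∈ X}
  mul_mem' := by
    rintro g g' ⟨h1, k, hk, h2⟩ ⟨h3, k', hk', h4⟩
    refine ⟨mul_mem h1 h3, g'⁻¹ * k * g' * k', mul_mem (fun v hv => ?_) hk', ?_⟩
    · rw [O_mul_apply, O_mul_apply, hk _ ((mem_stab_orth h3 v).1 hv), O_inv_apply]
    · convert X.mul_mem h2 h4 using 1; group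
  one_mem' := ⟨one_mem _, 1, one_mem _, by simp⟩
  inv_mem' := by
    rintro g ⟨h1, k, hk, h2⟩
    refine ⟨inv_mem h1, g * k⁻¹ * g⁻¹, fun v hv => ?_, ?_⟩
    · rw [O_mul_apply, O_mul_apply, inv_mem hk _ ((mem_stab_orth (inv_mem h1) v).1 hv), O_apply_inv]
    · convert X.inv_mem h2 using 1; group

/-- Proper overgroups in `Ω` of the stabiliser of a decomposition into planes. -/
structure PCtx (X : Subgroup (O Q)) (D : τ → Submodule F V) (π : τ → V →ₗ[F] V) : Prop where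
  dec : PDec Q D π
  le : X ≤ commutator (O Q)
  mem : ∀ g ∈ commutator (O Q), g.1 ∈ stabDec D → g ∈ X
  nle : ¬ commutator (O Q) ≤ X

namespace PCtx

theorem refl_mul (h : PCtx X D π) {i j : τ} {a b : V} (ha : a ∈ D i) (hb : b ∈ D j) (h0 : Q a ≠ 0)
    {t : F} (ht : t ≠ 0) (h1 : Q b = t ^ 2 * Q a) : refl Q a * refl Q b ∈ X :=
  h.mem _ (refl_mul_refl_mem_commutator h.dec.nondeg h0 ht h1)
    (mul_mem (h.dec.refl_mem ha) (h.dec.refl_mem hb))

theorem rot_mem (h : PCtx X D π) {i : τ} {a b : V} (hr : Rot Q (D i) a b) :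
    refl Q a * refl Q b ∈ X :=
  h.refl_mul hr.left hr.right hr.ne one_ne_zero (by rw [hr.eq]; ring)

theorem four_mem (h : PCtx X D π) {a a' b b' : V} (ha : ∃ i, a ∈ D i) (ha' : ∃ i, a' ∈ D i)
    (hb : ∃ i, b ∈ D i) (hb' : ∃ i, b' ∈ D i) (h1 : Q a ≠ 0) (h2 : Q a' = -Q a) (h3 : Q b ≠ 0)
    (h4 : Q b' = -Q b) : refl Q a * refl Q a' * (refl Q b * refl Q b') ∈ X :=
  h.mem _ (four_refl_mem h.dec.nondeg h1 h2 h3 h4)
    (mul_mem (mul_mem (h.dec.refl_mem ha.choose_spec) (h.dec.refl_mem ha'.choose_spec))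
      (mul_mem (h.dec.refl_mem hb.choose_spec) (h.dec.refl_mem hb'.choose_spec)))

theorem exists_perm (h : PCtx X D π) (σ : Equiv.Perm τ) :
    ∃ g ∈ X, ∀ i, (D i).map g.1.toLinearMap = D (σ i) := by
  obtain ⟨g, hg⟩ := h.dec.dec.exists_perm σ
  obtain ⟨i⟩ : Nonempty τ := Fintype.card_pos_iff.1 (by have := h.dec.card; omega)
  obtain ⟨k, hk, h1⟩ := exists_mul_mem_Om h.dec.nondeg (by have := h.dec.finrank_ge; omega)
    (h.dec.dec.nondeg i) (h.dec.dec.rank i).ge (H := ⨅ j, stab Q (D j))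
    (fun a ha => Subgroup.mem_iInf.2 (refl_mem_stab_block h.dec.dec.orth ha)) g
  have h2 : ∀ i, (D i).map (g * k).1.toLinearMap = D (σ i) := fun i => by
    rw [map_O_mul, mem_stab_iff_map.1 (Subgroup.mem_iInf.1 hk i), hg]
  exact ⟨_, h.mem _ h1 ⟨σ, h2⟩, h2⟩

theorem pov (h : PCtx X D π) (o : τ) : POv (offSub X (D o)) D π o := by
  refine ⟨h.dec, fun i a ha => ⟨refl_mem_stab_block h.dec.dec.orth ha o, ?_⟩, fun σ hσ => ?_⟩
  · by_cases h0 : Q a = 0
    · exact ⟨1, one_mem _, by simp [refl_of_eq_zero h0]⟩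
    obtain ⟨b, hb, h1⟩ := exists_norm_mem (h.dec.dec.nondeg o) (h.dec.dec.rank o).ge (Q a)
    exact ⟨_, refl_mem_fixG (le_orth_orth _ hb), h.refl_mul ha hb h0 one_ne_zero (by rw [h1]; ring)⟩
  · obtain ⟨g, hg, h1⟩ := h.exists_perm σ
    exact ⟨g, ⟨mem_stab_iff_map.2 (by rw [h1, hσ]), 1, one_mem _, by rwa [mul_one]⟩, h1⟩

theorem not_el (h : PCtx X D π) (o : τ) : ¬ EL (offSub X (D o)) (orth Q (D o)) := fun hE => by
  classical
  have hd := h.dec.dec
  have hn := h.dec.finrank_ge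
  have h1 : EL X (orth Q (D o)) := fun p hp w hw => by
    obtain ⟨-, k, hk, h1⟩ := hE p hp w hw
    refine (X.mul_mem_cancel_right (h.mem k ((Subgroup.mul_mem_cancel_left _
      (eich_mem_Om h.dec.nondeg (by omega) p w)).1 (h.le h1)) (mem_stabDec_of_forall
        fun j v hv => ?_))).1 h1
    rcases eq_or_ne j o with rfl | hj
    · exact ((mem_stab_orth_iff h.dec.nondeg).1 (fixG_le_stab _ hk) v).1 hv
    · rwa [hk v (hd.orth j o hj hv)]
  obtain ⟨i, j, k, -, hi, hj, hk, -⟩ := h.dec.exists_four o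
  simp only [Finset.mem_insert, Finset.mem_singleton, not_or] at hi hj hk
  obtain ⟨g, hg, h2⟩ := h.exists_perm (Equiv.swap o i)
  have h3 := h1.map hg
  rw [map_orth, h2, Equiv.swap_apply_left] at h3
  obtain ⟨S, h4, hS⟩ := exists_hull h1
  have h5 := hS.le_of_le (tri_of_three_le (disjoint_orth_sup (hd.nondeg j) (hd.nondeg k)
    (hd.orth j k (Ne.symm hk.2.2))) (by
      rw [finrank_sup_of_orth (hd.nondeg k) (hd.orth j k (Ne.symm hk.2.2)), hd.rank, hd.rank]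
      omega)) ((sup_le (hd.orth j o hj.1) (hd.orth k o hk.1)).trans h4)
    (sup_le (hd.orth j i hj.2) (hd.orth k i hk.2.1)) h3
  refine h.nle (commutator_le_of_el h.dec.nondeg (by omega) (hS.1.mono ?_))
  rw [← hd.top, iSup_le_iff]
  intro l
  rcases eq_or_ne l o with rfl | hl
  · exact (hd.orth l i (Ne.symm hi)).trans h5
  · exact (hd.orth l o hl).trans h4

theorem of_stab (h : PCtx X D π) {o : τ} {g : O Q} (hg : g ∈ X) (hs : g ∈ stab Q (D o)) :
    g.1 ∈ stabDec D := by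
  have hd := h.dec.dec
  have H := (h.pov o).el_or.resolve_left (h.not_el o)
  refine mem_stabDec_of_range (hd.injective two_pos) fun j => ?_
  rcases eq_or_ne j o with rfl | hj
  · exact ⟨j, (mem_stab_iff_map.1 hs).symm⟩
  have h1 : ∀ a ∈ D j, Q a ≠ 0 → ∃ k, g.1 a ∈ D k := fun a ha h0 =>
    H _ (h.dec.proj_eq_zero_iff.2 ((mem_stab_orth hs a).1 (hd.orth j o hj ha)))
      (Rf.apply ⟨h0, (h.pov o).refl j a ha⟩ ⟨hs, 1, one_mem _, by rwa [mul_one]⟩)
  obtain ⟨a, b, hr⟩ := (h.dec.good j).exists_rot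
  obtain ⟨k, hk⟩ := h1 a hr.left hr.ne
  obtain ⟨l, hl⟩ := h1 b hr.right (hr.eq ▸ hr.ne)
  obtain rfl : k = l := by_contra fun hkl => (hr.map g).pol (hd.polar_eq_zero hkl hk hl)
  refine ⟨k, (Submodule.eq_of_le_of_finrank_eq ?_ ?_).symm⟩
  · rw [← (hr.map g).span, Submodule.span_le]
    rintro _ (rfl | rfl) <;> assumption
  · rw [LinearEquiv.finrank_map_eq, hd.rank, hd.rank]

theorem of_map_eq (h : PCtx X D π) {i j : τ} {g : O Q} (hg : g ∈ X)
    (hs : (D i).map g.1.toLinearMap = D j) : g.1 ∈ stabDec D := by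
  classical
  obtain ⟨n, hn, h1⟩ := h.exists_perm (Equiv.swap i j)
  have h2 := h.of_stab (o := i) (X.mul_mem hn hg)
    (mem_stab_iff_map.2 (by rw [map_O_mul, hs, h1, Equiv.swap_apply_right]))
  exact ((stabDec D).mul_mem_cancel_left (show n.1 ∈ stabDec D from ⟨_, h1⟩)).1 h2

theorem of_rot (h : PCtx X D π) {i j : τ} {a b : V} (hr : Rot Q (D i) a b) {g : O Q} (hg : g ∈ X)
    (hs : g * (refl Q a * refl Q b) * g⁻¹ ∈ stab Q (D j)) : g.1 ∈ stabDec D := by
  have h1 := h.of_stab (X.mul_mem (X.mul_mem hg (h.rot_mem hr)) (X.inv_mem hg)) hs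
  rw [← conj_mul, conj_refl, conj_refl] at h1
  obtain ⟨k, hk⟩ := h.dec.eq_of_rot (hr.map g)
    (by rw [LinearEquiv.finrank_map_eq, h.dec.dec.rank]) h1
  exact h.of_map_eq hg hk.symm

theorem of_orth (h : PCtx X D π) {i j : τ} {g : O Q} (hg : g ∈ X)
    (hs : ∀ x ∈ D i, π j (g.1 x) = 0) : g.1 ∈ stabDec D := by
  obtain ⟨a, b, hr⟩ := (h.dec.good i).exists_rot
  refine h.of_rot hr hg (j := j) (fixG_le_stab _ fun v hv => ?_)
  rw [← conj_mul, conj_refl, conj_refl]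
  refine (hr.map g).apply_of_orth ?_
  rintro _ ⟨x, hx, rfl⟩
  exact pc (h.dec.proj_eq_zero_iff.1 (hs x hx) v hv)

theorem exists_proj_ne (h : PCtx X D π) {o : τ} {g : O Q} (hg : g ∈ X) {v y : V} (hv : v ∈ D o)
    (hv0 : v ≠ 0) (hgv : g.1 v ∈ D o) (hy : y ∈ D o) (hgy : g.1 y ∉ D o) (j : τ) (hj : j ≠ o) :
    π j (g.1 y) ≠ 0 := fun h0 => by
  obtain ⟨σ, hσ⟩ := h.of_orth (i := o) (j := j) hg fun x hx => by
    obtain ⟨s, t, rfl⟩ := Submodule.mem_span_pair.1 ((span_pair_eq (h.dec.dec.rank o) hy hv hv0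
      fun h1 => by
        obtain ⟨c, rfl⟩ := Submodule.mem_span_singleton.1 h1
        exact hgy (map_smul g.1 c v ▸ Submodule.smul_mem _ c hgv)) ▸ hx)
    simp [h0, h.dec.proj.ne j o hj _ hgv]
  refine hgy ?_
  rw [← show σ o = o from by_contra fun h1 => hv0 (by
    simpa using h.dec.proj.eq_zero_of_mem h1 (hσ o ▸ Submodule.mem_map_of_mem hv) hgv), ← hσ]
  exact Submodule.mem_map_of_mem hy

theorem eq_zero_of_eich (h : PCtx X D π) {o : τ} {p w : V} (hp : p ∈ orth Q (D o)) (hp0 : Q p = 0)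
    (hp1 : p ≠ 0) (hw : w ∈ D o) (hX : eich Q p w ∈ X) : w = 0 := by
  classical
  by_contra hw0
  have hd := h.dec.dec
  have hπ := h.dec.proj
  have h0 : ∀ x ∈ orth Q (D o), x ≠ 0 → ∀ y ∈ D o, y + x ∉ D o := fun x hx hx0 y hy h1 =>
    hx0 (Submodule.disjoint_def.1 (hd.nondeg o) x ((Submodule.add_mem_iff_right _ hy).1 h1) hx)
  have h1 : ∀ {p w x}, p ∈ orth Q (D o) → Q p = 0 → w ∈ D o → polar Q x p = 0 →
      (eich Q p w).1 x = x + polar Q x w • p := fun hp hp0 hw hx =>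
    eich_apply_of_orth hp0 (mem_orth'.1 hp _ hw) hx
  have h2 : ∀ w ∈ D o, w ≠ 0 → ∃ v ∈ D o, ∃ y ∈ D o, v ≠ 0 ∧ polar Q v w = 0 ∧ polar Q y w = 1 :=
    fun w hw hw0 => by
      obtain ⟨v, hv, hv0, h2⟩ := exists_ne_zero_orth (Q := Q) (hd.rank o).ge w
      obtain ⟨y, hy, h3⟩ := exists_polar_eq (hd.nondeg o) hw hw0 1
      exact ⟨v, hv, y, hy, hv0, pc h2, pc h3⟩
  obtain ⟨i, j, k, -, hi, hj, hk, -⟩ := h.dec.exists_four o
  simp only [Finset.mem_insert, Finset.mem_singleton, not_or] at hi hj hk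
  have h3 : ∀ j, j ≠ o → π j p ≠ 0 := fun j hj => by
    obtain ⟨v, hv, y, hy, hv0, h3, h4⟩ := h2 w hw hw0
    have h5 := h1 hp hp0 hw (hp y hy)
    rw [h4, one_smul] at h5
    have := h.exists_proj_ne hX hv hv0 (by rwa [h1 hp hp0 hw (hp v hv), h3, zero_smul, add_zero])
      hy (h5 ▸ h0 p hp hp1 y hy) j hj
    rwa [h5, map_add, hπ.ne j o hj y hy, zero_add] at this
  obtain ⟨a, a', d, ha, ha', a1, a2, d1, d2, d3, h4⟩ :=
    h.dec.exists_move (Ne.symm hj.2) (h3 i hi) (h3 j hj.1)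
  obtain ⟨b, hb, b', hb', b1, b2, h5⟩ := (h.dec.good o).exists_neg_pair
    (fun a ha b hb h0 t ht h1 => h.refl_mul ha hb h0 ht h1) hp hp0 hw hw0 hX
  have h6 := h.four_mem (ha.elim (⟨_, ·⟩) (⟨_, ·⟩)) (ha'.elim (⟨_, ·⟩) (⟨_, ·⟩)) ⟨_, hb⟩ ⟨_, hb'⟩
    a1 a2 b1 b2
  have h7 : ∀ {a}, a ∈ D i ∨ a ∈ D j → a ∈ orth Q (D o) := fun ha =>
    ha.elim (hd.orth i o hi ·) (hd.orth j o hj.1 ·)
  have h8 := X.mul_mem (X.mul_mem h6 hX) (X.inv_mem h6)
  have h9 : (refl Q b * refl Q b').1 w ∈ D o :=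
    (Subgroup.mul_mem _ (refl_mem_stab hb) (refl_mem_stab hb') w).1 hw
  have h10 : (refl Q b * refl Q b').1 w ≠ 0 := by simpa using hw0
  rw [conj_eich, O_mul_apply, O_mul_apply _ _ w, O_mul_apply (refl Q b) _ p,
    refl_apply_of_orth (pc (hp b' hb')), refl_apply_of_orth (pc (hp b hb)), h4,
    O_mul_apply (refl Q a), refl_apply_of_orth (h7 ha' _ h9), refl_apply_of_orth (h7 ha _ h9)] at h8
  generalize (refl Q b * refl Q b').1 w = w at h5 h8 h9 h10
  have d4 : d ∈ orth Q (D o) :=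
    (sup_le (hd.orth i o hi) (hd.orth j o hj.1) : D i ⊔ D j ≤ orth Q (D o)) d1
  have d5 : Q (p - d) = 0 := by rw [← h4, O_map, hp0]
  have d6 : polar Q p (p - d) = 0 := by
    rw [Q_sub] at d5; qsimp; linear_combination d5 + hp0 - d3
  have h11 : ∀ y ∈ D o, (eich Q (p - d) (-w) * eich Q p w).1 y = y + polar Q y w • d := fun y hy => by
    rw [O_mul_apply, h1 hp hp0 h9 (hp y hy), h1 (sub_mem hp d4) d5 (neg_mem h9) (by
      rw [polar_add_left, polar_smul_left', d6, mem_orth.1 (sub_mem hp d4) y hy]; simp)]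
    qsimp
    rw [mem_orth'.1 hp w h9]
    module
  obtain ⟨v, hv, y, hy, hv0, h12, h13⟩ := h2 w h9 h10
  have h14 : eich Q (p - d) (-w) ∈ X := by rw [eich_neg]; exact X.inv_mem h8
  refine h.exists_proj_ne (X.mul_mem h14 h5) hv hv0
    (by rwa [h11 v hv, h12, zero_smul, add_zero]) hy
    (by rw [h11 y hy, h13, one_smul]; exact h0 d d4 d2 y hy) k hk.1 ?_
  rw [h11 y hy, h.dec.proj_eq_zero_iff]
  have d7 : D i ⊔ D j ≤ orth Q (D k) :=
    sup_le (hd.orth i k (Ne.symm hk.2.1)) (hd.orth j k (Ne.symm hk.2.2))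
  exact add_mem (hd.orth o k (Ne.symm hk.1) hy) (Submodule.smul_mem _ _ (d7 d1))

theorem apply_mem (h : PCtx X D π) {o : τ} {g : O Q} (hg : g ∈ X) {v y : V} (hv : v ∈ D o)
    (hv0 : v ≠ 0) (hgv : g.1 v ∈ D o) (hy : y ∈ D o) : g.1 y ∈ D o := by
  classical
  by_contra hgy
  have hd := h.dec.dec
  have h1 := h.exists_proj_ne hg hv hv0 hgv hy hgy
  obtain ⟨i, j, k, l, hi, hj, hk, hl⟩ := h.dec.exists_four o
  simp only [Finset.mem_insert, Finset.mem_singleton, not_or] at hi hj hk hl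
  obtain ⟨a, a', d, ha, ha', a1, a2, d1, d2, d3, h2⟩ :=
    h.dec.exists_move (Ne.symm hj.2) (h1 i hi) (h1 j hj.1)
  obtain ⟨b, b', e, hb, hb', b1, b2, e1, e2, e3, h3⟩ :=
    h.dec.exists_move (Ne.symm hl.2.2.2) (h1 k hk.1) (h1 l hl.1)
  have h4 := h.four_mem (ha.elim (⟨_, ·⟩) (⟨_, ·⟩)) (ha'.elim (⟨_, ·⟩) (⟨_, ·⟩))
    (hb.elim (⟨_, ·⟩) (⟨_, ·⟩)) (hb'.elim (⟨_, ·⟩) (⟨_, ·⟩)) a1 a2 b1 b2
  have h5 : D i ⊔ D j ≤ orth Q (D k ⊔ D l) := by
    rw [orth_sup]
    exact sup_le (le_inf (hd.orth _ _ (Ne.symm hk.2.1)) (hd.orth _ _ (Ne.symm hl.2.1)))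
      (le_inf (hd.orth _ _ (Ne.symm hk.2.2)) (hd.orth _ _ (Ne.symm hl.2.2.1)))
  have h6 : ∀ {a i j}, a ∈ D i ∨ a ∈ D j → a ∈ D i ⊔ D j := fun ha =>
    ha.elim Submodule.mem_sup_left Submodule.mem_sup_right
  have h7 := sup_le (hd.orth i o hi) (hd.orth j o hj.1)
  have h8 := sup_le (hd.orth k o hk.1) (hd.orth l o hl.1)
  have h9 : (refl Q a * refl Q a' * (refl Q b * refl Q b')).1 (g.1 y) = g.1 y - (d + e) := by
    rw [O_mul_apply, h3, map_sub, h2, O_mul_apply, refl_apply_of_orth (h5 (h6 ha') e e1),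
      refl_apply_of_orth (h5 (h6 ha) e e1), sub_sub]
  have h10 : (refl Q a * refl Q a' * (refl Q b * refl Q b')).1 (g.1 v) = g.1 v := by
    rw [O_mul_apply, O_mul_apply, O_mul_apply, refl_apply_of_orth (h8 (h6 hb') _ hgv),
      refl_apply_of_orth (h8 (h6 hb) _ hgv), refl_apply_of_orth (h7 (h6 ha') _ hgv),
      refl_apply_of_orth (h7 (h6 ha) _ hgv)]
  have h11 : Q (d + e) = 0 := by rw [Q_add, d3, e3, pc (h5 d1 e e1)]; simp
  have h12 : d + e ≠ 0 := fun h12 => e2 (Submodule.disjoint_def.1 (disjoint_orth_sup (hd.nondeg k)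
    (hd.nondeg l) (hd.orth _ _ (Ne.symm hl.2.2.2))) e e1 (by
      rw [eq_neg_of_add_eq_zero_right h12]; exact neg_mem (h5 d1)))
  have h13 := mem_orth.1 (add_mem (h7 d1) (h8 e1)) _ hgv
  generalize refl Q a * refl Q a' * (refl Q b * refl Q b') = n at h4 h9 h10
  generalize d + e = d at h9 h11 h12 h13
  have h14 : polar Q (g.1 y) d = 0 := by
    have := O_map n (g.1 y)
    rw [h9, Q_sub, h11] at this
    linear_combination -this
  have h15 := span_pair_eq (hd.rank o) hy hv hv0 fun h1 => by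
    obtain ⟨c, rfl⟩ := Submodule.mem_span_singleton.1 h1
    exact hgy (map_smul g.1 c v ▸ Submodule.smul_mem _ c hgv)
  have h16 : (g⁻¹).1 d ∈ orth Q (D o) := by
    rw [← h15, mem_orth_pair, ← O_polar_left, ← O_polar_left]
    exact ⟨h14, h13⟩
  have h17 : Q ((g⁻¹).1 d) = 0 := by rw [O_map, h11]
  obtain ⟨z, hz, hz0, h18⟩ := exists_ne_zero_orth (Q := Q) (hd.rank o).ge v
  have h19 : polar Q y z ≠ 0 := fun h19 => hz0 (Submodule.disjoint_def.1 (hd.nondeg o) z hz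
    (by rw [← h15, mem_orth_pair]; exact ⟨h19, h18⟩))
  set w := (-(polar Q y z)⁻¹) • z with hw
  have h20 : w ∈ D o := Submodule.smul_mem _ _ hz
  have h21 : ∀ x ∈ D o, (g⁻¹ * n * g).1 x = (eich Q ((g⁻¹).1 d) w).1 x := fun x hx => by
    obtain ⟨s, t, rfl⟩ := Submodule.mem_span_pair.1 (h15 ▸ hx)
    rw [eich_apply_of_orth h17 (mem_orth'.1 h16 w h20) (h16 _ hx), O_mul_apply, O_mul_apply, hw]
    simp only [map_add, map_smul, h9, h10, map_sub, O_inv_apply]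
    qsimp
    rw [h18]
    match_scalars <;> field_simp <;> ring
  obtain ⟨r, r', hr⟩ := (h.dec.good o).exists_rot
  have h22 := X.mul_mem (X.mul_mem (X.inv_mem hg) h4) hg
  have h23 := X.mul_mem (X.mul_mem (X.mul_mem h22 (h.rot_mem hr)) (X.inv_mem h22))
    (X.inv_mem (h.rot_mem hr))
  have h24 : (refl Q r * refl Q r').1 w ∈ D o := by simpa using add_mem (hr.sub_mem w) h20
  rw [← conj_mul, conj_refl, conj_refl, h21 r hr.left, h21 r' hr.right, ← conj_refl, ← conj_refl,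
    conj_mul, mul_assoc, mul_assoc, ← mul_assoc (refl Q r * refl Q r'), ← eich_neg, conj_eich,
    hr.apply_of_orth h16, map_neg, ← eich_add h17 (mem_orth'.1 h16 w h20)
      (mem_orth'.1 h16 _ (neg_mem h24))] at h23
  have h25 := h.eq_zero_of_eich h16 h17 (by simpa using h12) (add_mem h20 (neg_mem h24)) h23
  exact smul_ne_zero (neg_ne_zero.2 (inv_ne_zero h19)) hz0
    (hr.eq_zero_of_smul h20 (one_pow 2) (by rw [one_smul, ← add_neg_eq_zero.1 h25]))

theorem mem_stabDec (h : PCtx X D π) {g : O Q} (hg : g ∈ X) : g.1 ∈ stabDec D := by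
  classical
  have hd := h.dec.dec
  have hπ := h.dec.proj
  obtain ⟨o⟩ : Nonempty τ := Fintype.card_pos_iff.1 (by have := h.dec.card; omega)
  have key : ∀ n ∈ X, ∀ x ∈ D o, x ≠ 0 → n.1 (g.1 x) = g.1 x → g⁻¹ * n * g ∈ stab Q (D o) :=
    fun n hn x hx hx0 h1 => mem_stab_of_forall_mem fun y hy => h.apply_mem
      (X.mul_mem (X.mul_mem (X.inv_mem hg) hn) hg) hx hx0
      (by rwa [O_mul_apply, O_mul_apply, h1, O_inv_apply]) hy
  by_cases h1 : ∃ k, ∃ x ∈ D o, x ≠ 0 ∧ π k (g.1 x) = 0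
  · obtain ⟨k, x, hx, hx0, h1⟩ := h1
    obtain ⟨a, b, hr⟩ := (h.dec.good k).exists_rot
    exact inv_mem_iff.1 (h.of_rot hr (X.inv_mem hg) (j := o) (by
      rw [inv_inv]
      exact key _ (h.rot_mem hr) x hx hx0 (hr.apply_of_orth (h.dec.proj_eq_zero_iff.1 h1))))
  exfalso
  have h2 : ∀ k, ∀ x ∈ (D o).map g.1.toLinearMap, π k x = 0 → x = 0 := by
    rintro k _ ⟨x, hx, rfl⟩ h2
    rw [show x = 0 from by_contra fun h3 => h1 ⟨k, x, hx, h3, h2⟩, map_zero]
  obtain ⟨i, j, k, -, hi, hj, hk, -⟩ := h.dec.exists_four o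
  simp only [Finset.mem_insert, Finset.mem_singleton, not_or] at hi hj hk
  obtain ⟨_, ⟨x, hx, rfl⟩, h3⟩ := h.dec.exists_nonsing
    (by rw [LinearEquiv.finrank_map_eq, hd.rank]) h2 i j k
  have hx0 : x ≠ 0 := by rintro rfl; simp at h3
  have h4 : ∀ i, Q (π i (g.1 x)) ≠ 0 → ∃ a ∈ D i, Q a ≠ 0 ∧ polar Q (g.1 x) a = 0 := fun i hi => by
    obtain ⟨a, ha, h4, h5⟩ := (h.dec.good i).exists_perp (hπ.mem i _) hi
    exact ⟨a, ha, h4, h.dec.polar_proj _ ha ▸ h5⟩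
  have h5 : ∀ {i j a b}, i ≠ j → i ≠ o → j ≠ o → a ∈ D i → b ∈ D j → Q a ≠ 0 → Q b ≠ 0 →
      polar Q (g.1 x) a = 0 → polar Q (g.1 x) b = 0 → ¬ (IsSquare (Q a) ↔ IsSquare (Q b)) :=
    fun {i j a b} hij hi hj ha hb a1 b1 a2 b2 h5 => by
      obtain ⟨t, ht, h5⟩ := exists_sq_mul_of_isSquare_iff a1 b1 h5
      have h6 := key _ (h.refl_mul ha hb a1 ht h5) x hx hx0
        (by rw [O_mul_apply, refl_apply_of_orth b2, refl_apply_of_orth a2])
      have h7 : ∀ y ∈ D o, polar Q (g.1 y) a = 0 := fun y hy => by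
        have h7 := h2 o ((refl Q a * refl Q b).1 (g.1 y) - g.1 y) (sub_mem
          ⟨_, (h6 y).1 hy, O_apply_inv _ _⟩ ⟨y, hy, rfl⟩) (by
            simp [refl_apply, hπ.ne o i hi.symm a ha, hπ.ne o j hj.symm b hb])
        have h8 := congrArg (π i) h7
        rw [O_mul_apply, refl_apply, refl_apply, polar_sub_left, polar_smul_left',
          hd.polar_eq_zero hij.symm hb ha] at h8
        simpa [hπ.self i a ha, hπ.ne i j hij b hb, a1, show a ≠ 0 by rintro rfl; simp at a1]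
          using h8
      obtain ⟨r, r', hr⟩ := (h.dec.good o).exists_rot
      have h8 := span_pair_eq (hd.rank i) (hπ.mem i (g.1 r)) (hπ.mem i (g.1 r'))
        (fun h8 => hr.pol (by simpa using congrArg (polar Q (g.1 r)) (h2 i _ ⟨r', hr.right, rfl⟩ h8)))
        fun h8 => hr.ind (by
          obtain ⟨c, h8⟩ := Submodule.mem_span_singleton.1 h8
          refine Submodule.mem_span_singleton.2 ⟨c, g.1.injective (sub_eq_zero.1 (h2 i _
            (sub_mem ⟨_, Submodule.smul_mem _ c hr.right, rfl⟩ ⟨r, hr.left, rfl⟩) ?_))⟩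
          simp [← h8])
      have h9 : a ∈ orth Q (D i) := by
        rw [← h8, mem_orth_pair, h.dec.polar_proj _ ha, h.dec.polar_proj _ ha]
        exact ⟨h7 r hr.left, h7 r' hr.right⟩
      exact a1 (by rw [Submodule.disjoint_def.1 (hd.nondeg i) a ha h9, map_zero])
  obtain ⟨a, ha, a1, a2⟩ := h4 i h3.1
  obtain ⟨b, hb, b1, b2⟩ := h4 j h3.2.1
  obtain ⟨c, hc, c1, c2⟩ := h4 k h3.2.2
  have := h5 (Ne.symm hj.2) hi hj.1 ha hb a1 b1 a2 b2
  have := h5 (Ne.symm hk.2.1) hi hk.1 ha hc a1 c1 a2 c2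
  have := h5 (Ne.symm hk.2.2) hj.1 hk.1 hb hc b1 c1 b2 c2
  tauto

end PCtx

/-- The stabiliser in `Ω` of an orthogonal decomposition into at least five isometric planes is
maximal if `q ≠ 3` and, for hyperbolic planes, `q ≥ 7`. -/
theorem maxOm_dec_two (hD : ODec Q 2 D) (hQ : (polarBilin Q).Nondegenerate)
    (ht : 5 ≤ Fintype.card τ) (h3 : Fintype.card F ≠ 3)
    (hp : ∀ i, ∀ p ∈ D i, Q p = 0 → p ≠ 0 → 7 ≤ Fintype.card F) : MaxOm Q (stabDec D) := by
  obtain ⟨π, hπ⟩ := hD.exists_proj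
  have h : PDec Q D π := ⟨hQ, hD, hπ, fun i => ⟨hD.nondeg i, hD.rank i, h3, hp i⟩, ht⟩
  exact ⟨hD.exists_not_stabDec hQ two_pos (by have := h.finrank_ge; omega),
    fun X h1 h2 h4 g hg => PCtx.mem_stabDec ⟨h, h1, h2, h4⟩ hg⟩

end Cfsg.Lib.Class.OMax
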