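import Cfsg.Agent.Class.OPlane
import Cfsg.Agent.Class.DecWeight

/-!
Groups containing all reflections in the members of an orthogonal decomposition into planes.
-/

set_option autoImplicit false

namespace Cfsg.Lib.Class.OMax

open QuadraticMap Module Orth

variable {F V : Type*} [Field F] [AddCommGroup V] [Module F V] {Q : QuadraticForm F V}
  {Y : Subgroup (O Q)} {A B S W : Submodule F V} [FiniteDimensional F V]

omit [FiniteDimensional F V] in
theorem disjoint_orth_sup (hA : Disjoint A (orth Q A)) (hB : Disjoint B (orth Q B))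
    (h : A ≤ orth Q B) : Disjoint (A ⊔ B) (orth Q (A ⊔ B)) := by
  refine Submodule.disjoint_def.2 fun x hx hx' => ?_
  obtain ⟨a, ha, b, hb, rfl⟩ := Submodule.mem_sup.1 hx
  rw [orth_sup] at hx'
  rw [Submodule.disjoint_def.1 hA a ha ((Submodule.add_mem_iff_left _ (le_orth_comm.1 h hb)).1 hx'.1),
    Submodule.disjoint_def.1 hB b hb ((Submodule.add_mem_iff_right _ (h ha)).1 hx'.2), add_zero]

theorem finrank_sup_of_orth (hB : Disjoint B (orth Q B)) (h : A ≤ orth Q B) :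
    finrank F (A ⊔ B : Submodule F V) = finrank F A + finrank F B := by
  rw [← Submodule.finrank_sup_add_finrank_inf_eq, (hB.mono_right h).symm.eq_bot, finrank_bot,
    add_zero]

theorem el_of_refl (hQ : (polarBilin Q).Nondegenerate) (hA : Disjoint A (orth Q A))
    (hE : ¬ Exc (Q.restrict A)) (h : ∀ v ∈ A, Q v ≠ 0 → refl Q v ∈ Y) : EL Y A := fun p hp w hw => by
  have := eich_mem (restrict_nondeg_iff.2 hA) hE (K := Y.comap (extend hQ hA))
    (fun a b ha hb => by
      rw [Subgroup.mem_comap, map_mul, extend_refl, extend_refl]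
      exact Y.mul_mem (h _ a.2 ha) (h _ b.2 (hb ▸ ha :))) ⟨p, hp⟩ ⟨w, hw⟩
  rwa [Subgroup.mem_comap, extend_eich] at this

theorem Hull.mem_of_refl [Finite F] (hS : Hull Y S) (hA : Disjoint A (orth Q A)) (hAS : A ≤ S)
    {x y : V} (hx : x ∈ A) (hx0 : x ≠ 0) (hy : y ∈ orth Q A)
    (h : (Q x ≠ 0 ∧ 4 ≤ finrank F A) ∨ 5 ≤ finrank F A) (hr : Rf Y (x + y)) : y ∈ S := by
  have h1 := finrank_le_inf_orth_singleton (Q := Q) A x
  obtain ⟨p, hp, hpx, hp0⟩ : ∃ p ∈ A ⊓ orth Q (Submodule.span F {x}),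
      x ∉ Submodule.span F {p} ∧ p ≠ 0 ∧ Q p = 0 := by
    rcases h with ⟨h2, h⟩ | h
    · obtain ⟨p, hp, h3, h4⟩ := exists_singular_mem Q
        (S := A ⊓ orth Q (Submodule.span F {x})) (by omega)
      refine ⟨p, hp, fun h5 => h2 ?_, h3, h4⟩
      obtain ⟨c, rfl⟩ := Submodule.mem_span_singleton.1 h5
      rw [Q_smul, h4, mul_zero]
    · obtain ⟨p, hp, h3, h4⟩ := exists_singular_notMem Q (T := Submodule.span F {x})
        (S := A ⊓ orth Q (Submodule.span F {x})) (by rw [finrank_span_singleton hx0]; omega)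
      refine ⟨p, hp, fun h5 => h3 ?_, by rintro rfl; simp at h3, h4⟩
      obtain ⟨c, rfl⟩ := Submodule.mem_span_singleton.1 h5
      rw [Submodule.span_singleton_smul_eq (left_ne_zero_of_smul hx0).isUnit]
      exact Submodule.mem_span_singleton_self p
  obtain ⟨w, hw, h2, h3⟩ : ∃ w ∈ A, polar Q p w = 0 ∧ polar Q x w ≠ 0 := by
    by_contra! hc
    exact hpx (mem_span_of_orth hA hp.1 hx hc)
  obtain ⟨z, hz, hpz⟩ := exists_ne_of_disjoint hA hp.1 hp0.1
  have h4 := hS.apply_mem_of_fix ((tri_of_three_le hA (by omega)).mono hAS) (hAS hp.1) (hAS hz)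
    hp0.2 hpz hr.2 (refl_apply_of_orth (by
      rw [polar_add_right, pc (mem_orth_singleton.1 hp.2), mem_orth.1 hy p hp.1, add_zero]))
    (hAS hw) h2
  rw [refl_apply, S.sub_mem_iff_right (hAS hw), S.smul_mem_iff (mul_ne_zero (inv_ne_zero hr.1) (by
    rw [polar_add_right, mem_orth.1 hy w hw, add_zero]; exact pc' h3))] at h4
  exact (S.add_mem_iff_right (hAS hx)).1 h4

variable [Fintype F]

theorem four_le_card (h2 : Fintype.card F ≠ 2) (h3 : Fintype.card F ≠ 3) : 4 ≤ Fintype.card F := by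
  have := Fintype.one_lt_card (α := F)
  omega

theorem GoodPlane.exists_norm_ne (h : GoodPlane Q W) (h2 : Fintype.card F ≠ 2) {x : V}
    (hx : x ∈ W) (hx0 : Q x ≠ 0) : ∃ y ∈ W, polar Q x y = Q x ∧ Q y ≠ 0 ∧ Q y ≠ Q x := by
  obtain ⟨b, hb, hb0, hxb⟩ := h.exists_perp hx hx0
  obtain ⟨z, hz, hxz⟩ := exists_polar_eq h.nondeg hx (by rintro rfl; simp at hx0) (Q x)
  have h3 : ∀ c : F, polar Q x (z + c • b) = Q x := fun c => by qsimp; rw [hxz, hxb]; ring
  have h4 : ∀ c : F, Q (z + c • b) = Q b * c ^ 2 + polar Q z b * c + Q z := fun c => by qsimp; ring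
  have h5 := card_qr (b := polar Q z b) (c := Q z - Q x) (Or.inl hb0)
  have h6 := card_qr (b := polar Q z b) (c := Q z) (Or.inl hb0)
  have h7 := four_le_card h2 h.ne_three
  have h8 : ∀ c : F, z + c • b ∈ W := fun c => W.add_mem hz (W.smul_mem c hb)
  rcases h.aniso_or with ha | ⟨h9, -⟩
  · obtain ⟨c, hc, -⟩ := exists_avoid (qr (Q b) (polar Q z b) (Q z - Q x)) ∅ ∅ (by simp; omega)
    refine ⟨_, h8 c, h3 c, fun h => hx0 ?_, fun h => hc (mem_qr.2 ?_)⟩
    · rw [← h3 c, ha _ (h8 c) h, polar_zero_right]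
    · rw [h4] at h; linear_combination h
  · obtain ⟨c, hc, hc', -⟩ := exists_avoid (qr (Q b) (polar Q z b) (Q z - Q x))
      (qr (Q b) (polar Q z b) (Q z)) ∅ (by simp; omega)
    refine ⟨_, h8 c, h3 c, fun h => hc' (mem_qr.2 (h4 c ▸ h)), fun h => hc (mem_qr.2 ?_)⟩
    rw [h4] at h; linear_combination h

omit [FiniteDimensional F V] in
theorem GoodPlane.norm_eq_one (h : GoodPlane Q W) (h2 : Fintype.card F = 2) {x : V} (hx : x ∈ W)
    (hx0 : x ≠ 0) : Q x = 1 :=
  (eq_zero_or_one_of_card_two h2 _).resolve_left fun h0 => by have := h.plus x hx h0 hx0; omega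

theorem GoodPlane.rf_pair (hA : GoodPlane Q A) (hB : GoodPlane Q B) (hAB : A ≤ orth Q B)
    (h2 : Fintype.card F ≠ 2) (h1 : ∀ a ∈ A, refl Q a ∈ Y) (h1' : ∀ a ∈ B, refl Q a ∈ Y) {x y : V}
    (hx : x ∈ A) (hy : y ∈ B) (hx0 : Q x ≠ 0) (hy0 : y ≠ 0) (hr : Rf Y (x + y)) {x' y' : V}
    (hx' : x' ∈ A) (hy' : y' ∈ B) (h0 : Q (x' + y') ≠ 0) : Rf Y (x' + y') := by
  classical
  have h4 := four_le_card h2 hA.ne_three
  have hq : ∀ x ∈ A, ∀ y ∈ B, Q (x + y) = Q x + Q y := fun x hx y hy => by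
    rw [Q_add, mem_orth'.1 (hAB hx) y hy, add_zero]
  have h5 : ∀ y ∈ B, Q y ≠ 0 → ∀ x ∈ A, Q (x + y) ≠ 0 → Rf Y (x + y) := fun y' hy' hy0' x' hx' h => by
    obtain ⟨c, hc, hc', -⟩ := exists_avoid {0} (qr (Q y') 0 (Q x)) ∅ (by
      have := card_qr (b := 0) (c := Q x) (Or.inl hy0'); simp; omega)
    rw [Finset.mem_singleton] at hc
    have h5 := (hB.rf_add h1' (hAB hx) hx0 hy hy0 hr (B.smul_mem c hy') fun h => hc' (mem_qr.2 (by
      rw [hq x hx _ (B.smul_mem c hy'), Q_smul] at h; linear_combination h))).smul (inv_ne_zero hc)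
    rw [smul_add, inv_smul_smul₀ hc, add_comm] at h5
    rw [add_comm] at h ⊢
    exact hA.rf_add h1 (le_orth_comm.1 hAB hy') hy0' (A.smul_mem _ hx)
      (smul_ne_zero (inv_ne_zero hc) (by rintro rfl; simp at hx0)) h5 hx' h
  by_cases h6 : Q y' = 0
  · obtain ⟨c, hc, hc', -⟩ := exists_avoid {0} {-Q x'} ∅ (by simp; omega)
    rw [Finset.mem_singleton] at hc hc'
    obtain ⟨z, hz, rfl⟩ := exists_norm_mem hB.nondeg hB.rank.ge c
    exact hB.rf_add h1' (hAB hx') (by rwa [hq x' hx' y' hy', h6, add_zero] at h0) hz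
      (by rintro rfl; simp at hc) (h5 z hz hc x' hx' fun h => hc' (by
        rw [hq x' hx' z hz] at h; linear_combination h)) hy' h0
  · exact h5 y' hy' h6 x' hx' h0

variable {τ : Type*} [Fintype τ] {D : τ → Submodule F V} {π : τ → V →ₗ[F] V}

/-- An orthogonal decomposition into at least five good planes. -/
structure PDec (Q : QuadraticForm F V) (D : τ → Submodule F V) (π : τ → V →ₗ[F] V) : Prop where
  nondeg : (polarBilin Q).Nondegenerate
  dec : ODec Q 2 D
  proj : IsDecProj D π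
  good : ∀ i, GoodPlane Q (D i)
  card : 5 ≤ Fintype.card τ

open Classical in
/-- The support of a vector. -/
noncomputable def dsupp (π : τ → V →ₗ[F] V) (v : V) : Finset τ :=
  Finset.univ.filter fun j => π j v ≠ 0

omit [FiniteDimensional F V] [Fintype F] in
theorem mem_dsupp {v : V} {j : τ} : j ∈ dsupp π v ↔ π j v ≠ 0 := by simp [dsupp]

namespace PDec

omit [FiniteDimensional F V]

theorem polar_proj (h : PDec Q D π) {j : τ} (x : V) {y : V} (hy : y ∈ D j) :
    polar Q (π j x) y = polar Q x y := OMax.polar_proj h.proj h.dec.orth x hy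

theorem sub_proj (h : PDec Q D π) (j : τ) (x : V) : x - π j x ∈ orth Q (D j) :=
  sub_proj_mem_orth h.proj h.dec.orth j x

theorem proj_eq_zero_iff (h : PDec Q D π) {j : τ} {x : V} : π j x = 0 ↔ x ∈ orth Q (D j) := by
  have := h.sub_proj j x
  refine ⟨fun h0 => by rwa [h0, sub_zero] at this, fun h0 => ?_⟩
  exact Submodule.disjoint_def.1 (h.dec.nondeg j) _ (h.proj.mem j x)
    ((Submodule.sub_mem_iff_right _ h0).1 this)

theorem norm_eq (h : PDec Q D π) (j : τ) (x : V) : Q x = Q (x - π j x) + Q (π j x) := by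
  conv_lhs => rw [← sub_add_cancel x (π j x), Q_add,
    mem_orth'.1 (h.sub_proj j x) _ (h.proj.mem j x), add_zero]

theorem eq_add_of_dsupp [DecidableEq τ] (h : PDec Q D π) {v : V} {i j : τ} (hij : i ≠ j)
    (hv : dsupp π v = {i, j}) : v = π i v + π j v := by
  conv_lhs => rw [← h.proj.sum v]
  rw [← Finset.sum_subset (Finset.subset_univ {i, j}) fun k _ hk => by
    rwa [← hv, mem_dsupp, not_not] at hk, Finset.sum_pair hij]

end PDec

/-- Groups containing the reflections in all planes and the permutations fixing one plane. -/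
structure POv (Y : Subgroup (O Q)) (D : τ → Submodule F V) (π : τ → V →ₗ[F] V) (o : τ) : Prop where
  dec : PDec Q D π
  refl : ∀ i, ∀ a ∈ D i, refl Q a ∈ Y
  perm : ∀ σ : Equiv.Perm τ, σ o = o → ∃ g ∈ Y, ∀ i, (D i).map g.1.toLinearMap = D (σ i)

namespace POv

variable {o : τ}

theorem exists_pair (h : POv Y D π o) (h2 : Fintype.card F ≠ 2) (n : ℕ) : ∀ v,
    (dsupp π v).card = n + 2 → π o v = 0 → Rf Y v → ∃ i j, i ≠ j ∧ i ≠ o ∧ j ≠ o ∧
      ∃ x ∈ D i, ∃ y ∈ D j, Q x ≠ 0 ∧ y ≠ 0 ∧ Rf Y (x + y) := by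
  classical
  have hp := h.dec.proj
  induction n with
  | zero =>
    intro v hv ho hr
    obtain ⟨i, j, hij, h1⟩ := Finset.card_eq_two.1 hv
    have hi : π i v ≠ 0 := mem_dsupp.1 (by simp [h1])
    have hj : π j v ≠ 0 := mem_dsupp.1 (by simp [h1])
    have h3 := h.dec.eq_add_of_dsupp hij h1
    by_cases h4 : Q (π i v) = 0
    · refine ⟨j, i, hij.symm, by rintro rfl; exact hj ho, by rintro rfl; exact hi ho, _, hp.mem j v,
        _, hp.mem i v, fun h5 => hr.1 ?_, hi, by rwa [add_comm, ← h3]⟩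
      rw [h3, Q_add, h4, h5, h.dec.dec.polar_eq_zero hij (hp.mem i v) (hp.mem j v)]
      simp
    · exact ⟨i, j, hij, by rintro rfl; exact hi ho, by rintro rfl; exact hj ho, _, hp.mem i v, _,
        hp.mem j v, h4, hj, h3 ▸ hr⟩
  | succ n ih =>
    have key : ∀ v i, (dsupp π v).card = n + 1 + 2 → π o v = 0 → Rf Y v → π i v ≠ 0 →
        Q (v - π i v) ≠ 0 → _ := fun v i hv ho hr hi h0 => ih (v - π i v) ?_ ?_ ?_
    · intro v hv ho hr
      by_cases hc : ∃ i, π i v ≠ 0 ∧ Q (v - π i v) ≠ 0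
      · obtain ⟨i, hi, h0⟩ := hc
        exact key v i hv ho hr hi h0
      push Not at hc
      obtain ⟨i, hi, j, hj, hij⟩ := Finset.one_lt_card.1 (show 1 < (dsupp π v).card by omega)
      rw [mem_dsupp] at hi hj
      have h3 : ∀ i, π i v ≠ 0 → Q (π i v) = Q v := fun i hi => by
        rw [h.dec.norm_eq i v, hc i hi, zero_add]
      obtain ⟨y, hy, h4, h5, h6⟩ := (h.dec.good i).exists_norm_ne h2 (hp.mem i v)
        (h3 i hi ▸ hr.1)
      have h7 : Q (v - π i v + y) = Q y := by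
        rw [Q_add, hc i hi, mem_orth'.1 (h.dec.sub_proj i v) y hy]; simp
      have h8 : ∀ k, k ≠ i → π k (v - π i v + y) = π k v := fun k hk => by
        simp [hp.ne k i hk _ (hp.mem i v), hp.ne k i hk y hy]
      refine key (v - π i v + y) j ?_ ?_ (Rf.move (h.refl i) (h.dec.sub_proj i v) (hp.mem i v) hy
        (by rwa [sub_add_cancel]) (by rw [h4, hc i hi, sub_zero]) (h7 ▸ h5))
        (by rwa [h8 j hij.symm]) fun h9 => h6 ?_
      · rw [← hv]
        refine congrArg _ (Finset.ext fun k => ?_)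
        rw [mem_dsupp, mem_dsupp]
        rcases eq_or_ne k i with rfl | hk
        · simp [hp.self k _ (hp.mem k v), hp.self k y hy, hi, show y ≠ 0 by rintro rfl; simp at h5]
        · rw [h8 k hk]
      · rwa [h8 o (by rintro rfl; exact hi ho)]
      · rw [← h7, h.dec.norm_eq j, h9, h8 j hij.symm, h3 j hj, h3 i hi, zero_add]
    · rw [show dsupp π (v - π i v) = (dsupp π v).erase i from Finset.ext fun k => ?_,
        Finset.card_erase_of_mem (mem_dsupp.2 hi), hv]
      · rfl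
      rw [Finset.mem_erase, mem_dsupp, mem_dsupp]
      rcases eq_or_ne k i with rfl | hk
      · simp [hp.self k _ (hp.mem k v)]
      · simp [hp.ne k i hk _ (hp.mem i v), hk]
    · simp [ho, hp.ne o i (by rintro rfl; exact hi ho) _ (hp.mem i v)]
    · simpa using (h.dec.good i).rf_add (h.refl i) (h.dec.sub_proj i v) h0 (hp.mem i v) hi
        (by rwa [sub_add_cancel]) (zero_mem _) (by rwa [add_zero])

omit [FiniteDimensional F V] in
theorem exists_triple (h : POv Y D π o) (h2 : Fintype.card F = 2) {v : V}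
    (hv : 2 ≤ (dsupp π v).card) (ho : π o v = 0) (hr : Rf Y v) :
    ∃ i j k, i ≠ j ∧ i ≠ k ∧ j ≠ k ∧ i ≠ o ∧ j ≠ o ∧ k ≠ o ∧
      ∀ x ∈ D i, ∀ y ∈ D j, ∀ z ∈ D k, x ≠ 0 → y ≠ 0 → z ≠ 0 → Rf Y (x + y + z) := by
  classical
  have hp := h.dec.proj
  have hd := h.dec.dec
  have h0 := two_eq_zero_of_card_two h2
  have h1 := fun i {x} => (h.dec.good i).norm_eq_one h2 (x := x)
  obtain ⟨i, j, k, hi, hj, hk, hij, hik, hjk⟩ := Finset.two_lt_card_iff.1
    (show 2 < (dsupp π v).card from lt_of_le_of_ne hv fun h3 => by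
      obtain ⟨i, j, hij, h3⟩ := Finset.card_eq_two.1 h3.symm
      refine hr.1 ?_
      rw [h.dec.eq_add_of_dsupp hij h3, Q_add, hd.polar_eq_zero hij (hp.mem i v) (hp.mem j v),
        h1 i (hp.mem i v) (mem_dsupp.1 (by simp [h3])),
        h1 j (hp.mem j v) (mem_dsupp.1 (by simp [h3]))]
      linear_combination h0)
  rw [mem_dsupp] at hi hj hk
  have h3 : ∀ i, π i v ≠ 0 → ∃ a ∈ D i, Q a = 1 ∧ polar Q v a = 1 := fun i hi => by
    obtain ⟨a, ha, h3⟩ := exists_polar_eq (hd.nondeg i) (hp.mem i v) hi 1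
    exact ⟨a, ha, h1 i ha (by rintro rfl; simp at h3), h.dec.polar_proj v ha ▸ h3⟩
  obtain ⟨a, ha, a1, a2⟩ := h3 i hi
  obtain ⟨b, hb, b1, b2⟩ := h3 j hj
  obtain ⟨c, hc, c1, c2⟩ := h3 k hk
  have hab := hd.polar_eq_zero hij ha hb
  have hac := hd.polar_eq_zero hik ha hc
  have hbc := hd.polar_eq_zero hjk hb hc
  have hv1 := (eq_zero_or_one_of_card_two h2 _).resolve_left hr.1
  have h4 := ((((hr.apply (h.refl i a ha)).apply (h.refl j b hb)).apply (h.refl k c hc)).apply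
    hr.2).smul (neg_ne_zero.2 one_ne_zero)
  have h5 : ∀ {i x y u}, x ∈ D i → y ∈ D i → Q x = 1 → y ≠ 0 → u ∈ orth Q (D i) → Rf Y (u + x) →
      Rf Y (u + y) := fun {i x y u} hx hy hx1 hy0 hu hr => by
    by_cases hxy : x = y
    · rwa [← hxy]
    · exact hr.of_norm_eq (h.refl i) hu hx hy (by rw [hx1, h1 i hy hy0])
        (by rw [h1 i (sub_mem hx hy) (sub_ne_zero.2 hxy)]; exact one_ne_zero)
  refine ⟨i, j, k, hij, hik, hjk, by rintro rfl; exact hi ho, by rintro rfl; exact hj ho,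
    by rintro rfl; exact hk ho, fun x hx y hy z hz hx0 hy0 hz0 => h5 hc hz c1 hz0
      (add_mem (hd.orth i k hik hx) (hd.orth j k hjk hy)) ?_⟩
  rw [add_right_comm]
  refine h5 hb hy b1 hy0 (add_mem (hd.orth i j hij hx) (hd.orth k j hjk.symm hc)) ?_
  rw [show x + c + b = b + c + x by abel]
  refine h5 ha hx a1 hx0 (add_mem (hd.orth j i hij.symm hb) (hd.orth k i hik.symm hc)) ?_
  convert h4 using 1
  simp only [refl_apply]
  qsimp
  rw [a1, b1, c1, hv1, a2, b2, c2, hab, hac, hbc, pc a2, pc b2, pc c2]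
  match_scalars
  all_goals first | ring1 | linear_combination (exp := 1) h0

omit [FiniteDimensional F V] in
theorem exists_swap [DecidableEq τ] (h : POv Y D π o) {j k : τ} (hj : j ≠ o) (hk : k ≠ o) :
    ∃ g ∈ Y, ∀ i, ∀ x ∈ D (Equiv.swap j k i), ∃ y ∈ D i, g.1 y = x := by
  obtain ⟨g, hg, h1⟩ := h.perm (Equiv.swap j k) (Equiv.swap_apply_of_ne_of_ne hj.symm hk.symm)
  exact ⟨g, hg, fun i x hx => by rwa [← h1] at hx⟩

theorem el_or (h : POv Y D π o) :
    EL Y (orth Q (D o)) ∨ ∀ v, π o v = 0 → Rf Y v → ∃ j, v ∈ D j := by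
  classical
  have hp := h.dec.proj
  have hd := h.dec.dec
  refine or_iff_not_imp_right.2 fun hc => ?_
  push Not at hc
  obtain ⟨v, ho, hr, hv⟩ := hc
  have h1 : 2 ≤ (dsupp π v).card := by
    by_contra h1
    have : Nonempty τ := ⟨o⟩
    obtain ⟨j, hj⟩ := Finset.card_le_one_iff_subset_singleton.1 (show (dsupp π v).card ≤ 1 by omega)
    exact hv j (hp.mem_iff.2 fun i hi => by_contra fun h2 =>
      hi (Finset.mem_singleton.1 (hj (mem_dsupp.2 h2))))
  suffices ∃ A, EL Y A ∧ ∀ S, Hull Y S → A ≤ S → ∀ k, k ≠ o → D k ≤ S by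
    obtain ⟨A, hA, H⟩ := this
    obtain ⟨S, h2, hS⟩ := exists_hull hA
    refine hS.1.mono fun x hx => ?_
    rw [← hp.sum x]
    refine S.sum_mem fun k _ => ?_
    rcases eq_or_ne k o with rfl | hk
    · rw [h.dec.proj_eq_zero_iff.2 hx]; exact S.zero_mem
    · exact H S hS h2 k hk (hp.mem k x)
  by_cases h2 : Fintype.card F = 2
  · obtain ⟨i, j, k, hij, hik, hjk, hi, hj, hk, H⟩ := h.exists_triple h2 h1 ho hr
    have a1 := disjoint_orth_sup (hd.nondeg i) (hd.nondeg j) (hd.orth i j hij)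
    have a2 := sup_le (hd.orth i k hik) (hd.orth j k hjk)
    have a3 := disjoint_orth_sup a1 (hd.nondeg k) a2
    have a4 := finrank_sup_of_orth (hd.nondeg k) a2
    rw [finrank_sup_of_orth (hd.nondeg j) (hd.orth i j hij), hd.rank, hd.rank, hd.rank] at a4
    have h3 := fun i {x} => (h.dec.good i).norm_eq_one h2 (x := x)
    have h0 := two_eq_zero_of_card_two h2
    refine ⟨_, el_of_refl h.dec.nondeg a3 (not_exc_of_finrank (by omega)) fun v hv hv0 => ?_,
      fun S hS hA l hl z hz => ?_⟩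
    · obtain ⟨_, hu, z, hz, rfl⟩ := Submodule.mem_sup.1 hv
      obtain ⟨x, hx, y, hy, rfl⟩ := Submodule.mem_sup.1 hu
      have h4 : ∀ {i j x y}, i ≠ j → x ∈ D i → y ∈ D j → Q (x + y) ≠ 0 → Orth.refl Q (x + y) ∈ Y :=
        fun {i j x y} hij hx hy h4 => by
          rcases eq_or_ne x 0 with rfl | hx0
          · rw [zero_add]; exact h.refl j y hy
          rcases eq_or_ne y 0 with rfl | hy0
          · rw [add_zero]; exact h.refl i x hx
          refine absurd ?_ h4
          rw [Q_add, h3 i hx hx0, h3 j hy hy0, hd.polar_eq_zero hij hx hy]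
          linear_combination h0
      rcases eq_or_ne x 0 with rfl | hx0
      · rw [zero_add] at hv0 ⊢; exact h4 hjk hy hz hv0
      rcases eq_or_ne y 0 with rfl | hy0
      · rw [add_zero] at hv0 ⊢; exact h4 hik hx hz hv0
      rcases eq_or_ne z 0 with rfl | hz0
      · rw [add_zero] at hv0 ⊢; exact h4 hij hx hy hv0
      exact (H x hx y hy z hz hx0 hy0 hz0).2
    by_cases hli : l = i
    · exact hA (Submodule.mem_sup_left (Submodule.mem_sup_left (hli ▸ hz)))
    by_cases hlj : l = j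
    · exact hA (Submodule.mem_sup_left (Submodule.mem_sup_right (hlj ▸ hz)))
    by_cases hlk : l = k
    · exact hA (Submodule.mem_sup_right (hlk ▸ hz))
    rcases eq_or_ne z 0 with rfl | hz0
    · exact S.zero_mem
    obtain ⟨g, hg, h4⟩ := h.exists_swap hk hl
    obtain ⟨x, hx, hx0⟩ := Submodule.exists_mem_ne_zero_of_ne_bot (hd.ne_bot two_pos i)
    obtain ⟨y, hy, hy0⟩ := Submodule.exists_mem_ne_zero_of_ne_bot (hd.ne_bot two_pos j)
    obtain ⟨x', hx', rfl⟩ := h4 i x (by rwa [Equiv.swap_apply_of_ne_of_ne hik (Ne.symm hli)])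
    obtain ⟨y', hy', rfl⟩ := h4 j y (by rwa [Equiv.swap_apply_of_ne_of_ne hjk (Ne.symm hlj)])
    obtain ⟨z', hz', rfl⟩ := h4 k z (by rwa [Equiv.swap_apply_left])
    have h5 := (H x' hx' y' hy' z' hz' (by simpa using hx0) (by simpa using hy0)
      (by simpa using hz0)).apply hg
    rw [map_add, map_add] at h5
    refine hS.mem_of_refl a3 hA (Submodule.mem_sup_left (Submodule.add_mem_sup hx hy)) ?_
      (le_orth_comm.1 (sup_le (sup_le (hd.orth i l (Ne.symm hli)) (hd.orth j l (Ne.symm hlj)))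
        (hd.orth k l (Ne.symm hlk))) hz) (Or.inr (by omega)) h5
    exact fun h6 => hp.add_notMem hij hx hy hx0 hy0 i (h6 ▸ zero_mem _)
  · obtain ⟨n, hn⟩ := Nat.exists_eq_add_of_le' h1
    obtain ⟨i, j, hij, hi, hj, x, hx, y, hy, hx0, hy0, H⟩ := h.exists_pair h2 n v hn ho hr
    have H := @GoodPlane.rf_pair _ _ _ _ _ _ _ _ _ _ _ (h.dec.good i) (h.dec.good j)
      (hd.orth i j hij) h2 (h.refl i) (h.refl j) _ _ hx hy hx0 hy0 H
    have a1 := disjoint_orth_sup (hd.nondeg i) (hd.nondeg j) (hd.orth i j hij)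
    have a4 := finrank_sup_of_orth (hd.nondeg j) (hd.orth i j hij)
    rw [hd.rank, hd.rank] at a4
    refine ⟨_, el_of_refl h.dec.nondeg a1 (not_exc_of_card h2) fun v hv hv0 => ?_,
      fun S hS hA l hl z hz => ?_⟩
    · obtain ⟨x, hx, y, hy, rfl⟩ := Submodule.mem_sup.1 hv
      exact (H hx hy hv0).2
    by_cases hli : l = i
    · exact hA (Submodule.mem_sup_left (hli ▸ hz))
    by_cases hlj : l = j
    · exact hA (Submodule.mem_sup_right (hlj ▸ hz))
    obtain ⟨g, hg, h4⟩ := h.exists_swap hj hl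
    obtain ⟨c, hc, hc', -⟩ := exists_avoid {0} {-Q z} ∅
      (by have := four_le_card h2 (h.dec.good i).ne_three; simp; omega)
    rw [Finset.mem_singleton] at hc hc'
    obtain ⟨x, hx, rfl⟩ := exists_norm_mem (hd.nondeg i) (hd.rank i).ge c
    obtain ⟨x', hx', rfl⟩ := h4 i x (by rwa [Equiv.swap_apply_of_ne_of_ne hij (Ne.symm hli)])
    obtain ⟨z', hz', rfl⟩ := h4 j z (by rwa [Equiv.swap_apply_left])
    have h5 := (H hx' hz' fun h5 => hc' (by
      rw [Q_add, hd.polar_eq_zero hij hx' hz'] at h5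
      rw [O_map, O_map]
      linear_combination h5)).apply hg
    rw [map_add] at h5
    exact hS.mem_of_refl a1 hA (Submodule.mem_sup_left hx) (fun h6 => hc (by rw [h6, map_zero]))
      (le_orth_comm.1 (sup_le (hd.orth i l (Ne.symm hli)) (hd.orth j l (Ne.symm hlj))) hz)
      (Or.inl ⟨hc, by omega⟩) h5

end POv

end Cfsg.Lib.Class.OMax
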