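import Cfsg.Agent.Class.OPlaneRefl

/-!
Rotations of good planes.
-/

set_option autoImplicit false

namespace Cfsg.Lib.Class.OMax

open QuadraticMap Module Orth

variable {F V : Type*} [Field F] [AddCommGroup V] [Module F V] {Q : QuadraticForm F V}
  {X : Subgroup (O Q)} {A B W : Submodule F V}

/-- `refl a * refl b` is a rotation of `W` in `Ω` of order at least three. -/
structure Rot (Q : QuadraticForm F V) (W : Submodule F V) (a b : V) : Prop where
  nondeg : Disjoint W (orth Q W)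
  span : Submodule.span F {a, b} = W
  ne : Q a ≠ 0
  eq : Q b = Q a
  pol : polar Q a b ≠ 0
  ind : a ∉ Submodule.span F {b}

namespace Rot

variable {a b : V}

theorem left (h : Rot Q W a b) : a ∈ W := h.span ▸ Submodule.subset_span (by simp)

theorem right (h : Rot Q W a b) : b ∈ W := h.span ▸ Submodule.subset_span (by simp)

theorem map (h : Rot Q W a b) (g : O Q) : Rot Q (W.map g.1.toLinearMap) (g.1 a) (g.1 b) := by
  refine ⟨disjoint_orth_map h.nondeg g, by rw [← h.span, Submodule.map_span, Set.image_pair]; rfl,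
    by rw [O_map]; exact h.ne, by rw [O_map, O_map, h.eq], by rw [O_polar]; exact h.pol,
    fun h1 => h.ind ?_⟩
  obtain ⟨c, hc⟩ := Submodule.mem_span_singleton.1 h1
  exact Submodule.mem_span_singleton.2 ⟨c, g.1.injective (by rw [map_smul, hc])⟩

theorem sub_mem (h : Rot Q W a b) (x : V) : (refl Q a * refl Q b).1 x - x ∈ W := by
  rw [O_mul_apply, refl_apply, refl_apply, sub_sub _ (_ • b), sub_sub_cancel_left]
  exact W.neg_mem (W.add_mem (W.smul_mem _ h.right) (W.smul_mem _ h.left))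

theorem apply_of_orth (h : Rot Q W a b) {x : V} (hx : x ∈ orth Q W) :
    (refl Q a * refl Q b).1 x = x := by
  rw [O_mul_apply, refl_apply_of_orth (mem_orth'.1 hx b h.right),
    refl_apply_of_orth (mem_orth'.1 hx a h.left)]

theorem mem_orth_of_fix (h : Rot Q W a b) {x : V} (hx : (refl Q a * refl Q b).1 x = x) :
    x ∈ orth Q W := by
  have h1 := congrArg (refl Q a).1 hx
  rw [O_mul_apply, refl_refl_apply, refl_apply, refl_apply, sub_right_inj] at h1
  have h2 : polar Q x a = 0 := by_contra fun h2 => h.ind ((Submodule.smul_mem_iff _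
    (mul_ne_zero (inv_ne_zero h.ne) h2)).1 (h1 ▸ Submodule.smul_mem _ _
      (Submodule.mem_span_singleton_self b)))
  rw [h2, mul_zero, zero_smul, smul_eq_zero, mul_eq_zero, inv_eq_zero, h.eq] at h1
  rw [← h.span, mem_orth_pair]
  exact ⟨pc h2, pc ((h1.resolve_right fun h3 => h.pol (by simp [h3])).resolve_left h.ne)⟩

theorem eq_zero_of_smul (h : Rot Q W a b) {x : V} (hx : x ∈ W) {c : F} (hc : c ^ 2 = 1)
    (h1 : (refl Q a * refl Q b).1 x = c • x) : x = 0 := by
  refine Submodule.disjoint_def.1 h.nondeg x hx ?_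
  rcases sq_eq_one_iff.1 hc with rfl | rfl
  · exact h.mem_orth_of_fix (by rwa [one_smul] at h1)
  have h2 := congrArg (refl Q a).1 h1
  rw [O_mul_apply, refl_refl_apply, refl_apply, map_smul, refl_apply] at h2
  have h3 := congrArg (polar Q a) h2
  have h4 := congrArg (polar Q b) h2
  qsimp_at h3
  qsimp_at h4
  have := h.ne
  rw [h.eq] at h3 h4
  rw [polar_comm Q b a] at h4
  rw [← h.span, mem_orth_pair]
  field_simp at h3 h4
  rw [polar_comm Q x a] at h3 h4
  rw [polar_comm Q x b] at h3 h4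
  exact ⟨mul_right_cancel₀ h.pol (by linear_combination -h4),
    mul_right_cancel₀ h.pol (by linear_combination -h3)⟩

end Rot

theorem four_refl_mem [FiniteDimensional F V] [Finite F] (hQ : (polarBilin Q).Nondegenerate)
    {a a' b b' : V} (ha : Q a ≠ 0) (ha' : Q a' = -Q a) (hb : Q b ≠ 0) (hb' : Q b' = -Q b) :
    refl Q a * refl Q a' * (refl Q b * refl Q b') ∈ commutator (O Q) := by
  have h0 : ∀ v, Abelianization.of (refl Q v) * Abelianization.of (refl Q v) = 1 := fun v => by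
    rw [← map_mul, refl_mul_self, map_one]
  have h1 : Q a' ≠ 0 := by rw [ha']; exact neg_ne_zero.2 ha
  rw [← Abelianization.ker_of, MonoidHom.mem_ker, map_mul, map_mul, map_mul]
  by_cases h2 : IsSquare (Q a) ↔ IsSquare (Q b)
  · obtain ⟨t, ht, h2⟩ := exists_sq_mul_of_isSquare_iff ha hb h2
    rw [map_refl_eq hQ _ ha ht h2, map_refl_eq hQ _ h1 ht (b := b') (by rw [hb', ha', h2]; ring),
      mul_mul_mul_comm, h0, h0, one_mul]
  by_cases h3 : IsSquare (Q a) ↔ IsSquare (Q a')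
  · obtain ⟨t, ht, h3⟩ := exists_sq_mul_of_isSquare_iff ha h1 h3
    rw [map_refl_eq hQ _ ha ht h3, map_refl_eq hQ _ hb ht (b := b') (by
      rw [hb', show t ^ 2 = -1 from mul_right_cancel₀ ha (by rw [← h3, ha']; ring)]; ring),
      h0, h0, one_mul]
  · obtain ⟨t, ht, h4⟩ := exists_sq_mul_of_isSquare_iff h1 hb (by tauto)
    rw [map_refl_eq hQ _ h1 ht h4, map_refl_eq hQ _ ha ht (b := b') (by rw [hb', h4, ha']; ring),
      mul_assoc, ← mul_assoc (Abelianization.of (refl Q b)), h0, one_mul, h0]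

variable [Fintype F]

theorem mem_of_sq_mem (h : ¬ IsSquare (-1 : F)) (L : Subring F) {x : F} (hx : x ^ 2 ∈ L) :
    x ∈ L := by
  rcases eq_or_ne x 0 with rfl | h0
  · exact L.zero_mem
  rw [FiniteField.isSquare_neg_one_iff, not_not] at h
  have h1 := FiniteField.pow_card_sub_one_eq_one x h0
  have h2 := L.pow_mem hx (Fintype.card F / 4 + 1)
  rw [show Fintype.card F - 1 = (2 * (Fintype.card F / 4) + 1) * 2 by omega, pow_mul] at h1
  rw [← pow_mul, show 2 * (Fintype.card F / 4 + 1) = 2 * (Fintype.card F / 4) + 1 + 1 by ring,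
    pow_succ] at h2
  rcases sq_eq_one_iff.1 h1 with h3 | h3 <;> rw [h3] at h2 <;> simpa using h2

theorem inv_mem_subring (L : Subring F) {x : F} (hx : x ∈ L) : x⁻¹ ∈ L := by
  rcases eq_or_ne x 0 with rfl | h0
  · simp
  have h1 := FiniteField.pow_card_sub_one_eq_one x h0
  have := Fintype.one_lt_card (α := F)
  rw [show Fintype.card F - 1 = Fintype.card F - 2 + 1 by omega, pow_succ] at h1
  exact eq_inv_of_mul_eq_one_left h1 ▸ L.pow_mem hx _

variable [FiniteDimensional F V]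

namespace GoodPlane

theorem exists_rot (h : GoodPlane Q W) : ∃ a b, Rot Q W a b := by
  obtain ⟨a, ha, h1⟩ := exists_norm_mem h.nondeg h.rank.ge 1
  obtain ⟨b, hb, hb0, hab⟩ := h.exists_perp ha (h1 ▸ one_ne_zero)
  obtain ⟨z, hz, haz⟩ := exists_polar_eq h.nondeg ha (by rintro rfl; simp at h1) 1
  have h3 : ∀ c : F, polar Q a (z + c • b) = 1 := fun c => by qsimp; rw [haz, hab]; ring
  have h4 : ∀ c : F, Q (z + c • b) = Q b * c ^ 2 + polar Q z b * c + Q z := fun c => by qsimp; ring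
  have h5 : ∀ c : F, z + c • b ∈ W := fun c => W.add_mem hz (W.smul_mem c hb)
  have h6 : ∀ n : F, (qr (n * Q b) (n * polar Q z b) (n * Q z - 1)).card ≤ 2 := fun n =>
    card_qr (by by_cases hn : n = 0 <;> simp [hn, hb0])
  obtain ⟨c, h7, h8, h9⟩ : ∃ c : F, Q (z + c • b) ≠ 0 ∧ 2 * Q (z + c • b) ≠ 1 ∧
      4 * Q (z + c • b) ≠ 1 := by
    have h7 : ∀ {n c : F}, c ∉ qr (n * Q b) (n * polar Q z b) (n * Q z - 1) →
        n * Q (z + c • b) ≠ 1 := fun hc h => hc (mem_qr.2 (by rw [h4] at h; linear_combination h))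
    rcases h.aniso_or with h8 | ⟨h8, -⟩
    · have h9 : ∀ c : F, Q (z + c • b) ≠ 0 := fun c h => by simpa [h8 _ (h5 c) h] using h3 c
      by_cases h2 : (2 : F) = 0
      · exact ⟨0, h9 0, by simp [h2], by simp [show (4 : F) = 0 by linear_combination 2 * h2]⟩
      obtain ⟨c, hc, hc', -⟩ := exists_avoid (qr (2 * Q b) (2 * polar Q z b) (2 * Q z - 1))
          (qr (4 * Q b) (4 * polar Q z b) (4 * Q z - 1)) ∅ (by
        have := four_le_card (fun h => h2 (two_eq_zero_of_card_two h)) h.ne_three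
        have : Fintype.card F ≠ 4 := fun h => h2 (pow_eq_zero_iff (n := 2) (by simp) |>.1 (by
          have := natCast_card_eq_zero h; push_cast at this; linear_combination this))
        have := h6 2
        have := h6 4
        rw [Finset.card_empty]
        omega)
      exact ⟨c, h9 c, h7 hc, h7 hc'⟩
    · obtain ⟨c, hc, hc', hc''⟩ := exists_avoid (qr (2 * Q b) (2 * polar Q z b) (2 * Q z - 1))
          (qr (4 * Q b) (4 * polar Q z b) (4 * Q z - 1)) (qr (Q b) (polar Q z b) (Q z)) (by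
        have := card_qr (b := polar Q z b) (c := Q z) (Or.inl hb0)
        have := h6 2
        have := h6 4
        omega)
      exact ⟨c, fun h => hc'' (mem_qr.2 (h4 c ▸ h)), h7 hc, h7 hc'⟩
  have h10 := h3 c
  have h11 := h5 c
  generalize z + c • b = y at *
  have h12 : (refl Q y).1 a = a - (Q y)⁻¹ • y := by rw [refl_apply, h10, mul_one]
  have h13 : (refl Q y).1 a ∈ W := h12 ▸ W.sub_mem ha (W.smul_mem _ h11)
  have h14 : (refl Q y).1 a ∉ Submodule.span F {a} := fun h14 => h9 (by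
    rw [h12, Submodule.sub_mem_iff_right _ (Submodule.mem_span_singleton_self a),
      Submodule.smul_mem_iff _ (inv_ne_zero h7)] at h14
    obtain ⟨s, rfl⟩ := Submodule.mem_span_singleton.1 h14
    qsimp_at h10
    rw [h1] at h10
    rw [Q_smul, h1]
    linear_combination (2 * s + 1) * h10)
  refine ⟨_, a, h.nondeg, span_pair_eq h.rank h13 ha (by rintro rfl; simp at h1) h14,
    by rw [O_map, h1]; exact one_ne_zero, (O_map _ _).symm, fun h15 => h8 ?_, h14⟩
  rw [h12] at h15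
  qsimp_at h15
  rw [h1, pc h10] at h15
  field_simp at h15
  linear_combination h15

theorem exists_pair_aniso (hA : GoodPlane Q A) (hB : GoodPlane Q B)
    (h1 : ∀ p ∈ A, Q p = 0 → p = 0) (h2 : ∀ p ∈ B, Q p = 0 → p = 0) {x y : V} (hx : x ∈ A)
    (hy : y ∈ B) (hx0 : Q x ≠ 0) (hy0 : Q y ≠ 0) :
    ∃ a ∈ A, ∃ b ∈ B, Q a ≠ 0 ∧ Q b = -Q a ∧ polar Q x a ≠ 0 ∧ polar Q y b = -polar Q x a := by
  classical
  have key : ∀ {A x} (e : F), GoodPlane Q A → (∀ p ∈ A, Q p = 0 → p = 0) → x ∈ A → Q x ≠ 0 →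
      e ≠ 0 → ∃ I : Finset F, Fintype.card F ≤ 2 * I.card ∧
        ∀ c ∈ I, c ≠ 0 ∧ ∃ a ∈ A, polar Q x a = e ∧ c = e * Q a := fun {A x} e hA h1 hx hx0 he => by
    obtain ⟨b, hb, hb0, hxb⟩ := hA.exists_perp hx hx0
    obtain ⟨z, hz, hxz⟩ := exists_polar_eq hA.nondeg hx (by rintro rfl; simp at hx0) e
    refine ⟨Finset.univ.image fun c : F => e * Q (z + c • b),
      Finset.card_le_mul_card_image _ 2 fun c _ => (Finset.card_le_card fun d hd => mem_qr.2 ?_).trans
        (card_qr (b := e * polar Q z b) (c := e * Q z - c) (Or.inl (mul_ne_zero he hb0))),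
      fun c hc => ?_⟩
    · have h3 := (Finset.mem_filter.1 hd).2
      qsimp_at h3
      linear_combination h3
    obtain ⟨c, -, rfl⟩ := Finset.mem_image.1 hc
    have h3 : polar Q x (z + c • b) = e := by qsimp; rw [hxz, hxb]; ring
    have h4 := A.add_mem hz (A.smul_mem c hb)
    exact ⟨mul_ne_zero he fun h => he (by rw [← h3, h1 _ h4 h, polar_zero_right]), _, h4, h3, rfl⟩
  obtain ⟨I, h3, h4⟩ := key 1 hA h1 hx hx0 one_ne_zero
  obtain ⟨J, h5, h6⟩ := key (-1) hB h2 hy hy0 (neg_ne_zero.2 one_ne_zero)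
  obtain ⟨c, hc, hc'⟩ := Finset.not_disjoint_iff.1 fun hd : Disjoint I J => by
    have h7 := Finset.card_le_card (show I ∪ J ⊆ Finset.univ.erase 0 from fun c hc => by
      rcases Finset.mem_union.1 hc with hc | hc
      · simpa using (h4 c hc).1
      · simpa using (h6 c hc).1)
    rw [Finset.card_union_of_disjoint hd, Finset.card_erase_of_mem (Finset.mem_univ _),
      Finset.card_univ] at h7
    have := Fintype.one_lt_card (α := F)
    omega
  obtain ⟨h7, a, ha, h8, rfl⟩ := h4 c hc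
  obtain ⟨-, b, hb, h9, h10⟩ := h6 _ hc'
  exact ⟨a, ha, b, hb, by simpa using h7, by linear_combination h10, by rw [h8]; simp,
    by rw [h8, h9]⟩

theorem exists_pair_plus (hA : GoodPlane Q A) (hB : GoodPlane Q B) (h7 : 7 ≤ Fintype.card F)
    (h1 : ∃ e ∈ A, ∃ f ∈ A, Q e = 0 ∧ Q f = 0 ∧ polar Q e f = 1)
    (h2 : ∃ e ∈ B, ∃ f ∈ B, Q e = 0 ∧ Q f = 0 ∧ polar Q e f = 1) {x y : V} (hx : x ∈ A)
    (hy : y ∈ B) (hx0 : Q x ≠ 0) (hy0 : Q y ≠ 0) :
    ∃ a ∈ A, ∃ b ∈ B, Q a ≠ 0 ∧ Q b = -Q a ∧ polar Q x a ≠ 0 ∧ polar Q y b = -polar Q x a := by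
  obtain ⟨e, he, f, hf, he0, hf0, hef⟩ := h1
  obtain ⟨e', he', f', hf', he0', hf0', hef'⟩ := h2
  obtain ⟨s, t, rfl⟩ := eq_hyp_of_finrank_two hA.rank.le he hf he0 hef hx
  obtain ⟨s', t', rfl⟩ := eq_hyp_of_finrank_two hB.rank.le he' hf' he0' hef' hy
  qsimp_at hx0
  qsimp_at hy0
  simp only [he0, hf0, hef, he0', hf0', hef', mul_zero, zero_add, mul_one, mul_ne_zero_iff]
    at hx0 hy0
  have h3 := mul_ne_zero hx0.2 hy0.1
  obtain ⟨c, h4, h5, h6⟩ := exists_avoid {0} (qr (s * t') (s * t - s' * t') (-(s' * t)))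
    (qr (s * t') 0 (s' * t)) (by
      have := card_qr (b := s * t - s' * t') (c := -(s' * t)) (Or.inl h3)
      have := card_qr (b := 0) (c := s' * t) (Or.inl h3)
      rw [Finset.card_singleton]; omega)
  rw [Finset.mem_singleton] at h4
  rw [mem_qr] at h5 h6
  have h8 : s * c - s' ≠ 0 := fun h => h5 (by linear_combination (t + t' * c) * h)
  have h9 : t + t' * c ≠ 0 := fun h => h5 (by linear_combination (s * c - s') * h)
  have h10 := div_mul_cancel₀ (t + t' * c) h8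
  have h11 := div_ne_zero h9 h8
  generalize (t + t' * c) / (s * c - s') = k at h10 h11
  refine ⟨e - (c * k) • f, A.sub_mem he (A.smul_mem _ hf), c • e' + k • f',
    B.add_mem (B.smul_mem _ he') (B.smul_mem _ hf'), ?_, ?_, fun h => h6 ?_, ?_⟩
  · qsimp; rw [he0, hf0, hef]; simp [h4, h11]
  · qsimp; rw [he0, hf0, hef, he0', hf0', hef']; ring
  · qsimp_at h
    rw [he0, hf0, hef, pc hef] at h
    linear_combination (s' - s * c) * h - s * c * h10
  · qsimp; rw [he0, hf0, hef, pc hef, he0', hf0', hef', pc hef']; linear_combination -h10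

theorem eich_mem_of_not_isSquare (h : GoodPlane Q W) (h1 : ¬ IsSquare (-1 : F))
    (ha : ∀ p ∈ W, Q p = 0 → p = 0)
    (hT : ∀ a ∈ W, ∀ b ∈ W, Q a ≠ 0 → ∀ t ≠ (0 : F), Q b = t ^ 2 * Q a → refl Q a * refl Q b ∈ X)
    {p w : V} (hp : p ∈ orth Q W) (hp0 : Q p = 0) (hw : w ∈ W) (hw0 : w ≠ 0) (hX : eich Q p w ∈ X)
    {y : V} (hy : y ∈ W) : eich Q p y ∈ X := by
  have h2 : (2 : F) ≠ 0 := fun h2 => h1 (isSquare_of_char_two h2 _)
  have h3 : ∀ w ∈ W, polar Q p w = 0 := mem_orth'.1 hp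
  have h4 : ∀ a ∈ W, ∀ b ∈ W, refl Q a * refl Q b ∈ X → ∀ w, eich Q p w ∈ X →
      eich Q p ((refl Q a * refl Q b).1 w) ∈ X := fun a ha b hb h4 w hw => by
    have := X.mul_mem (X.mul_mem h4 hw) (X.inv_mem h4)
    rwa [conj_eich, O_mul_apply, refl_apply_of_orth (h3 b hb), refl_apply_of_orth (h3 a ha)] at this
  have h5 : ∀ w ∈ W, ∀ w' ∈ W, eich Q p w ∈ X → eich Q p w' ∈ X → eich Q p (w + w') ∈ X :=
    fun w hw w' hw' h5 h6 => eich_add hp0 (h3 w hw) (h3 w' hw') ▸ X.mul_mem h5 h6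
  let L : Subring F :=
    { carrier := {c | ∀ w ∈ W, eich Q p w ∈ X → eich Q p (c • w) ∈ X}
      mul_mem' := fun hc hd w hw h => by
        rw [mul_smul]; exact hc _ (W.smul_mem _ hw) (hd w hw h)
      one_mem' := fun w _ h => by rwa [one_smul]
      add_mem' := fun hc hd w hw h => by
        rw [add_smul]; exact h5 _ (W.smul_mem _ hw) _ (W.smul_mem _ hw) (hc w hw h) (hd w hw h)
      zero_mem' := fun w _ _ => by simp
      neg_mem' := fun hc w hw h => by rw [neg_smul, eich_neg]; exact X.inv_mem (hc w hw h) }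
  obtain ⟨a, haW, a1⟩ := exists_norm_mem h.nondeg h.rank.ge 1
  obtain ⟨b, hb, hab, b1⟩ : ∃ b ∈ W, polar Q a b = 0 ∧ Q b = 1 := by
    obtain ⟨b, hb, hb0, hab⟩ := h.exists_perp haW (a1 ▸ one_ne_zero)
    by_cases h6 : IsSquare (Q b)
    · obtain ⟨t, ht⟩ := h6
      have ht0 : t ≠ 0 := by rintro rfl; simp [ht] at hb0
      exact ⟨t⁻¹ • b, W.smul_mem _ hb, by qsimp; rw [hab, mul_zero],
        by rw [Q_smul, ht]; field_simp⟩
    · obtain ⟨t, -, h7⟩ := exists_sq_mul_of_isSquare_iff (neg_ne_zero.2 one_ne_zero) hb0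
        (iff_of_false h1 h6)
      have h8 := congrArg (polar Q b) (ha _ (W.add_mem hb (W.smul_mem t haW))
        (by qsimp; rw [pc hab, h7, a1]; ring))
      qsimp_at h8
      rw [pc hab, mul_zero, add_zero] at h8
      exact absurd h8 (mul_ne_zero h2 hb0)
  have h6 : Submodule.span F {a, b} = W := span_pair_eq h.rank haW hb (by rintro rfl; simp at b1)
    fun h6 => by
      obtain ⟨s, rfl⟩ := Submodule.mem_span_singleton.1 h6
      qsimp_at hab
      rw [b1, mul_one, mul_eq_zero, or_iff_left h2] at hab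
      simp [hab] at a1
  have h7 : ∀ c, c ∈ L := fun c => by
    have h7 : 1 + c ^ 2 ≠ 0 := fun h7 => h1 ⟨c, by linear_combination -h7⟩
    have h8 : (1 - c ^ 2) • a + (2 * c) • b ∈ W := W.add_mem (W.smul_mem _ haW) (W.smul_mem _ hb)
    have h9 : Q ((1 - c ^ 2) • a + (2 * c) • b) = (1 + c ^ 2) ^ 2 := by
      qsimp; rw [a1, b1, hab]; ring
    have h10 := hT a haW _ h8 (a1 ▸ one_ne_zero) _ h7 (by rw [h9, a1, mul_one])
    have h11 : (2 * ((1 - c ^ 2) / (1 + c ^ 2))) ^ 2 - 2 ∈ L := fun w hw hX => by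
      have h11 := X.inv_mem h10
      rw [mul_inv_rev, refl_inv, refl_inv] at h11
      have h12 := fun g : O Q => (mem_stab (g := g) (W := W)).1
      convert h5 _ ((h12 _ (Subgroup.mul_mem _ (refl_mem_stab haW) (refl_mem_stab h8)) w).1 hw) _
        ((h12 _ (Subgroup.mul_mem _ (refl_mem_stab h8) (refl_mem_stab haW)) w).1 hw)
        (h4 _ haW _ h8 h10 w hX) (h4 _ h8 _ haW h11 w hX) using 2
      obtain ⟨s, t, rfl⟩ := Submodule.mem_span_pair.1 (h6 ▸ hw)
      simp only [O_mul_apply, refl_apply, h9]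
      qsimp
      rw [a1, b1, hab, pc hab]
      match_scalars <;> field_simp <;> ring
    have h12 : (2 : F) ∈ L := ofNat_mem L 2
    have h13 := L.mul_mem (inv_mem_subring L h12)
      (mem_of_sq_mem h1 L (by simpa using L.add_mem h11 h12))
    refine mem_of_sq_mem h1 L ?_
    convert L.sub_mem (L.mul_mem h12 (inv_mem_subring L (L.add_mem L.one_mem h13))) L.one_mem using 1
    rw [show 1 + 2⁻¹ * (2 * ((1 - c ^ 2) / (1 + c ^ 2))) = 2 / (1 + c ^ 2) by field_simp; ring]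
    field_simp
    ring
  obtain ⟨r, r', hr⟩ := h.exists_rot
  have h8 : (refl Q r * refl Q r').1 w ∈ W := by simpa using W.add_mem (hr.sub_mem w) hw
  obtain ⟨s, t, rfl⟩ := Submodule.mem_span_pair.1 ((span_pair_eq h.rank h8 hw hw0 fun h9 => by
    obtain ⟨c, hc⟩ := Submodule.mem_span_singleton.1 h9
    refine hw0 (hr.eq_zero_of_smul hw (mul_right_cancel₀ (fun h => hw0 (ha w hw h)) ?_) hc.symm)
    rw [← Q_smul, hc, O_map, one_mul]) ▸ hy)
  exact h5 _ (W.smul_mem _ h8) _ (W.smul_mem _ hw) (h7 s _ h8 (h4 _ hr.left _ hr.right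
    (hT _ hr.left _ hr.right hr.ne 1 one_ne_zero (by rw [hr.eq]; ring)) w hX)) (h7 t _ hw hX)

theorem exists_neg_pair (h : GoodPlane Q W)
    (hT : ∀ a ∈ W, ∀ b ∈ W, Q a ≠ 0 → ∀ t ≠ (0 : F), Q b = t ^ 2 * Q a → refl Q a * refl Q b ∈ X)
    {p w : V} (hp : p ∈ orth Q W) (hp0 : Q p = 0) (hw : w ∈ W) (hw0 : w ≠ 0) (hX : eich Q p w ∈ X) :
    ∃ b ∈ W, ∃ b' ∈ W, Q b ≠ 0 ∧ Q b' = -Q b ∧ eich Q p ((refl Q b * refl Q b').1 w) ∈ X := by
  rcases h.aniso_or with ha | ⟨-, e, he, f, hf, he0, hf0, hef⟩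
  · obtain ⟨b, hb, h1⟩ := exists_norm_mem h.nondeg h.rank.ge 1
    by_cases h2 : IsSquare (-1 : F)
    · obtain ⟨t, ht⟩ := h2
      refine ⟨b, hb, t • b, W.smul_mem _ hb, h1 ▸ one_ne_zero, by rw [Q_smul, pow_two, ← ht]; ring, ?_⟩
      rwa [refl_smul (by rintro rfl; simp at ht), refl_mul_self]
    · obtain ⟨b', hb', h3⟩ := exists_norm_mem h.nondeg h.rank.ge (-1)
      exact ⟨b, hb, b', hb', h1 ▸ one_ne_zero, by rw [h1, h3], h.eich_mem_of_not_isSquare h2 ha hT
        hp hp0 hw hw0 hX ((Subgroup.mul_mem _ (refl_mem_stab hb) (refl_mem_stab hb') w).1 hw)⟩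
  · have h1 : Q (e + f) = 1 := by qsimp; rw [he0, hf0, hef]; ring
    have h2 : Q (e - f) = -1 := by qsimp; rw [he0, hf0, hef]; ring
    refine ⟨e + f, W.add_mem he hf, e - f, W.sub_mem he hf, h1 ▸ one_ne_zero, by rw [h1, h2], ?_⟩
    rw [show (refl Q (e + f) * refl Q (e - f)).1 w = -w from ?_, eich_neg]
    · exact X.inv_mem hX
    obtain ⟨s, t, rfl⟩ := eq_hyp_of_finrank_two h.rank.le he hf he0 hef hw
    simp only [O_mul_apply, refl_apply, h1, h2]
    qsimp
    rw [he0, hf0, hef, pc hef]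
    match_scalars <;> field_simp <;> ring

end GoodPlane

end Cfsg.Lib.Class.OMax
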