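import Cfsg.Agent.Class.OMaxSub

/-!
Rational structures (over a subfield) on quadratic spaces, and two general facts on Eichler
transformations: transitivity on singular points and generation by long root elements.
-/

set_option autoImplicit false

namespace Cfsg.Lib.Class.OMax

open QuadraticMap Module Orth

variable {F V : Type*} [Field F] [AddCommGroup V] [Module F V] {Q : QuadraticForm F V}

section General

variable {S : Submodule F V}

theorem singular_step {P : V → Prop} (hs : ∀ (c : F) x, c ≠ 0 → P x → P (c • x))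
    (he : ∀ p ∈ S, ∀ w ∈ S, ∀ x, P x → P ((eich Q p w).1 x)) {e f p : V} (heS : e ∈ S)
    (hf : f ∈ S) (hp : p ∈ S) (he0 : Q e = 0) (hf0 : Q f = 0) (hp0 : Q p = 0)
    (hef : polar Q e f ≠ 0) (hep : polar Q e p ≠ 0) (h2 : P f) : P p := by
  set c := polar Q e f * (polar Q e p)⁻¹ with hc
  have hc0 : c ≠ 0 := mul_ne_zero hef (inv_ne_zero hep)
  obtain ⟨-, h4⟩ := eich_apply_eq (p := e) (x := f) (y := c • p) he0 (by rw [Q_smul, hp0, hf0]; simp)
    (by rw [polar_smul_right', hc]; field_simp) hef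
  have := hs c⁻¹ _ (inv_ne_zero hc0) (he e heS _ (S.smul_mem (polar Q e f)⁻¹
    (S.sub_mem hf (S.smul_mem c hp))) f h2)
  rwa [h4, smul_smul, inv_mul_cancel₀ hc0, one_smul] at this

/-- The Eichler transformations of `S` are transitive on the non-radical singular points. -/
theorem singular_induction (hS : Tri Q S) {P : V → Prop}
    (hs : ∀ (c : F) x, c ≠ 0 → P x → P (c • x))
    (he : ∀ p ∈ S, ∀ w ∈ S, ∀ x, P x → P ((eich Q p w).1 x)) {a x : V} (ha : a ∈ S) (hx : x ∈ S)
    (ha0 : Q a = 0) (hax : polar Q a x ≠ 0) (hPa : P a) {p y : V} (hp : p ∈ S) (hy : y ∈ S)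
    (hp0 : Q p = 0) (hpy : polar Q p y ≠ 0) : P p := by
  obtain ⟨f, hf, w, hw, h1⟩ := hS.exists_eich_ne ha hx ha0 hax
  have hb := he f hf w hw a hPa
  have hbS : (eich Q f w).1 a ∈ S := eich_apply_mem le_rfl hf hw ha
  have hb0 : Q ((eich Q f w).1 a) = 0 := by rw [O_map, ha0]
  generalize (eich Q f w).1 a = b at h1 hb hbS hb0
  by_cases hap : polar Q a p = 0
  swap
  · exact singular_step hs he ha hbS hp ha0 hb0 hp0 h1 hap hb
  by_cases hbp : polar Q b p = 0
  swap
  · exact singular_step hs he hbS ha hp hb0 ha0 hp0 (pc' h1) hbp hPa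
  have hab : polar Q a ((polar Q a b)⁻¹ • b) = 1 := by rw [polar_smul_right', inv_mul_cancel₀ h1]
  have hb0' : Q ((polar Q a b)⁻¹ • b) = 0 := by rw [Q_smul, hb0, mul_zero]
  have hbS' := S.smul_mem (polar Q a b)⁻¹ hbS
  have hbp' : polar Q ((polar Q a b)⁻¹ • b) p = 0 := by rw [polar_smul_left', hbp, mul_zero]
  have hb' := hs _ _ (inv_ne_zero h1) hb
  generalize (polar Q a b)⁻¹ • b = b' at hab hb0' hbS' hbp' hb'
  obtain ⟨h3, h4⟩ := hyp_proj_orth ha0 hb0' hab y
  set u := y - polar Q b' y • a - polar Q a y • b' with hu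
  have huS : u ∈ S := S.sub_mem (S.sub_mem hy (S.smul_mem _ ha)) (S.smul_mem _ hbS')
  have hz0 : Q (u + a - Q u • b') = 0 := by
    qsimp; rw [ha0, hb0', pc h3, pc h4, hab]; ring
  have hzS : u + a - Q u • b' ∈ S := S.sub_mem (S.add_mem huS ha) (S.smul_mem _ hbS')
  have hzb : polar Q b' (u + a - Q u • b') ≠ 0 := by
    qsimp; rw [h4, pc hab, hb0']; simp
  have hzp : polar Q (u + a - Q u • b') p ≠ 0 := by
    rw [hu]; qsimp; rw [hap, hbp']; simpa using pc' hpy
  exact singular_step hs he hzS hbS' hp hz0 hb0' hp0 (pc' hzb) hzp hb'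

theorem isHyp_castLE {m n : ℕ} (h : m ≤ n) {e f : Fin n → V} (H : Known.IsHyp Q e f) :
    Known.IsHyp Q (e ∘ Fin.castLE h) (f ∘ Fin.castLE h) :=
  ⟨fun _ => H.qe _, fun _ => H.qf _, fun _ _ => H.ee _ _, fun _ _ => H.ff _ _, fun i j => by
    simp [H.ef, Fin.ext_iff]⟩

theorem exists_isHyp_of_le [FiniteDimensional F V] [Finite F] (hQ : (polarBilin Q).Nondegenerate)
    {m : ℕ} (h : 2 * m + 1 ≤ finrank F V) : ∃ e f : Fin m → V, Known.IsHyp Q e f := by
  obtain ⟨n, e, f, H, han⟩ := Known.exists_isHyp_anisotropic hQ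
  have h1 := H.finrank_perp
  have h2 := Known.finrank_le_two_of_anisotropic (Q.restrict (Known.hypPerp Q e f))
    fun v hv => Subtype.ext (han v v.2 hv)
  rw [Fintype.card_fin] at h1
  exact ⟨_, _, isHyp_castLE (show m ≤ n by omega) H⟩

end General

/-- A rational structure over the subfield `k`. -/
structure RatStr (Q : QuadraticForm F V) (k : Subfield F) (R : Submodule k V) : Prop where
  span : Submodule.span F (R : Set V) = ⊤
  val : ∀ x ∈ R, Q x ∈ k

/-- The semilinear stabiliser: maps preserving `R` up to a scalar. -/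
def ratStab {k : Subfield F} (R : Submodule k V) : Subgroup (V ≃ₗ[F] V) where
  carrier := {g | ∃ c : F, c ≠ 0 ∧ ∀ x, x ∈ R ↔ c • g x ∈ R}
  mul_mem' := by
    rintro a b ⟨c, hc, ha⟩ ⟨d, hd, hb⟩
    refine ⟨c * d, mul_ne_zero hc hd, fun x => (hb x).trans ((ha _).trans ?_)⟩
    rw [map_smul, smul_smul]; rfl
  one_mem' := ⟨1, one_ne_zero, fun x => by simp⟩
  inv_mem' := by
    rintro a ⟨c, hc, ha⟩
    refine ⟨c⁻¹, inv_ne_zero hc, fun x => ?_⟩
    rw [ha (c⁻¹ • a⁻¹ x), map_smul, smul_smul, mul_inv_cancel₀ hc, one_smul]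
    simp

theorem smul_mem_of_mem {k : Subfield F} {R : Submodule k V} {c : F} (hc : c ∈ k) {x : V}
    (hx : x ∈ R) : c • x ∈ R := R.smul_mem (⟨c, hc⟩ : k) hx

theorem mem_ratStab_of_forall [Finite V] {k : Subfield F} {R : Submodule k V} {g : V ≃ₗ[F] V}
    {c : F} (hc : c ≠ 0) (h : ∀ x ∈ R, c • g x ∈ R) : g ∈ ratStab R := by
  refine ⟨c, hc, fun x => ⟨h x, fun hx => ?_⟩⟩
  let φ : R → R := fun y => ⟨c • g y, h y y.2⟩
  have hφ : Function.Injective φ := fun y z hyz =>
    Subtype.ext (g.injective (smul_right_injective V hc (congrArg Subtype.val hyz)))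
  obtain ⟨y, hy⟩ := Finite.surjective_of_injective hφ ⟨_, hx⟩
  have : (y : V) = x := g.injective (smul_right_injective V hc (congrArg Subtype.val hy))
  exact this ▸ y.2

namespace RatStr

variable {k : Subfield F} {R : Submodule k V}

theorem polar_mem (h : RatStr Q k R) {x y : V} (hx : x ∈ R) (hy : y ∈ R) : polar Q x y ∈ k :=
  k.sub_mem (k.sub_mem (h.val _ (R.add_mem hx hy)) (h.val _ hx)) (h.val _ hy)

/-- The form over the subfield. -/
def form (h : RatStr Q k R) : QuadraticForm k R :=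
  QuadraticMap.ofPolar (fun x => ⟨Q x, h.val x x.2⟩)
    (fun a x => Subtype.ext (by
      change Q ((a : F) • (x : V)) = (a : F) * a * Q x
      rw [Q_smul, pow_two]))
    (fun x x' y => Subtype.ext (polar_add_left Q (x : V) x' y))
    (fun a x y => Subtype.ext (polar_smul_left Q (a : F) (x : V) y))

@[simp] theorem coe_form (h : RatStr Q k R) (x : R) : (h.form x : F) = Q x := rfl

@[simp] theorem coe_polar (h : RatStr Q k R) (x y : R) :
    ((polar h.form x y : k) : F) = polar Q (x : V) y := rfl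

theorem form_eq_zero (h : RatStr Q k R) {x : R} : h.form x = 0 ↔ Q x = 0 := Subtype.ext_iff

theorem polar_eq_zero (h : RatStr Q k R) {x y : R} :
    polar h.form x y = 0 ↔ polar Q (x : V) y = 0 := Subtype.ext_iff

theorem polar_eq_one (h : RatStr Q k R) {x y : R} :
    polar h.form x y = 1 ↔ polar Q (x : V) y = 1 := Subtype.ext_iff

theorem eq_zero (h : RatStr Q k R) (hQ : (polarBilin Q).Nondegenerate) {y : V}
    (hy : ∀ x ∈ R, polar Q x y = 0) : y = 0 :=
  nondeg_right hQ fun x => mem_orth.1 (mem_orth_span.2 hy) x (by rw [h.span]; trivial)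

theorem nondeg (h : RatStr Q k R) (hQ : (polarBilin Q).Nondegenerate) :
    (polarBilin h.form).Nondegenerate :=
  nondeg_of fun _ hu => Subtype.ext (h.eq_zero hQ fun x hx => pc (h.polar_eq_zero.1 (hu ⟨x, hx⟩)))

theorem coe_eich (h : RatStr Q k R) (p w x : R) :
    ((eich h.form p w).1 x : V) = (eich Q p w).1 x := by
  by_cases h1 : Q p = 0 ∧ polar Q (p : V) w = 0
  · rw [eich_apply h1.1 h1.2, eich_apply (h.form_eq_zero.2 h1.1) (h.polar_eq_zero.2 h1.2)]
    rfl
  · rw [eich_of_not h1, eich_of_not (by rwa [h.form_eq_zero, h.polar_eq_zero])]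
    rfl

theorem eich_apply_mem (h : RatStr Q k R) {p w x : V} (hp : p ∈ R) (hw : w ∈ R) (hx : x ∈ R) :
    (eich Q p w).1 x ∈ R := by
  have := h.coe_eich ⟨p, hp⟩ ⟨w, hw⟩ ⟨x, hx⟩
  exact this ▸ Subtype.property _

theorem finrank_le [Finite V] (h : RatStr Q k R) : finrank F V ≤ finrank k R := by
  let b := Module.finBasis k R
  have h1 : Submodule.span F (Set.range fun i => (b i : V)) = ⊤ := by
    rw [eq_top_iff, ← h.span, Submodule.span_le]
    intro x hx
    have h2 : x = ∑ i, (b.repr ⟨x, hx⟩ i : F) • (b i : V) := by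
      conv_lhs => rw [show x = ((⟨x, hx⟩ : R) : V) from rfl, ← b.sum_repr ⟨x, hx⟩]
      simp only [AddSubmonoidClass.coe_finsetSum, SetLike.val_smul]
      rfl
    rw [h2]
    exact Submodule.sum_mem _ fun i _ => Submodule.smul_mem _ _ (Submodule.subset_span ⟨i, rfl⟩)
  have := finrank_range_le_card (R := F) fun i => (b i : V)
  rw [Set.finrank, h1, finrank_top, Fintype.card_fin] at this
  exact this

theorem mem_of_forall [Finite V] (h : RatStr Q k R) (hQ : (polarBilin Q).Nondegenerate) {y : V}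
    (hy : ∀ x ∈ R, polar Q x y ∈ k) : y ∈ R := by
  let φ : Dual k R :=
    { toFun := fun x => ⟨polar Q (x : V) y, hy x x.2⟩
      map_add' := fun x x' => Subtype.ext (polar_add_left Q (x : V) x' y)
      map_smul' := fun a x => Subtype.ext (polar_smul_left Q (a : F) (x : V) y) }
  obtain ⟨w, hw⟩ := exists_polar_eq_dual (h.nondeg hQ) φ
  have : y - w = 0 := h.eq_zero hQ fun x hx => by
    rw [polar_sub_right, sub_eq_zero]
    exact (congrArg Subtype.val (hw ⟨x, hx⟩)).symm
  rw [sub_eq_zero.1 this]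
  exact w.2

theorem exists_partner (h : RatStr Q k R) (hQ : (polarBilin Q).Nondegenerate) {p : V} (hp : p ∈ R)
    (hp1 : p ≠ 0) (hp0 : Q p = 0) : ∃ f ∈ R, Q f = 0 ∧ polar Q p f = 1 := by
  obtain ⟨f, h1, h2⟩ := Orth.exists_partner (h.nondeg hQ) (p := ⟨p, hp⟩)
    (fun h => hp1 (congrArg Subtype.val h)) (h.form_eq_zero.2 hp0)
  exact ⟨f, f.2, h.form_eq_zero.1 h1, h.polar_eq_one.1 h2⟩

theorem proj_mem (h : RatStr Q k R) {e f x : V} (he : e ∈ R) (hf : f ∈ R) (hx : x ∈ R) :
    x - polar Q f x • e - polar Q e x • f ∈ R :=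
  R.sub_mem (R.sub_mem hx (smul_mem_of_mem (h.polar_mem hf hx) he))
    (smul_mem_of_mem (h.polar_mem he hx) hf)

/-- A vector of `R + F p` orthogonal to a rational partner of `p` is rational. -/
theorem mem_of_sub_smul (h : RatStr Q k R) {p f y : V} (hp : p ∈ R) (hf : f ∈ R)
    (hpf : polar Q p f = 1) {c : F} (hy : y - c • p ∈ R) (hfy : polar Q f y = 0) : y ∈ R := by
  have h1 := h.polar_mem hf hy
  rw [polar_sub_right, hfy, polar_smul_right', pc hpf, mul_one, zero_sub] at h1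
  have := R.add_mem hy (smul_mem_of_mem (k.neg_mem_iff.1 h1) hp)
  rwa [sub_add_cancel] at this

theorem exists_isHyp [Finite V] (h : RatStr Q k R) (hQ : (polarBilin Q).Nondegenerate) {m : ℕ}
    [Finite F] (hm : 2 * m + 1 ≤ finrank F V) :
    ∃ e f : Fin m → V, Known.IsHyp Q e f ∧ (∀ i, e i ∈ R) ∧ ∀ i, f i ∈ R := by
  obtain ⟨e, f, H⟩ := exists_isHyp_of_le (h.nondeg hQ) (hm.trans h.finrank_le)
  refine ⟨fun i => e i, fun i => f i, ⟨fun i => h.form_eq_zero.1 (H.qe i),
    fun i => h.form_eq_zero.1 (H.qf i), fun i j => h.polar_eq_zero.1 (H.ee i j),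
    fun i j => h.polar_eq_zero.1 (H.ff i j), fun i j => ?_⟩, fun i => (e i).2, fun i => (f i).2⟩
  rw [← h.coe_polar, H.ef]
  split_ifs <;> rfl

end RatStr

end Cfsg.Lib.Class.OMax
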