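import Cfsg.Agent.Class.ORatSpread
import Cfsg.Agent.Class.SL2Count

/-!
Long root elements in an overgroup of a subfield subgroup of an orthogonal group.
-/

set_option autoImplicit false

namespace Cfsg.Lib.Class.OMax

open QuadraticMap Module Orth
open scoped MatrixGroups

variable {F V : Type*} [Field F] [AddCommGroup V] [Module F V] {Q : QuadraticForm F V}
  {k : Subfield F} {R : Submodule k V} {X : Subgroup (O Q)}

/-- A long root element preserving `R` is a rational Eichler transformation. -/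
theorem RatStr.long_mem (h : RatStr Q k R) (hQ : (polarBilin Q).Nondegenerate)
    (hX : ∀ a ∈ R, ∀ b ∈ R, eich Q a b ∈ X) {p w : V} (hp : Q p = 0) (hw : Q w = 0)
    (hpw : polar Q p w = 0) (hR : ∀ x ∈ R, polar Q x w • p - polar Q x p • w ∈ R) :
    eich Q p w ∈ X := by
  by_cases hc : ∀ x ∈ R, ∀ y ∈ R, polar Q y (polar Q x w • p - polar Q x p • w) = 0
  · have : eich Q p w = 1 := O_ext fun x => by
      rw [eich_apply_long hp hw hpw, O_one_apply, add_eq_left]
      refine h.eq_zero hQ fun y hy => ?_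
      have := h.eq_zero hQ (hc y hy)
      have h2 := congrArg (polar Q x) this
      rw [polar_zero_right] at h2
      revert h2
      qsimp
      rw [polar_comm Q y p, polar_comm Q y w]
      intro h2
      linear_combination -h2
    rw [this]; exact X.one_mem
  push Not at hc
  obtain ⟨x, hx, y, hy, hc⟩ := hc
  have h1 := h.polar_mem hy (hR x hx)
  have h2 := hX _ (hR x hx) _ (smul_mem_of_mem (k.neg_mem (k.inv_mem h1)) (hR y hy))
  convert h2 using 1
  refine O_ext fun z => ?_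
  rw [eich_apply_long hp hw hpw, eich_apply_long (by qsimp; rw [hp, hw, hpw]; ring)
    (by qsimp; rw [hp, hw, hpw]; ring) (by qsimp; rw [hp, hw, hpw, pc hpw]; ring)]
  revert hc
  qsimp
  intro hc
  match_scalars <;> field_simp <;> ring

/-- The standing hypothesis: `X` contains the rational Eichler transformations and its root
groups with rational centre are rational. -/
structure RatOver (k : Subfield F) (R : Submodule k V) (X : Subgroup (O Q)) : Prop where
  rat : RatStr Q k R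
  nondeg : (polarBilin Q).Nondegenerate
  mem : ∀ a ∈ R, ∀ b ∈ R, eich Q a b ∈ X
  sub : ∀ p ∈ R, ∀ f ∈ R, Q p = 0 → Q f = 0 → polar Q p f = 1 → ∀ y, polar Q p y = 0 →
    eich Q p y ∈ X → y - polar Q f y • p ∈ R

namespace RatOver

/-- A long root element whose line is orthogonal to a rational singular point is rational. -/
theorem easy (h : RatOver k R X) {p w : V} (hp : Q p = 0) (hw : Q w = 0) (hpw : polar Q p w = 0)
    (hX : eich Q p w ∈ X) {e : V} (he : e ∈ R) (he1 : e ≠ 0) (he0 : Q e = 0)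
    (hep : polar Q e p = 0) (hew : polar Q e w = 0) {x : V} (hx : x ∈ R) :
    polar Q x w • p - polar Q x p • w ∈ R := by
  obtain ⟨f, hf, hf0, hef⟩ := h.rat.exists_partner h.nondeg he he1 he0
  obtain ⟨p', hp'⟩ : ∃ p', p' = p - polar Q f p • e := ⟨_, rfl⟩
  obtain ⟨w', hw'⟩ : ∃ w', w' = w - polar Q f w • e := ⟨_, rfl⟩
  have a1 : polar Q e p' = 0 := by rw [hp']; qsimp; rw [hep, he0]; ring
  have a2 : polar Q e w' = 0 := by rw [hw']; qsimp; rw [hew, he0]; ring
  have a3 : polar Q f p' = 0 := by rw [hp']; qsimp; rw [pc hef]; ring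
  have a4 : polar Q f w' = 0 := by rw [hw']; qsimp; rw [pc hef]; ring
  have a5 : Q p' = 0 := by rw [hp']; qsimp; rw [hp, he0, pc hep]; ring
  have a6 : Q w' = 0 := by rw [hw']; qsimp; rw [hw, he0, pc hew]; ring
  have a7 : polar Q p' w' = 0 := by rw [hp', hw']; qsimp; rw [hpw, he0, pc hep, hew]; ring
  generalize polar Q f p = α at hp'
  generalize polar Q f w = β at hw'
  obtain rfl := eq_add_of_sub_eq hp'.symm
  obtain rfl := eq_add_of_sub_eq hw'.symm
  have h1 : ∀ y ∈ R, polar Q y w' • p' - polar Q y p' • w' ∈ R := by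
    intro y hy
    obtain ⟨h2, h3⟩ := hyp_proj_orth he0 hf0 hef y
    have h4 := h.rat.proj_mem he hf hy
    have h5 := eich_apply_of_orth_orth hep hew
    have h6 := R.sub_mem (h.sub e he f hf he0 hf0 hef _ (by rw [O_polar_right, O_inv_apply_of_eq h5, h2])
      (eich_apply_mem_of_fix hX h5 (h.mem e he _ h4))) h4
    convert h6 using 1
    rw [eich_apply_long hp hw hpw]
    qsimp
    rw [a1, a2, a3, a4, he0, hf0, pc hef, polar_comm Q y e]
    module
  have h2 := h.rat.long_mem h.nondeg h.mem a5 a6 a7 h1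
  have a8 : polar Q e (α • w' - β • p') = 0 := by qsimp; rw [a1, a2]; ring
  have h3 : eich Q (p' + α • e) (w' + β • e) = eich Q e (α • w' - β • p') * eich Q p' w' := by
    refine O_ext fun z => ?_
    rw [O_mul_apply, eich_apply_long hp hw hpw, eich_apply_long a5 a6 a7,
      eich_apply_long he0 (by qsimp; rw [a5, a6, pc a7]; ring) a8]
    qsimp
    rw [a5, a6, a7, pc a7, pc a1, pc a2]
    module
  have h4 := h.sub e he f hf he0 hf0 hef _ a8 ((X.mul_mem_cancel_right h2).1 (h3 ▸ hX))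
  rw [show polar Q f (α • w' - β • p') = 0 by qsimp; rw [a3, a4]; ring, zero_smul, sub_zero] at h4
  convert R.add_mem (h1 x hx) (R.sub_mem (smul_mem_of_mem (h.rat.polar_mem hx h4) he)
    (smul_mem_of_mem (h.rat.polar_mem hx he) h4)) using 1
  qsimp
  module

variable {e f : Fin 3 → V}

/-- The `2 × 2` minors of an element of `X` on a rational totally singular subspace. -/
theorem minor (h : RatOver k R X) (H : Known.IsHyp Q e f) (he : ∀ i, e i ∈ R) {g : O Q}
    (hg : g ∈ X) (h0 : ∀ i, polar Q (e 0) (g.1 (e i)) = 0) (i j : Fin 3) {x : V} (hx : x ∈ R) :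
    polar Q x (g.1 (e j)) • g.1 (e i) - polar Q x (g.1 (e i)) • g.1 (e j) ∈ R :=
  h.easy (by rw [O_map, H.qe]) (by rw [O_map, H.qe]) (by rw [O_polar, H.ee]) (by
    rw [← conj_eich]
    exact X.mul_mem (X.mul_mem hg (h.mem _ (he i) _ (he j))) (X.inv_mem hg)) (he 0)
    (fun h0 => by simpa [h0] using H.ef 0 0) (H.qe 0) (h0 i) (h0 j) hx

theorem hard_zero (h : RatOver k R X) (H : Known.IsHyp Q e f) (he : ∀ i, e i ∈ R)
    (hf : ∀ i, f i ∈ R) {p w : V} (hp : Q p = 0) (hw : Q w = 0) (hpw : polar Q p w = 0)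
    (hX : eich Q p w ∈ X) (hp1 : p ≠ 0) (hw1 : w ∉ Submodule.span F {p})
    (hr : ∀ i j, polar Q (e i) p * polar Q (e j) w = polar Q (e j) p * polar Q (e i) w) :
    ∃ u ∈ R, u ≠ 0 ∧ Q u = 0 ∧ polar Q u p = 0 ∧ polar Q u w = 0 := by
  by_contra! hc
  obtain ⟨θ, hθ⟩ : ∃ θ : Fin 3 → V, ∀ i, θ i = polar Q (e i) w • p - polar Q (e i) p • w :=
    ⟨_, fun _ => rfl⟩
  have h1 : ∀ i, θ i ≠ 0 := fun i => by
    rw [hθ]
    refine smul_sub_smul_ne_zero hp1 hw1 ?_
    by_contra! h2
    exact hc _ (he i) (fun h0 => by simpa [h0] using H.ef i i) (H.qe i) h2.2 h2.1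
  have h2 : ∀ i, θ i ∉ R := fun i hi => hc _ hi (h1 i) (by rw [hθ]; qsimp; rw [hp, hw, hpw]; ring)
    (by rw [hθ]; qsimp; rw [hp, pc hpw]; ring) (by rw [hθ]; qsimp; rw [hw, hpw]; ring)
  have h3 : ∀ i j x, polar Q x (θ j) • θ i = polar Q x (θ i) • θ j := fun i j x => by
    rw [hθ, hθ]
    qsimp
    match_scalars
    · linear_combination polar Q x w * hr i j
    · linear_combination -polar Q x p * hr i j
  have h4 : ∀ i j, ∀ x ∈ R, polar Q x (θ j) • e i + polar Q x (e j) • θ i - polar Q x (θ i) • e j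
      - polar Q x (e i) • θ j ∈ R := fun i j x hx => by
    have := h.minor H he hX (fun i => by
      rw [eich_apply_long hp hw hpw]; qsimp; rw [H.ee]; linear_combination hr 0 i) i j hx
    rw [eich_apply_long hp hw hpw, eich_apply_long hp hw hpw, ← hθ, ← hθ] at this
    convert R.sub_mem this (R.sub_mem (smul_mem_of_mem (h.rat.polar_mem hx (he j)) (he i))
      (smul_mem_of_mem (h.rat.polar_mem hx (he i)) (he j))) using 1
    qsimp
    linear_combination (norm := module) -h3 i j x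
  have h5 : ∀ i j l, i ≠ j → l ≠ i → l ≠ j → polar Q (f l) (θ j) ∈ k := fun i j l h1 h2 h3 => by
    have := h.rat.polar_mem (hf i) (h4 i j _ (hf l))
    revert this
    qsimp
    simp [H.fe, h1, h2, h3]
  have h6 : ∀ i j, i ≠ j → polar Q (f i) (θ j) ∈ k → polar Q (f i) (θ i) ∉ k := by
    intro i j hij h6 h7
    have := R.sub_mem (R.sub_mem (smul_mem_of_mem h6 (he i)) (smul_mem_of_mem h7 (he j)))
      (h4 i j _ (hf i))
    refine h2 j ?_
    convert this using 1
    simp [H.fe, hij]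
  by_cases h7 : polar Q (f 2) (θ 1) = 0
  · refine h6 2 0 (by decide) (h5 1 0 2 (by decide) (by decide) (by decide)) ?_
    have := h3 1 2 (f 2)
    rw [h7, zero_smul, smul_eq_zero] at this
    rw [this.resolve_right (h1 1)]
    exact k.zero_mem
  · refine h6 0 1 (by decide) (h5 2 1 0 (by decide) (by decide) (by decide)) ?_
    have := congrArg (polar Q (f 0)) (h3 0 1 (f 2))
    rw [polar_smul_right', polar_smul_right'] at this
    rw [show polar Q (f 0) (θ 0) = (polar Q (f 2) (θ 1))⁻¹ * (polar Q (f 2) (θ 0) *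
      polar Q (f 0) (θ 1)) by rw [← this]; field_simp]
    exact k.mul_mem (k.inv_mem (h5 0 1 2 (by decide) (by decide) (by decide)))
      (k.mul_mem (h5 1 0 2 (by decide) (by decide) (by decide))
        (h5 2 1 0 (by decide) (by decide) (by decide)))

theorem borel (h : RatOver k R X) (H : Known.IsHyp Q e f) (he : ∀ i, e i ∈ R)
    (hf : ∀ i, f i ∈ R) {r : Fin 3 → F} {ρ : V} (hρ : ρ = r 0 • e 0 + r 1 • e 1 + r 2 • e 2)
    (hρ0 : ρ ≠ 0) (hρR : ∀ c : F, c • ρ ∈ R → c = 0) {g : O Q} (hg : g ∈ X) (hgρ : g.1 ρ = ρ)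
    {η : F} {φ : Fin 3 → F} (hge : ∀ j, g.1 (e j) = η • e j + φ j • ρ) (hη : η ≠ 0) : η = 1 := by
  have h1 : η + (r 0 * φ 0 + r 1 * φ 1 + r 2 * φ 2) = 1 := by
    have : (η + (r 0 * φ 0 + r 1 * φ 1 + r 2 * φ 2)) • ρ = (1 : F) • ρ := by
      conv_rhs => rw [one_smul, ← hgρ, hρ, map_add, map_add, map_smul, map_smul, map_smul, hge, hge,
        hge]
      rw [add_smul]
      conv_lhs => arg 1; rw [hρ]
      module
    exact smul_left_injective F hρ0 this
  have h2 : ∀ l, polar Q (f l) ρ = r l := fun l => by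
    rw [hρ]; qsimp; fin_cases l <;> simp [H.fe]
  have h3 : ∀ l j, polar Q (f l) (g.1 (e j)) = (if l = j then η else 0) + φ j * r l := fun l j => by
    rw [hge]; qsimp; rw [h2, H.fe]; simp
  have h4 : ∀ i j l m, ((if l = j then η else 0) + φ j * r l) * ((if m = i then η else 0) + φ i * r m)
      - ((if l = i then η else 0) + φ i * r l) * ((if m = j then η else 0) + φ j * r m) ∈ k := by
    intro i j l m
    have := h.rat.polar_mem (hf m) (h.minor H he hg (fun i => by
      rw [hge, hρ]; qsimp; simp [H.ee, H.qe]) i j (hf l))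
    rwa [polar_sub_right, polar_smul_right', polar_smul_right', h3, h3, h3, h3] at this
  have h5 : ∀ a b c, a ≠ b → a ≠ c → c ≠ b → η * r a * φ b ∈ k := fun a b c h1 h2 h3 => by
    convert h4 b c c a using 1
    simp only [h1, h2, h3, if_true, if_false]
    ring
  have h6 : ∀ a, η - η * r a * φ a ∈ k := fun a => by
    fin_cases a
    · convert h4 1 2 2 1 using 1
      simp; linear_combination (-η) * h1
    · convert h4 0 2 2 0 using 1
      simp; linear_combination (-η) * h1
    · convert h4 0 1 1 0 using 1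
      simp; linear_combination (-η) * h1
  have h7 : η ∈ k := by
    by_contra hc
    have h7 : ∀ a, r a ≠ 0 ∧ φ a ≠ 0 := fun a => by
      constructor <;> intro h0 <;> exact hc (by simpa [h0] using h6 a)
    have h8 := k.add_mem (h6 0) (k.mul_mem (k.mul_mem (h5 0 1 2 (by decide) (by decide) (by decide))
      (h5 2 0 1 (by decide) (by decide) (by decide)))
      (k.inv_mem (h5 2 1 0 (by decide) (by decide) (by decide))))
    refine hc ?_
    convert h8 using 1
    have := (h7 2).1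
    have := (h7 1).2
    field_simp
    ring
  have h8 : ∀ a b, η * r a * φ b ∈ k := fun a b => by
    by_cases hab : a = b
    · subst hab
      simpa using k.sub_mem h7 (h6 a)
    · obtain ⟨c, h1, h2⟩ : ∃ c, a ≠ c ∧ c ≠ b := by revert a b; decide
      exact h5 a b c hab h1 h2
  have h9 : ∀ b, φ b = 0 := fun b => by
    refine (mul_eq_zero.1 (hρR (η * φ b) ?_)).resolve_left hη
    convert R.add_mem (R.add_mem (smul_mem_of_mem (h8 0 b) (he 0)) (smul_mem_of_mem (h8 1 b) (he 1)))
      (smul_mem_of_mem (h8 2 b) (he 2)) using 1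
    rw [hρ]; module
  simpa [h9] using h1

end RatOver

/-- The matrices by which elements of `X` fixing `ρ` act on the pairs `a j, b j` modulo `ρ`. -/
def sl2Act {ι : Type*} (X : Subgroup (O Q)) (ρ : V) (a b : ι → V) : Subgroup SL(2, F) where
  carrier := {M | ∃ g ∈ X, g.1 ρ = ρ ∧ ∀ j, ∃ s t : F,
    g.1 (a j) = M 0 0 • a j + M 1 0 • b j + s • ρ ∧ g.1 (b j) = M 0 1 • a j + M 1 1 • b j + t • ρ}
  mul_mem' := by
    rintro M N ⟨g, hg, h1, h2⟩ ⟨g', hg', h1', h2'⟩
    refine ⟨g * g', X.mul_mem hg hg', by rw [O_mul_apply, h1', h1], fun j => ?_⟩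
    obtain ⟨s, t, h3, h4⟩ := h2 j
    obtain ⟨s', t', h3', h4'⟩ := h2' j
    refine ⟨N 0 0 * s + N 1 0 * t + s', N 0 1 * s + N 1 1 * t + t', ?_, ?_⟩
    all_goals
      simp only [O_mul_apply, h3', h4', map_add, map_smul, h1, h3, h4,
        Matrix.SpecialLinearGroup.coe_mul, Matrix.mul_apply, Fin.sum_univ_two]
      module
  one_mem' := ⟨1, X.one_mem, rfl, fun j => ⟨0, 0, by simp, by simp⟩⟩
  inv_mem' := by
    rintro M ⟨g, hg, h1, h2⟩
    refine ⟨g⁻¹, X.inv_mem hg, O_inv_apply_of_eq h1, fun j => ?_⟩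
    obtain ⟨s, t, h3, h4⟩ := h2 j
    have hd := sl2c_det M
    refine ⟨M 1 0 * t - M 1 1 * s, M 0 1 * s - M 0 0 * t, O_inv_apply_of_eq ?_,
      O_inv_apply_of_eq ?_⟩
    all_goals
      simp only [map_add, map_smul, h1, h3, h4, Matrix.SpecialLinearGroup.coe_inv,
        Matrix.adjugate_fin_two, Matrix.of_apply, Matrix.cons_val', Matrix.cons_val_zero,
        Matrix.cons_val_one, Matrix.cons_val_fin_one]
      match_scalars <;> first | linear_combination hd | ring

namespace RatOver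

variable {e f : Fin 3 → V}

theorem hard [Finite F] (h : RatOver k R X) (H : Known.IsHyp Q e f) (he : ∀ i, e i ∈ R)
    (hf : ∀ i, f i ∈ R) {p w : V} (hp : Q p = 0) (hw : Q w = 0) (hpw : polar Q p w = 0)
    (hX : eich Q p w ∈ X) (hp1 : p ≠ 0) (hw1 : w ∉ Submodule.span F {p}) :
    ∃ u ∈ R, u ≠ 0 ∧ Q u = 0 ∧ polar Q u p = 0 ∧ polar Q u w = 0 := by
  obtain ⟨α, hα⟩ : ∃ α : Fin 3 → F, ∀ i, polar Q (e i) p = α i := ⟨_, fun _ => rfl⟩
  obtain ⟨β, hβ⟩ : ∃ β : Fin 3 → F, ∀ i, polar Q (e i) w = β i := ⟨_, fun _ => rfl⟩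
  let r : Fin 3 → F := ![α 1 * β 2 - α 2 * β 1, α 2 * β 0 - α 0 * β 2, α 0 * β 1 - α 1 * β 0]
  by_cases hr : ∀ i, r i = 0
  · refine h.hard_zero H he hf hp hw hpw hX hp1 hw1 fun i j => ?_
    have h0 := hr 0
    have h1 := hr 1
    have h2 := hr 2
    simp only [r, Matrix.cons_val] at h0 h1 h2
    rw [hα, hα, hβ, hβ]
    fin_cases i <;> fin_cases j <;> simp <;> grind
  by_contra! hc
  obtain ⟨ρ, hρ⟩ : ∃ ρ, ρ = r 0 • e 0 + r 1 • e 1 + r 2 • e 2 := ⟨_, rfl⟩
  have h2 : ∀ l, polar Q (f l) ρ = r l := fun l => by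
    rw [hρ]; qsimp; fin_cases l <;> simp [H.fe]
  have hρ0 : ρ ≠ 0 := fun h0 => hr fun i => by rw [← h2, h0, polar_zero_right]
  have hρp : polar Q ρ p = 0 := by rw [hρ]; qsimp; simp only [hα, r, Matrix.cons_val]; ring
  have hρw : polar Q ρ w = 0 := by rw [hρ]; qsimp; simp only [hβ, r, Matrix.cons_val]; ring
  have hρe : ∀ i, polar Q ρ (e i) = 0 := fun i => by rw [hρ]; qsimp; simp [H.ee]
  have hρR : ∀ c : F, c • ρ ∈ R → c = 0 := fun c hc' => by
    by_contra h0
    exact hc _ hc' (smul_ne_zero h0 hρ0) (by rw [hρ]; qsimp; simp [H.ee, H.qe])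
      (by rw [polar_smul_left', hρp, mul_zero]) (by rw [polar_smul_left', hρw, mul_zero])
  let S := sl2Act X ρ e fun j => β j • p - α j • w
  have h3 : slV 1 ∈ S := ⟨_, hX, eich_apply_of_orth_orth hρp hρw, fun j => ⟨0, 0, by
    simp [eich_apply_long hp hw hpw, hα, hβ], by
    rw [eich_apply_of_orth_orth (by qsimp; rw [hp, pc hpw]; ring) (by qsimp; rw [hw, hpw]; ring)]
    simp⟩⟩
  have h4 : ∀ i j, slU (β i * α j - α i * β j) ∈ S := fun i j => by
    refine ⟨_, h.mem _ (he i) _ (he j), eich_apply_of_orth_orth (hρe i) (hρe j), fun l => ?_⟩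
    rw [eich_apply_of_orth_orth (H.ee l i) (H.ee l j),
      eich_apply_long (H.qe i) (H.qe j) (H.ee i j)]
    obtain ⟨t, ht⟩ : ∃ t : F, (β l * α j - α l * β j) • e i - (β l * α i - α l * β i) • e j =
        (β i * α j - α i * β j) • e l + t • ρ := by
      rw [hρ]
      fin_cases i <;> fin_cases j <;> fin_cases l <;> simp only [r, Matrix.cons_val] <;>
        first | exact ⟨0, by simp only [Fin.reduceFinMk]; module⟩ |
          exact ⟨1, by simp only [Fin.reduceFinMk]; module⟩ |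
          exact ⟨-1, by simp only [Fin.reduceFinMk]; module⟩
    refine ⟨0, t, by simp, ?_⟩
    qsimp
    rw [pc (hα i), pc (hα j), pc (hβ i), pc (hβ j), ht]
    simp [add_assoc, add_left_comm]
  have h5 : ∀ i, slU (r i) ∈ S := fun i => by
    fin_cases i
    · convert h4 2 1 using 2; simp [r]; ring
    · convert h4 0 2 using 2; simp [r]; ring
    · convert h4 1 0 using 2; simp [r]; ring
  obtain ⟨i, hi⟩ := not_forall.1 hr
  obtain ⟨j, hj, hij⟩ : ∃ j, r j ≠ 0 ∧ r i ≠ r j := by
    by_contra! h6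
    have h7 : ∀ j, (r i)⁻¹ * r j ∈ k := fun j => by
      by_cases h0 : r j = 0
      · rw [h0, mul_zero]; exact k.zero_mem
      · rw [← h6 j h0, inv_mul_cancel₀ hi]; exact k.one_mem
    refine inv_ne_zero hi (hρR _ ?_)
    convert R.add_mem (R.add_mem (smul_mem_of_mem (h7 0) (he 0)) (smul_mem_of_mem (h7 1) (he 1)))
      (smul_mem_of_mem (h7 2) (he 2)) using 1
    rw [hρ]; module
  have := sl2_fix_of_unipotent S (fun M ⟨g, hg, h6, h7⟩ hM => by
    choose s t h7 h8 using h7
    refine h.borel H he hf hρ hρ0 hρR hg h6 (φ := s) (fun j => by rw [h7, hM]; simp) fun h0 => ?_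
    have := sl2c_det M
    rw [h0, hM] at this
    simp at this) hi hj hij (h5 i) (h5 j) h3
  simp at this

/-- All long root elements of `X` are rational. -/
theorem long [Finite F] (h : RatOver k R X) (H : Known.IsHyp Q e f) (he : ∀ i, e i ∈ R)
    (hf : ∀ i, f i ∈ R) {p w : V} (hp : Q p = 0) (hw : Q w = 0) (hpw : polar Q p w = 0)
    (hX : eich Q p w ∈ X) {x : V} (hx : x ∈ R) : (eich Q p w).1 x ∈ R := by
  by_cases hp1 : p = 0
  · simpa [hp1] using hx
  by_cases hw1 : w ∈ Submodule.span F {p}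
  · obtain ⟨c, rfl⟩ := Submodule.mem_span_singleton.1 hw1
    simpa [eich_smul_self] using hx
  obtain ⟨u, hu, h1, h2, h3, h4⟩ := h.hard H he hf hp hw hpw hX hp1 hw1
  rw [eich_apply_long hp hw hpw]
  exact R.add_mem hx (h.easy hp hw hpw hX hu h1 h2 h3 h4 hx)

end RatOver

end Cfsg.Lib.Class.OMax
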