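import Cfsg.Agent.Class.ORat
import Cfsg.Agent.Class.OrthEich

/-!
Subgroups of orthogonal groups containing all Eichler transformations rational over a maximal
subfield: the root groups with a rational centre are rational.
-/

set_option autoImplicit false

namespace Cfsg.Lib.Class.OMax

open QuadraticMap Module Orth

variable {F V : Type*} [Field F] [AddCommGroup V] [Module F V] {Q : QuadraticForm F V}

theorem exists_polar_eq_one_orth [FiniteDimensional F V] (hQ : (polarBilin Q).Nondegenerate)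
    (hn : 7 ≤ finrank F V) (a b c : V) : ∃ w w', polar Q w w' = 1 ∧
      (polar Q a w = 0 ∧ polar Q b w = 0 ∧ polar Q c w = 0) ∧
      polar Q a w' = 0 ∧ polar Q b w' = 0 ∧ polar Q c w' = 0 := by
  let S := orth Q (Submodule.span F {a, b}) ⊓ orth Q (Submodule.span F {c})
  have h1 := finrank_le_inf_orth_singleton (Q := Q) (orth Q (Submodule.span F {a, b})) c
  have h2 := finrank_orth hQ (Submodule.span F {a, b})
  have h3 := finrank_span_pair_le (F := F) a b
  have h4 := finrank_orth hQ S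
  have h5 : ¬ S ≤ orth Q S := fun h => by
    have := Submodule.finrank_mono h
    change finrank F S + 1 ≥ _ at h1
    omega
  obtain ⟨w, hw, h6⟩ := SetLike.not_le_iff_exists.1 h5
  rw [mem_orth'] at h6
  push Not at h6
  obtain ⟨w', hw', h6⟩ := h6
  have h7 := S.smul_mem (polar Q w w')⁻¹ hw'
  exact ⟨w, _, by rw [polar_smul_right', inv_mul_cancel₀ h6], ⟨(mem_orth_pair.1 hw.1).1,
    (mem_orth_pair.1 hw.1).2, mem_orth_singleton.1 hw.2⟩, (mem_orth_pair.1 h7.1).1,
    (mem_orth_pair.1 h7.1).2, mem_orth_singleton.1 h7.2⟩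

theorem eich_add_mem {X : Subgroup (O Q)} {p w w' : V} (hw : polar Q p w = 0)
    (hw' : polar Q p w' = 0) (h : eich Q p w ∈ X) (h' : eich Q p w' ∈ X) :
    eich Q p (w + w') ∈ X := by
  by_cases hp : Q p = 0
  · rw [eich_add hp hw hw']; exact X.mul_mem h h'
  · rw [eich_of_not (fun h => hp h.1)]; exact X.one_mem

theorem eich_sub_mem {X : Subgroup (O Q)} {p w w' : V} (hw : polar Q p w = 0)
    (hw' : polar Q p w' = 0) (h : eich Q p w ∈ X) (h' : eich Q p w' ∈ X) :
    eich Q p (w - w') ∈ X := by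
  rw [sub_eq_add_neg]
  exact eich_add_mem hw (by rw [polar_neg_right, hw', neg_zero]) h
    (by rw [eich_neg]; exact X.inv_mem h')

theorem eich_apply_mem_of_fix {X : Subgroup (O Q)} {g : O Q} (hg : g ∈ X) {p w : V}
    (hp : g.1 p = p) (h : eich Q p w ∈ X) : eich Q p (g.1 w) ∈ X := by
  rw [← hp, ← conj_eich]
  exact X.mul_mem (X.mul_mem hg h) (X.inv_mem hg)

namespace RatStr

variable {k : Subfield F} {R : Submodule k V} [Finite V] [Finite F]

theorem irr_hyp (h : RatStr Q k R) (hQ : (polarBilin Q).Nondegenerate) (hn : 5 ≤ finrank F V)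
    {p f : V} (hp : p ∈ R) (hf : f ∈ R) (hp0 : Q p = 0) (hf0 : Q f = 0) (hpf : polar Q p f = 1)
    {U : Submodule k V} (hU : ∀ a ∈ R, ∀ b ∈ R, polar Q p a = 0 → polar Q f a = 0 →
      polar Q p b = 0 → polar Q f b = 0 → ∀ u ∈ U, (eich Q a b).1 u ∈ U)
    {u : V} (hu : u ∈ U) (hu0 : u ≠ 0) (huR : u ∈ R) (hpu : polar Q p u = 0)
    (hfu : polar Q f u = 0) {x : V} (hx : x ∈ R) (hpx : polar Q p x = 0) (hfx : polar Q f x = 0) :
    x ∈ U := by
  have hd := h.finrank_le
  have hp0' : h.form ⟨p, hp⟩ = 0 := h.form_eq_zero.2 hp0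
  have hpf' : polar h.form ⟨p, hp⟩ ⟨f, hf⟩ = 1 := h.polar_eq_one.2 hpf
  obtain ⟨W, hW⟩ : ∃ W, W = orth h.form (Submodule.span k {⟨p, hp⟩, ⟨f, hf⟩}) := ⟨_, rfl⟩
  have mW : ∀ y : R, y ∈ W ↔ polar Q p y = 0 ∧ polar Q f y = 0 := fun y => by
    rw [hW, mem_orth_pair, h.polar_eq_zero, h.polar_eq_zero]
  have h1 : Disjoint W (orth h.form W) := by
    rw [hW, orth_orth (h.nondeg hQ)]
    exact (hyp_disjoint hp0' (h.form_eq_zero.2 hf0) hpf').symm
  have h2 := finrank_orth_hyp (h.nondeg hQ) hp0' hpf'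
  have h3 : 3 ≤ finrank k W := by rw [← hW] at h2; omega
  rcases eq_of_eich_invariant h1 (tri_of_three_le h1 h3) h3 (U := W ⊓ U.comap R.subtype)
    inf_le_left (fun a ha b hb y hy => ⟨OMax.eich_apply_mem le_rfl ha hb hy.1, by
      change ((eich h.form a b).1 y : V) ∈ U
      rw [h.coe_eich]
      exact hU a a.2 b b.2 ((mW a).1 ha).1 ((mW a).1 ha).2 ((mW b).1 hb).1 ((mW b).1 hb).2 y
        hy.2⟩) with h4 | h4
  · have : (⟨u, huR⟩ : R) ∈ W ⊓ U.comap R.subtype := ⟨(mW _).2 ⟨hpu, hfu⟩, hu⟩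
    rw [h4] at this
    exact absurd (congrArg Subtype.val this) hu0
  · have : (⟨x, hx⟩ : R) ∈ W := (mW _).2 ⟨hpx, hfx⟩
    rw [← h4] at this
    exact this.2

theorem irr (h : RatStr Q k R) (hQ : (polarBilin Q).Nondegenerate) (hn : 5 ≤ finrank F V)
    {U : Submodule k V} (hU : ∀ a ∈ R, ∀ b ∈ R, Q a = 0 → Q b = 0 → polar Q a b = 0 →
      ∀ u ∈ U, (eich Q a b).1 u ∈ U) {u : V} (hu : u ∈ U) (hu0 : u ≠ 0) (huR : u ∈ R) :
    R ≤ U := by
  have hd := hn.trans h.finrank_le
  have h1 := disjoint_top_orth (h.nondeg hQ)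
  have h3 : 3 ≤ finrank k (⊤ : Submodule k R) := by rw [finrank_top]; omega
  have h2 : commutator (O h.form) ≤ stab h.form (U.comap R.subtype) :=
    commutator_le_of_siegel (h.nondeg hQ) hd fun a b _ ha hb hab =>
      mem_stab_of_forall_mem fun y hy => by
        change ((eich h.form a b).1 y : V) ∈ U
        rw [h.coe_eich]
        exact hU a a.2 b b.2 (h.form_eq_zero.1 ha) (h.form_eq_zero.1 hb) (h.polar_eq_zero.1 hab) y hy
  rcases eq_of_eich_invariant h1 (tri_of_three_le h1 h3) h3 (U := U.comap R.subtype) le_top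
    (fun a _ b _ y hy => (h2 (eich_mem_Om (h.nondeg hQ) hd a b) y).1 hy) with h4 | h4
  · have : (⟨u, huR⟩ : R) ∈ U.comap R.subtype := hu
    rw [h4] at this
    exact absurd (congrArg Subtype.val this) hu0
  · intro x hx
    have : (⟨x, hx⟩ : R) ∈ U.comap R.subtype := by rw [h4]; trivial
    exact this

theorem induction (h : RatStr Q k R) (hQ : (polarBilin Q).Nondegenerate) (hn : 3 ≤ finrank F V)
    {P : V → Prop} (hs : ∀ c ∈ k, ∀ x, c ≠ 0 → P x → P (c • x))
    (he : ∀ p ∈ R, ∀ w ∈ R, ∀ x, P x → P ((eich Q p w).1 x)) {a : V} (ha : a ∈ R) (ha1 : a ≠ 0)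
    (ha0 : Q a = 0) (hPa : P a) {p : V} (hp : p ∈ R) (hp1 : p ≠ 0) (hp0 : Q p = 0) : P p := by
  have hd := hn.trans h.finrank_le
  have h1 := disjoint_top_orth (h.nondeg hQ)
  obtain ⟨x, hx⟩ := exists_polar_ne_zero (h.nondeg hQ) (x := ⟨a, ha⟩)
    fun h => ha1 (congrArg Subtype.val h)
  obtain ⟨y, hy⟩ := exists_polar_ne_zero (h.nondeg hQ) (x := ⟨p, hp⟩)
    fun h => hp1 (congrArg Subtype.val h)
  exact singular_induction (P := fun x : R => P x) (tri_of_three_le h1 (by rwa [finrank_top]))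
    (fun c x hc hx => hs c c.2 x (fun h => hc (Subtype.ext h)) hx)
    (fun p _ w _ x hx => by rw [h.coe_eich]; exact he p p.2 w w.2 x hx) Submodule.mem_top
    Submodule.mem_top (h.form_eq_zero.2 ha0) hx hPa Submodule.mem_top Submodule.mem_top
    (h.form_eq_zero.2 hp0) hy

theorem exists_singular_polar_notMem (h : RatStr Q k R) (hQ : (polarBilin Q).Nondegenerate)
    (hn : 5 ≤ finrank F V) {p f : V} (hp : p ∈ R) (hf : f ∈ R) (hp0 : Q p = 0) (hf0 : Q f = 0)
    (hpf : polar Q p f = 1) {y : V} (hpy : polar Q p y = 0) (hfy : polar Q f y = 0) (hy : y ∉ R) :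
    ∃ b ∈ R, Q b = 0 ∧ polar Q p b = 0 ∧ polar Q f b = 0 ∧ polar Q b y ∉ k := by
  by_contra! hc
  obtain ⟨a, b, ha, hb, hab, h1, h2, h3, h4⟩ := exists_hyp_orth (h.nondeg hQ)
    (hn.trans h.finrank_le) (p := ⟨p, hp⟩) (q := ⟨f, hf⟩) (h.form_eq_zero.2 hp0)
    (h.form_eq_zero.2 hf0) (h.polar_eq_one.2 hpf)
  let T : Submodule k R :=
    { carrier := {x | polar Q (x : V) y ∈ k}
      add_mem' := fun {a b} ha hb => by
        change polar Q ((a : V) + b) y ∈ k
        rw [polar_add_left]; exact k.add_mem ha hb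
      zero_mem' := by simp
      smul_mem' := fun c a ha => by
        change polar Q ((c : F) • (a : V)) y ∈ k
        rw [polar_smul_left']; exact k.mul_mem c.2 ha }
  have h5 := le_of_forall_singular (T := T) (mem_orth_pair.2 ⟨h1, h3⟩) (mem_orth_pair.2 ⟨h2, h4⟩)
    ha hb hab fun x hx hx0 _ => hc x x.2 (h.form_eq_zero.1 hx0)
      (h.polar_eq_zero.1 (mem_orth_pair.1 hx).1) (h.polar_eq_zero.1 (mem_orth_pair.1 hx).2)
  refine hy (h.mem_of_forall hQ fun x hx => ?_)
  obtain ⟨h6, h7⟩ := hyp_proj_orth hp0 hf0 hpf x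
  have h8 : polar Q (x - polar Q f x • p - polar Q p x • f) y ∈ k :=
    h5 (x := ⟨_, h.proj_mem hp hf hx⟩) (mem_orth_pair.2 ⟨h.polar_eq_zero.2 h6, h.polar_eq_zero.2 h7⟩)
  revert h8
  qsimp
  rw [hpy, hfy]
  simp

theorem exists_polar_eq_one (h : RatStr Q k R) (hQ : (polarBilin Q).Nondegenerate)
    (hn : 7 ≤ finrank F V) {a b c : V} (ha : a ∈ R) (hb : b ∈ R) (hc : c ∈ R) :
    ∃ w ∈ R, ∃ w' ∈ R, polar Q w w' = 1 ∧ (polar Q a w = 0 ∧ polar Q b w = 0 ∧ polar Q c w = 0) ∧
      polar Q a w' = 0 ∧ polar Q b w' = 0 ∧ polar Q c w' = 0 := by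
  obtain ⟨w, w', h1⟩ := exists_polar_eq_one_orth (h.nondeg hQ) (hn.trans h.finrank_le) ⟨a, ha⟩
    ⟨b, hb⟩ ⟨c, hc⟩
  simp only [h.polar_eq_zero, h.polar_eq_one] at h1
  exact ⟨w, w.2, w', w'.2, h1⟩

variable {X : Subgroup (O Q)}

/-- The spreading lemma. -/
theorem spread (h : RatStr Q k R) (hQ : (polarBilin Q).Nondegenerate) (hn : 5 ≤ finrank F V)
    (hX : ∀ a ∈ R, ∀ b ∈ R, eich Q a b ∈ X) {p f : V} (hp : p ∈ R) (hf : f ∈ R) (hp0 : Q p = 0)
    (hf0 : Q f = 0) (hpf : polar Q p f = 1) {b : V} (hb : b ∈ R) (hb0 : b ≠ 0)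
    (hpb : polar Q p b = 0) (hfb : polar Q f b = 0) {ν : F}
    (hν : ∀ c ∈ k, eich Q p (ν • c • b) ∈ X) : ∀ a ∈ R, ∀ y ∈ R, eich Q a (ν • y) ∈ X := by
  let U : Submodule k V :=
    { carrier := {x | polar Q p x = 0 ∧ ∀ c ∈ k, eich Q p (ν • c • x) ∈ X}
      add_mem' := fun {x y} hx hy => ⟨by rw [polar_add_right, hx.1, hy.1, add_zero], fun c hc => by
        rw [smul_add, smul_add]
        exact eich_add_mem (by qsimp; rw [hx.1]; ring) (by qsimp; rw [hy.1]; ring) (hx.2 c hc)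
          (hy.2 c hc)⟩
      zero_mem' := by simp
      smul_mem' := fun d x hx => ⟨by
        change polar Q p ((d : F) • x) = 0
        rw [polar_smul_right', hx.1, mul_zero], fun c hc => by
        change eich Q p (ν • c • (d : F) • x) ∈ X
        rw [smul_smul c]
        exact hx.2 _ (k.mul_mem hc d.2)⟩ }
  have h1 : ∀ y ∈ R, eich Q p (ν • y) ∈ X := by
    intro y hy
    by_cases hν0 : ν = 0
    · simp [hν0]
    by_cases hpy : polar Q p y = 0
    swap
    · rw [eich_of_not (fun h => hpy (by simpa [polar_smul_right', hν0] using h.2))]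
      exact X.one_mem
    obtain ⟨h2, h3⟩ := hyp_proj_orth hp0 hf0 hpf y
    have h4 := (h.irr_hyp hQ hn hp hf hp0 hf0 hpf (U := U) (fun a ha a' ha' h1 h2 h3 h4 u hu =>
      have h5 := eich_apply_of_orth_orth h1 h3
      ⟨by rw [← h5, O_polar, hu.1], fun c hc => by
        rw [← map_smul, ← map_smul]
        exact eich_apply_mem_of_fix (hX a ha a' ha') h5 (hu.2 c hc)⟩) ⟨hpb, hν⟩ hb0 hb hpb hfb
      (h.proj_mem hp hf hy) h2 h3).2 1 k.one_mem
    rw [← eich_add_smul_self hp0 (by rw [polar_smul_right', polar_smul_right', h2]; ring)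
      (ν * polar Q f y)] at h4
    convert h4 using 2
    rw [hpy]
    module
  intro a ha
  by_cases ha0 : Q a = 0
  swap
  · intro y _
    rw [eich_of_not fun h => ha0 h.1]
    exact X.one_mem
  by_cases ha1 : a = 0
  · simp [ha1]
  refine h.induction hQ (by omega) (P := fun a => ∀ y ∈ R, eich Q a (ν • y) ∈ X)
    (fun c hc x hc0 hx y hy => ?_) (fun q hq w hw x hx y hy => ?_) hp
    (by rintro rfl; simp at hpf) hp0 h1 ha ha1 ha0
  · rw [eich_smul_left' _ _ hc0, smul_comm]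
    exact hx _ (smul_mem_of_mem hc hy)
  · have h5 := hx _ (h.eich_apply_mem hq (R.neg_mem hw) hy)
    rw [← O_apply_inv (eich Q q w) y, ← map_smul, ← conj_eich, ← eich_neg]
    exact X.mul_mem (X.mul_mem (hX q hq w hw) h5) (hX q hq _ (R.neg_mem hw))

/-- The scalars by which rational root elements can be multiplied. -/
def lam (h : RatStr Q k R) (hQ : (polarBilin Q).Nondegenerate) (hn : 7 ≤ finrank F V)
    (hX : ∀ a ∈ R, ∀ b ∈ R, eich Q a b ∈ X) : Subalgebra k F where
  carrier := {c | ∀ a ∈ R, ∀ b ∈ R, eich Q a (c • b) ∈ X}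
  mul_mem' {c d} hc hd := by
    obtain ⟨e, f, H, he, hf⟩ := h.exists_isHyp hQ (m := 3) hn
    refine h.spread hQ (by omega) hX (he 0) (hf 0) (H.qe 0) (H.qf 0) (by simp [H.ef]) (he 1)
      (fun h0 => by simpa [h0] using H.ef 1 1) (H.ee 0 1) (by simp [H.fe]) fun t ht => ?_
    have h1 := hc _ (he 0) _ (smul_mem_of_mem ht (he 2))
    have h2 := eich_apply_mem_of_fix (hd _ (he 1) _ (hf 2)) (eich_apply_of_orth_orth (H.ee 0 1)
      (by simp [polar_smul_right', H.ef])) h1
    rw [eich_apply_long (H.qe 1) (by rw [Q_smul, H.qf, mul_zero])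
      (by simp [polar_smul_right', H.ef])] at h2
    convert eich_sub_mem (by qsimp; simp [H.ee, H.ef]) (by qsimp; simp [H.ee]) h2 h1 using 2
    qsimp
    simp only [H.ee, H.ef, if_true]
    module
  add_mem' {c d} hc hd a ha b hb := by
    by_cases hab : polar Q a b = 0
    · rw [add_smul]
      exact eich_add_mem (by rw [polar_smul_right', hab, mul_zero])
        (by rw [polar_smul_right', hab, mul_zero]) (hc a ha b hb) (hd a ha b hb)
    by_cases hcd : c + d = 0
    · simp [hcd]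
    · rw [eich_of_not fun h => hab (by simpa [polar_smul_right', hcd] using h.2)]
      exact X.one_mem
  algebraMap_mem' c a ha b hb := hX a ha _ (R.smul_mem c hb)

omit [Finite V] [Finite F] in
theorem full_of_forall (h : RatStr Q k R) (hQ : (polarBilin Q).Nondegenerate)
    (hX : ∀ c : F, ∀ a ∈ R, ∀ b ∈ R, eich Q a (c • b) ∈ X) {p : V} (hp : p ∈ R) (hp1 : p ≠ 0) :
    Full X ⊤ p := by
  refine full_of p fun hp0 w _ hw => ?_
  obtain ⟨f, hf, hf0, hpf⟩ := h.exists_partner hQ hp hp1 hp0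
  have key : ∀ x ∈ Submodule.span F (R : Set V), ∀ c : F,
      eich Q p (c • (x - polar Q p x • f)) ∈ X := by
    have h0 : ∀ (c : F) x, polar Q p (c • (x - polar Q p x • f)) = 0 := fun c x => by
      qsimp; rw [hpf]; ring
    intro x hx
    induction hx using Submodule.span_induction with
    | mem x hx => exact fun c => hX c p hp _ (R.sub_mem hx (smul_mem_of_mem (h.polar_mem hp hx) hf))
    | zero => simp
    | add x y _ _ hx hy =>
      intro c
      convert eich_add_mem (h0 c x) (h0 c y) (hx c) (hy c) using 2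
      qsimp; module
    | smul d x _ hx =>
      intro c
      convert hx (c * d) using 2
      qsimp; module
  simpa [hw] using key w (by rw [h.span]; trivial) 1

/-- Root groups with a rational centre are rational. -/
theorem exists_sub_smul_mem (h : RatStr Q k R) (hQ : (polarBilin Q).Nondegenerate)
    (hn : 7 ≤ finrank F V) (hk : ∀ A : Subalgebra k F, A = ⊥ ∨ A = ⊤)
    (hX : ∀ a ∈ R, ∀ b ∈ R, eich Q a b ∈ X) (hX' : ¬ commutator (O Q) ≤ X) {p f : V} (hp : p ∈ R)
    (hf : f ∈ R) (hp0 : Q p = 0) (hf0 : Q f = 0) (hpf : polar Q p f = 1) {y : V}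
    (hpy : polar Q p y = 0) (hy : eich Q p y ∈ X) : y - polar Q f y • p ∈ R := by
  have : FiniteDimensional F V := Module.Finite.of_finite
  by_contra hc
  have hpz : polar Q p (y - polar Q f y • p) = 0 := by qsimp; rw [hpy, hp0]; ring
  have hfz : polar Q f (y - polar Q f y • p) = 0 := by qsimp; rw [pc hpf]; ring
  have hz : eich Q p (y - polar Q f y • p) ∈ X := by
    rwa [sub_eq_add_neg, ← neg_smul, eich_add_smul_self hp0 hpy]
  generalize y - polar Q f y • p = z at hc hpz hfz hz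
  obtain ⟨b, hb, hb0, hpb, hfb, hbz⟩ :=
    h.exists_singular_polar_notMem hQ (by omega) hp hf hp0 hf0 hpf hpz hfz hc
  obtain ⟨w, hw, w', hw', h1, ⟨h2, -, h3⟩, h4, -, h5⟩ := h.exists_polar_eq_one hQ hn hp hf hb
  have h6 := eich_sub_mem hpz (by rw [← eich_apply_of_orth_orth hpb h2, O_polar, hpz]) hz
    (eich_apply_mem_of_fix (hX b hb w hw) (eich_apply_of_orth_orth hpb h2) hz)
  have h7 : polar Q b z ∈ h.lam hQ hn hX := by
    refine h.spread hQ (by omega) hX hp hf hp0 hf0 hpf hb (by rintro rfl; simp at hbz) hpb hfb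
      fun c hc => ?_
    have h8 : polar Q p (c • w') = 0 := by rw [polar_smul_right', h4, mul_zero]
    have h9 : polar Q p (z - (eich Q b w).1 z) = 0 := by
      rw [polar_sub_right, ← eich_apply_of_orth_orth hpb h2, O_polar,
        eich_apply_of_orth_orth hpb h2, hpz, sub_zero]
    convert eich_sub_mem (by rw [← eich_apply_of_orth_orth hpb h8, O_polar, h9]) h9
      (eich_apply_mem_of_fix (hX b hb _ (smul_mem_of_mem hc hw')) (eich_apply_of_orth_orth hpb h8)
        h6) h6 using 2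
    rw [eich_apply hb0 h3, eich_apply hb0 (by rw [polar_smul_right', h5, mul_zero])]
    qsimp
    rw [hb0, h5, pc h3, h1, polar_comm Q z b]
    module
  rcases hk (h.lam hQ hn hX) with h8 | h8
  · rw [h8] at h7
    obtain ⟨c, hc⟩ := Algebra.mem_bot.1 h7
    exact hbz (hc ▸ c.2)
  · have h9 : ∀ c : F, ∀ a ∈ R, ∀ b ∈ R, eich Q a (c • b) ∈ X := fun c =>
      (show c ∈ h.lam hQ hn hX by rw [h8]; trivial)
    exact hX' (commutator_le_of_two_full hQ (by omega) hp0 hf0 (by rw [hpf]; exact one_ne_zero)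
      (h.full_of_forall hQ h9 hp (by rintro rfl; simp at hpf))
      (h.full_of_forall hQ h9 hf (by rintro rfl; simp at hpf)))

end RatStr

end Cfsg.Lib.Class.OMax
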