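import Cfsg.Agent.Class.ODecMax
import Cfsg.Agent.Class.OField

/-!
The normaliser in `Ω₆` of a self-adjoint operator with scalar square.
-/

set_option autoImplicit false

namespace Cfsg.Lib.Class.OMax

open QuadraticMap Module Orth

variable {F V : Type*} [Field F] [AddCommGroup V] [Module F V] {Q : QuadraticForm F V}
  {τ : Type*} [Fintype τ] {D : τ → Submodule F V} {π : τ → V →ₗ[F] V} {X : Subgroup (O Q)}
  [FiniteDimensional F V] [Fintype F]

theorem OCtx.exists_mem_of_odd (h : OCtx Q D π X) (h2 : (2 : F) ≠ 0) (hq : 3 < Fintype.card F)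
    {i : τ} {v x : V} (hv : v ∈ D i) (hv0 : Q v ≠ 0) (hx : Cls X v x) : ∃ l, x ∈ D l := by
  by_contra! hc
  have hx0 : Q x ≠ 0 := hx.1 ▸ hv0
  obtain ⟨l, hl⟩ := h.exists_nonsing hx0
  obtain ⟨m, hml, hm⟩ : ∃ m, m ≠ l ∧ π m x ≠ 0 := by
    by_contra! h1
    exact hc l (h.proj.mem_iff.2 h1)
  have key : ∀ j, π j x ≠ 0 → ∀ w : F, ∃ z ∈ D j, ∃ c : F, c * c * Q z = w ∧ c * polar Q x z = w ∧
      c = (Q z)⁻¹ * polar Q x z := fun j hj w => by
    by_cases hw : w = 0
    · exact ⟨0, (D j).zero_mem, 0, by simp [hw]⟩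
    obtain ⟨z, hz, z1, z2⟩ := exists_polar_norm h2 (h.nondeg j) (h.three j) (h.proj.mem j x) hj
      one_ne_zero w⁻¹
    rw [h.polar_proj x hz] at z1
    exact ⟨z, hz, w, by rw [z2]; field_simp, by rw [z1, mul_one], by rw [z1, z2]; simp⟩
  obtain ⟨t, ht0, ht1⟩ := AL.exists_sq_ne_one (F := F) hq
  obtain ⟨z, hz, c, z1, z2, z3⟩ := key l (fun h0 => hl (by simp [h0]))
    (-Q (π l x) * (t - 1) ^ 2 / t)
  obtain ⟨z', hz', c', z1', z2', z3'⟩ := key m hm
    (2 * Q x - t * Q x + Q (π l x) * (t - 1) ^ 2 / t)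
  have h7 : polar Q z z' = 0 := mem_orth'.1 (h.perp l m hml.symm hz) z' hz'
  have c1 := h.cls_refl h2 hv hv0 (h.cls_refl h2 hv hv0 hx hz) hz'
  have e1 : (refl Q z').1 ((refl Q z).1 x) = x - c • z - c' • z' := by
    rw [refl_apply, refl_apply, polar_sub_left, polar_smul_left', h7, mul_zero, sub_zero, ← z3,
      ← z3']
  rw [e1] at c1
  have c2 := hx.refl_apply c1
  have e2 : (Q (x - c • z - c' • z'))⁻¹ * polar Q x (x - c • z - c' • z') = t := by
    rw [c1.1, ← hx.1, polar_sub_right, polar_sub_right, polar_smul_right', polar_smul_right', z2,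
      z2', polar_self']
    field_simp
    ring
  have e3 : π l ((refl Q (x - c • z - c' • z')).1 x) = (1 - t) • π l x + (t * c) • z := by
    simp only [refl_apply, e2, map_sub, map_smul, h.proj.self l z hz, h.proj.ne l m hml.symm z' hz']
    module
  have e4 := h.polar_proj x hz
  have e5 := h.proj_eq_zero_of_singular h2 hv hv0 c2 (l := l) (by
    rw [e3, Q_add, Q_smul, Q_smul, polar_smul_left', polar_smul_right', e4]
    have : t * (-Q (π l x) * (t - 1) ^ 2 / t) = -Q (π l x) * (t - 1) ^ 2 := by field_simp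
    linear_combination t * t * z1 + (1 - t) * t * z2 + this)
  have e6 := congrArg (polar Q (π l x)) (e3.symm.trans e5)
  rw [polar_add_right, polar_smul_right', polar_smul_right', e4, polar_self', polar_zero_right,
    mul_assoc t, z2] at e6
  field_simp at e6
  exact ht1 (mul_right_cancel₀ hl (by linear_combination -e6))

/-- The maps commuting with `θ` up to sign. -/
def pmCent (θ : V →ₗ[F] V) : Subgroup (V ≃ₗ[F] V) where
  carrier := {g | ∃ ε : F, ε * ε = 1 ∧ ∀ x, g (θ x) = ε • θ (g x)}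
  one_mem' := ⟨1, one_mul 1, by simp⟩
  mul_mem' := by
    rintro a b ⟨ε, h1, h2⟩ ⟨η, h3, h4⟩
    exact ⟨η * ε, by linear_combination ε * ε * h3 + h1, fun x => by simp [h2, h4, smul_smul]⟩
  inv_mem' := by
    rintro a ⟨ε, h1, h2⟩
    exact ⟨ε, h1, fun x => a.injective (by simp [h2, smul_smul, h1])⟩

theorem mem_pmCent_of_sq (hQ : (polarBilin Q).Nondegenerate) (h2 : (2 : F) ≠ 0)
    (hn : finrank F V = 6) (hq : 3 < Fintype.card F) {θ : V →ₗ[F] V}
    (hθ : ∀ x y, polar Q (θ x) y = polar Q x (θ y)) {s : F} (hs : s ≠ 0)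
    (hθθ : ∀ x, θ (θ x) = (s * s) • x) {γ : V ≃ₗ[F] V} (hγ : ∀ x, γ (θ x) = -θ (γ x))
    (hN : ∀ g ∈ commutator (O Q), g.1 ∈ pmCent θ → g ∈ X) (hX : ¬ commutator (O Q) ≤ X)
    {g : O Q} (hg : g ∈ X) : g.1 ∈ pmCent θ := by
  let E : F → Submodule F V := fun c => LinearMap.ker (θ - c • LinearMap.id)
  have hE : ∀ c x, x ∈ E c ↔ θ x = c • x := fun c x => by simp [E, sub_eq_zero]
  have dec : ∀ s : F, s ≠ 0 → (∀ x, θ (θ x) = (s * s) • x) → ∀ x, ∃ a b, θ a = s • a ∧
      θ b = -s • b ∧ x = a + b := fun s hs hθθ x =>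
    ⟨(2 * s)⁻¹ • (s • x + θ x), (2 * s)⁻¹ • (s • x - θ x), by
      simp only [map_smul, map_add, hθθ]; module, by simp only [map_smul, map_sub, hθθ]; module,
      by match_scalars <;> field_simp <;> ring⟩
  have ho : ∀ s : F, s ≠ 0 → (∀ x, θ (θ x) = (s * s) • x) → orth Q (E s) = E (-s) :=
    fun s hs hθθ => by
      have h1 : ∀ a b, θ a = s • a → θ b = -s • b → polar Q b a = 0 := fun a b ha hb => by
        have := hθ b a
        rw [ha, hb, polar_smul_left', polar_smul_right'] at this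
        exact mul_left_cancel₀ (mul_ne_zero h2 hs) (by linear_combination -this)
      refine le_antisymm (fun x hx => ?_) fun b hb =>
        mem_orth'.2 fun a ha => h1 a b ((hE _ _).1 ha) ((hE _ _).1 hb)
      obtain ⟨a, b, ha, hb, rfl⟩ := dec s hs hθθ x
      have : a = 0 := hQ.1 a fun y => by
        obtain ⟨a', b', ha', hb', rfl⟩ := dec s hs hθθ y
        have := mem_orth'.1 hx a' ((hE _ _).2 ha')
        rw [polar_add_left, h1 a' b ha' hb] at this
        rw [polarBilin_apply_apply, polar_add_right, pc (h1 a b' ha hb'), this]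
      simpa [this, hE] using hb
  have hs' : -s ≠ 0 := neg_ne_zero.2 hs
  have hθθ' : ∀ x, θ (θ x) = (-s * -s) • x := by simpa using hθθ
  have hdj : ∀ s : F, s ≠ 0 → Disjoint (E s) (E (-s)) := fun s hs =>
    Submodule.disjoint_def.2 fun x h1 h3 => by
      rw [hE] at h1 h3
      exact (smul_eq_zero_iff_right (mul_ne_zero h2 hs)).1 (by
        linear_combination (norm := module) h3 - h1)
  have hmap : ∀ (k : V ≃ₗ[F] V) (ε : F), (∀ x, θ x = s • x → θ (k x) = (ε * s) • k x) →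
      (∀ x, θ x = -s • x → θ (k x) = -(ε * s) • k x) → ε * ε = 1 → k ∈ pmCent θ :=
    fun k ε h1 h3 h4 => ⟨ε, h4, fun x => by
      obtain ⟨a, b, ha, hb, rfl⟩ := dec s hs hθθ x
      simp only [map_add, map_smul, ha, hb, h1 a ha, h3 b hb]
      match_scalars
      · linear_combination -s * h4
      · linear_combination s * h4⟩
  have hle : ∀ s : F, finrank F (E s) ≤ finrank F (E (-s)) := fun s => by
    rw [← LinearEquiv.finrank_map_eq γ]
    refine Submodule.finrank_mono ?_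
    rintro _ ⟨x, hx, rfl⟩
    have := hγ x
    rw [(hE _ _).1 hx, map_smul] at this
    exact (hE _ _).2 (by rw [neg_smul]; exact neg_eq_iff_eq_neg.1 this.symm)
  have h3 : ∀ s : F, s ≠ 0 → (∀ x, θ (θ x) = (s * s) • x) → finrank F (E s) = 3 := fun s hs h => by
    have h1 := finrank_orth hQ (E s)
    have := hle s
    have := hle (-s)
    rw [ho s hs h] at h1
    rw [neg_neg] at this
    omega
  have hst : ∀ (k : O Q) (ε : F), ε * ε = 1 → (E s).map k.1.toLinearMap ≤ E (ε * s) →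
      k.1 ∈ pmCent θ := fun k ε h4 h5 => by
    have h6 : ε * s ≠ 0 := mul_ne_zero (left_ne_zero_of_mul_eq_one h4) hs
    have h7 : ∀ x, θ (θ x) = (ε * s * (ε * s)) • x := fun x => by
      rw [hθθ, mul_mul_mul_comm, h4, one_mul]
    have h8 := Submodule.eq_of_le_of_finrank_eq h5 (by
      rw [LinearEquiv.finrank_map_eq, h3 s hs hθθ, h3 _ h6 h7])
    refine hmap k.1 ε (fun x hx => (hE _ _).1 (h5 ⟨x, (hE _ _).2 hx, rfl⟩)) (fun x hx => ?_) h4
    rw [← hE, ← ho _ hs hθθ] at hx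
    rw [← hE, ← ho _ h6 h7, ← h8, mem_orth']
    rintro _ ⟨y, hy, rfl⟩
    exact (O_polar k x y).trans (mem_orth'.1 hx y hy)
  let D : Bool → Submodule F V := fun b => cond b (E s) (E (-s))
  have ho' : ∀ i j, i ≠ j → D i ≤ orth Q (D j) := by
    rintro (_ | _) (_ | _) h
    · exact absurd rfl h
    · exact (ho s hs hθθ).ge
    · exact ((ho _ hs' hθθ').trans (by rw [neg_neg]; rfl)).ge
    · exact absurd rfl h
  have hnd : ∀ i, Disjoint (D i) (orth Q (D i)) := by
    rintro (_ | _)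
    · exact (ho _ hs' hθθ').symm ▸ hdj _ hs'
    · exact (ho _ hs hθθ).symm ▸ hdj _ hs
  have hd : ∀ i, finrank F (D i) = 3 := by
    rintro (_ | _)
    exacts [h3 _ hs' hθθ', h3 _ hs hθθ]
  obtain ⟨π, hπ⟩ := exists_isDecProj (D := D) (fun i => (hnd i).mono_right
    (iSup₂_le fun j hj => ho' j i hj)) (by
      rw [iSup_bool_eq]
      exact (ho s hs hθθ) ▸ (isCompl_orth hQ (hnd true)).sup_eq_top)
  have hs1 : ∀ k ∈ commutator (O Q), k ∈ stab Q (E s) → k ∈ X := fun k hk h => hN k hk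
    (hst k 1 (one_mul 1) (by rw [one_mul, mem_stab_iff_map.1 h]))
  have h : OCtx Q D π X := ⟨hQ, by omega, hπ, hnd, ho', fun i => (hd i).ge, fun i => ⟨!i, by simp⟩,
    fun g hg h => hs1 g hg (h true), fun i =>
      hull_of_stab hQ (by omega) (hnd i) (hd i).ge (by rw [hd, hn]) (fun g hg h => hs1 g hg (by
        cases i
        · rwa [← mem_stab_orth_iff hQ, ho s hs hθθ]
        · exact h)) hX⟩
  obtain ⟨_ | _, hj⟩ := h.exists_map_le (fun j v hv hv0 x hx => h.exists_mem_of_odd h2 hq hv hv0 hx)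
    (i := true) ⟨(hd _).ge, fun _ => hq, fun h => by rw [hd] at h; omega⟩ hg
  · exact hst g (-1) (by simp) (by rwa [neg_one_mul])
  · exact hst g 1 (by simp) (by rwa [one_mul])

theorem mem_pmCent (hQ : (polarBilin Q).Nondegenerate) (h2 : (2 : F) ≠ 0)
    (hn : finrank F V = 6) (hq : 3 < Fintype.card F) {θ : V →ₗ[F] V}
    (hθ : ∀ x y, polar Q (θ x) y = polar Q x (θ y)) {δ : F} (hδ : δ ≠ 0)
    (hθθ : ∀ x, θ (θ x) = δ • x) {γ : V ≃ₗ[F] V} (hγ : ∀ x, γ (θ x) = -θ (γ x))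
    (hX' : X ≤ commutator (O Q))
    (hN : ∀ g ∈ commutator (O Q), g.1 ∈ pmCent θ → g ∈ X) (hX : ¬ commutator (O Q) ≤ X)
    {g : O Q} (hg : g ∈ X) : g.1 ∈ pmCent θ := by
  by_cases hs : ∃ s, s * s = δ
  · obtain ⟨s, rfl⟩ := hs
    exact mem_pmCent_of_sq hQ h2 hn hq hθ (left_ne_zero_of_mul hδ) hθθ hγ hN hX hg
  have : Fact (∀ r : F, r ^ 2 ≠ δ + 0 * r) := ⟨fun r hr => hs ⟨r, by linear_combination hr⟩⟩
  let K := QuadraticAlgebra F δ 0
  let φ : K →ₐ[F] End F V := QuadraticAlgebra.lift ⟨θ, LinearMap.ext fun x => by simp [hθθ]⟩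
  let _ : Module K V := Module.compHom V φ.toRingHom
  have hK : ∀ (k : K) (x : V), k • x = k.re • x + k.im • θ x := fun k x => by
    change φ k x = _
    simp [φ, QuadraticAlgebra.lift]
  have : IsScalarTower F K V := ⟨fun c k x => by simp [hK, smul_smul, K]⟩
  have : Finite K := Module.finite_of_finite F
  obtain ⟨Φ, hΦ⟩ := AO.exists_isDesc (K := K) (Q := Q) fun k u v => by
    simp only [hK, polar_add_left, polar_add_right, polar_smul_left', polar_smul_right', hθ]
  have h1 := finrank_mul_finrank F K V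
  have h3 : finrank F K = 2 := QuadraticAlgebra.finrank_eq_two _ _
  rw [h3, hn] at h1
  have h : TrForm Q Φ := ⟨fun v => (hΦ v).symm, hΦ.nondeg hQ, h2, h3 ▸ Nat.prime_two, by omega⟩
  have : Nontrivial V := Module.nontrivial_of_finrank_pos (R := F) (by omega)
  have hω : ∀ x : V, (QuadraticAlgebra.omega : K) • x = θ x := fun x => by simp [hK]
  have key : ∀ k : V ≃ₗ[F] V, k ∈ semiN F K V ↔ k ∈ pmCent θ := fun k => by
    refine ⟨fun ⟨ρ, hρ⟩ => ?_, fun ⟨ε, _, hε⟩ => mem_semiN_of fun c => ⟨⟨c.re, c.im * ε⟩,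
      fun x => by simp [hK, hε, smul_smul]⟩⟩
    obtain ⟨x, hx⟩ := exists_ne (0 : V)
    have h4 := hρ QuadraticAlgebra.omega ((QuadraticAlgebra.omega : K) • x)
    have h5 : (QuadraticAlgebra.omega : K) • (QuadraticAlgebra.omega : K) • k x = δ • k x := by
      rw [hω, hω, hθθ]
    rw [hρ _ x, hω, hω, hθθ, map_smul, ← h5, smul_smul, smul_smul] at h4
    rcases mul_self_eq_mul_self_iff.1 (smul_left_injective K (by simpa using hx) h4) with h6 | h6
    · exact ⟨1, one_mul 1, fun y => by rw [← hω, hρ, ← h6, hω, one_smul]⟩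
    · exact ⟨-1, by simp, fun y => by
        rw [← hω, hρ, neg_eq_iff_eq_neg.2 h6 |>.symm, neg_smul, hω, neg_one_smul]⟩
  exact (key _).1 ((h.maxOm (by
    rw [h3, Nat.card_eq_fintype_card, show finrank K V = 3 by omega]; omega)).2 X hX'
    (fun k hk hk' => hN k hk ((key _).1 hk')) hX g hg)

end Cfsg.Lib.Class.OMax
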