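import Cfsg.Agent.Class.OPlaneMax
import Cfsg.Agent.Class.ODecMax

/-! Small complements for the tables of geometric maximal subgroups of orthogonal groups. -/

set_option autoImplicit false

namespace Cfsg.Lib.Class.OMax

open Module QuadraticMap Cfsg.Lib.Class.Orth Cfsg.Geo

variable {F : Type*} [Field F]

theorem ODec.isPlus_of_singular {V : Type*} [AddCommGroup V] [Module F V] [FiniteDimensional F V]
    {Q : QuadraticForm F V} {τ : Type*} [Fintype τ] {D : τ → Submodule F V} (h : ODec Q 2 D)
    {i : τ} {p : V} (hp : p ∈ D i) (hp0 : Q p = 0) (hp1 : p ≠ 0) : Known.IsPlus Q := by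
  choose e he using h.iso i
  let v : τ → V := fun j => e j ⟨p, hp⟩
  have h1 : ∀ j, v j ∈ D j := fun j => (e j ⟨p, hp⟩).2
  have h2 : ∀ j, Q (v j) = 0 := fun j => (he j ⟨p, hp⟩).trans hp0
  have h3 : LinearIndependent F v := h.indep.linearIndependent D h1 fun j hj =>
    hp1 (congrArg Subtype.val ((e j).map_eq_zero_iff.1 (Subtype.ext hj)))
  have h4 : ∀ j k, polar Q (v j) (v k) = 0 := fun j k => by
    by_cases hjk : j = k
    · rw [hjk, polar_self, h2, smul_zero]
    · exact h.polar_eq_zero hjk (h1 j) (h1 k)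
  refine ⟨Submodule.span F (Set.range v), fun u hu => ?_, by
    rw [finrank_span_eq_card h3, ← h.card_mul, mul_comm]⟩
  have key : ∀ u ∈ Submodule.span F (Set.range v), Q u = 0 ∧ ∀ j, polar Q u (v j) = 0 := by
    intro u hu
    obtain ⟨c, rfl⟩ := (Submodule.mem_span_range_iff_exists_fun F).1 hu
    refine Finset.sum_induction _ (fun u => (Q u = 0 ∧ ∀ j, polar Q u (v j) = 0) ∧
      u ∈ Submodule.span F (Set.range v)) ?_ (by simp) ?_ |>.1
    · rintro a b ⟨⟨a1, a2⟩, a3⟩ ⟨⟨b1, b2⟩, b3⟩
      refine ⟨⟨?_, fun j => by rw [polar_add_left, a2, b2, add_zero]⟩, add_mem a3 b3⟩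
      obtain ⟨c, rfl⟩ := (Submodule.mem_span_range_iff_exists_fun F).1 b3
      rw [Q_add, a1, b1, ← polarBilin_apply_apply, map_sum]
      simp [a2]
    · intro j _
      exact ⟨⟨by rw [Q_smul, h2, mul_zero], fun k => by rw [polar_smul_left', h4, mul_zero]⟩,
        Submodule.smul_mem _ _ (Submodule.subset_span ⟨j, rfl⟩)⟩
  exact (key u hu).1

/-- Decompositions into two non-isometric non-degenerate subspaces of dimension at least five. -/
theorem isMaximalIn_two_not_isometric [Fintype F] {ι : Type} [Fintype ι] [DecidableEq ι]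
    {Q : QuadraticForm F (ι → F)} (hq : (polarBilin Q).Nondegenerate) {k : ℕ}
    (hk : 2 * k = Fintype.card ι) (h5 : 5 ≤ k) {D : Fin 2 → Submodule F (ι → F)}
    (hD : IsNondegenerateMDecomposition (polar Q) k D) (hni : ¬ AreIsometricFor Q (D 0) (D 1)) :
    IsMaximalIn (omegaGL Q) (decompositionStabilizer D ⊓ omegaGL Q) := by
  have h0 := hD.decomp.finrank_eq 0
  have h1 := hD.decomp.finrank_eq 1
  have hd := finrank_orth hq (D 0)
  have hnd := disjoint_orth_of_isNondegenerateOn (Q := Q) (hD.nondegenerate 0)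
  simp only [Module.finrank_fintype_fun_eq_card] at hd
  have he : D 1 = orth Q (D 0) := Submodule.eq_of_le_of_finrank_eq
    (fun x hx y hy => hD.orthogonal 0 1 (by decide) y hy x hx) (by omega)
  refine ((maxOm_nondeg hq hnd (by rintro h; rw [h, finrank_bot] at h0; omega)
    (by rintro h; rw [h] at h0; simp at h0; omega) (by omega) (by omega)
    (by simp; omega) (fun _ => he ▸ hni)).congr (N' := stabDec D) fun g _ => ?_).isMaximalIn
      (mem_decompositionStabilizer_iff_glLin D)
  constructor
  · intro h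
    refine mem_stabDec_of_forall fun i v hv => ?_
    fin_cases i
    · exact (h v).1 hv
    · simp only [Fin.mk_one, he] at hv ⊢
      exact (mem_stab_orth h v).1 hv
  · rintro ⟨σ, hσ⟩
    have h2 := hσ 0
    by_cases h3 : σ 0 = 0
    · rw [h3] at h2
      exact mem_stab_iff_map.2 h2
    · rw [show σ 0 = 1 by omega] at h2
      exact absurd (exists_equiv_of_map_eq h2) hni

end Cfsg.Lib.Class.OMax
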