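import Cfsg.Agent.Known.QuadNormal

/-!
The determinant criterion for the type of a non-degenerate quadratic or symmetric bilinear form
of even dimension over a finite field of odd order, and Gram matrices of tensor products.
-/

set_option autoImplicit false

namespace Cfsg.Lib.Class

open QuadraticMap Module Cfsg.Lib.Known
open scoped Matrix Kronecker

variable {F V : Type*} [Field F] [AddCommGroup V] [Module F V]

/-- The Gram determinants of isometric forms differ by a non-zero square. -/
theorem exists_gramDet_eq {W : Type*} [AddCommGroup W] [Module F W] {ι κ : Type*} [Fintype ι]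
    [DecidableEq ι] [Fintype κ] [DecidableEq κ] (b : Basis ι F V) (b' : Basis κ F W)
    (B : LinearMap.BilinForm F V) (B' : LinearMap.BilinForm F W) (g : W ≃ₗ[F] V)
    (hg : ∀ u v, B (g u) (g v) = B' u v) :
    ∃ c : F, c ≠ 0 ∧ (LinearMap.BilinForm.toMatrix b' B').det =
      c ^ 2 * (LinearMap.BilinForm.toMatrix b B).det := by
  let e : ι ≃ κ := b.indexEquiv (b'.map g)
  let b₂ : Basis ι F V := (b'.map g).reindex e.symm
  have h1 : LinearMap.BilinForm.toMatrix b₂ B =
      (LinearMap.BilinForm.toMatrix b' B').submatrix e e := by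
    ext i j
    simp [b₂, LinearMap.BilinForm.toMatrix_apply, hg]
  refine ⟨(b.toMatrix b₂).det, ?_, ?_⟩
  · have := b.invertibleToMatrix b₂
    exact (Matrix.isUnit_det_of_invertible _).ne_zero
  · rw [← Matrix.det_submatrix_equiv_self e, ← h1,
      ← LinearMap.BilinForm.toMatrix_mul_basis_toMatrix b b₂, Matrix.det_mul, Matrix.det_mul,
      Matrix.det_transpose]
    ring

theorem gramDet_quadPlus (m : ℕ) :
    (LinearMap.BilinForm.toMatrix (Pi.basisFun F (Fin m ⊕ Fin m))
      (polarBilin (quadPlus m F))).det = (-1) ^ m := by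
  have : LinearMap.BilinForm.toMatrix (Pi.basisFun F (Fin m ⊕ Fin m))
      (polarBilin (quadPlus m F)) = Matrix.fromBlocks 0 1 1 0 := by
    ext (i | i) (j | j) <;>
      simp [LinearMap.BilinForm.toMatrix_apply, coe_quadPlus, polar_quadFormPlus, Pi.single_apply,
        Matrix.one_apply, eq_comm]
  rw [this]
  have h2 : (Matrix.fromBlocks 1 1 0 1 : Matrix (Fin m ⊕ Fin m) (Fin m ⊕ Fin m) F) *
      Matrix.fromBlocks 0 1 1 0 = Matrix.fromBlocks 1 1 1 0 := by
    simp [Matrix.fromBlocks_multiply]
  have h3 := congrArg Matrix.det h2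
  rw [Matrix.det_mul, Matrix.det_fromBlocks_zero₂₁, Matrix.det_fromBlocks_one₁₁] at h3
  simpa [Matrix.det_neg] using h3

theorem gramDet_quadMinus (m : ℕ) (a b : F) :
    (LinearMap.BilinForm.toMatrix (Pi.basisFun F ((Fin m ⊕ Fin m) ⊕ Fin 2))
      (polarBilin (quadMinus m F a b))).det = (-1) ^ (m + 1) * (a ^ 2 - 4 * b) := by
  have : LinearMap.BilinForm.toMatrix (Pi.basisFun F ((Fin m ⊕ Fin m) ⊕ Fin 2))
      (polarBilin (quadMinus m F a b)) = Matrix.fromBlocks
        (LinearMap.BilinForm.toMatrix (Pi.basisFun F (Fin m ⊕ Fin m)) (polarBilin (quadPlus m F)))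
        0 0 !![2, a; a, 2 * b] := by
    ext i j
    rcases i with (i | i) | i <;> rcases j with (j | j) | j <;> (try fin_cases i) <;>
      (try fin_cases j) <;>
      simp [LinearMap.BilinForm.toMatrix_apply, coe_quadPlus, polar_quadFormPlus, Pi.single_apply,
        coe_quadMinus, polar_quadFormMinus]
  rw [this, Matrix.det_fromBlocks_zero₂₁, gramDet_quadPlus, Matrix.det_fin_two_of]
  ring

/-- A non-degenerate quadratic form of dimension `2 m` over a finite field of odd order has plus
type exactly when `(-1) ^ m` times the Gram determinant of its polar form is a square. -/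
theorem isPlus_iff_isSquare_gramDet [Finite F] (h2 : (2 : F) ≠ 0) {ι : Type*} [Fintype ι]
    [DecidableEq ι] (b : Basis ι F V) {Q : QuadraticForm F V}
    (hQ : (polarBilin Q).Nondegenerate) {m : ℕ} (hV : finrank F V = 2 * m) :
    IsPlus Q ↔ IsSquare ((-1) ^ m * (LinearMap.BilinForm.toMatrix b (polarBilin Q)).det) := by
  have := b.finiteDimensional_of_finite
  constructor
  · intro h
    obtain ⟨g, hg⟩ := exists_equiv_plus hQ hV h
    obtain ⟨c, -, hc⟩ := exists_gramDet_eq (Pi.basisFun F (Fin m ⊕ Fin m)) b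
      (polarBilin (quadPlus m F)) (polarBilin Q) g.symm (fun u v =>
        polar_map_of_map (Q := Q) (Q' := quadPlus m F) g.symm.toLinearMap
          (fun v => by rw [quadPlus_apply, ← hg]; simp) u v)
    rw [hc, gramDet_quadPlus]
    refine ⟨c, ?_⟩
    rw [mul_left_comm, ← mul_pow]
    simp [pow_two]
  · intro hs
    by_contra h
    rcases m with _ | m
    · exact h ⟨⊥, by simp, by simp [hV]⟩
    obtain ⟨ζ, hζ⟩ := exists_aniso F
    obtain ⟨g, hg⟩ := exists_equiv_minus hQ (m := m) hV h hζ
    obtain ⟨c, hc0, hc⟩ := exists_gramDet_eq (Pi.basisFun F ((Fin m ⊕ Fin m) ⊕ Fin 2)) b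
      (polarBilin (quadMinus m F 1 ζ)) (polarBilin Q) g.symm (fun u v =>
        polar_map_of_map (Q := Q) (Q' := quadMinus m F 1 ζ) g.symm.toLinearMap
          (fun v => by rw [quadMinus_apply, ← hg]; simp) u v)
    rw [hc, gramDet_quadMinus] at hs
    apply not_isSquare_discr_of_aniso h2 hζ
    have e : (-1 : F) ^ (m + 1) * (c ^ 2 * ((-1) ^ (m + 1) * (1 ^ 2 - 4 * ζ))) =
        c ^ 2 * (1 ^ 2 - 4 * ζ) := by
      rw [mul_left_comm, ← mul_assoc ((-1 : F) ^ (m + 1)), ← mul_pow]
      simp
    rw [e] at hs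
    exact (isSquare_mul_iff_of_isSquare ⟨c, pow_two c⟩ (pow_ne_zero 2 hc0)).1 hs

theorem polarBilin_toQuadraticMap_of_isSymm {B : LinearMap.BilinForm F V} (hS : B.IsSymm) :
    polarBilin (LinearMap.BilinMap.toQuadraticMap B) = (2 : F) • B := by
  ext u v
  simp [LinearMap.BilinMap.polar_toQuadraticMap, hS.eq v u, two_mul]

theorem nondegenerate_polar_toQuadraticMap (h2 : (2 : F) ≠ 0) {B : LinearMap.BilinForm F V}
    (hS : B.IsSymm) (hB : B.Nondegenerate) :
    (polarBilin (LinearMap.BilinMap.toQuadraticMap B)).Nondegenerate := by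
  rw [polarBilin_toQuadraticMap_of_isSymm hS]
  exact ⟨fun u hu => hB.1 u fun v => by simpa [h2] using hu v,
    fun u hu => hB.2 u fun v => by simpa [h2] using hu v⟩

/-- A non-degenerate symmetric form of dimension `2 m` over a finite field of odd order has a
totally isotropic `m`-subspace exactly when `(-1) ^ m` times its Gram determinant is a square. -/
theorem exists_isotropic_half_iff_isSquare [Finite F] (h2 : (2 : F) ≠ 0) {ι : Type*} [Fintype ι]
    [DecidableEq ι] (b : Basis ι F V) {B : LinearMap.BilinForm F V} (hS : B.IsSymm)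
    (hB : B.Nondegenerate) {m : ℕ} (hV : finrank F V = 2 * m) :
    (∃ X : Submodule F V, finrank F X = m ∧ ∀ x ∈ X, ∀ y ∈ X, B x y = 0) ↔
      IsSquare ((-1) ^ m * (LinearMap.BilinForm.toMatrix b B).det) := by
  have h1 := isPlus_iff_isSquare_gramDet h2 b (nondegenerate_polar_toQuadraticMap h2 hS hB) hV
  have hcard : Fintype.card ι = 2 * m := by rw [← hV, finrank_eq_card_basis b]
  rw [polarBilin_toQuadraticMap_of_isSymm hS, map_smul, Matrix.det_smul, hcard, mul_left_comm,
    isSquare_mul_iff_of_isSquare ⟨2 ^ m, by ring⟩ (pow_ne_zero _ h2)] at h1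
  rw [← h1]
  constructor
  · rintro ⟨X, hX, h⟩
    exact ⟨X, fun u hu => h u hu u hu, by omega⟩
  · rintro ⟨X, hX, h⟩
    refine ⟨X, by omega, fun x hx y hy => ?_⟩
    have := polar_eq_zero_of_forall_mem hX hx hy
    rw [← polarBilin_apply_apply, polarBilin_toQuadraticMap_of_isSymm hS] at this
    simpa [h2] using this

section Tensor

variable {U W : Type*} [AddCommGroup U] [Module F U] [AddCommGroup W] [Module F W]
  {ι κ : Type*} [Fintype ι] [DecidableEq ι] [Fintype κ] [DecidableEq κ]

theorem toMatrix_tmul (b₁ : Basis ι F U) (b₂ : Basis κ F W) (B₁ : LinearMap.BilinForm F U)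
    (B₂ : LinearMap.BilinForm F W) :
    LinearMap.BilinForm.toMatrix (b₁.tensorProduct b₂) (B₁.tmul B₂) =
      LinearMap.BilinForm.toMatrix b₁ B₁ ⊗ₖ LinearMap.BilinForm.toMatrix b₂ B₂ := by
  ext ⟨i, j⟩ ⟨k, l⟩
  simp [LinearMap.BilinForm.toMatrix_apply, mul_comm]

theorem gramDet_tmul (b₁ : Basis ι F U) (b₂ : Basis κ F W) (B₁ : LinearMap.BilinForm F U)
    (B₂ : LinearMap.BilinForm F W) :
    (LinearMap.BilinForm.toMatrix (b₁.tensorProduct b₂) (B₁.tmul B₂)).det =
      (LinearMap.BilinForm.toMatrix b₁ B₁).det ^ Fintype.card κ *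
        (LinearMap.BilinForm.toMatrix b₂ B₂).det ^ Fintype.card ι := by
  rw [toMatrix_tmul, Matrix.det_kronecker]

theorem nondegenerate_tmul [FiniteDimensional F U] [FiniteDimensional F W]
    {B₁ : LinearMap.BilinForm F U} {B₂ : LinearMap.BilinForm F W} (h₁ : B₁.Nondegenerate)
    (h₂ : B₂.Nondegenerate) : LinearMap.BilinForm.Nondegenerate (B₁.tmul B₂) := by
  rw [LinearMap.BilinForm.nondegenerate_iff_det_ne_zero (finBasis F U)] at h₁
  rw [LinearMap.BilinForm.nondegenerate_iff_det_ne_zero (finBasis F W)] at h₂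
  rw [LinearMap.BilinForm.nondegenerate_iff_det_ne_zero
    ((finBasis F U).tensorProduct (finBasis F W)), gramDet_tmul]
  exact mul_ne_zero (pow_ne_zero _ h₁) (pow_ne_zero _ h₂)

/-- If `X` is totally isotropic for `B₁` then `X ⊗ W` is totally isotropic for `B₁ ⊗ B₂`. -/
theorem exists_isotropic_tmul [FiniteDimensional F U] [FiniteDimensional F W]
    (B₁ : LinearMap.BilinForm F U) (B₂ : LinearMap.BilinForm F W) (X : Submodule F U)
    (hX : ∀ x ∈ X, ∀ y ∈ X, B₁ x y = 0) :
    ∃ Y : Submodule F (TensorProduct F U W), finrank F Y = finrank F X * finrank F W ∧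
      ∀ x ∈ Y, ∀ y ∈ Y, (B₁.tmul B₂) x y = 0 := by
  refine ⟨LinearMap.range (X.subtype.rTensor W), ?_, ?_⟩
  · rw [LinearMap.finrank_range_of_inj
      (Module.Flat.rTensor_preserves_injective_linearMap _ X.injective_subtype),
      finrank_tensorProduct]
  · rintro _ ⟨x, rfl⟩ _ ⟨y, rfl⟩
    induction x using TensorProduct.induction_on with
    | zero => simp
    | add a b ha hb => simp only [map_add, LinearMap.add_apply, ha, hb, add_zero]
    | tmul a b =>
      induction y using TensorProduct.induction_on with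
      | zero => simp
      | add c d hc hd => simp only [map_add, hc, hd, add_zero]
      | tmul c d => simp [hX a a.2 c c.2]

end Tensor

end Cfsg.Lib.Class
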