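import Mathlib
import Cfsg.Agent.Class.RootTransfer
import Cfsg.Agent.Trans.Quasisimple

/-!
Rank one groups (Timmesfeld): the basic properties.
-/

set_option autoImplicit false

namespace Cfsg.Lib.Class

open scoped commutatorElement

variable {G : Type*} [Group G]

/-- The conjugate `A ^ g = g⁻¹ A g`. -/
def rc (A : Subgroup G) (g : G) : Subgroup G := conjBy A g⁻¹

theorem rc_def (A : Subgroup G) (g : G) : conjBy A g⁻¹ = rc A g := rfl

theorem conjBy_eq_rc (A : Subgroup G) (g : G) : conjBy A g = rc A g⁻¹ := by rw [rc, inv_inv]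

theorem mem_rc {A : Subgroup G} {g x : G} : x ∈ rc A g ↔ g * x * g⁻¹ ∈ A := by
  rw [rc, mem_conjBy, inv_inv]

theorem conj_mem_rc {A : Subgroup G} {a : G} (ha : a ∈ A) (g : G) : g⁻¹ * a * g ∈ rc A g := by
  rw [mem_rc]; simpa [mul_assoc] using ha

theorem exists_of_mem_rc {A : Subgroup G} {g x : G} (h : x ∈ rc A g) : ∃ a ∈ A, x = g⁻¹ * a * g :=
  ⟨_, mem_rc.1 h, by group⟩

theorem rc_rc (A : Subgroup G) (g h : G) : rc (rc A g) h = rc A (g * h) := by
  rw [rc, rc, rc, conjBy_conjBy, mul_inv_rev]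

@[simp] theorem rc_one (A : Subgroup G) : rc A 1 = A := by rw [rc, inv_one, conjBy_one]

theorem rc_rc_inv (A : Subgroup G) (g : G) : rc (rc A g) g⁻¹ = A := by
  rw [rc_rc, mul_inv_cancel, rc_one]

theorem rc_inv_rc (A : Subgroup G) (g : G) : rc (rc A g⁻¹) g = A := by
  rw [rc_rc, inv_mul_cancel, rc_one]

theorem rc_inj {A B : Subgroup G} {g : G} : rc A g = rc B g ↔ A = B :=
  ⟨fun h => by rw [← rc_rc_inv A g, h, rc_rc_inv], fun h => by rw [h]⟩

theorem rc_eq_iff_eq_rc_inv {A B : Subgroup G} {g : G} : rc A g = B ↔ A = rc B g⁻¹ :=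
  ⟨fun h => by rw [← h, rc_rc_inv], fun h => by rw [h, rc_inv_rc]⟩

theorem rc_eq_iff_mem_normalizer {A : Subgroup G} {g : G} :
    rc A g = A ↔ g ∈ Subgroup.normalizer (A : Set G) := by
  rw [rc, conjBy_eq_iff_mem_normalizer, Subgroup.inv_mem_iff]

theorem rc_of_mem {A : Subgroup G} {g : G} (hg : g ∈ A) : rc A g = A :=
  rc_eq_iff_mem_normalizer.2 (Subgroup.le_normalizer hg)

theorem rc_mul_of_mem {A : Subgroup G} {a : G} (ha : a ∈ A) (g : G) : rc A (a * g) = rc A g := by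
  rw [← rc_rc, rc_of_mem ha]

theorem rc_mul_of_eq {A : Subgroup G} {a : G} (ha : rc A a = A) (g : G) : rc A (a * g) = rc A g := by
  rw [← rc_rc, ha]

theorem rc_inv_of_eq {A : Subgroup G} {a : G} (ha : rc A a = A) : rc A a⁻¹ = A :=
  (rc_eq_iff_eq_rc_inv.1 ha).symm

theorem rc_sup (A B : Subgroup G) (g : G) : rc (A ⊔ B) g = rc A g ⊔ rc B g := Subgroup.map_sup _ _ _

theorem rc_inf (A B : Subgroup G) (g : G) : rc (A ⊓ B) g = rc A g ⊓ rc B g :=
  Subgroup.map_inf _ _ _ (MulAut.conj _).injective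

theorem rc_commutator (A B : Subgroup G) (g : G) : rc ⁅A, B⁆ g = ⁅rc A g, rc B g⁆ :=
  Subgroup.map_commutator _ _ _

theorem rc_mono {A B : Subgroup G} (h : A ≤ B) (g : G) : rc A g ≤ rc B g := Subgroup.map_mono h

theorem rc_le_of_le {A H : Subgroup G} (h : A ≤ H) {g : G} (hg : g ∈ H) : rc A g ≤ H :=
  (rc_mono h g).trans (rc_of_mem hg).le

theorem rc_bot (g : G) : rc (⊥ : Subgroup G) g = ⊥ := Subgroup.map_bot _

theorem rc_eq_bot {A : Subgroup G} {g : G} : rc A g = ⊥ ↔ A = ⊥ := by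
  rw [← rc_inj (A := A) (B := ⊥) (g := g), rc_bot]

theorem rc_eq_of_forall {A : Subgroup G} {g : G} (h : ∀ a ∈ A, a * g = g * a) : rc A g = A :=
  rc_eq_iff_mem_normalizer.2 (Subgroup.centralizer_le_normalizer _ h)

theorem r1_rc {A B : Subgroup G} (h : IsRankOnePair A B) (g : G) : IsRankOnePair (rc A g) (rc B g) :=
  isRankOnePair_conjBy h _

theorem r1_rc_iff {A B : Subgroup G} {g : G} : IsRankOnePair (rc A g) (rc B g) ↔ IsRankOnePair A B :=
  ⟨fun h => by simpa only [rc_rc_inv] using r1_rc h g⁻¹, fun h => r1_rc h g⟩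

/-- `A` and `B` commute elementwise. -/
def Cm (A B : Subgroup G) : Prop := ∀ a ∈ A, ∀ b ∈ B, a * b = b * a

theorem cm_iff {A B : Subgroup G} : ⁅A, B⁆ = ⊥ ↔ Cm A B :=
  ⟨fun h _ ha _ hb => Trans.commute_of_commutator_eq_bot h ha hb, Trans.commutator_eq_bot_of_forall_commute⟩

theorem cm_iff_le {A B : Subgroup G} : Cm A B ↔ A ≤ Subgroup.centralizer (B : Set G) := by
  rw [← cm_iff, Subgroup.commutator_eq_bot_iff_le_centralizer]

theorem Cm.symm {A B : Subgroup G} (h : Cm A B) : Cm B A := fun b hb a ha => (h a ha b hb).symm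

theorem Cm.mono {A B A' B' : Subgroup G} (h : Cm A B) (hA : A' ≤ A) (hB : B' ≤ B) : Cm A' B' :=
  fun a ha b hb => h a (hA ha) b (hB hb)

theorem Cm.sup_left {A B C : Subgroup G} (h : Cm A C) (h' : Cm B C) : Cm (A ⊔ B) C :=
  cm_iff_le.2 (sup_le (cm_iff_le.1 h) (cm_iff_le.1 h'))

theorem Cm.sup_right {A B C : Subgroup G} (h : Cm C A) (h' : Cm C B) : Cm C (A ⊔ B) :=
  (h.symm.sup_left h'.symm).symm

theorem Cm.rc {A B : Subgroup G} (h : Cm A B) (g : G) : Cm (rc A g) (rc B g) := by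
  rw [← cm_iff, ← rc_commutator, cm_iff.2 h, rc_bot]

theorem cm_rc_iff {A B : Subgroup G} {g : G} : Cm (rc A g) (rc B g) ↔ Cm A B :=
  ⟨fun h => by simpa only [rc_rc_inv] using h.rc g⁻¹, fun h => h.rc g⟩

theorem cm_self {A : Subgroup G} (h : IsMulCommutative A) : Cm A A :=
  fun a ha b hb => congrArg Subtype.val (h.is_comm.comm ⟨a, ha⟩ ⟨b, hb⟩)

theorem isMulCommutative_of_cm {A : Subgroup G} (h : Cm A A) : IsMulCommutative A :=
  ⟨⟨fun a b => Subtype.ext (h a a.2 b b.2)⟩⟩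

theorem Cm.rc_eq {A B : Subgroup G} (h : Cm A B) {b : G} (hb : b ∈ B) : Class.rc A b = A :=
  rc_eq_of_forall fun a ha => h a ha b hb

theorem forall_sup_of {A B : Subgroup G} {z : G} (hA : ∀ a ∈ A, z * a = a * z)
    (hB : ∀ b ∈ B, z * b = b * z) : ∀ x ∈ A ⊔ B, z * x = x * z := by
  have : A ⊔ B ≤ Subgroup.centralizer {z} :=
    sup_le (fun a ha => Subgroup.mem_centralizer_singleton_iff.2 (hA a ha).symm)
      (fun a ha => Subgroup.mem_centralizer_singleton_iff.2 (hB a ha).symm)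
  exact fun x hx => (Subgroup.mem_centralizer_singleton_iff.1 (this hx)).symm

variable {A B : Subgroup G}

theorem r1_symm (h : IsRankOnePair A B) : IsRankOnePair B A := RankOnePair_symm h

theorem r1_left (h : IsRankOnePair A B) {a : G} (ha : a ∈ A) (ha1 : a ≠ 1) :
    ∃ b ∈ B, b ≠ 1 ∧ rc A b = rc B a := h.cond_left a ha ha1

theorem r1_right (h : IsRankOnePair A B) {b : G} (hb : b ∈ B) (hb1 : b ≠ 1) :
    ∃ a ∈ A, a ≠ 1 ∧ rc A b = rc B a := by
  obtain ⟨a, ha, ha1, e⟩ := h.cond_right b hb hb1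
  exact ⟨a, ha, ha1, e.symm⟩

theorem r1_ne_bot (h : IsRankOnePair A B) : A ≠ ⊥ := by
  rintro rfl
  obtain ⟨b, hb, hb1⟩ := (Subgroup.bot_or_exists_ne_one B).resolve_left h.ne.symm
  obtain ⟨a, ha, ha1, -⟩ := r1_right h hb hb1
  exact ha1 ha

theorem r1_exists (h : IsRankOnePair A B) : ∃ a ∈ A, a ≠ 1 :=
  (Subgroup.bot_or_exists_ne_one A).resolve_left (r1_ne_bot h)

theorem r1_eq_one (h : IsRankOnePair A B) {a : G} (ha : a ∈ A) (e : rc B a = B) : a = 1 :=
  inv_eq_one.1 (IsRankOnePair.eq_one_of_conjBy_eq h (A.inv_mem ha) e)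

theorem r1_rc_inj (h : IsRankOnePair A B) {a a' : G} (ha : a ∈ A) (ha' : a' ∈ A)
    (e : rc B a = rc B a') : a = a' := by
  have : rc B (a * a'⁻¹) = B := by rw [← rc_rc, e, rc_rc_inv]
  exact mul_inv_eq_one.1 (r1_eq_one h (A.mul_mem ha (A.inv_mem ha')) this)

theorem r1_not_cm (h : IsRankOnePair A B) : ¬ Cm A B := fun hc =>
  not_isRankOnePair_of_commutator_eq_bot (r1_ne_bot h) (cm_iff.2 hc) h

theorem r1_inf (h : IsRankOnePair A B) {a : G} (ha : a ∈ A) (hb : a ∈ B) : a = 1 :=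
  r1_eq_one h ha (rc_of_mem hb)

theorem r1_rc_ne (h : IsRankOnePair A B) {a : G} (ha : a ∈ A) : rc B a ≠ A := fun e =>
  h.ne (by rw [rc_eq_iff_eq_rc_inv.1 e, rc_of_mem (A.inv_mem ha)])

theorem mem_unipot {C : Subgroup G} : C ∈ unipotentSubgroups A B ↔ ∃ x ∈ A ⊔ B, C = rc A x :=
  ⟨fun ⟨x, hx, e⟩ => ⟨x⁻¹, Subgroup.inv_mem _ hx, e.trans (conjBy_eq_rc _ _)⟩,
    fun ⟨x, hx, e⟩ => ⟨x⁻¹, Subgroup.inv_mem _ hx, e⟩⟩

theorem left_mem_unip : A ∈ unipotentSubgroups A B := mem_unipot.2 ⟨1, Subgroup.one_mem _, (rc_one A).symm⟩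

theorem rc_mem_unip {C : Subgroup G} (hC : C ∈ unipotentSubgroups A B) {x : G} (hx : x ∈ A ⊔ B) :
    rc C x ∈ unipotentSubgroups A B := by
  obtain ⟨y, hy, rfl⟩ := mem_unipot.1 hC
  exact mem_unipot.2 ⟨y * x, Subgroup.mul_mem _ hy hx, rc_rc _ _ _⟩

theorem right_mem_unip (h : IsRankOnePair A B) : B ∈ unipotentSubgroups A B := by
  obtain ⟨a, ha, ha1⟩ := r1_exists h
  obtain ⟨b, hb, -, e⟩ := r1_left h ha ha1
  exact mem_unipot.2 ⟨b * a⁻¹, Subgroup.mul_mem _ (Subgroup.mem_sup_right hb)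
    (Subgroup.mem_sup_left (A.inv_mem ha)), by rw [← rc_rc, e, rc_rc_inv]⟩

theorem le_of_mem_unip {C : Subgroup G} (hC : C ∈ unipotentSubgroups A B) : C ≤ A ⊔ B := by
  obtain ⟨y, hy, rfl⟩ := mem_unipot.1 hC
  exact rc_le_of_le le_sup_left hy

theorem mem_unip_iff (h : IsRankOnePair A B) {C : Subgroup G} :
    C ∈ unipotentSubgroups A B ↔ C = A ∨ ∃ a ∈ A, C = rc B a := by
  refine ⟨fun hC => ?_, ?_⟩
  · obtain ⟨x, hx, rfl⟩ := mem_unipot.1 hC
    have key : ∀ x ∈ A ⊔ B, ∀ C : Subgroup G, (C = A ∨ ∃ a ∈ A, C = rc B a) →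
        (rc C x = A ∨ ∃ a ∈ A, rc C x = rc B a) := by
      intro x hx
      rw [Subgroup.sup_eq_closure] at hx
      have step : ∀ x ∈ (A : Set G) ∪ B, ∀ C : Subgroup G, (C = A ∨ ∃ a ∈ A, C = rc B a) →
          (rc C x = A ∨ ∃ a ∈ A, rc C x = rc B a) := by
        rintro x (hx | hx) C (e | ⟨a, ha, rfl⟩)
        · exact Or.inl (by rw [e]; exact rc_of_mem hx)
        · exact Or.inr ⟨a * x, A.mul_mem ha hx, rc_rc _ _ _⟩
        · rw [e]
          by_cases h1 : x = 1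
          · exact Or.inl (by rw [h1, rc_one])
          · obtain ⟨a, ha, -, e⟩ := r1_right h hx h1
            exact Or.inr ⟨a, ha, e⟩
        · by_cases h1 : a = 1
          · exact Or.inr ⟨1, A.one_mem, by rw [h1, rc_one, rc_of_mem hx]⟩
          · obtain ⟨b, hb, -, e⟩ := r1_left h ha h1
            rw [← e, rc_rc]
            by_cases h2 : b * x = 1
            · exact Or.inl (by rw [h2, rc_one])
            · obtain ⟨a', ha', -, e'⟩ := r1_right h (B.mul_mem hb hx) h2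
              exact Or.inr ⟨a', ha', e'⟩
      induction hx using Subgroup.closure_induction'' with
      | mem x hx => exact step x hx
      | inv_mem x hx => exact step _ (hx.imp A.inv_mem B.inv_mem)
      | one => intro C hC; simpa using hC
      | mul x y _ _ hx hy => intro C hC; rw [← rc_rc]; exact hy _ (hx C hC)
    exact key x hx A (Or.inl rfl)
  · rintro (rfl | ⟨a, ha, rfl⟩)
    · exact left_mem_unip
    · exact rc_mem_unip (right_mem_unip h) (Subgroup.mem_sup_left ha)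

theorem unip_comm (h : IsRankOnePair A B) : unipotentSubgroups B A = unipotentSubgroups A B := by
  have key : ∀ {A B : Subgroup G}, IsRankOnePair A B → unipotentSubgroups B A ⊆ unipotentSubgroups A B := by
    intro A B h C hC
    obtain ⟨x, hx, rfl⟩ := mem_unipot.1 hC
    exact rc_mem_unip (right_mem_unip h) (by rwa [sup_comm])
  exact (key h).antisymm (key (r1_symm h))

theorem exists_rc_pair (h : IsRankOnePair A B) {C D : Subgroup G} (hC : C ∈ unipotentSubgroups A B)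
    (hD : D ∈ unipotentSubgroups A B) (hne : C ≠ D) : ∃ x ∈ A ⊔ B, rc A x = C ∧ rc B x = D := by
  obtain ⟨x, hx, rfl⟩ := mem_unipot.1 hC
  rcases (mem_unip_iff h).1 (rc_mem_unip hD (Subgroup.inv_mem _ hx)) with e | ⟨a, ha, e⟩
  · exact absurd (by rw [← e, rc_inv_rc]) hne
  · refine ⟨a * x, Subgroup.mul_mem _ (Subgroup.mem_sup_left ha) hx, rc_mul_of_mem ha x, ?_⟩
    rw [← rc_rc, ← e, rc_inv_rc]

theorem r1_of_mem_unip (h : IsRankOnePair A B) {C D : Subgroup G} (hC : C ∈ unipotentSubgroups A B)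
    (hD : D ∈ unipotentSubgroups A B) (hne : C ≠ D) : IsRankOnePair C D := by
  obtain ⟨x, -, rfl, rfl⟩ := exists_rc_pair h hC hD hne
  exact r1_rc h x

theorem sup_eq_of_mem_unip (h : IsRankOnePair A B) {C D : Subgroup G} (hC : C ∈ unipotentSubgroups A B)
    (hD : D ∈ unipotentSubgroups A B) (hne : C ≠ D) : C ⊔ D = A ⊔ B := by
  obtain ⟨x, hx, rfl, rfl⟩ := exists_rc_pair h hC hD hne
  rw [← rc_sup, rc_of_mem hx]

theorem unip_eq_of_mem_unip (h : IsRankOnePair A B) {C D : Subgroup G} (hC : C ∈ unipotentSubgroups A B)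
    (hD : D ∈ unipotentSubgroups A B) (hne : C ≠ D) :
    unipotentSubgroups C D = unipotentSubgroups A B := by
  have e := sup_eq_of_mem_unip h hC hD hne
  obtain ⟨x, hx, rfl⟩ := mem_unipot.1 hC
  ext E
  rw [mem_unipot, mem_unipot, e]
  constructor
  · rintro ⟨y, hy, rfl⟩
    exact ⟨x * y, Subgroup.mul_mem _ hx hy, rc_rc _ _ _⟩
  · rintro ⟨y, hy, rfl⟩
    exact ⟨x⁻¹ * y, Subgroup.mul_mem _ (Subgroup.inv_mem _ hx) hy, by rw [rc_rc, mul_inv_cancel_left]⟩

theorem r1_rc_self (h : IsRankOnePair A B) {a : G} (ha : a ∈ A) (ha1 : a ≠ 1) :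
    IsRankOnePair B (rc B a) :=
  r1_of_mem_unip h (right_mem_unip h) (rc_mem_unip (right_mem_unip h) (Subgroup.mem_sup_left ha))
    fun e => ha1 (r1_eq_one h ha e.symm)

theorem sup_rc_self (h : IsRankOnePair A B) {a : G} (ha : a ∈ A) (ha1 : a ≠ 1) :
    B ⊔ rc B a = A ⊔ B :=
  sup_eq_of_mem_unip h (right_mem_unip h) (rc_mem_unip (right_mem_unip h) (Subgroup.mem_sup_left ha))
    fun e => ha1 (r1_eq_one h ha e.symm)

theorem eq_of_mem_unip_of_cm (h : IsRankOnePair A B) {C D : Subgroup G} (hC : C ∈ unipotentSubgroups A B)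
    (hD : D ∈ unipotentSubgroups A B) (hc : Cm C D) : C = D := by
  by_contra hne
  exact r1_not_cm (r1_of_mem_unip h hC hD hne) hc

theorem eq_of_mem_unip_of_rc (h : IsRankOnePair A B) {C D : Subgroup G} (hC : C ∈ unipotentSubgroups A B)
    (hD : D ∈ unipotentSubgroups A B) {c : G} (hc : c ∈ C) (hc1 : c ≠ 1) (e : rc D c = D) : C = D := by
  by_contra hne
  exact hc1 (r1_eq_one (r1_of_mem_unip h hC hD hne) hc e)

/-- An element normalizing `A` and the conjugates of `B` under `A` centralizes `A`. -/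
theorem comm_of_normalizes (h : IsRankOnePair A B) {y : G} (hA : rc A y = A)
    (hB : ∀ a ∈ A, rc (rc B a) y = rc B a) : ∀ a ∈ A, y * a = a * y := by
  intro a ha
  have h1 : y⁻¹ * a * y ∈ A := hA ▸ conj_mem_rc ha y
  have h0 : rc B y = B := by simpa using hB 1 A.one_mem
  have : y⁻¹ * a * y = a := r1_rc_inj h h1 ha (by
    rw [mul_assoc, rc_mul_of_eq (rc_inv_of_eq h0), ← rc_rc, hB a ha])
  calc y * a = y * (y⁻¹ * a * y) := by rw [this]
    _ = a * y := by group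

theorem comm_of_normalizes_unip (h : IsRankOnePair A B) {y : G}
    (hy : ∀ C ∈ unipotentSubgroups A B, rc C y = C) : ∀ x ∈ A ⊔ B, y * x = x * y :=
  forall_sup_of (comm_of_normalizes h (hy A left_mem_unip) fun _ ha =>
      hy _ (rc_mem_unip (right_mem_unip h) (Subgroup.mem_sup_left ha)))
    (comm_of_normalizes (r1_symm h) (hy B (right_mem_unip h)) fun _ hb =>
      hy _ (rc_mem_unip left_mem_unip (Subgroup.mem_sup_right hb)))

/-- Normal subgroups of a rank one group. -/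
theorem r1_normal (h : IsRankOnePair A B) {N : Subgroup G} (hN : N ≤ A ⊔ B)
    (hn : ∀ x ∈ A ⊔ B, ∀ n ∈ N, x * n * x⁻¹ ∈ N) :
    (∃ n ∈ N, rc A n = B) ∨ ∀ n ∈ N, ∀ x ∈ A ⊔ B, n * x = x * n := by
  by_cases h1 : ∀ n ∈ N, rc A n = A
  · right
    intro n hnN
    refine comm_of_normalizes_unip h fun C hC => ?_
    obtain ⟨x, hx, rfl⟩ := mem_unipot.1 hC
    rw [rc_rc, show x * n = x * n * x⁻¹ * x by group, ← rc_rc, h1 _ (hn x hx n hnN)]
  · left
    push Not at h1
    obtain ⟨n, hnN, h1⟩ := h1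
    obtain ⟨a, ha, e⟩ := ((mem_unip_iff h).1 (rc_mem_unip left_mem_unip (hN hnN))).resolve_left h1
    refine ⟨a * n * a⁻¹, hn a (Subgroup.mem_sup_left ha) n hnN, ?_⟩
    rw [mul_assoc, rc_mul_of_mem ha, ← rc_rc, e, rc_rc_inv]

theorem r1_normal_sup (h : IsRankOnePair A B) {N : Subgroup G} (hN : N ≤ A ⊔ B)
    (hn : ∀ x ∈ A ⊔ B, ∀ n ∈ N, x * n * x⁻¹ ∈ N) :
    N ⊔ A = A ⊔ B ∨ ∀ n ∈ N, ∀ x ∈ A ⊔ B, n * x = x * n := by
  refine (r1_normal h hN hn).imp_left ?_
  rintro ⟨n, hnN, e⟩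
  refine le_antisymm (sup_le hN le_sup_left) (sup_le le_sup_right ?_)
  rw [← e]
  exact rc_le_of_le le_sup_right (Subgroup.mem_sup_left hnN)

/-- The second centre of a rank one group. -/
theorem r1_second_center (h : IsRankOnePair A B) {z : G} (hz : z ∈ A ⊔ B)
    (hc : ∀ x ∈ A ⊔ B, ∀ y ∈ A ⊔ B, ⁅z, x⁆ * y = y * ⁅z, x⁆) : ∀ x ∈ A ⊔ B, z * x = x * z := by
  refine comm_of_normalizes_unip h fun C hC => ?_
  by_contra hne
  have h1 := r1_of_mem_unip h (rc_mem_unip hC hz) hC hne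
  obtain ⟨c, hc', hc1⟩ := r1_exists h1
  refine hc1 (r1_eq_one h1 hc' ?_)
  obtain ⟨d, hd, rfl⟩ := exists_of_mem_rc hc'
  have hd' := le_of_mem_unip hC hd
  have e : z⁻¹ * d * z = d * ⁅z, d⁻¹ * z⁻¹⁆ := by
    have := hc _ (Subgroup.mul_mem _ (Subgroup.inv_mem _ hd') (Subgroup.inv_mem _ hz)) z hz
    rw [commutatorElement_def] at this ⊢
    calc z⁻¹ * d * z = d * (z⁻¹ * (z * (d⁻¹ * z⁻¹) * z⁻¹ * (d⁻¹ * z⁻¹)⁻¹ * z)) := by group
      _ = _ := by rw [this]; group
  rw [e, rc_mul_of_mem hd]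
  exact rc_eq_of_forall fun x hx => (hc _ (Subgroup.mul_mem _ (Subgroup.inv_mem _ hd')
    (Subgroup.inv_mem _ hz)) x (le_of_mem_unip hC hx)).symm

theorem r1_upperCentralSeries_two (h : IsRankOnePair A B) (hX : A ⊔ B = ⊤) :
    Subgroup.upperCentralSeries G 2 = Subgroup.center G := by
  refine le_antisymm (fun z hz => ?_) (by
    rw [← Subgroup.upperCentralSeries_one]; exact Subgroup.upperCentralSeries_mono _ one_le_two)
  rw [Subgroup.mem_upperCentralSeries_succ_iff, Subgroup.upperCentralSeries_one] at hz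
  rw [Subgroup.mem_center_iff]
  exact fun g => (r1_second_center h (hX ▸ Subgroup.mem_top z)
    (fun x _ y _ => (Subgroup.mem_center_iff.1 (hz x) y).symm) g (hX ▸ Subgroup.mem_top g)).symm

theorem r1_not_isNilpotent_top (h : IsRankOnePair A B) (hX : A ⊔ B = ⊤) : ¬ Group.IsNilpotent G := by
  intro hn
  have h1 := r1_upperCentralSeries_two h hX
  rw [← Subgroup.upperCentralSeries_one] at h1
  have := Subgroup.upperCentralSeries.eq_top (G := G) (a := 1) (b := 2) (by decide) h1.symm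
  rw [Subgroup.upperCentralSeries_one] at this
  exact r1_not_cm h fun a _ b _ => (Subgroup.mem_center_iff.1 (this ▸ Subgroup.mem_top b) a)

theorem r1_not_isNilpotent (h : IsRankOnePair A B) {H : Subgroup G} (hH : A ⊔ B ≤ H) :
    ¬ Group.IsNilpotent H := by
  intro hn
  have : Group.IsNilpotent (A ⊔ B : Subgroup G) :=
    nilpotent_of_mulEquiv (G := (A ⊔ B).subgroupOf H) (Subgroup.subgroupOfEquivOfLe hH)
  refine r1_not_isNilpotent_top ((isRankOnePair_subgroupOf_iff (H := A ⊔ B) le_sup_left le_sup_right).2 h)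
    ?_ this
  rw [← Subgroup.subgroupOf_sup le_sup_left le_sup_right, Subgroup.subgroupOf_self]

theorem r1_isQuasisimple (h : IsRankOnePair A B) (hX : A ⊔ B = ⊤) (hp : Group.IsPerfect G) :
    IsQuasisimple G := by
  haveI : Nontrivial G := by
    obtain ⟨a, -, ha⟩ := r1_exists h
    exact ⟨⟨a, 1, ha⟩⟩
  refine Trans.isQuasisimple_of_forall_normal hp.commutator_eq_top fun N hN => ?_
  rcases r1_normal_sup h (N := N) (hX ▸ le_top) (fun x _ n hn => hN.conj_mem n hn x) with e | e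
  · left
    haveI := h.nilpotent_left
    have hs : Function.Surjective ((QuotientGroup.mk' N).comp A.subtype) := by
      rw [← MonoidHom.range_eq_top, ← MonoidHom.map_range, Subgroup.range_subtype]
      have := congrArg (Subgroup.map (QuotientGroup.mk' N)) (e.trans hX)
      rwa [Subgroup.map_sup, QuotientGroup.map_mk'_self, bot_sup_eq,
        Subgroup.map_top_of_surjective _ (QuotientGroup.mk'_surjective N)] at this
    have hnil := Group.nilpotent_of_surjective _ hs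
    by_contra hne
    haveI : Nontrivial (G ⧸ N) := QuotientGroup.nontrivial_iff.2 hne
    exact Group.IsPerfect.not_isNilpotent (G ⧸ N) hnil
  · exact Or.inr fun n hn => Subgroup.mem_center_iff.2 fun g => (e n hn g (hX ▸ Subgroup.mem_top g)).symm

/-- The image of a rank one pair under a homomorphism whose kernel meets the group centrally. -/
theorem r1_map {H : Type*} [Group H] (h : IsRankOnePair A B) (f : G →* H)
    (hf : ∀ n ∈ A ⊔ B, f n = 1 → ∀ x ∈ A ⊔ B, n * x = x * n) : IsRankOnePair (A.map f) (B.map f) := by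
  have key : ∀ {A B : Subgroup G}, IsRankOnePair A B →
      (∀ n ∈ A ⊔ B, f n = 1 → ∀ x ∈ A ⊔ B, n * x = x * n) → RankOneCondition (A.map f) (B.map f) := by
    rintro A B h hf _ ⟨a, ha, rfl⟩ ha1
    obtain ⟨b, hb, hb1, e⟩ := h.cond_left a ha fun e => ha1 (by rw [e, map_one])
    refine ⟨f b, ⟨b, hb, rfl⟩, fun e => hb1 (r1_eq_one (r1_symm h) hb (rc_eq_of_forall fun x hx =>
      (hf b (Subgroup.mem_sup_right hb) e x (Subgroup.mem_sup_left hx)).symm)), ?_⟩
    rw [← map_inv, ← map_inv, ← map_conjBy, ← map_conjBy, e]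
  haveI := h.nilpotent_left
  haveI := h.nilpotent_right
  refine ⟨fun e => ?_, Group.nilpotent_of_surjective _ (f.subgroupMap_surjective A),
    Group.nilpotent_of_surjective _ (f.subgroupMap_surjective B), key h hf,
    key (r1_symm h) (by rwa [sup_comm])⟩
  obtain ⟨b, hb, hb1⟩ := r1_exists (r1_symm h)
  obtain ⟨a, ha, e'⟩ : f b ∈ A.map f := e ▸ ⟨b, hb, rfl⟩
  refine hb1 (r1_eq_one (r1_symm h) hb ?_)
  rw [show b = a * (a⁻¹ * b) by group, rc_mul_of_mem ha]
  exact rc_eq_of_forall fun x hx => (hf _ (Subgroup.mul_mem _ (Subgroup.mem_sup_left (A.inv_mem ha))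
    (Subgroup.mem_sup_right hb)) (by rw [map_mul, map_inv, e', inv_mul_cancel]) x
      (Subgroup.mem_sup_left hx)).symm

end Cfsg.Lib.Class
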