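import Mathlib
import Cfsg.Agent.Class.RankOneGrp
import Cfsg.Agent.Class.SL2Steinberg
import Cfsg.Agent.Class.QuadComp
import Cfsg.Agent.S5016

/-!
Special rank one groups with abelian unipotent subgroups (Timmesfeld).
-/

set_option autoImplicit false

namespace Cfsg.Lib.Class

open scoped commutatorElement

variable {G : Type*} [Group G] {A B : Subgroup G}

/-- `a ∈ A#` and `b ∈ B#` correspond to each other: `A ^ b = B ^ a`. -/
structure RR (A B : Subgroup G) (a b : G) : Prop where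
  mem_left : a ∈ A
  ne_left : a ≠ 1
  mem_right : b ∈ B
  ne_right : b ≠ 1
  eq : rc A b = rc B a

theorem RR.symm {a b : G} (r : RR A B a b) : RR B A b a :=
  ⟨r.mem_right, r.ne_right, r.mem_left, r.ne_left, r.eq.symm⟩

theorem exists_rr_right (h : IsRankOnePair A B) {a : G} (ha : a ∈ A) (ha1 : a ≠ 1) : ∃ b, RR A B a b := by
  obtain ⟨b, hb, hb1, e⟩ := r1_left h ha ha1
  exact ⟨b, ha, ha1, hb, hb1, e⟩

theorem exists_rr_left (h : IsRankOnePair A B) {b : G} (hb : b ∈ B) (hb1 : b ≠ 1) : ∃ a, RR A B a b := by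
  obtain ⟨a, ha, ha1, e⟩ := r1_right h hb hb1
  exact ⟨a, ha, ha1, hb, hb1, e⟩

theorem RR.left_unique (h : IsRankOnePair A B) {a a' b : G} (r : RR A B a b) (r' : RR A B a' b) : a = a' :=
  r1_rc_inj h r.mem_left r'.mem_left (r.eq.symm.trans r'.eq)

theorem RR.right_unique (h : IsRankOnePair A B) {a b b' : G} (r : RR A B a b) (r' : RR A B a b') : b = b' :=
  r.symm.left_unique (r1_symm h) r'.symm

theorem conj_ne_one {x g : G} (hx : x ≠ 1) : g⁻¹ * x * g ≠ 1 := fun e => hx (by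
  calc x = g * (g⁻¹ * x * g) * g⁻¹ := by group
    _ = 1 := by rw [e]; group)

theorem rconj_pow (g x : G) (n : ℕ) : (g⁻¹ * x * g) ^ n = g⁻¹ * x ^ n * g := by
  have := conj_pow (i := n) (a := g⁻¹) (b := x)
  rwa [inv_inv] at this

theorem RR.rc {a b : G} (r : RR A B a b) (g : G) :
    RR (rc A g) (rc B g) (g⁻¹ * a * g) (g⁻¹ * b * g) :=
  ⟨conj_mem_rc r.mem_left g, conj_ne_one r.ne_left, conj_mem_rc r.mem_right g, conj_ne_one r.ne_right, by
    rw [rc_rc, rc_rc, ← mul_assoc, ← mul_assoc, mul_inv_cancel, one_mul, ← mul_assoc, ← mul_assoc,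
      mul_inv_cancel, one_mul, ← rc_rc, ← rc_rc, r.eq]⟩

theorem RR.swap {c d τ : G} (r : RR A B c d) (hA : Class.rc A τ = B) (hB : Class.rc B τ = A) :
    RR A B (τ⁻¹ * d * τ) (τ⁻¹ * c * τ) := by
  have := (r.rc τ).symm
  rwa [hA, hB] at this

theorem sp_symm (hs : IsSpecialRankOnePair A B) : IsSpecialRankOnePair B A :=
  ⟨r1_symm hs.1, fun b hb hb1 a ha ha1 e => by
    have := congrArg (·⁻¹) (hs.2 a ha ha1 b hb hb1 e.symm)
    simp only [mul_inv_rev, inv_inv] at this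
    rw [mul_assoc, mul_assoc, this]⟩

theorem sp_of_forall (h : IsRankOnePair A B) (hs : ∀ a b, RR A B a b → b⁻¹ * a * b = a⁻¹ * b⁻¹ * a) :
    IsSpecialRankOnePair A B :=
  ⟨h, fun a ha ha1 b hb hb1 e => hs a b ⟨ha, ha1, hb, hb1, e⟩⟩

theorem sp_rc (hs : IsSpecialRankOnePair A B) (g : G) : IsSpecialRankOnePair (rc A g) (rc B g) := by
  refine sp_of_forall (r1_rc hs.1 g) fun a b r => ?_
  have r' := r.rc g⁻¹
  rw [rc_rc_inv, rc_rc_inv] at r'
  have := hs.2 _ r'.mem_left r'.ne_left _ r'.mem_right r'.ne_right r'.eq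
  calc b⁻¹ * a * b = g⁻¹ * ((g⁻¹⁻¹ * b * g⁻¹)⁻¹ * (g⁻¹⁻¹ * a * g⁻¹) * (g⁻¹⁻¹ * b * g⁻¹)) * g := by group
    _ = _ := by rw [this]; group

namespace RR

variable (hs : IsSpecialRankOnePair A B) {a b : G} (r : RR A B a b)
include hs r

theorem special : b⁻¹ * a * b = a⁻¹ * b⁻¹ * a := hs.2 a r.mem_left r.ne_left b r.mem_right r.ne_right r.eq

theorem braid : a * b⁻¹ * a = b⁻¹ * a * b⁻¹ := by
  calc a * b⁻¹ * a = a * (b⁻¹ * a * b) * b⁻¹ := by group
    _ = _ := by rw [r.special hs]; group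

theorem nu_left : (a * b⁻¹ * a)⁻¹ * a * (a * b⁻¹ * a) = b⁻¹ := by
  calc _ = (a * b⁻¹ * a)⁻¹ * (a * (b⁻¹ * a * b⁻¹)) := by rw [← r.braid hs]; group
    _ = _ := by group

theorem nu_right : (a * b⁻¹ * a)⁻¹ * b * (a * b⁻¹ * a) = a⁻¹ := by
  calc _ = (a * b⁻¹ * a)⁻¹ * (b * (b⁻¹ * a * b⁻¹)) := by rw [← r.braid hs]; group
    _ = _ := by group

theorem rc_nu_right : Class.rc B (a * b⁻¹ * a) = A := by
  rw [r.braid hs, mul_assoc, rc_mul_of_mem (B.inv_mem r.mem_right), ← rc_rc, ← r.eq, rc_rc_inv]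

theorem nu_mem : a * b⁻¹ * a ∈ A ⊔ B :=
  Subgroup.mul_mem _ (Subgroup.mul_mem _ (Subgroup.mem_sup_left r.mem_left)
    (Subgroup.mem_sup_right (B.inv_mem r.mem_right))) (Subgroup.mem_sup_left r.mem_left)

theorem rc_nu_left : Class.rc A (a * b⁻¹ * a) = B := by
  by_contra hne
  refine inv_ne_one.2 r.ne_right (r1_inf (r1_of_mem_unip hs.1 (rc_mem_unip left_mem_unip (r.nu_mem hs))
    (right_mem_unip hs.1) hne) ?_ (B.inv_mem r.mem_right))
  have := conj_mem_rc r.mem_left (a * b⁻¹ * a)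
  rwa [r.nu_left hs] at this

theorem inv : RR A B a⁻¹ b⁻¹ :=
  ⟨A.inv_mem r.mem_left, inv_ne_one.2 r.ne_left, B.inv_mem r.mem_right, inv_ne_one.2 r.ne_right, by
    rw [← r.rc_nu_left hs, rc_rc, mul_inv_cancel_right, rc_mul_of_mem r.mem_left]⟩

theorem f3 {c d c' : G} (r₁ : RR A B c d) (r₂ : RR A B c' (d * b⁻¹)) :
    RR A B (c' * a) ((a * b⁻¹ * a)⁻¹ * (c * a⁻¹) * (a * b⁻¹ * a)) := by
  have hca : c * a⁻¹ ≠ 1 := fun e => r₂.ne_right (by
    rw [mul_inv_eq_one] at e ⊢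
    exact (e ▸ r₁).right_unique hs.1 r)
  have hm : (a * b⁻¹ * a)⁻¹ * (c * a⁻¹) * (a * b⁻¹ * a) ∈ B := by
    have := conj_mem_rc (A.mul_mem r₁.mem_left (A.inv_mem r.mem_left)) (a * b⁻¹ * a)
    rwa [r.rc_nu_left hs] at this
  have e : Class.rc A ((a * b⁻¹ * a)⁻¹ * (c * a⁻¹) * (a * b⁻¹ * a)) = Class.rc B (c' * a) := by
    rw [mul_assoc, ← rc_rc, ← rc_eq_iff_eq_rc_inv.1 (r.rc_nu_right hs),
      show c * a⁻¹ * (a * b⁻¹ * a) = c * b⁻¹ * a by group, ← rc_rc, ← rc_rc, ← r₁.eq, rc_rc A d, r₂.eq, rc_rc]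
  refine ⟨A.mul_mem r₂.mem_left r.mem_left, fun e1 => ?_, hm, conj_ne_one hca, e⟩
  rw [e1, rc_one] at e
  exact r1_rc_ne (r1_symm hs.1) hm e

theorem nu_left_pow (n : ℕ) : (a * b⁻¹ * a)⁻¹ * a ^ n * (a * b⁻¹ * a) = b⁻¹ ^ n := by
  rw [← rconj_pow, r.nu_left hs]

theorem pow_eq_one_iff (n : ℕ) : a ^ n = 1 ↔ b ^ n = 1 := by
  rw [← inv_eq_one (a := b ^ n), ← inv_pow, ← r.nu_left_pow hs]
  exact ⟨fun e => by rw [e]; group, fun e => by by_contra h; exact conj_ne_one h e⟩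

end RR

theorem rr_pow (hs : IsSpecialRankOnePair A B) (n : ℕ) :
    ∀ a b c : G, RR A B a b → RR A B c (b ^ n) → c ^ n = a := by
  induction n with
  | zero => exact fun a b c _ r => absurd (pow_zero b) r.ne_right
  | succ n ih =>
    intro a b c' r r'
    by_cases hb : b ^ n = 1
    · rw [pow_succ, hb, one_mul] at r'
      rw [r'.left_unique hs.1 r, pow_succ, (r.pow_eq_one_iff hs n).2 hb, one_mul]
    obtain ⟨c, rc'⟩ := exists_rr_left hs.1 (B.pow_mem r.mem_right n) hb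
    have e := ih a b c r rc'
    have r3 := (r.inv hs).f3 hs rc' (c' := c') (by rwa [inv_inv, ← pow_succ])
    have e2 : ((a⁻¹ * b⁻¹⁻¹ * a⁻¹)⁻¹ * (c * a⁻¹⁻¹) * (a⁻¹ * b⁻¹⁻¹ * a⁻¹)) ^ n = (b ^ (n + 1))⁻¹ := by
      have h2 := congrArg (·⁻¹) ((r.inv hs).nu_left_pow hs (n + 1))
      have h3 : (c * a⁻¹⁻¹) ^ n = a ^ (n + 1) := by
        rw [inv_inv a, ← e, ← pow_succ', ← pow_mul, mul_comm (n + 1) n, pow_mul]
      rw [rconj_pow, h3]
      simp only [mul_inv_rev, inv_inv, inv_pow] at h2 ⊢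
      rw [← h2, mul_assoc]
    have e3 := ih _ _ c'⁻¹ r3 (by rw [e2]; exact r'.inv hs)
    rw [inv_pow, inv_eq_iff_mul_eq_one, ← mul_assoc, ← pow_succ, mul_inv_eq_one] at e3
    exact e3

theorem cm_right_of_r1 (h : IsRankOnePair A B) (hA : Cm A A) : Cm B B := by
  obtain ⟨x, -, e⟩ := mem_unipot.1 (right_mem_unip h)
  rw [e]
  exact hA.rc x

theorem sp_structure (hs : IsSpecialRankOnePair A B) (hA : Cm A A) :
    (∃ p : ℕ, p.Prime ∧ ∀ a ∈ A, a ^ p = 1) ∨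
    ((∀ a ∈ A, a ≠ 1 → ¬ IsOfFinOrder a) ∧ ∀ a ∈ A, ∀ n : ℕ, 0 < n → ∃ c ∈ A, c ^ n = a) := by
  by_cases h : ∀ a ∈ A, a ≠ 1 → ¬ IsOfFinOrder a
  · refine Or.inr ⟨h, fun a ha n hn => ?_⟩
    by_cases ha1 : a = 1
    · exact ⟨1, A.one_mem, by rw [one_pow, ha1]⟩
    obtain ⟨b, r⟩ := exists_rr_right hs.1 ha ha1
    obtain ⟨c, rc'⟩ := exists_rr_left hs.1 (B.pow_mem r.mem_right n) fun e =>
      h a ha ha1 (isOfFinOrder_iff_pow_eq_one.2 ⟨n, hn, (r.pow_eq_one_iff hs n).2 e⟩)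
    exact ⟨c, rc'.mem_left, rr_pow hs n a b c r rc'⟩
  · left
    push Not at h
    obtain ⟨a, ha, ha1, hf⟩ := h
    obtain ⟨p, hp, hd⟩ := Nat.exists_prime_and_dvd (n := orderOf a) (by rwa [Ne, orderOf_eq_one_iff])
    have h0 : orderOf (a ^ (orderOf a / p)) = p := orderOf_pow_orderOf_div hf.orderOf_pos.ne' hd
    set a₀ := a ^ (orderOf a / p)
    have ha₀ : a₀ ∈ A := A.pow_mem ha _
    refine ⟨p, hp, fun c hc => ?_⟩
    by_contra hcp
    have e : (c * a₀) ^ p = c ^ p := by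
      rw [Commute.mul_pow (hA c hc a₀ ha₀), ← h0, pow_orderOf_eq_one, mul_one]
    obtain ⟨d, r⟩ := exists_rr_right hs.1 (A.pow_mem hc p) hcp
    obtain ⟨d₁, r₁⟩ := exists_rr_right hs.1 hc fun e => hcp (by rw [e, one_pow])
    obtain ⟨d₂, r₂⟩ := exists_rr_right hs.1 (A.mul_mem hc ha₀) fun e' => hcp (by rw [← e, e', one_pow])
    have e₁ := rr_pow (sp_symm hs) p _ _ _ r₁.symm r.symm
    have e₂ := rr_pow (sp_symm hs) p _ _ _ r₂.symm (e ▸ r.symm)
    have := (e₁ ▸ r₁).left_unique hs.1 (e₂ ▸ r₂)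
    rw [left_eq_mul] at this
    rw [this, orderOf_one] at h0
    exact hp.one_lt.ne h0

open Cfsg.Lib.Chev.Core in
theorem RR.exists_hom (hs : IsSpecialRankOnePair A B) {p : ℕ} [Fact p.Prime] (hA : ∀ a ∈ A, a ^ p = 1)
    {a b : G} (r : RR A B a b) : ∃ φ : Matrix.SpecialLinearGroup (Fin 2) (ZMod p) →* G,
      φ.range = Subgroup.closure {a, b} ∧ φ.ker ≤ Subgroup.center _ := by
  have ha := hA a r.mem_left
  have hb := (r.pow_eq_one_iff hs p).1 ha
  have key : ∀ x : G, x ^ p = 1 → ∀ t u : ZMod p, x ^ t.val * x ^ u.val = x ^ (t + u).val ∧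
      (x ^ t.val) ^ u.val = x ^ (t * u).val := fun x hx t u => by
    rw [← pow_add, ← pow_mul, ZMod.val_add, ZMod.val_mul]
    exact ⟨pow_eq_pow_mod _ hx, pow_eq_pow_mod _ hx⟩
  have hneg : ∀ x : G, x ^ p = 1 → ∀ t : ZMod p, x ^ (-t).val = (x ^ t.val)⁻¹ := fun x hx t => by
    rw [eq_inv_iff_mul_eq_one, (key x hx _ _).1, neg_add_cancel, ZMod.val_zero, pow_zero]
  have hr : ∀ t : ZMod p, t ≠ 0 → RR A B (a ^ t.val) (b ^ t⁻¹.val) := fun t ht => by
    obtain ⟨c, rc'⟩ := exists_rr_left hs.1 (B.pow_mem r.mem_right t⁻¹.val) fun e => r.ne_right (by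
      have := (key b hb t⁻¹ t).2
      rwa [e, one_pow, inv_mul_cancel₀ ht, ZMod.val_one, pow_one, eq_comm] at this)
    have e := rr_pow hs _ _ _ _ r rc'
    rwa [← e, (key c (hA c rc'.mem_left) _ _).2, inv_mul_cancel₀ ht, ZMod.val_one, pow_one]
  have hP : R1Pre (fun t : ZMod p => a ^ t.val) (fun t : ZMod p => b ^ t.val) := by
    refine ⟨fun t u => (key a ha t u).1, fun t u => (key b hb t u).1, fun t u ht => ?_⟩
    have h1 := (hr t ht).nu_right hs
    have h2 : a ^ u.val = (a ^ t.val) ^ (t⁻¹ * u).val := by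
      rw [(key a ha _ _).2, mul_inv_cancel_left₀ ht]
    have h3 : b ^ (-(t⁻¹ ^ 2 * u)).val = ((b ^ t⁻¹.val) ^ (t⁻¹ * u).val)⁻¹ := by
      rw [(key b hb _ _).2, hneg b hb, sq, mul_assoc]
    simp only [r1n]
    rw [h2, h3, hneg b hb]
    set ν := a ^ t.val * (b ^ t⁻¹.val)⁻¹ * a ^ t.val
    rw [← inv_inv (a ^ t.val), ← h1, inv_pow, rconj_pow]
    group
  refine ⟨hP.r1Rel.hom, ?_, ?_⟩
  · rw [R1Rel.range_hom]
    refine le_antisymm (sup_le ?_ ?_) ?_
    · rw [Subgroup.closure_le]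
      rintro _ ⟨t, rfl⟩
      exact Subgroup.pow_mem _ (Subgroup.subset_closure (by simp)) _
    · rw [Subgroup.closure_le]
      rintro _ ⟨t, rfl⟩
      exact Subgroup.pow_mem _ (Subgroup.subset_closure (by simp)) _
    · rw [Subgroup.closure_le]
      rintro x (rfl | rfl)
      · exact Subgroup.mem_sup_left (Subgroup.subset_closure ⟨1, by simp [ZMod.val_one]⟩)
      · exact Subgroup.mem_sup_right (Subgroup.subset_closure ⟨1, by simp [ZMod.val_one]⟩)
  · obtain ⟨⟨hT, h1⟩, -, -⟩ := Cfsg.Agent.S5016.result (ZMod p)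
    rcases r1_normal h1 (N := hP.r1Rel.hom.ker) (hT ▸ le_top)
      (fun x _ n hn => (MonoidHom.normal_ker _).conj_mem n hn x) with ⟨n, hn, e⟩ | e
    · exfalso
      have h2 : sl2U (1 : ZMod p) ∈ Class.rc (lowerUnipotentSL2 (ZMod p)) n := by
        rw [e]; exact mem_upperUnipotentSL2.2 ⟨1, rfl⟩
      obtain ⟨g, hg, e2⟩ := exists_of_mem_rc h2
      obtain ⟨t, rfl⟩ := mem_lowerUnipotentSL2.1 hg
      have h3 := congrArg hP.r1Rel.hom e2
      rw [map_mul, map_mul, map_inv, MonoidHom.mem_ker.1 hn, inv_one, one_mul, mul_one, R1Rel.hom_U,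
        show slV t = sl2V t from rfl, R1Rel.hom_V, ZMod.val_one, pow_one] at h3
      exact r.ne_left (r1_inf hs.1 r.mem_left (h3 ▸ B.pow_mem r.mem_right _))
    · exact fun n hn => Subgroup.mem_center_iff.2 fun g => (e n hn g (hT ▸ Subgroup.mem_top g)).symm

theorem equiv_of_ker_le_center {F : Type*} [Field F] (φ : Matrix.SpecialLinearGroup (Fin 2) F →* G)
    (hφ : φ.ker ≤ Subgroup.center _) :
    Nonempty (φ.range ≃* Matrix.SpecialLinearGroup (Fin 2) F) ∨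
      ((2 : F) ≠ 0 ∧ Nonempty (φ.range ≃* Matrix.ProjectiveSpecialLinearGroup (Fin 2) F)) := by
  by_cases h : φ.ker = ⊥
  · exact Or.inl ⟨(MonoidHom.ofInjective (φ.ker_eq_bot_iff.1 h)).symm⟩
  have hc : ∀ z ∈ Subgroup.center (Matrix.SpecialLinearGroup (Fin 2) F), z ≠ 1 →
      (z : Matrix (Fin 2) (Fin 2) F) = -1 := fun z hz hz1 => by
    obtain ⟨r, hr, e⟩ := Matrix.SpecialLinearGroup.mem_center_iff.1 hz
    rw [Fintype.card_fin, sq, mul_self_eq_one_iff] at hr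
    rcases hr with rfl | rfl
    · exact absurd (Subtype.ext (by rw [← e, map_one]; rfl)) hz1
    · rw [← e, map_neg, map_one]
  obtain ⟨z, hz, hz1⟩ := (Subgroup.bot_or_exists_ne_one _).resolve_left h
  have hk : φ.ker = Subgroup.center _ := le_antisymm hφ fun w hw => by
    by_cases hw1 : w = 1
    · exact hw1 ▸ Subgroup.one_mem _
    · rwa [show w = z from Subtype.ext ((hc w hw hw1).trans (hc z (hφ hz) hz1).symm)]
  refine Or.inr ⟨fun h2 => hz1 (Subtype.ext ?_), ⟨(QuotientGroup.quotientKerEquivRange φ).symm.trans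
    (QuotientGroup.quotientMulEquivOfEq hk)⟩⟩
  rw [hc z (hφ hz) hz1]
  have : (-1 : F) = 1 := by linear_combination -h2
  rw [← neg_one_smul F, this, one_smul]
  rfl

theorem RR.closure_equiv (hs : IsSpecialRankOnePair A B) {p : ℕ} [Fact p.Prime] (hA : ∀ a ∈ A, a ^ p = 1)
    {a b : G} (r : RR A B a b) :
    Nonempty (Subgroup.closure ({a, b} : Set G) ≃* Matrix.SpecialLinearGroup (Fin 2) (ZMod p)) ∨
      ((2 : ZMod p) ≠ 0 ∧
        Nonempty (Subgroup.closure ({a, b} : Set G) ≃* Matrix.ProjectiveSpecialLinearGroup (Fin 2) (ZMod p))) := by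
  obtain ⟨φ, e, hφ⟩ := r.exists_hom hs hA
  rw [← e]
  exact equiv_of_ker_le_center φ hφ

theorem sp_commutator_diagonal (hs : IsSpecialRankOnePair A B) (hA : Cm A A) (h3 : 3 < ENat.card A) :
    ⁅A, rankOneDiagonal A B⁆ = A := by
  set K := ⁅A, rankOneDiagonal A B⁆
  have hK : K ≤ A := Subgroup.commutator_le.2 fun a ha h hh => by
    have := (Subgroup.mem_normalizer_iff.1 hh.1.2 a⁻¹).1 (A.inv_mem ha)
    rw [commutatorElement_def, mul_assoc, mul_assoc, ← mul_assoc h]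
    exact A.mul_mem ha this
  have h1 : ∀ {τ x y : G}, τ ∈ A ⊔ B → rc A τ = B → rc B τ = A → x ∈ A → RR A B y (τ⁻¹ * x * τ) → x * y ∈ K := by
    intro τ x y hτ hA' hB' hx r
    have hh : (τ * (y * (τ⁻¹ * x * τ)⁻¹ * y))⁻¹ ∈ rankOneDiagonal A B := Subgroup.inv_mem _
      ⟨⟨Subgroup.mul_mem _ hτ (r.nu_mem hs), rc_eq_iff_mem_normalizer.1 (by rw [← rc_rc, hA', r.rc_nu_right hs])⟩,
        rc_eq_iff_mem_normalizer.1 (by rw [← rc_rc, hB', r.rc_nu_left hs])⟩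
    have := Subgroup.commutator_mem_commutator hx hh
    have e := congrArg (·⁻¹) (r.nu_right hs)
    rw [inv_inv] at e
    convert this using 1
    rw [commutatorElement_def]
    set ν := y * (τ⁻¹ * x * τ)⁻¹ * y
    rw [← e]
    group
  have h2 : ∀ a ∈ A, a ≠ 1 → ∀ c ∈ A, c ≠ 1 → c ≠ a → c * c * a⁻¹ ∈ K := by
    intro a ha ha1 c hc hc1 hca
    obtain ⟨b, r⟩ := exists_rr_right hs.1 ha ha1
    obtain ⟨d, r₁⟩ := exists_rr_right hs.1 hc hc1
    obtain ⟨c', r₂⟩ := exists_rr_left hs.1 (B.mul_mem r₁.mem_right (B.inv_mem r.mem_right)) fun e =>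
      hca ((mul_inv_eq_one.1 e ▸ r₁).left_unique hs.1 r)
    have r₃ := r.f3 hs r₁ r₂
    have hm := r.nu_mem hs
    have e₁ := r.rc_nu_left hs
    have e₂ := r.rc_nu_right hs
    have e₃ := r.nu_left hs
    set ν := a * b⁻¹ * a
    obtain ⟨u, hu, rfl⟩ := exists_of_mem_rc (e₁ ▸ r₁.mem_right)
    have k₁ := h1 hm e₁ e₂ hu r₁
    have k₂ := h1 hm e₁ e₂ (A.mul_mem hu ha) (y := c') (by
      rwa [← e₃, show ν⁻¹ * u * ν * (ν⁻¹ * a * ν) = ν⁻¹ * (u * a) * ν by group] at r₂)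
    have k₃ := h1 hm e₁ e₂ (A.mul_mem hc (A.inv_mem ha)) r₃
    have hc' := r₂.mem_left
    convert K.mul_mem (K.mul_mem k₃ (K.inv_mem k₂)) k₁ using 1
    rw [mul_assoc c c, hA c hc a⁻¹ (A.inv_mem ha), hA c' hc' a ha, ← mul_assoc, hA c hc a⁻¹ (A.inv_mem ha)]
    group
  have h4 : ∀ x y z : G, ∃ c ∈ A, c ≠ x ∧ c ≠ y ∧ c ≠ z := fun x y z => by
    by_contra h
    push Not at h
    have : (A : Set G) ⊆ {x, y, z} := fun c hc => by
      by_contra h'
      simp only [Set.mem_insert_iff, Set.mem_singleton_iff, not_or] at h'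
      exact h'.2.2 (h c hc h'.1 h'.2.1)
    have h5 := Set.encard_le_encard this
    have h6 : ({x, y, z} : Set G).encard ≤ 3 := (Set.encard_insert_le _ _).trans (by
      have := Set.encard_insert_le ({z} : Set G) y
      rw [Set.encard_singleton] at this
      exact (add_le_add_left this 1).trans (by norm_num))
    exact (h3.trans_le (h5.trans h6)).false
  refine le_antisymm hK fun z hz => ?_
  obtain ⟨a, ha, ha1, haz, -⟩ := h4 1 z⁻¹ 1
  have ha' : z * a ≠ 1 := fun e => haz (eq_inv_of_mul_eq_one_right e)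
  obtain ⟨c, hc, hc1, hca, hca'⟩ := h4 1 a (z * a)
  convert K.mul_mem (K.inv_mem (h2 _ (A.mul_mem hz ha) ha' c hc hc1 hca')) (h2 a ha ha1 c hc hc1 hca) using 1
  group

theorem sp_perfect (hs : IsSpecialRankOnePair A B) (hA : Cm A A) (h3 : 3 < ENat.card A) :
    ⁅A ⊔ B, A ⊔ B⁆ = A ⊔ B := by
  have h1 : A ≤ ⁅A ⊔ B, A ⊔ B⁆ := by
    conv_lhs => rw [← sp_commutator_diagonal hs hA h3]
    exact Subgroup.commutator_mono le_sup_left fun h hh => hh.1.1
  refine le_antisymm (Subgroup.commutator_le.2 fun x hx y hy => by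
    rw [commutatorElement_def]
    exact Subgroup.mul_mem _ (Subgroup.mul_mem _ (Subgroup.mul_mem _ hx hy) (Subgroup.inv_mem _ hx))
      (Subgroup.inv_mem _ hy)) (sup_le h1 ?_)
  obtain ⟨x, hx, e⟩ := mem_unipot.1 (right_mem_unip hs.1)
  have := rc_mono h1 x
  rwa [← e, rc_commutator, rc_of_mem hx] at this

theorem sp_of_module (h : IsRankOnePair A B) (hX : A ⊔ B = ⊤) {R : Type*} [Ring R] (ρ : G →* R)
    (hq : ∀ a ∈ A, ∀ a' ∈ A, (ρ a - 1) * (ρ a' - 1) = 0) (hn : ∃ x y : G, (ρ x - 1) * (ρ y - 1) ≠ 0) :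
    IsSpecialRankOnePair A B := by
  have hq' : ∀ C ∈ unipotentSubgroups A B, ∀ a ∈ C, ∀ a' ∈ C, (ρ a - 1) * (ρ a' - 1) = 0 := by
    intro C hC a ha a' ha'
    obtain ⟨x, -, rfl⟩ := mem_unipot.1 hC
    obtain ⟨a, hb, rfl⟩ := exists_of_mem_rc ha
    obtain ⟨a', hb', rfl⟩ := exists_of_mem_rc ha'
    have e : ρ x * ρ x⁻¹ = 1 := by rw [← map_mul, mul_inv_cancel, map_one]
    have e' : ρ x⁻¹ * ρ x = 1 := by rw [← map_mul, inv_mul_cancel, map_one]
    have : (ρ (x⁻¹ * a * x) - 1) * (ρ (x⁻¹ * a' * x) - 1) =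
        ρ x⁻¹ * ((ρ a - 1) * (ρ x * ρ x⁻¹) * (ρ a' - 1)) * ρ x := by
      have k : ∀ a, ρ (x⁻¹ * a * x) - 1 = ρ x⁻¹ * (ρ a - 1) * ρ x := fun a => by
        rw [map_mul, map_mul, mul_sub, sub_mul, mul_one, e']
      rw [k, k]
      noncomm_ring
    rw [this, e, mul_one, hq a hb a' hb', mul_zero, zero_mul]
  have hgen : ∀ z : R, (∀ a ∈ A, z * (ρ a - 1) = 0) → (∀ b ∈ B, z * (ρ b - 1) = 0) → ∀ x, z * (ρ x - 1) = 0 := by
    intro z hA hB x
    let T : Subgroup G :=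
      { carrier := {x | z * (ρ x - 1) = 0}
        mul_mem' := fun {x y} hx hy => by
          have hx' : z * (ρ x - 1) = 0 := hx
          have hy' : z * (ρ y - 1) = 0 := hy
          change z * (ρ (x * y) - 1) = 0
          rw [map_mul, show z * (ρ x * ρ y - 1) = z * (ρ x - 1) * ρ y + z * (ρ y - 1) by noncomm_ring, hx', hy',
            zero_mul, zero_add]
        one_mem' := by simp
        inv_mem' := fun {x} hx => by
          have hx' : z * (ρ x - 1) = 0 := hx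
          have e : ρ x * ρ x⁻¹ = 1 := by rw [← map_mul, mul_inv_cancel, map_one]
          change z * (ρ x⁻¹ - 1) = 0
          rw [← e, show z * (ρ x⁻¹ - ρ x * ρ x⁻¹) = -(z * (ρ x - 1) * ρ x⁻¹) by noncomm_ring, hx', zero_mul,
            neg_zero] }
    have : A ⊔ B ≤ T := sup_le hA hB
    exact this (hX ▸ Subgroup.mem_top x)
  let K : Subgroup G :=
    { carrier := {g | ∀ x, ρ g * (ρ x - 1) = ρ x - 1}
      mul_mem' := fun {g g'} hg hg' x => by rw [map_mul, mul_assoc, hg' x, hg x]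
      one_mem' := fun x => by rw [map_one, one_mul]
      inv_mem' := fun {g} hg x => by
        rw [← hg x, ← mul_assoc, ← map_mul, inv_mul_cancel, map_one, one_mul, hg x] }
  have hK : ∀ g, (∀ a ∈ A, (ρ g - 1) * (ρ a - 1) = 0) → (∀ b ∈ B, (ρ g - 1) * (ρ b - 1) = 0) → g ∈ K :=
    fun g hA hB x => by
      have := hgen _ hA hB x
      rwa [sub_mul, one_mul, sub_eq_zero] at this
  have hKn : ∀ x ∈ A ⊔ B, ∀ n ∈ K, x * n * x⁻¹ ∈ K := fun x _ n hn y => by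
    have e : ρ x⁻¹ * (ρ y - 1) = (ρ (x⁻¹ * y) - 1) - (ρ x⁻¹ - 1) := by rw [map_mul]; noncomm_ring
    rw [map_mul, map_mul, mul_assoc, mul_assoc, e, mul_sub, hn, hn, ← e, ← mul_assoc, ← map_mul, mul_inv_cancel,
      map_one, one_mul]
  rcases r1_normal h (N := K) (hX ▸ le_top) hKn with ⟨n, hn', e⟩ | hc
  · exfalso
    have hAK : A ≤ K := fun a ha => hK a (hq a ha) fun b hb => by
      have h1 := hq' B (right_mem_unip h) _ (e ▸ conj_mem_rc ha n) b hb
      rw [sub_mul, one_mul, sub_eq_zero, map_mul, map_mul, mul_assoc, hn'] at h1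
      have h2 := congrArg (ρ n * ·) h1
      simp only [← mul_assoc, ← map_mul, mul_inv_cancel, one_mul] at h2
      rw [sub_mul, one_mul, h2, hn', sub_self]
    have : A ⊔ B ≤ K := sup_le hAK (e ▸ rc_le_of_le hAK hn')
    obtain ⟨x, y, hxy⟩ := hn
    exact hxy (by rw [sub_mul, one_mul, this (hX ▸ Subgroup.mem_top x) y, sub_self])
  refine sp_of_forall h fun a b r => ?_
  have hC : rc A b ∈ unipotentSubgroups A B := rc_mem_unip left_mem_unip (Subgroup.mem_sup_right r.mem_right)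
  have hB := hq' B (right_mem_unip h)
  have inv : ∀ g, (ρ g - 1) * (ρ g - 1) = 0 → ρ g⁻¹ = 1 - (ρ g - 1) := fun g hg => by
    have e : ρ g⁻¹ * ρ g = 1 := by rw [← map_mul, inv_mul_cancel, map_one]
    have : ρ g * (1 - (ρ g - 1)) = 1 := by
      rw [show ρ g * (1 - (ρ g - 1)) = 1 - (ρ g - 1) * (ρ g - 1) by noncomm_ring, hg, sub_zero]
    calc ρ g⁻¹ = ρ g⁻¹ * (ρ g * (1 - (ρ g - 1))) := by rw [this, mul_one]
      _ = _ := by rw [← mul_assoc, e, one_mul]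
  have ia := inv a (hq a r.mem_left a r.mem_left)
  have ib := inv b (hB b r.mem_right b r.mem_right)
  obtain ⟨x, hx⟩ : ∃ x, ρ a = 1 + x := ⟨ρ a - 1, by abel⟩
  obtain ⟨y, hy⟩ : ∃ y, ρ b = 1 + y := ⟨ρ b - 1, by abel⟩
  have ex : ρ a - 1 = x := by rw [hx]; abel
  have ey : ρ b - 1 = y := by rw [hy]; abel
  rw [ex] at ia
  rw [ey] at ib
  have xx := ex ▸ hq a r.mem_left a r.mem_left
  have yy := ey ▸ hB b r.mem_right b r.mem_right
  have mA : ∀ a' ∈ A, b⁻¹ * a' * b ∈ rc A b := fun a' ha' => conj_mem_rc ha' b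
  have mB : ∀ b' ∈ B, a⁻¹ * b' * a ∈ rc A b := fun b' hb' => r.eq ▸ conj_mem_rc hb' a
  have cA : ∀ a', ρ (b⁻¹ * a' * b) - 1 = (1 - y) * (ρ a' - 1) * (1 + y) := fun a' => by
    rw [map_mul, map_mul, ib, hy, show (1 - y) * (ρ a' - 1) * (1 + y) = (1 - y) * ρ a' * (1 + y) - 1 + y * y by
      noncomm_ring, yy, add_zero]
  have cB : ∀ b', ρ (a⁻¹ * b' * a) - 1 = (1 - x) * (ρ b' - 1) * (1 + x) := fun b' => by
    rw [map_mul, map_mul, ia, hx, show (1 - x) * (ρ b' - 1) * (1 + x) = (1 - x) * ρ b' * (1 + x) - 1 + x * x by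
      noncomm_ring, xx, add_zero]
  have hd : ρ (b⁻¹ * a * b * (a⁻¹ * b * a)) - 1 = x + y - y * x * y - x * y * x := by
    have h1 := hq' _ hC _ (mA a r.mem_left) _ (mB b r.mem_right)
    rw [map_mul, show ∀ u v : R, u * v - 1 = (u - 1) * (v - 1) + (u - 1) + (v - 1) from fun u v => by
      noncomm_ring, h1, cA, cB, ex, ey]
    noncomm_ring
  have hdK : b⁻¹ * a * b * (a⁻¹ * b * a) ∈ K := by
    refine hK _ (fun a' ha' => ?_) fun b' hb' => ?_
    · have h1 := hq' _ hC _ (mB b r.mem_right) _ (mA a' ha')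
      have h2 := ex ▸ hq a r.mem_left a' ha'
      rw [cA, cB, ey] at h1
      rw [hd]
      generalize ρ a' - 1 = x' at h1 h2 ⊢
      have h3 : (1 + x) * ((1 - x) * y * (1 + x) * ((1 - y) * x' * (1 + y))) * (1 - y) = 0 := by
        rw [h1, mul_zero, zero_mul]
      have h4 : (1 + x) * ((1 - x) * y * (1 + x) * ((1 - y) * x' * (1 + y))) * (1 - y) =
          (1 - x * x) * (y * x' - y * y * x' + y * (x * x') - y * x * y * x') * (1 - y * y) := by noncomm_ring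
      rw [h4, xx, yy, h2] at h3
      rw [show (x + y - y * x * y - x * y * x) * x' = x * x' - x * y * (x * x') + (y * x' - y * x * y * x') by
        noncomm_ring, h2]
      simpa using h3
    · have h1 := hq' _ hC _ (mA a r.mem_left) _ (mB b' hb')
      have h2 := ey ▸ hB b r.mem_right b' hb'
      rw [cA, cB, ex] at h1
      rw [hd]
      generalize ρ b' - 1 = y' at h1 h2 ⊢
      have h3 : (1 + y) * ((1 - y) * x * (1 + y) * ((1 - x) * y' * (1 + x))) * (1 - x) = 0 := by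
        rw [h1, mul_zero, zero_mul]
      have h4 : (1 + y) * ((1 - y) * x * (1 + y) * ((1 - x) * y' * (1 + x))) * (1 - x) =
          (1 - y * y) * (x * y' - x * x * y' + x * (y * y') - x * y * x * y') * (1 - x * x) := by noncomm_ring
      rw [h4, xx, yy, h2] at h3
      rw [show (x + y - y * x * y - x * y * x) * y' = y * y' - y * x * (y * y') + (x * y' - x * y * x * y') by
        noncomm_ring, h2]
      simpa using h3
  have hd1 : b⁻¹ * a * b * (a⁻¹ * b * a) = 1 := by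
    refine r1_eq_one (r1_symm (r1_rc_self (r1_symm h) r.mem_right r.ne_right))
      (Subgroup.mul_mem _ (mA a r.mem_left) (mB b r.mem_right)) (rc_eq_of_forall fun a' ha' => ?_)
    exact (hc _ hdK a' (Subgroup.mem_sup_left ha')).symm
  rw [mul_eq_one_iff_eq_inv.1 hd1]
  group

end Cfsg.Lib.Class
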