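import Cfsg.Agent.Class.RootInvStr
import Cfsg.Agent.Class.RootInvNd

/-!
# Root involutions: the root structure theorem
-/

set_option autoImplicit false

namespace Cfsg.Lib.Class.RI

open Subgroup Cfsg.Lib.Local Cfsg.Agent
open scoped commutatorElement

universe u

variable {G : Type u} [Group G] [Finite G] {D : Set G}

/-- the members commuting with `d` without an opposite member commuting with `d` -/
def Wd (D : Set G) (d : G) : Set G := {w | w ∈ D ∧ Commute d w ∧ ∀ y ∈ D, Commute d y → ¬ Op w y}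

omit [Finite G] in
theorem Rt.cj_mem_Wd (hD : Rt D) {d w y : G} (hw : w ∈ Wd D d) (hy : y ∈ D) (c : Commute d y) :
    y * w * y ∈ Wd D d := by
  have sy := hD.sq y hy
  have e := cji_eq c.symm sy
  refine ⟨hD.cj w hw.1 y hy, e ▸ commute_cji hw.2.1 sy, fun z hz cz o => ?_⟩
  have o' := o.cji sy
  rw [cji_cji sy] at o'
  exact hw.2.2 _ (hD.cj z hz y hy) (e ▸ commute_cji cz sy) o'

theorem Rt.isPGroup_Wd (hD : Rt D) (d : G) : IsPGroup 2 (closure (Wd D d)) :=
  hD.isPGroup_closure (fun _ h => h.1) (fun _ ha _ hb => hD.cj_mem_Wd ha hb.1 hb.2.1)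
    fun _ ha _ hb => ha.2.2 _ hb.1 hb.2.1

theorem Rt.mem_Wd (hD : Rt D) {d w : G} (hw : w ∈ D) (h : w ∈ closure (Wd D d)) : w ∈ Wd D d := by
  have h1 : closure (Wd D d) ≤ centralizer {d} :=
    (closure_le _).2 fun t ht => mem_centralizer_singleton_iff.2 ht.2.1.symm.eq
  refine ⟨hw, (mem_centralizer_singleton_iff.1 (h1 h)).symm, fun y hy c => ?_⟩
  refine not_op_of_mem_normal (hD.isPGroup_Wd d) h ?_ (hD.sq w hw)
  have h2 : (closure (Wd D d)).map (MulAut.conj y).toMonoidHom ≤ closure (Wd D d) := by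
    rw [MonoidHom.map_closure]
    refine closure_mono ?_
    rintro _ ⟨t, ht, rfl⟩
    have := hD.cj_mem_Wd ht hy c
    simpa [hD.inv hy] using this
  have := h2 ⟨w, h, rfl⟩
  simpa [hD.inv hy] using this

omit [Finite G] in
theorem Rt.mem_Wd_of_ln (hD : Rt D) {d w : G} (l : Ln D d w) : w ∈ Wd D d :=
  ⟨l.r, l.c, fun _ hy c => hD.L0' l.symm hy c⟩

omit [Finite G] in
theorem Rt.self_mem_Wd (hD : Rt D) {d : G} (hd : d ∈ D) : d ∈ Wd D d :=
  ⟨hd, Commute.refl d, fun _ hy c o => hD.nc hd hy o c⟩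

namespace Nd

variable (h : Nd D)
include h

theorem not_central {z : G} (hz : z ∈ D) : ¬ ∀ g, Commute z g := fun hc => by
  obtain ⟨e, he, o⟩ := h.exists_op hz
  exact h.rt.nc hz he o (hc e)

theorem sameC_of_commute_ln [Gate.S1175.{u}] {d z : G} (hd : d ∈ D) (hz : z ∈ D) (c : Commute d z)
    (hX : ∀ w, Ln D d w → Commute z w) : SameC D d z := by
  refine h.rt.sameC_of_sameA h.cls hd hz (h.rt.sameA_of_le h.cls hd hz fun x hx o => ?_)
  refine h.rt.op_of hz hx (fun cx => h.not_central hz fun g => ?_) fun f => ?_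
  · have := h.eq_top hd hx o (H := centralizer {z})
      (fun w l => mem_centralizer_singleton_iff.2 (hX w l).symm.eq)
      (mem_centralizer_singleton_iff.2 cx.symm.eq)
    exact (mem_centralizer_singleton_iff.1 (this ▸ mem_top g : g ∈ centralizer {z})).symm
  · have l := h.rt.ln_cm hz hx f
    have l' := h.rt.ln_cm' hz hx f
    have f1 : Fr d (cm z x) := (h.rt.fr_of l.r hd (h.rt.L0 l' hd o.symm)
      (h.rt.L0' l.symm hd c.symm)).symm
    obtain ⟨e, le, -, -, oe⟩ := h.exists_op_of_fr hd l.r f1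
    exact h.rt.L0' l.symm le.r (hX e le) oe

theorem ln_of_mem_Wd [Gate.S1175.{u}] (hE : ∀ d ∈ D, ∀ e ∈ D, SameC D d e → d ≠ e → d * e ∈ D)
    {d w : G} (hd : d ∈ D) (hw : w ∈ Wd D d) (hne : w ≠ d) : Ln D d w := by
  have hD := h.rt
  have hc := h.cls
  by_contra hn
  obtain ⟨w, ⟨hw, hne, hn⟩, hmax⟩ := exists_deepest (hD.isPGroup_Wd d)
    (F := {w | w ∈ Wd D d ∧ w ≠ d ∧ ¬ Ln D d w}) (fun w hw => subset_closure hw.1)
    (fun h1 => hD.ne 1 h1.1.1 rfl) ⟨w, hw, hne, hn⟩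
  obtain ⟨f, lf, nc⟩ : ∃ f, Ln D d f ∧ ¬ Commute w f := by
    by_contra hh
    push Not at hh
    exact hn (hD.ln_of_hE hE hd hw.1 (h.sameC_of_commute_ln hd hw.1 hw.2.1 hh) hne.symm)
  have fwf := hD.fr_of hw.1 lf.r nc (hw.2.2 f lf.r lf.c)
  have l1 := hD.ln_cm hw.1 lf.r fwf
  have l2 := hD.ln_cm' hw.1 lf.r fwf
  have hcW := hD.mem_Wd l1.r
    (mem_cm (subset_closure hw) (subset_closure (hD.mem_Wd_of_ln lf)))
  have h1 : ¬ SameC D (cm w f) d := fun s => hn (hD.ln_of_sameC hc hE hd s l1.symm hne)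
  have lc : Ln D d (cm w f) := by
    by_contra hn'
    have := hmax f (subset_closure (hD.mem_Wd_of_ln lf))
    rw [commutator_eq_cm (hD.sq w hw.1) (hD.sq f lf.r)] at this
    exact this ⟨hcW, fun e => h1 (by rw [e]; exact SameC.refl D d), hn'⟩
  obtain ⟨y, hy, fy, ey⟩ := hD.exists_cm' hc l2.symm
    (hD.cms hw.1 lf.r fwf ▸ hD.not_sameC_cm lf.r hw.1 fwf.symm)
  have o := hD.o3 lf.r hw.1 hy fwf.symm (hD.cms hw.1 lf.r fwf) fy ey
  have ly : Ln D f y := ey ▸ (hD.ln_cm' l1.r hy fy).symm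
  have fdy : Fr d y := hD.fr_of hd hy (fun c => hw.2.2 y hy c o.1) (hD.not_op_of_ln lf.symm ly)
  have s1 := hD.sameC_cm hc lf.symm ly fdy
  have lk := hD.ln_cm hd hy fdy
  have lk' := hD.ln_cm' hd hy fdy
  have fk := hD.fr_of_sameC lf.r lk.r hw.1 s1 fwf.symm
  obtain ⟨n1, -, -⟩ := hD.nat o.symm hw.1 ly.symm fwf.symm
  obtain ⟨n2, f2, n3⟩ := hD.nat o.symm hw.1 lk' fk
  have s2 := hD.sameC_cji s1 (hD.cj w hw.1 y hy)
  rw [n1, n2, hD.cms hw.1 lf.r fwf] at s2
  have l3 := hD.ln_cm lk.r hw.1 fk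
  have l4 := hD.ln_cm' lk.r hw.1 fk
  have sy := hD.sq y hy
  have a1 := cj_eq_mul_cm y (hD.sq d hd)
  have a2 := cj_eq_mul_cm y (hD.sq _ l3.r)
  rw [n3] at a2
  generalize cm d y = k at *
  generalize cm k w = c' at *
  have cz : Commute y (d * c') := by
    refine commute_of_cji sy ?_
    rw [cji_mul sy, a1, a2, mul_assoc, cl l3.c, hD.sq k lk.r, mul_one]
  have h2 : ¬ SameC D d c' := fun s => h1 (s2.trans s.symm)
  have l5 := hD.ln_of_sameC hc hE l3.r s2 lc.symm (by rintro rfl; exact h2 (SameC.refl D d))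
  obtain ⟨x, hx, fx, ex⟩ := hD.exists_cm' hc l5.symm h2
  have lx : Ln D c' x := ex ▸ (hD.ln_cm' hd hx fx).symm
  have sx := hD.sq x hx
  have o1 := (hD.op_cj_of_ln hc l4.symm lx hy o.1 f2.not_op).cji sx
  rw [cji_cji sx] at o1
  refine hw.2.2 _ (hD.cj y hy x hx) ?_ o1
  have := commute_cji cz.symm sx
  rwa [← ex, ← cj_eq_mul_cm x (hD.sq d hd), cji_cji sx] at this

end Nd

omit [Finite G] in
theorem hE_of (hE : ∀ d ∈ D, (sameCommutingSubgroup D d : Set G) = sameCommutingClass D d ∪ {1})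
    (hD : Rt D) : ∀ d ∈ D, ∀ e ∈ D, SameC D d e → d ≠ e → d * e ∈ D := by
  intro d hd e he s hne
  have : d * e ∈ (sameCommutingSubgroup D d : Set G) :=
    mul_mem (subset_closure (mem_sameCommutingClass.2 ⟨hd, SameC.refl D d⟩))
      (subset_closure (mem_sameCommutingClass.2 ⟨he, s⟩))
  rw [hE d hd] at this
  exact (this.resolve_right fun e1 => hne (eq_of_mul_eq_one (hD.sq d hd) e1)).1

omit [Finite G] in
theorem commutator_closure_le {S : Set G} {N : Subgroup G}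
    (h1 : ∀ a ∈ S, ∀ b ∈ S, ⁅a, b⁆ ∈ N) (h2 : ∀ n ∈ N, ∀ a ∈ S, Commute n a) :
    ⁅closure S, closure S⁆ ≤ N := by
  have h3 : ∀ n ∈ N, ∀ a ∈ closure S, a * n * a⁻¹ = n := fun n hn a ha => by
    have : closure S ≤ centralizer {n} :=
      (closure_le _).2 fun t ht => mem_centralizer_singleton_iff.2 (h2 n hn t ht).symm.eq
    exact cj_eq_of_commute (mem_centralizer_singleton_iff.1 (this ha))
  have h4 : ∀ T : Set G, T ⊆ closure S → ∀ b, (∀ a ∈ T, ⁅a, b⁆ ∈ N) → ∀ a ∈ closure T, ⁅a, b⁆ ∈ N := by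
    intro T hT b hb a ha
    induction ha using closure_induction with
    | mem x hx => exact hb x hx
    | one => simpa using N.one_mem
    | mul x y hx _ ihx ihy =>
      have : ⁅x * y, b⁆ = x * ⁅y, b⁆ * x⁻¹ * ⁅x, b⁆ := by
        simp only [commutatorElement_def]; group
      rw [this, h3 _ ihy x ((closure_le _).2 hT hx)]
      exact mul_mem ihy ihx
    | inv x hx ih =>
      have : ⁅x⁻¹, b⁆ = x⁻¹ * ⁅x, b⁆⁻¹ * x⁻¹⁻¹ := by
        simp only [commutatorElement_def]; group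
      rw [this, h3 _ (inv_mem ih) _ (inv_mem ((closure_le _).2 hT hx))]
      exact inv_mem ih
  rw [commutator_le]
  intro a ha b hb
  refine h4 S subset_closure b (fun s hs => ?_) a ha
  rw [← commutatorElement_inv]
  refine inv_mem (h4 S subset_closure s (fun t ht => h1 t ht s hs) b hb)

end Cfsg.Lib.Class.RI
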