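import Mathlib
import Cfsg.Agent.Class.RankOneSpecial

/-!
Sets of abstract root subgroups (Timmesfeld): elementary properties.
-/

set_option autoImplicit false

namespace Cfsg.Lib.Class

open scoped commutatorElement

variable {G : Type*} [Group G] {S : Set (Subgroup G)} {A B C D E : Subgroup G}

/-- The commutator `a⁻¹ b⁻¹ a b`. -/
def kc (a b : G) : G := a⁻¹ * b⁻¹ * a * b

theorem mul_kc (a b : G) : a * kc a b = b⁻¹ * a * b := by rw [kc]; group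

theorem kc_inv (a b : G) : (kc a b)⁻¹ = kc b a := by rw [kc, kc]; group

theorem kc_eq_one {a b : G} : kc a b = 1 ↔ a * b = b * a := by
  rw [kc, mul_assoc, ← mul_inv_rev, inv_mul_eq_one, eq_comm]

theorem kc_mem {a b : G} (ha : a ∈ A) (hb : b ∈ B) : kc a b ∈ ⁅A, B⁆ := by
  have := Subgroup.commutator_mem_commutator (A.inv_mem ha) (B.inv_mem hb)
  rwa [commutatorElement_def, inv_inv, inv_inv] at this

theorem kc_mul_left (a a' b : G) : kc (a * a') b = a'⁻¹ * kc a b * a' * kc a' b := by rw [kc, kc, kc]; group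

theorem kc_mul_right (a b b' : G) : kc a (b * b') = kc a b' * (b'⁻¹ * kc a b * b') := by rw [kc, kc, kc]; group

theorem commutator_le_of_kc {H : Subgroup G} (h : ∀ a ∈ A, ∀ b ∈ B, kc a b ∈ H) : ⁅A, B⁆ ≤ H :=
  Subgroup.commutator_le.2 fun a ha b hb => by
    have := h _ (A.inv_mem ha) _ (B.inv_mem hb)
    rwa [kc, inv_inv, inv_inv] at this

theorem commutator_le_sup (A B : Subgroup G) : ⁅A, B⁆ ≤ A ⊔ B :=
  commutator_le_of_kc fun _ ha _ hb => Subgroup.mul_mem _ (Subgroup.mul_mem _ (Subgroup.mul_mem _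
    (Subgroup.mem_sup_left (A.inv_mem ha)) (Subgroup.mem_sup_right (B.inv_mem hb))) (Subgroup.mem_sup_left ha))
    (Subgroup.mem_sup_right hb)

theorem Cm.conj (h : Cm A B) {a b : G} (ha : a ∈ A) (hb : b ∈ B) : b⁻¹ * a * b = a := by
  rw [mul_assoc, h a ha b hb, inv_mul_cancel_left]

theorem Cm.mem_sup (h : Cm A B) {x : G} : x ∈ A ⊔ B ↔ ∃ a ∈ A, ∃ b ∈ B, a * b = x :=
  Trans.mem_sup_of_le_normalizer ((cm_iff_le.1 h.symm).trans (Subgroup.centralizer_le_normalizer _))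

theorem r1_comm_eq (h : IsRankOnePair A B) {a b : G} (ha : a ∈ A) (ha1 : a ≠ 1) (hb : b ∈ B)
    (e : a * b = b * a) : b = 1 := by
  by_contra hb1
  exact ha1 (r1_inf (r1_rc_self (r1_symm h) hb hb1) ha (mem_rc.2 (by rwa [← e, mul_inv_cancel_right])))

theorem eq_of_mem_unip_of_mem (h : IsRankOnePair A B) (hC : C ∈ unipotentSubgroups A B)
    (hD : D ∈ unipotentSubgroups A B) {c : G} (hc : c ∈ C) (hd : c ∈ D) (hc1 : c ≠ 1) : C = D :=
  eq_of_mem_unip_of_rc h hC hD hc hc1 (rc_of_mem hd)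

section cc

theorem cc_cm_left (h : RootCommutatorCase S A B) : Cm ⁅A, B⁆ A :=
  fun c hc a ha => h.2.1 c hc a (Subgroup.mem_sup_left ha)

theorem cc_cm_right (h : RootCommutatorCase S A B) : Cm ⁅A, B⁆ B :=
  fun c hc a ha => h.2.1 c hc a (Subgroup.mem_sup_right ha)

theorem cc_kc_mul_left (h : RootCommutatorCase S A B) {a a' b : G} (ha : a ∈ A) (ha' : a' ∈ A) (hb : b ∈ B) :
    kc (a * a') b = kc a b * kc a' b := by
  rw [kc_mul_left, (cc_cm_left h).conj (kc_mem ha hb) ha']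

theorem cc_kc_mul_right (h : RootCommutatorCase S A B) {a b b' : G} (ha : a ∈ A) (hb : b ∈ B) (hb' : b' ∈ B) :
    kc a (b * b') = kc a b * kc a b' := by
  rw [kc_mul_right, (cc_cm_right h).conj (kc_mem ha hb) hb']
  exact (h.2.1 _ (kc_mem ha hb) _ (commutator_le_sup _ _ (kc_mem ha hb'))).symm

theorem cc_surj (h : RootCommutatorCase S A B) {a c : G} (ha : a ∈ A) (ha1 : a ≠ 1) (hc : c ∈ ⁅A, B⁆) :
    ∃ b ∈ B, kc a b = c := by
  rw [← h.2.2.1 a⁻¹ (A.inv_mem ha) (inv_ne_one.2 ha1)] at hc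
  induction hc using Subgroup.closure_induction with
  | mem x hx =>
    obtain ⟨b, hb, rfl⟩ := hx
    exact ⟨b⁻¹, B.inv_mem hb, by simp [kc]⟩
  | one => exact ⟨1, B.one_mem, by simp [kc]⟩
  | mul x y _ _ hx hy =>
    obtain ⟨b, hb, rfl⟩ := hx
    obtain ⟨b', hb', rfl⟩ := hy
    exact ⟨b * b', B.mul_mem hb hb', cc_kc_mul_right h ha hb hb'⟩
  | inv x _ hx =>
    obtain ⟨b, hb, rfl⟩ := hx
    refine ⟨b⁻¹, B.inv_mem hb, eq_inv_of_mul_eq_one_right ?_⟩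
    rw [← cc_kc_mul_right h ha hb (B.inv_mem hb)]
    simp [kc]

theorem cc_surj' (h : RootCommutatorCase S A B) {b c : G} (hb : b ∈ B) (hb1 : b ≠ 1) (hc : c ∈ ⁅A, B⁆) :
    ∃ a ∈ A, kc a b = c := by
  obtain ⟨a, ha, e⟩ := cc_surj (rootCommutatorCase_symm h) hb hb1 (c := c⁻¹)
    (by rw [Subgroup.commutator_comm]; exact Subgroup.inv_mem _ hc)
  exact ⟨a, ha, by rw [← kc_inv, e, inv_inv]⟩

theorem cc_rc_le (h : RootCommutatorCase S A B) {b : G} (hb : b ∈ B) : rc A b ≤ A ⊔ ⁅A, B⁆ := by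
  intro x hx
  obtain ⟨a, ha, rfl⟩ := exists_of_mem_rc hx
  rw [← mul_kc]
  exact Subgroup.mul_mem_sup ha (kc_mem ha hb)

theorem cc_sup_rc (h : RootCommutatorCase S A B) {b : G} (hb : b ∈ B) (hb1 : b ≠ 1) :
    A ⊔ rc A b = A ⊔ ⁅A, B⁆ := by
  refine le_antisymm (sup_le le_sup_left (cc_rc_le h hb)) (sup_le le_sup_left fun c hc => ?_)
  obtain ⟨a, ha, rfl⟩ := cc_surj' h hb hb1 hc
  rw [kc, mul_assoc, mul_assoc, ← mul_assoc b⁻¹]
  exact Subgroup.mul_mem_sup (A.inv_mem ha) (conj_mem_rc ha b)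

theorem cc_rc_sup (h : RootCommutatorCase S A B) {b : G} (hb : b ∈ B) : rc (A ⊔ ⁅A, B⁆) b = A ⊔ ⁅A, B⁆ := by
  have key : ∀ b ∈ B, rc (A ⊔ ⁅A, B⁆) b ≤ A ⊔ ⁅A, B⁆ := fun b hb => by
    rw [rc_sup, (cc_cm_right h).rc_eq hb]
    exact sup_le (cc_rc_le h hb) le_sup_right
  refine le_antisymm (key b hb) ?_
  have := rc_mono (key _ (B.inv_mem hb)) b
  rwa [rc_inv_rc] at this

end cc

namespace RS

variable (hS : IsRootSubgroupSet S)
include hS

theorem rc_mem (hA : A ∈ S) (g : G) : rc A g ∈ S := hS.conj_mem A hA _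

theorem cm (hA : A ∈ S) : Cm A A := cm_self (hS.commutative A hA)

theorem exists_ne (hA : A ∈ S) : ∃ a ∈ A, a ≠ 1 := (Subgroup.bot_or_exists_ne_one A).resolve_left (hS.ne_bot A hA)

theorem tri (hA : A ∈ S) (hB : B ∈ S) : Cm A B ∨ IsRankOnePair A B ∨ RootCommutatorCase S A B :=
  (hS.pair A hA B hB).imp_left cm_iff.1

theorem unip_mem (hA : A ∈ S) (hC : C ∈ unipotentSubgroups A B) : C ∈ S := by
  obtain ⟨x, -, rfl⟩ := mem_unipot.1 hC
  exact rc_mem hS hA x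

theorem cm_line (hA : A ∈ S) (h : RootCommutatorCase S A B) : Cm (A ⊔ ⁅A, B⁆) (A ⊔ ⁅A, B⁆) :=
  ((cm hS hA).sup_right (cc_cm_left h).symm).sup_left ((cc_cm_left h).sup_right (cm hS h.1))

/-- If `A` and `B` are not opposite then `A` commutes with its conjugates under `B`. -/
theorem cm_rc (hA : A ∈ S) (hB : B ∈ S) (h : ¬ IsRankOnePair A B) {b : G} (hb : b ∈ B) : Cm A (rc A b) := by
  rcases tri hS hA hB with h1 | h1 | h1
  · rw [h1.rc_eq hb]; exact cm hS hA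
  · exact absurd h1 h
  · exact (cm_line hS hA h1).mono le_sup_left (cc_rc_le h1 hb)

theorem r1_of_rc (hC : C ∈ S) (hD : D ∈ S) {d : G} (hd : d ∈ D) (h : IsRankOnePair C (rc C d)) :
    IsRankOnePair D C := by
  by_contra h1
  exact r1_not_cm h (cm_rc hS hC hD (fun h2 => h1 (r1_symm h2)) hd)

theorem mem_unip_of_rc (hA : A ∈ S) (h : IsRankOnePair A B) (hE : E ∈ unipotentSubgroups A B) (hD : D ∈ S)
    {d x : G} (hd : d ∈ D) (hx : x ∈ A ⊔ B) (e : rc E d = rc E x) (hne : rc E d ≠ E) :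
    D ∈ unipotentSubgroups A B := by
  have hE' : rc E d ∈ unipotentSubgroups A B := e ▸ rc_mem_unip hE hx
  have h1 := r1_of_rc hS (unip_mem hS hA hE) hD hd (r1_of_mem_unip h hE hE' hne.symm)
  rw [← unip_eq_of_mem_unip h hE hE' hne.symm, unip_eq_of_mem_unip h1 (right_mem_unip h1)
    (rc_mem_unip (right_mem_unip h1) (Subgroup.mem_sup_left hd)) hne.symm]
  exact left_mem_unip

theorem not_cm_of_mem (hC : ⁅A, B⁆ ∈ S) : ¬ Cm A B := fun h => hS.ne_bot _ hC (cm_iff.2 h)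

theorem cc_not_r1 (hA : A ∈ S) (hB : B ∈ S) (h : RootCommutatorCase S A B) : ¬ IsRankOnePair A B := fun h1 => by
  obtain ⟨b, hb, hb1⟩ := exists_ne hS hB
  exact r1_not_cm (r1_rc_self (r1_symm h1) hb hb1) ((cm_line hS hA h).mono le_sup_left (cc_rc_le h hb))

theorem cc_of_mem (hA : A ∈ S) (hB : B ∈ S) (hC : ⁅A, B⁆ ∈ S) : RootCommutatorCase S A B := by
  rcases tri hS hA hB with h | h | h
  · exact absurd h (not_cm_of_mem hS hC)
  · exfalso
    have hn : ∀ x ∈ A ⊔ B, rc ⁅A, B⁆ x = ⁅A, B⁆ := fun x hx => rc_eq_iff_mem_normalizer.2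
      ((sup_le (Subgroup.normalizer_commutator_ge_left A B) (Subgroup.normalizer_commutator_ge_right A B) :
        A ⊔ B ≤ _) hx)
    rcases r1_normal h (commutator_le_sup A B) (fun x hx n hn' => by
      have := conj_mem_rc hn' x⁻¹
      rwa [hn _ (Subgroup.inv_mem _ hx), inv_inv] at this) with ⟨n, hn', e⟩ | e
    · refine r1_not_cm h (e ▸ cm_rc hS hA hC (fun h1 => ?_) hn')
      obtain ⟨a, ha, ha1⟩ := r1_exists h
      exact ha1 (r1_eq_one h1 ha (hn a (Subgroup.mem_sup_left ha)))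
    · exact not_isRankOnePair_of_central (r1_ne_bot h) (hS.commutative B hB) e h
  · exact h

/-- No root element has the form `z a` with `z ≠ 1` centralizing a rank one group containing `a`. -/
theorem eq_one_of_mul_mem (hA : A ∈ S) (hB : B ∈ S) (h : IsRankOnePair A B) {z a : G}
    (hzA : ∀ x ∈ A, x * z = z * x) (hzB : ∀ x ∈ B, x * z = z * x) (ha : a ∈ A) (ha1 : a ≠ 1) (hD : D ∈ S)
    (hd : z * a ∈ D) : z = 1 := by
  have e : rc B (z * a) = rc B a := rc_mul_of_eq (rc_eq_of_forall hzB) a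
  have hne : rc B (z * a) ≠ B := fun e' => ha1 (r1_eq_one h ha (e ▸ e'))
  have h1 := mem_unip_of_rc hS hA h (right_mem_unip h) hD hd (Subgroup.mem_sup_left ha) e hne
  have h2 := eq_of_mem_unip_of_rc h h1 left_mem_unip hd (fun e' => hne (by rw [e', rc_one]))
    (by rw [rc_mul_of_eq (rc_eq_of_forall hzA), rc_of_mem ha])
  exact r1_eq_one h ((A.mul_mem_cancel_right ha).1 (h2 ▸ hd)) (rc_eq_of_forall hzB)

theorem eq_of_mem (hA : A ∈ S) (hE : E ∈ S) (h : IsRankOnePair A E) (hB : B ∈ S) {a : G} (ha : a ∈ A)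
    (hb : a ∈ B) (ha1 : a ≠ 1) : A = B :=
  eq_of_mem_unip_of_mem h left_mem_unip (mem_unip_of_rc hS hA h (right_mem_unip h) hB hb
    (Subgroup.mem_sup_left ha) rfl fun e => ha1 (r1_eq_one h ha e)) ha hb ha1

theorem mem_unip_of_le (hA : A ∈ S) (hC : C ∈ S) (h : IsRankOnePair A B) (h' : IsRankOnePair C D)
    (hle : A ⊔ B ≤ C ⊔ D) : A ∈ unipotentSubgroups C D := by
  obtain ⟨a, ha, ha1⟩ := r1_exists h
  have ha' := hle (Subgroup.mem_sup_left ha)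
  by_cases h1 : ∀ E ∈ unipotentSubgroups C D, rc E a = E
  · exact absurd (r1_eq_one h ha (rc_eq_of_forall fun b hb =>
      (comm_of_normalizes_unip h' h1 b (hle (Subgroup.mem_sup_right hb))).symm)) ha1
  · push Not at h1
    obtain ⟨E, hE, h1⟩ := h1
    exact mem_unip_of_rc hS hC h' hE hA ha ha' rfl h1

omit hS in
theorem not_isolated_iff (hA : A ∈ S) : ¬ IsIsolatedIn (FAdj S) S A ↔ ∃ B ∈ S, IsRankOnePair A B := by
  constructor
  · intro h
    by_contra h1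
    push Not at h1
    exact h ⟨hA, fun B => ⟨fun h => h1 B h.2.1 h.2.2, fun h => h1 B h.1 (r1_symm h.2.2)⟩⟩
  · rintro ⟨B, hB, h⟩ h1
    exact (h1.2 B).1 ⟨hA, hB, h⟩

section line

variable (hA : A ∈ S) (hE : E ∈ S) (hAE : IsRankOnePair A E) (h : RootCommutatorCase S A B)
include hA hE hAE h

theorem cc_ne : A ≠ ⁅A, B⁆ := fun e => not_cm_of_mem hS h.1 (e ▸ cc_cm_right h)

theorem cc_inf {a : G} (ha : a ∈ A) (hc : a ∈ ⁅A, B⁆) : a = 1 := by
  by_contra ha1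
  exact cc_ne hS hA hE hAE h (eq_of_mem hS hA hE hAE h.1 ha hc ha1)

theorem cc_rc_ne {b : G} (hb : b ∈ B) (hb1 : b ≠ 1) : rc A b ≠ A := fun e => by
  have := cc_sup_rc h hb hb1
  rw [e, sup_idem] at this
  obtain ⟨c, hc, hc1⟩ := exists_ne hS h.1
  exact hc1 (cc_inf hS hA hE hAE h (this ▸ Subgroup.mem_sup_right hc) hc)

theorem cc_inj {a b : G} (ha : a ∈ A) (ha1 : a ≠ 1) (hb : b ∈ B) (e : a * b = b * a) : b = 1 := by
  by_contra hb1
  exact cc_rc_ne hS hA hE hAE h hb hb1 (eq_of_mem hS hA hE hAE (rc_mem hS hA b) ha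
    (mem_rc.2 (by rwa [← e, mul_inv_cancel_right])) ha1).symm

omit hS hA hE hAE in
theorem cc_cover {x : G} (hx : x ∈ A ⊔ ⁅A, B⁆) : x ∈ ⁅A, B⁆ ∨ ∃ b ∈ B, x ∈ rc A b := by
  obtain ⟨a, ha, c, hc, rfl⟩ := (cc_cm_left h).symm.mem_sup.1 hx
  by_cases ha1 : a = 1
  · exact Or.inl (by rwa [ha1, one_mul])
  · obtain ⟨b, hb, rfl⟩ := cc_surj h ha ha1 hc
    exact Or.inr ⟨b, hb, mul_kc a b ▸ conj_mem_rc ha b⟩

theorem cc_not_cm : ¬ Cm ⁅A, B⁆ E := fun hc => by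
  obtain ⟨c, hc', hc1⟩ := exists_ne hS h.1
  obtain ⟨a, ha, ha1⟩ := exists_ne hS hA
  obtain ⟨b, hb, rfl⟩ := cc_surj h ha ha1 hc'
  exact hc1 (eq_one_of_mul_mem hS hA hE hAE (fun x hx => (cc_cm_left h _ hc' x hx).symm)
    (fun x hx => (hc _ hc' x hx).symm) ha ha1 (rc_mem hS hA b)
    (by rw [cc_cm_left h _ hc' a ha, mul_kc]; exact conj_mem_rc ha b))

theorem cc_eq_of_le (hD : D ∈ S) (hle : D ≤ ⁅A, B⁆) : D = ⁅A, B⁆ := by
  obtain ⟨d, hd, hd1⟩ := exists_ne hS hD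
  rcases tri hS h.1 hE with h1 | h1 | h1
  · exact absurd h1 (cc_not_cm hS hA hE hAE h)
  · exact (eq_of_mem hS h.1 hE h1 hD (hle hd) hd hd1).symm
  obtain ⟨e, he, he1⟩ := exists_ne hS hE
  have hinj := fun {e c : G} => cc_inj hS hE hA (r1_symm hAE) (rootCommutatorCase_symm h1) (a := e) (b := c)
  rcases tri hS hD hE with h2 | h2 | h2
  · exact absurd (hinj he he1 (hle hd) (h2 d hd e he).symm) hd1
  · exact eq_of_mem hS hD hE h2 h.1 hd (hle hd) hd1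
  refine le_antisymm hle fun c hc => ?_
  obtain ⟨e', he', e1⟩ := cc_surj h1 (hle hd) hd1 (kc_mem hc he)
  obtain ⟨d', hd', e2⟩ := cc_surj' h2 he he1 (kc_mem hd he')
  have : c * d'⁻¹ = 1 := hinj he he1 (Subgroup.mul_mem _ hc (Subgroup.inv_mem _ (hle hd'))) (by
    refine (kc_eq_one.1 ?_).symm
    have := cc_kc_mul_left h1 (Subgroup.mul_mem _ hc (Subgroup.inv_mem _ (hle hd'))) (hle hd') he
    rwa [inv_mul_cancel_right, ← e1, ← e2, right_eq_mul] at this)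
  exact mul_inv_eq_one.1 this ▸ hd'

theorem cc_members (hD : D ∈ S) (hle : D ≤ A ⊔ ⁅A, B⁆) : D = ⁅A, B⁆ ∨ ∃ b ∈ B, D = rc A b := by
  by_cases h1 : D ≤ ⁅A, B⁆
  · exact Or.inl (cc_eq_of_le hS hA hE hAE h hD h1)
  · obtain ⟨d, hd, hd'⟩ := SetLike.not_le_iff_exists.1 h1
    obtain ⟨b, hb, e⟩ := (cc_cover h (hle hd)).resolve_left hd'
    exact Or.inr ⟨b, hb, (eq_of_mem hS (rc_mem hS hA b) (rc_mem hS hE b) (r1_rc hAE b) hD e hd
      fun e => hd' (e ▸ Subgroup.one_mem _)).symm⟩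

theorem cc_partition : IsSubgroupPartition (A ⊔ ⁅A, B⁆) (membersIn S (A ⊔ ⁅A, B⁆)) := by
  refine ⟨fun C hC => hC.2, fun x hx _ => ?_, fun C hC D hD hne => ?_⟩
  · rcases cc_cover h hx with h1 | ⟨b, hb, h1⟩
    · exact ⟨_, ⟨h.1, le_sup_right⟩, h1⟩
    · exact ⟨_, ⟨rc_mem hS hA b, cc_rc_le h hb⟩, h1⟩
  · refine (Subgroup.eq_bot_iff_forall _).2 fun x hx => ?_
    by_contra hx1
    rcases cc_members hS hA hE hAE h hC.1 hC.2 with rfl | ⟨b, -, rfl⟩
    · rcases cc_members hS hA hE hAE h hD.1 hD.2 with rfl | ⟨b, -, rfl⟩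
      · exact hne rfl
      · exact hne (eq_of_mem hS hD.1 (rc_mem hS hE b) (r1_rc hAE b) hC.1 hx.2 hx.1 hx1).symm
    · exact hne (eq_of_mem hS hC.1 (rc_mem hS hE b) (r1_rc hAE b) hD.1 hx.1 hx.2 hx1)

theorem cc_linePartner : A ∈ linePartners S ⁅A, B⁆ :=
  ⟨⟨hA, cc_ne hS hA hE hAE h, cm_iff.2 (cc_cm_left h)⟩, by rw [sup_comm]; exact cc_partition hS hA hE hAE h⟩

end line

end RS

end Cfsg.Lib.Class
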