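import Mathlib
import Cfsg.Agent.Class.RootSets

/-!
Sets of abstract root subgroups (Timmesfeld): three root subgroups generating a nilpotent group, and the
connectivity components of the graph of opposite pairs.
-/

set_option autoImplicit false

namespace Cfsg.Lib.Class

open scoped commutatorElement

variable {G : Type*} [Group G] {S : Set (Subgroup G)} {A B C D E H : Subgroup G}

/-- The upper central series of a subgroup, as subgroups of the ambient group. -/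
def Zs (H : Subgroup G) (n : ℕ) : Subgroup G := (Subgroup.upperCentralSeries H n).map H.subtype

theorem Zs_conj {n : ℕ} {x y : G} (hx : x ∈ Zs H n) (hy : y ∈ H) : y⁻¹ * x * y ∈ Zs H n := by
  obtain ⟨x, hx, rfl⟩ := hx
  exact ⟨_, (inferInstance : (Subgroup.upperCentralSeries H n).Normal).conj_mem' x hx ⟨y, hy⟩, rfl⟩

theorem Zs_mono {m n : ℕ} (h : m ≤ n) : Zs H m ≤ Zs H n :=
  Subgroup.map_mono (Subgroup.upperCentralSeries_mono _ h)

theorem mem_Zs_succ {n : ℕ} {x : G} (hx : x ∈ A ⊔ B ⊔ C) (hA : ∀ y ∈ A, kc x y ∈ Zs (A ⊔ B ⊔ C) n)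
    (hB : ∀ y ∈ B, kc x y ∈ Zs (A ⊔ B ⊔ C) n) (hC : ∀ y ∈ C, kc x y ∈ Zs (A ⊔ B ⊔ C) n) :
    x ∈ Zs (A ⊔ B ⊔ C) (n + 1) := by
  let T : Subgroup G :=
    { carrier := {y | y ∈ A ⊔ B ⊔ C ∧ kc x y ∈ Zs (A ⊔ B ⊔ C) n}
      mul_mem' := fun {y y'} hy hy' => ⟨Subgroup.mul_mem _ hy.1 hy'.1, by
        rw [kc_mul_right]; exact Subgroup.mul_mem _ hy'.2 (Zs_conj hy.2 hy'.1)⟩
      one_mem' := ⟨Subgroup.one_mem _, by simp [kc]⟩
      inv_mem' := fun {y} hy => ⟨Subgroup.inv_mem _ hy.1, by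
        have := Subgroup.inv_mem _ (Zs_conj hy.2 (Subgroup.inv_mem _ hy.1))
        convert this using 1
        rw [kc, kc]; group⟩ }
  have hT : A ⊔ B ⊔ C ≤ T := sup_le (sup_le
    (fun y hy => ⟨Subgroup.mem_sup_left (Subgroup.mem_sup_left hy), hA y hy⟩)
    fun y hy => ⟨Subgroup.mem_sup_left (Subgroup.mem_sup_right hy), hB y hy⟩)
    fun y hy => ⟨Subgroup.mem_sup_right hy, hC y hy⟩
  refine ⟨⟨x, hx⟩, Subgroup.mem_upperCentralSeries_succ_iff.2 fun y => ?_, rfl⟩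
  obtain ⟨z, hz, e⟩ := Zs_conj (hT y.2).2 (Subgroup.inv_mem _ (Subgroup.mul_mem _ hx y.2))
  suffices h : ⁅(⟨x, hx⟩ : (A ⊔ B ⊔ C : Subgroup G)), y⁆ = z from h ▸ hz
  refine Subtype.ext (Eq.trans ?_ e.symm)
  simp only [commutatorElement_def, kc, Subgroup.coe_mul, Subgroup.coe_inv]
  group

theorem isNilpotent_of_le_Zs {n : ℕ} (h : H ≤ Zs H n) : Group.IsNilpotent H :=
  ⟨n, eq_top_iff.2 fun x _ => by
    obtain ⟨y, hy, e⟩ := h x.2
    rwa [← show y = x from Subtype.ext e]⟩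

theorem kc_conj (a b g : G) : kc (g⁻¹ * a * g) (g⁻¹ * b * g) = g⁻¹ * kc a b * g := by rw [kc, kc]; group

theorem cc_commutator_sup (hA : Cm A A) (hB : Cm B B) (h : RootCommutatorCase S A B) :
    ⁅⁅A ⊔ B, A ⊔ B⁆, A ⊔ B⁆ = ⊥ := by
  have hc : ∀ x ∈ A ⊔ B ⊔ B, x ∈ Zs (A ⊔ B ⊔ B) 2 := by
    have h1 : ⁅A, B⁆ ≤ Zs (A ⊔ B ⊔ B) 1 := fun c hc =>
      mem_Zs_succ (Subgroup.mem_sup_left (commutator_le_sup _ _ hc))
        (fun y hy => by rw [kc_eq_one.2 (cc_cm_left h c hc y hy)]; exact Subgroup.one_mem _)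
        (fun y hy => by rw [kc_eq_one.2 (cc_cm_right h c hc y hy)]; exact Subgroup.one_mem _)
        (fun y hy => by rw [kc_eq_one.2 (cc_cm_right h c hc y hy)]; exact Subgroup.one_mem _)
    have h2 : B ≤ Zs (A ⊔ B ⊔ B) 2 := fun b hb => mem_Zs_succ (Subgroup.mem_sup_right hb)
        (fun y hy => by rw [← kc_inv]; exact Subgroup.inv_mem _ (h1 (kc_mem hy hb)))
        (fun y hy => by rw [kc_eq_one.2 (hB b hb y hy)]; exact Subgroup.one_mem _)
        (fun y hy => by rw [kc_eq_one.2 (hB b hb y hy)]; exact Subgroup.one_mem _)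
    exact (sup_le (sup_le (fun a ha => mem_Zs_succ (Subgroup.mem_sup_left (Subgroup.mem_sup_left ha))
        (fun y hy => by rw [kc_eq_one.2 (hA a ha y hy)]; exact Subgroup.one_mem _)
        (fun y hy => h1 (kc_mem ha hy)) (fun y hy => h1 (kc_mem ha hy))) h2) h2 : A ⊔ B ⊔ B ≤ _)
  rw [sup_assoc, sup_idem] at hc
  rw [cm_iff, cm_iff_le, Subgroup.commutator_le]
  intro x hx y hy z hz
  obtain ⟨x', hx', rfl⟩ := hc x hx
  have := Subgroup.mem_upperCentralSeries_succ_iff.1 hx' ⟨y, hy⟩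
  rw [Subgroup.upperCentralSeries_one] at this
  exact congrArg Subtype.val (Subgroup.mem_center_iff.1 this ⟨z, hz⟩)

namespace RS

variable (hS : IsRootSubgroupSet S)
include hS

theorem not_r1_rc (hA : A ∈ S) (hC : C ∈ S) (h : RootCommutatorCase S A B) (hAC : Cm A C) {b : G} (hb : b ∈ B) :
    ¬ IsRankOnePair A (rc C b) := fun h1 => by
  by_cases hb1 : b = 1
  · exact r1_not_cm h1 (by rwa [hb1, rc_one])
  obtain ⟨d, hd, hd1⟩ := exists_ne hS h.1
  obtain ⟨a, ha, rfl⟩ := cc_surj' h hb hb1 hd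
  have hz := conj_mem_rc ha b
  have h2 : Cm A (rc A b) := (cm_line hS hA h).mono le_sup_left (cc_rc_le h hb)
  have ha1 : a ≠ 1 := fun e => hd1 (by simp [kc, e])
  refine conj_ne_one ha1 (eq_one_of_mul_mem hS hA (rc_mem hS hC b) h1 (fun x hx => h2 x hx _ hz)
    (fun x hx => (hAC.rc b _ hz x hx).symm) (A.inv_mem ha) (inv_ne_one.2 ha1) h.1 ?_)
  rw [← h2 _ (A.inv_mem ha) _ hz, ← mul_kc, inv_mul_cancel_left]
  exact hd

section nilp

variable (hA : A ∈ S) (hC : C ∈ S) (h : RootCommutatorCase S A B) (h' : RootCommutatorCase S C B) (hAC : Cm A C)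
include hA hC h h' hAC

theorem cm_XY {b : G} (hb : b ∈ B) : Cm (A ⊔ rc C b) (rc A b ⊔ C) :=
  (((cm_line hS hA h).mono le_sup_left (cc_rc_le h hb)).sup_right hAC).sup_left
    ((hAC.rc b).symm.sup_right ((cm_line hS hC h').mono (cc_rc_le h' hb) le_sup_left))

omit hS hA hC hAC in
theorem sup_XY {b : G} (hb : b ∈ B) (hb1 : b ≠ 1) :
    (A ⊔ rc C b) ⊔ (rc A b ⊔ C) = (A ⊔ ⁅A, B⁆) ⊔ (C ⊔ ⁅C, B⁆) := by
  rw [← cc_sup_rc h hb hb1, ← cc_sup_rc h' hb hb1]
  ac_rfl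

theorem kc_cm {a c b : G} (ha : a ∈ A) (hb : b ∈ B) (hc : c ∈ rc C b) :
    ∀ x ∈ (A ⊔ ⁅A, B⁆) ⊔ (C ⊔ ⁅C, B⁆), kc a c * x = x * kc a c := by
  by_cases hb1 : b = 1
  · intro x _
    rw [hb1, rc_one] at hc
    rw [kc_eq_one.2 (hAC a ha c hc), one_mul, mul_one]
  rw [← sup_XY h h' hb hb1]
  refine forall_sup_of ?_ (cm_XY hS hA hC h h' hAC hb _ (commutator_le_sup _ _ (kc_mem ha hc)))
  rcases tri hS hA (rc_mem hS hC b) with h1 | h1 | h1
  · intro x _
    rw [kc_eq_one.2 (h1 a ha c hc), one_mul, mul_one]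
  · exact absurd h1 (not_r1_rc hS hA hC h hAC hb)
  · exact h1.2.1 _ (kc_mem ha hc)

theorem kc_cm_comm (hB : B ∈ S) {c e : G} (hc : c ∈ A) (he : e ∈ ⁅C, B⁆) :
    ∀ x ∈ (A ⊔ ⁅A, B⁆) ⊔ (C ⊔ ⁅C, B⁆), kc c e * x = x * kc c e := by
  obtain ⟨b, hb, hb1⟩ := exists_ne hS hB
  obtain ⟨a, ha, rfl⟩ := cc_surj' h' hb hb1 he
  have : kc c (kc a b) = kc c (b⁻¹ * a * b) := by
    rw [← inv_mul_cancel_left a (kc a b), mul_kc, kc_mul_right, kc_eq_one.2 (hAC c hc _ (C.inv_mem ha))]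
    group
  rw [this]
  exact kc_cm hS hA hC h h' hAC hc hb (conj_mem_rc ha b)

theorem isNilpotent_three (hB : B ∈ S) : Group.IsNilpotent (A ⊔ B ⊔ C : Subgroup G) := by
  set R := A ⊔ B ⊔ C
  set N := (A ⊔ ⁅A, B⁆) ⊔ (C ⊔ ⁅C, B⁆) with hN
  have AR : A ≤ R := le_sup_left.trans le_sup_left
  have BR : B ≤ R := le_sup_right.trans le_sup_left
  have CR : C ≤ R := le_sup_right
  have DR : ⁅A, B⁆ ≤ R := (commutator_le_sup A B).trans le_sup_left
  have ER : ⁅C, B⁆ ≤ R := (commutator_le_sup C B).trans (sup_le CR BR)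
  have AN : A ≤ N := le_sup_left.trans le_sup_left
  have CN : C ≤ N := le_sup_left.trans le_sup_right
  have EN : ⁅C, B⁆ ≤ N := le_sup_right.trans le_sup_right
  have one : ∀ {n : ℕ} {x y : G}, x * y = y * x → kc x y ∈ Zs R n := fun e => by
    rw [kc_eq_one.2 e]; exact Subgroup.one_mem _
  have kR : ∀ {x y : G}, x ∈ R → y ∈ R → kc x y ∈ R := fun hx hy =>
    R.mul_mem (R.mul_mem (R.mul_mem (R.inv_mem hx) (R.inv_mem hy)) hx) hy
  have hBN : ∀ b ∈ B, rc N b = N := fun b hb => by rw [hN, rc_sup, cc_rc_sup h hb, cc_rc_sup h' hb]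
  have k1 : ∀ a ∈ A, ∀ e ∈ ⁅C, B⁆, ∀ x ∈ N, kc a e * x = x * kc a e := fun a ha e he =>
    kc_cm_comm hS hA hC h h' hAC hB ha he
  have k2 : ∀ c ∈ C, ∀ d ∈ ⁅A, B⁆, ∀ x ∈ N, kc c d * x = x * kc c d := fun a ha e he => by
    rw [hN, sup_comm]
    exact kc_cm_comm hS hC hA h' h hAC.symm hB ha he
  have z1 : ∀ d ∈ ⁅A, B⁆, ∀ e ∈ ⁅C, B⁆, kc d e ∈ Zs R 1 := fun d hd e he => by
    have hc : ∀ x ∈ N, kc d e * x = x * kc d e := by
      obtain ⟨b, hb, hb1⟩ := exists_ne hS hB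
      obtain ⟨a, ha, rfl⟩ := cc_surj' h hb hb1 hd
      have e1 : kc (b⁻¹ * a * b) e = b⁻¹ * kc a e * b := by
        rw [← kc_conj, (cc_cm_right h').conj he hb]
      have h1 := k1 _ (A.inv_mem ha) e he
      rw [← inv_mul_cancel_left a (kc a b), mul_kc, kc_mul_left, e1, mul_assoc _ (kc a⁻¹ e),
        h1 _ (hBN b hb ▸ conj_mem_rc (AN ha) b), inv_mul_cancel_left]
      intro x hx
      have h2 : b⁻¹ * kc a e * b * x = x * (b⁻¹ * kc a e * b) := by
        obtain ⟨y, hy, rfl⟩ := exists_of_mem_rc (hBN b hb ▸ hx)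
        calc _ = b⁻¹ * (kc a e * y) * b := by group
          _ = _ := by rw [k1 a ha e he y hy]; group
      rw [mul_assoc, h2, ← mul_assoc, h1 x hx, mul_assoc]
    refine mem_Zs_succ (kR (DR hd) (ER he)) (fun y hy => one (hc y (AN hy))) (fun y hy => one ?_)
      fun y hy => one (hc y (CN hy))
    have := kc_conj d e y
    rw [(cc_cm_right h).conj hd hy, (cc_cm_right h').conj he hy] at this
    calc _ = y * (y⁻¹ * kc d e * y) := by group
      _ = _ := by rw [← this]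
  have z2 : ∀ c ∈ C, ∀ d ∈ ⁅A, B⁆, kc c d ∈ Zs R 2 := fun c hc d hd => by
    refine mem_Zs_succ (kR (CR hc) (DR hd)) (fun y hy => one (k2 c hc d hd y (AN hy))) (fun y hy => ?_)
      fun y hy => one (k2 c hc d hd y (CN hy))
    have := kc_conj c d y
    rw [(cc_cm_right h).conj hd hy, ← mul_kc, kc_mul_left, mul_assoc _ (kc c d),
      k2 c hc d hd _ (EN (kc_mem hc hy)), inv_mul_cancel_left, ← mul_kc, mul_left_cancel_iff] at this
    rw [← this, ← kc_inv]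
    exact Subgroup.inv_mem _ (z1 d hd _ (kc_mem hc hy))
  have z2' : ∀ a ∈ A, ∀ e ∈ ⁅C, B⁆, kc a e ∈ Zs R 2 := fun a ha e he => by
    refine mem_Zs_succ (kR (AR ha) (ER he)) (fun y hy => one (k1 a ha e he y (AN hy))) (fun y hy => ?_)
      fun y hy => one (k1 a ha e he y (CN hy))
    have := kc_conj a e y
    rw [(cc_cm_right h').conj he hy, ← mul_kc, kc_mul_left, mul_assoc _ (kc a e),
      k1 a ha e he _ (Subgroup.mem_sup_left (Subgroup.mem_sup_right (kc_mem ha hy))), inv_mul_cancel_left,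
      ← mul_kc, mul_left_cancel_iff] at this
    rw [← this]
    exact z1 _ (kc_mem ha hy) e he
  have z3 : ⁅A, B⁆ ≤ Zs R 3 := fun d hd => mem_Zs_succ (DR hd) (fun y hy => one (cc_cm_left h d hd y hy))
    (fun y hy => one (cc_cm_right h d hd y hy)) fun y hy => by
      rw [← kc_inv]; exact Subgroup.inv_mem _ (z2 y hy d hd)
  have z3' : ⁅C, B⁆ ≤ Zs R 3 := fun d hd => mem_Zs_succ (ER hd) (fun y hy => by
      rw [← kc_inv]; exact Subgroup.inv_mem _ (z2' y hy d hd))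
    (fun y hy => one (cc_cm_right h' d hd y hy)) fun y hy => one (cc_cm_left h' d hd y hy)
  refine isNilpotent_of_le_Zs (n := 4) (sup_le (sup_le (fun a ha => ?_) fun b hb => ?_) fun c hc => ?_)
  · exact mem_Zs_succ (AR ha) (fun y hy => one (cm hS hA a ha y hy)) (fun y hy => z3 (kc_mem ha hy))
      fun y hy => one (hAC a ha y hy)
  · exact mem_Zs_succ (BR hb) (fun y hy => by rw [← kc_inv]; exact Subgroup.inv_mem _ (z3 (kc_mem hy hb)))
      (fun y hy => one (cm hS hB b hb y hy))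
      fun y hy => by rw [← kc_inv]; exact Subgroup.inv_mem _ (z3' (kc_mem hy hb))
  · exact mem_Zs_succ (CR hc) (fun y hy => one (hAC y hy c hc).symm) (fun y hy => z3' (kc_mem hc hy))
      fun y hy => one (cm hS hC c hc y hy)

end nilp

/-- If a product of elements of two commuting root subgroups lies in a root subgroup opposite to `E`, then one of
the two is opposite to `E`. -/
theorem r1_or_r1 (hA : A ∈ S) (hE : E ∈ S) (h : IsRankOnePair A E) (hC : C ∈ S) (hD : D ∈ S) (hCD : Cm C D)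
    {c d : G} (hc : c ∈ C) (hd : d ∈ D) (ha : c * d ∈ A) (ha1 : c * d ≠ 1) :
    IsRankOnePair C E ∨ IsRankOnePair D E := by
  have h1 := r1_rc_self h ha ha1
  rcases tri hS hC hE with h2 | h2 | h2
  · rw [rc_mul_of_eq (h2.symm.rc_eq hc)] at h1
    exact Or.inr (r1_of_rc hS hE hD hd h1)
  · exact Or.inl h2
  rcases tri hS hD hE with h3 | h3 | h3
  · rw [hCD c hc d hd, rc_mul_of_eq (h3.symm.rc_eq hd)] at h1
    exact Or.inl (r1_of_rc hS hE hC hc h1)
  · exact Or.inr h3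
  have hE' : E ≤ C ⊔ E ⊔ D := le_sup_right.trans le_sup_left
  exact absurd (isNilpotent_three hS hC hD h2 h3 hCD hE) (r1_not_isNilpotent h1 (sup_le hE' (rc_le_of_le hE'
    (Subgroup.mul_mem _ (Subgroup.mem_sup_left (Subgroup.mem_sup_left hc)) (Subgroup.mem_sup_right hd)))))

omit hS in
theorem conn_symm (h : Relation.ReflTransGen (FAdj S) A B) : Relation.ReflTransGen (FAdj S) B A := by
  induction h with
  | refl => exact .refl
  | tail _ h ih => exact ih.head ⟨h.2.1, h.1, r1_symm h.2.2⟩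

omit hS in
theorem exists_r1_of_conn (h : Relation.ReflTransGen (FAdj S) A B) (hne : B ≠ A) :
    ∃ E ∈ S, IsRankOnePair A E := by
  rcases h.cases_head with e | ⟨E, hE, -⟩
  · exact absurd e.symm hne
  · exact ⟨E, hE.2.1, hE.2.2⟩

omit hS in
theorem line_inf (hA : A ∈ S) (hB : B ∈ linePartners S A) {a : G} (ha : a ∈ A) (hb : a ∈ B) : a = 1 :=
  (Subgroup.eq_bot_iff_forall _).1 (hB.2.2.2 A ⟨hA, le_sup_left⟩ B ⟨hB.1.1, le_sup_right⟩ hB.1.2.1.symm) a ⟨ha, hb⟩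

theorem conn_of_line (hA : A ∈ S) (hB : B ∈ linePartners S A) (hE : E ∈ S) (hAE : IsRankOnePair A E) (hD : D ∈ S)
    (hBD : IsRankOnePair B D) : Relation.ReflTransGen (FAdj S) A B := by
  obtain ⟨a, ha, ha1⟩ := exists_ne hS hA
  obtain ⟨b, hb, hb1⟩ := exists_ne hS hB.1.1
  have hc := cm_iff.1 hB.1.2.2
  have hl : Cm (A ⊔ B) (A ⊔ B) := ((cm hS hA).sup_right hc).sup_left (hc.symm.sup_right (cm hS hB.1.1))
  obtain ⟨C, hC, hab⟩ := hB.2.2.1 (a * b) (Subgroup.mul_mem_sup ha hb) fun e => ha1 (line_inf hA hB ha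
    (by rw [eq_inv_of_mul_eq_one_left e]; exact B.inv_mem hb))
  have h1 : Relation.ReflTransGen (FAdj S) A E := .single ⟨hA, hE, hAE⟩
  rcases r1_or_r1 hS hA hE hAE hC.1 hB.1.1 (hl.mono hC.2 le_sup_right) hab (B.inv_mem hb) (by simpa using ha)
    (by simpa using ha1) with h2 | h2
  · rcases r1_or_r1 hS hB.1.1 hD hBD hA hC.1 (hl.mono le_sup_left hC.2) (A.inv_mem ha) hab (by simpa using hb)
      (by simpa using hb1) with h3 | h3
    · exact (Relation.ReflTransGen.single ⟨hA, hD, h3⟩).tail ⟨hD, hB.1.1, r1_symm hBD⟩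
    · exact ((h1.tail ⟨hE, hC.1, r1_symm h2⟩).tail ⟨hC.1, hD, h3⟩).tail ⟨hD, hB.1.1, r1_symm hBD⟩
  · exact h1.tail ⟨hE, hB.1.1, r1_symm h2⟩

theorem conn_rc (h : Relation.ReflTransGen (FAdj S) A B) (g : G) :
    Relation.ReflTransGen (FAdj S) (rc A g) (rc B g) :=
  h.lift (fun C => rc C g) fun _ _ h => ⟨rc_mem hS h.1 g, rc_mem hS h.2.1 g, r1_rc h.2.2 g⟩

theorem cc_rc_linePartner (hA : A ∈ S) (hE : E ∈ S) (hAE : IsRankOnePair A E) (h : RootCommutatorCase S A B)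
    {b : G} (hb : b ∈ B) (hb1 : b ≠ 1) : rc A b ∈ linePartners S A :=
  ⟨⟨rc_mem hS hA b, cc_rc_ne hS hA hE hAE h hb hb1, cm_iff.2 ((cm_line hS hA h).mono le_sup_left (cc_rc_le h hb))⟩,
    by rw [cc_sup_rc h hb hb1]; exact cc_partition hS hA hE hAE h⟩

theorem induction_gen {P : G → Prop} (h1 : P 1) (hm : ∀ x y, P x → P y → P (x * y))
    (h : ∀ A ∈ S, ∀ a ∈ A, P a) (g : G) : P g := by
  have hg : g ∈ ⨆ A : S, (A : Subgroup G) := by
    rw [iSup_subtype'' S fun A => A, hS.generates]; exact Subgroup.mem_top g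
  exact Subgroup.iSup_induction _ (C := P) hg (fun A a ha => h A A.2 a ha) h1 hm

theorem conn_rc_self (hA : A ∈ S) (hE : E ∈ S) (hAE : IsRankOnePair A E) (g : G) :
    Relation.ReflTransGen (FAdj S) A (rc A g) := by
  refine induction_gen hS (P := fun g => Relation.ReflTransGen (FAdj S) A (rc A g)) (by rw [rc_one])
    (fun x y hx hy => by rw [← rc_rc]; exact hy.trans (conn_rc hS hx y)) (fun B hB b hb => ?_) g
  by_cases hb1 : b = 1
  · rw [hb1, rc_one]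
  rcases tri hS hA hB with h | h | h
  · rw [h.rc_eq hb]
  · exact .single ⟨hA, rc_mem hS hA b, r1_rc_self (r1_symm h) hb hb1⟩
  · exact conn_of_line hS hA (cc_rc_linePartner hS hA hE hAE h hb hb1) hE hAE (rc_mem hS hE b) (r1_rc hAE b)

omit hS in
theorem exists_rc_of_conn (h : Relation.ReflTransGen (FAdj S) A B) : ∃ g, B = rc A g := by
  induction h with
  | refl => exact ⟨1, (rc_one A).symm⟩
  | tail _ h ih =>
    obtain ⟨g, rfl⟩ := ih
    obtain ⟨x, -, e⟩ := mem_unipot.1 (right_mem_unip h.2.2)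
    exact ⟨g * x, by rw [e, rc_rc]⟩

omit hS in
theorem class_iff : IsConjClassOfSubgroups S ↔ S.Nonempty ∧ ∀ A ∈ S, ∀ B ∈ S, ∃ g, B = rc A g :=
  and_congr_right fun _ => forall₄_congr fun _ _ _ _ =>
    ⟨fun ⟨g, e⟩ => ⟨g⁻¹, e.trans (conjBy_eq_rc _ _)⟩, fun ⟨g, e⟩ => ⟨g⁻¹, e⟩⟩

theorem connected_of_class (hc : IsConjClassOfSubgroups S) (hA : A ∈ S) (hE : E ∈ S) (hAE : IsRankOnePair A E) :
    IsConnectedFamily (FAdj S) S := fun B hB C hC => by
  obtain ⟨g, rfl⟩ := (class_iff.1 hc).2 A hA B hB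
  obtain ⟨g', rfl⟩ := (class_iff.1 hc).2 _ hB C hC
  exact conn_rc_self hS hB (rc_mem hS hE g) (r1_rc hAE g) g'

end RS

end Cfsg.Lib.Class
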