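import Mathlib
import Cfsg.Agent.Class.RootNilp

/-!
Sets of abstract root subgroups (Timmesfeld): lines.
-/

set_option autoImplicit false

namespace Cfsg.Lib.Class

open scoped commutatorElement

variable {G : Type*} [Group G] {S : Set (Subgroup G)} {A B C D E F N P Q : Subgroup G}

section triple

variable (h : IsRankOnePair A B) (h' : IsRankOnePair C B) (hA : Cm A A) (hC : Cm C C) (hAC : Cm A C) (hne : A ≠ C)
include h h' hA hC hAC hne

omit h h' hA hC hne in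
theorem triple_cm {a b c : G} (r : RR A B a b) (r' : RR C B c b) : Cm (rc B (c⁻¹ * a)) B := by
  have := (hAC.rc b).rc c⁻¹
  rwa [r.eq, r'.eq, rc_rc_inv, rc_rc, hAC a r.mem_left _ (C.inv_mem r'.mem_left)] at this

theorem triple_inv {a b : G} (r : RR A B a b) : RR A B a⁻¹ b⁻¹ := by
  obtain ⟨c, r'⟩ := exists_rr_left h' r.mem_right r.ne_right
  obtain ⟨a', s⟩ := exists_rr_left h (B.inv_mem r.mem_right) (inv_ne_one.2 r.ne_right)
  obtain ⟨c', s'⟩ := exists_rr_left h' (B.inv_mem r.mem_right) (inv_ne_one.2 r.ne_right)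
  have ha := r.mem_left
  have hc := r'.mem_left
  have hvA : rc A (c⁻¹ * a) = A := by rw [rc_mul_of_eq (hAC.rc_eq (C.inv_mem hc)), rc_of_mem ha]
  have hvC : rc C (c⁻¹ * a) = C := by rw [rc_mul_of_mem (C.inv_mem hc), hAC.symm.rc_eq ha]
  have e1 : rc A (b * (c⁻¹ * a)⁻¹ * b⁻¹) = C := by
    rw [← rc_rc, ← rc_rc, r.eq, rc_rc B, mul_inv_rev, mul_inv_cancel_left, inv_inv, ← r'.eq, rc_rc_inv]
  have e2 := triple_cm hAC r r' _ (conj_mem_rc (B.inv_mem r.mem_right) _) b r.mem_right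
  have e3 : rc B (a' * a) = rc B (c' * c) := by
    rw [show b * (c⁻¹ * a)⁻¹ * b⁻¹ = b * ((c⁻¹ * a)⁻¹ * b⁻¹ * (c⁻¹ * a)) * (c⁻¹ * a)⁻¹ by group, ← e2, ← rc_rc,
      ← rc_rc, mul_assoc, rc_mul_of_eq (rc_inv_of_eq hvA), ← rc_rc, s.eq, rc_eq_iff_eq_rc_inv, inv_inv, hvC,
      rc_eq_iff_eq_rc_inv, s'.eq, rc_rc] at e1
    rw [← rc_rc B c', ← e1, rc_rc, mul_assoc, mul_assoc, hAC a ha c hc, inv_mul_cancel_left]
  by_cases h1 : a' * a = 1
  · rwa [eq_inv_of_mul_eq_one_left h1] at s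
  · exfalso
    have h2 : B ≠ rc B (a' * a) := fun e => h1 (r1_eq_one h (A.mul_mem s.mem_left ha) e.symm)
    have u1 := unip_eq_of_mem_unip h (right_mem_unip h) (rc_mem_unip (right_mem_unip h)
      (Subgroup.mem_sup_left (A.mul_mem s.mem_left ha))) h2
    have u2 := unip_eq_of_mem_unip h' (right_mem_unip h') (rc_mem_unip (right_mem_unip h')
      (Subgroup.mem_sup_left (C.mul_mem s'.mem_left hc))) (e3 ▸ h2)
    exact hne (eq_of_mem_unip_of_cm h left_mem_unip (by rw [← u1, e3, u2]; exact left_mem_unip) hAC)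

theorem triple_special : IsSpecialRankOnePair A B := by
  refine sp_of_forall h fun a b r => ?_
  obtain ⟨c, r'⟩ := exists_rr_left h' r.mem_right r.ne_right
  have s' := triple_inv h' h hC hA hAC.symm hne.symm r'
  have h1 : IsRankOnePair (rc A b) C := by
    have := r1_rc h' a
    rw [hAC.symm.rc_eq r.mem_left, ← r.eq] at this
    exact r1_symm this
  have h2 : b⁻¹ * a * b * (a⁻¹ * b * a) = 1 := by
    refine r1_eq_one h1 (Subgroup.mul_mem _ (conj_mem_rc r.mem_left b) (r.eq ▸ conj_mem_rc r.mem_right a)) ?_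
    simp only [← rc_rc]
    rw [s'.eq, rc_rc B, (triple_cm hAC r r').rc_eq r.mem_right, rc_rc B, mul_inv_cancel_right, ← s'.eq, rc_inv_rc,
      hAC.symm.rc_eq r.mem_left]
  rw [mul_eq_one_iff_eq_inv.1 h2]
  group

theorem triple_swap : ∃ g, rc A g = C ∧ rc C g = A := by
  obtain ⟨a, ha, ha1⟩ := r1_exists h
  obtain ⟨b, r⟩ := exists_rr_right h ha ha1
  obtain ⟨c, r'⟩ := exists_rr_left h' r.mem_right r.ne_right
  refine ⟨b * a⁻¹ * c⁻¹ * b, ?_, ?_⟩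
  · rw [← rc_rc, ← rc_rc, ← rc_rc, r.eq, rc_rc_inv, ← (triple_inv h' h hC hA hAC.symm hne.symm r').eq, rc_inv_rc]
  · rw [mul_assoc b, hAC _ (A.inv_mem ha) _ (C.inv_mem r'.mem_left), ← rc_rc, ← rc_rc, ← rc_rc, r'.eq, rc_rc_inv,
      ← (triple_inv h h' hA hC hAC hne r).eq, rc_inv_rc]

end triple

theorem linePartner_symm (hA : A ∈ S) (hB : B ∈ linePartners S A) : A ∈ linePartners S B :=
  ⟨⟨hA, hB.1.2.1.symm, by rw [Subgroup.commutator_comm]; exact hB.1.2.2⟩, by rw [sup_comm]; exact hB.2⟩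

theorem cc_conj_eq (h : RootCommutatorCase S A B) {b : G} (hb : b ∈ B) : ⁅rc A b, B⁆ = ⁅A, B⁆ := by
  conv_lhs => rw [← rc_of_mem hb, ← rc_commutator, (cc_cm_right h).rc_eq hb]

namespace RS

variable (hS : IsRootSubgroupSet S)
include hS

theorem line_cm (hA : A ∈ S) (hB : B ∈ linePartners S A) : Cm (A ⊔ B) (A ⊔ B) :=
  ((cm hS hA).sup_right (cm_iff.1 hB.1.2.2)).sup_left ((cm_iff.1 hB.1.2.2).symm.sup_right (cm hS hB.1.1))

section

variable (hN : Cm N N) (hp : IsSubgroupPartition N (membersIn S N)) (hP : P ∈ S) (hPN : P ≤ N) (hQ : Q ∈ S)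
  (hQN : Q ≤ N) (hne : P ≠ Q)
include hN hp hP hPN hQ hQN hne

omit hS hN in
theorem part_inf {a : G} (ha : a ∈ P) (hb : a ∈ Q) : a = 1 :=
  (Subgroup.eq_bot_iff_forall _).1 (hp.2.2 P ⟨hP, hPN⟩ Q ⟨hQ, hQN⟩ hne) a ⟨ha, hb⟩

omit hS hN in
theorem part_mul {p q : G} (hp' : p ∈ P) (hp1 : p ≠ 1) (hq : q ∈ Q) : ∃ T ∈ S, T ≤ N ∧ q * p ∈ T := by
  obtain ⟨T, hT, h⟩ := hp.2.1 (q * p) (N.mul_mem (hQN hq) (hPN hp')) fun e => hp1
    (part_inf hp hP hPN hQ hQN hne hp' (by rw [eq_inv_of_mul_eq_one_right e]; exact Q.inv_mem hq))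
  exact ⟨T, hT.1, hT.2, h⟩

theorem part_eq_one (hE : E ∈ S) (h : IsRankOnePair P E) {q : G} (hq : q ∈ Q) (hc : ∀ x ∈ E, x * q = q * x) :
    q = 1 := by
  obtain ⟨p, hp', hp1⟩ := exists_ne hS hP
  obtain ⟨T, hT, -, e⟩ := part_mul hp hP hPN hQ hQN hne hp' hp1 hq
  exact eq_one_of_mul_mem hS hP hE h (fun x hx => hN x (hPN hx) q (hQN hq)) hc hp' hp1 hT e

theorem part_not_cm (hE : E ∈ S) (h : IsRankOnePair P E) : ¬ Cm Q E := fun hc => by
  obtain ⟨q, hq, hq1⟩ := exists_ne hS hQ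
  exact hq1 (part_eq_one hS hN hp hP hPN hQ hQN hne hE h hq fun x hx => (hc q hq x hx).symm)

theorem part_commutator (hE : E ∈ S) (h : IsRankOnePair P E) (h' : RootCommutatorCase S Q E) :
    ⁅P, ⁅Q, E⁆⁆ = Q := by
  have hPQ := hN.mono hPN hQN
  obtain ⟨p, hp', hp1⟩ := exists_ne hS hP
  obtain ⟨e, r⟩ := exists_rr_right h hp' hp1
  have key : ∀ q ∈ Q, ∀ x ∈ E, x * (q * kc (kc q e) p⁻¹) = q * kc (kc q e) p⁻¹ * x := fun q hq x hx => by
    have hf := kc_mem hq r.mem_right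
    have h1 := ((hPQ.rc e).rc p⁻¹).symm _ (conj_mem_rc (conj_mem_rc hq e) p⁻¹)
    rw [r.eq, rc_rc_inv, ← mul_kc q e, ← mul_assoc, hPQ _ (P.inv_mem (P.inv_mem hp')) q hq, mul_assoc q,
      mul_assoc q, ← mul_kc, ← mul_assoc, ← cc_cm_left h' _ hf q hq, mul_assoc] at h1
    have h2 := h1 x hx
    rw [← mul_assoc x, ← cc_cm_right h' _ hf x hx, mul_assoc, mul_assoc _ x, mul_left_cancel_iff] at h2
    exact h2.symm
  rcases tri hS hP h'.1 with h1 | h1 | h1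
  · refine absurd (fun q hq x hx => ?_) (part_not_cm hS hN hp hP hPN hQ hQN hne hE h)
    have := key q hq x hx
    rw [kc_eq_one.2 (h1.symm _ (kc_mem hq r.mem_right) _ (P.inv_mem hp')), mul_one] at this
    exact this.symm
  · exact absurd (cc_cm_left h').symm (part_not_cm hS hN hp hP hPN hQ hQN hne h'.1 h1)
  refine (cc_eq_of_le hS hP hE h h1 hQ fun q hq => ?_).symm
  have hg : kc (kc q e) p⁻¹ ∈ ⁅P, ⁅Q, E⁆⁆ := by
    rw [Subgroup.commutator_comm]; exact kc_mem (kc_mem hq r.mem_right) (P.inv_mem hp')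
  obtain ⟨f, hf, e1⟩ := cc_surj h1 hp' hp1 (Subgroup.inv_mem _ hg)
  obtain ⟨T, hT, -, e2⟩ := part_mul hp hP hPN hQ hQN hne hp' hp1 hq
  have h2 := r1_rc h f
  rw [(cc_cm_right h').symm.rc_eq hf] at h2
  have h3 := eq_one_of_mul_mem hS (rc_mem hS hP f) hE h2 (z := q * kc (kc q e) p⁻¹) (fun x hx => by
      have e3 := hPQ.rc f
      rw [(cc_cm_left h').symm.rc_eq hf] at e3
      rw [← mul_assoc, e3 x hx q hq, mul_assoc, cm_line hS hP h1 x (cc_rc_le h1 hf hx) _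
        (Subgroup.mem_sup_right hg), mul_assoc]) (key q hq) (conj_mem_rc hp' f) (conj_ne_one hp1) hT (by
      rwa [← mul_kc p f, e1, mul_assoc, ← mul_assoc _ p, cc_cm_left h1 _ hg p hp', mul_inv_cancel_right])
  rw [eq_inv_of_mul_eq_one_left h3]
  exact Subgroup.inv_mem _ hg

end

/-- The structure of a line seen from a root subgroup opposite to one of its points. -/
theorem line_structure (hA : A ∈ S) (hB : B ∈ linePartners S A) (hE : E ∈ S) (h : IsRankOnePair A E) :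
    ∃ Q ∈ S, RootCommutatorCase S Q E ∧ ⁅A, ⁅Q, E⁆⁆ = Q ∧ A ⊔ B = A ⊔ Q := by
  have hN := line_cm hS hA hB
  have hcc : ∀ Q ∈ S, Q ≤ A ⊔ B → A ≠ Q → ¬ IsRankOnePair Q E → RootCommutatorCase S Q E := fun Q hQ hQN hne h1 =>
    ((tri hS hQ hE).resolve_left (part_not_cm hS hN hB.2 hA le_sup_left hQ hQN hne hE h)).resolve_left h1
  by_cases h1 : IsRankOnePair B E
  · obtain ⟨a, ha, ha1⟩ := exists_ne hS hA
    obtain ⟨e, r⟩ := exists_rr_right h ha ha1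
    obtain ⟨b, r'⟩ := exists_rr_left h1 r.mem_right r.ne_right
    obtain ⟨Q, hQ, hQN, hq⟩ := part_mul hB.2 hA le_sup_left hB.1.1 le_sup_right hB.1.2.1.symm (A.inv_mem ha)
      (inv_ne_one.2 ha1) r'.mem_left
    have h2 : ¬ IsRankOnePair Q E := fun h2 => by
      have h3 := triple_cm (cm_iff.1 hB.1.2.2).symm r' r
      rw [cm_iff.1 hB.1.2.2 _ (A.inv_mem ha) _ r'.mem_left] at h3
      refine r1_not_cm (r1_rc_self h2 hq fun e1 => ha1 (line_inf hA hB ha ?_)) h3.symm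
      rw [← mul_inv_eq_one.1 e1]; exact r'.mem_left
    have hne : A ≠ Q := fun e => h2 (e ▸ h)
    have h3 := hcc Q hQ hQN hne h2
    have h4 := part_commutator hS hN hB.2 hA le_sup_left hQ hQN hne hE h h3
    refine ⟨Q, hQ, h3, h4, ?_⟩
    have h5 := cc_of_mem hS hA h3.1 (by rwa [h4])
    obtain ⟨f, hf, e1⟩ := cc_surj h5 ha ha1 (c := b * a⁻¹) (by rwa [h4])
    have h6 : B = rc A f := eq_of_mem hS hB.1.1 hE h1 (rc_mem hS hA f) r'.mem_left (by
      have := conj_mem_rc ha f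
      rwa [← mul_kc, e1, ← cm_iff.1 hB.1.2.2 _ (A.inv_mem ha) _ r'.mem_left, mul_inv_cancel_left] at this)
      r'.ne_left
    rw [h6, cc_sup_rc h5 hf (fun e => hB.1.2.1 (by rw [h6, e, rc_one])), h4]
  · have h3 := hcc B hB.1.1 le_sup_right hB.1.2.1.symm h1
    exact ⟨B, hB.1.1, h3, part_commutator hS hN hB.2 hA le_sup_left hB.1.1 le_sup_right hB.1.2.1.symm hE h h3, rfl⟩

section noiso

variable (hF : ∀ A ∈ S, ∃ E ∈ S, IsRankOnePair A E)
include hF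

theorem exists_commutator_eq (hA : A ∈ S) (hB : B ∈ linePartners S A) : ∃ F ∈ S, ⁅A, F⁆ = B := by
  obtain ⟨E, hE, hAE⟩ := hF A hA
  obtain ⟨Q, hQ, h1, h2, h3⟩ := line_structure hS hA hB hE hAE
  have h4 := cc_of_mem hS hA h1.1 (by rwa [h2])
  rcases cc_members hS hA hE hAE h4 hB.1.1 (by rw [h2, ← h3]; exact le_sup_right) with e | ⟨f, hf, rfl⟩
  · exact ⟨_, h1.1, e.symm⟩
  obtain ⟨E', hE', hQE⟩ := hF Q hQ
  have h5 := cc_linePartner hS hA hE hAE h4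
  rw [h2] at h5
  obtain ⟨Q', hQ', k1, k2, k3⟩ := line_structure hS hQ h5 hE' hQE
  have k4 := cc_of_mem hS hQ k1.1 (by rwa [k2])
  obtain ⟨f', hf', rfl⟩ := (cc_members hS hA hE hAE h4 hQ' (by
    rw [h2, sup_comm, k3]; exact le_sup_right)).resolve_left fun e =>
      cc_ne hS hQ hE' hQE k4 (by rw [k2, e, h2])
  obtain ⟨f'', hf'', e⟩ := (cc_members hS hQ hE' hQE k4 (rc_mem hS hA (f⁻¹ * f')) (by
    rw [k2, ← k3, sup_comm, ← h2]
    exact cc_rc_le h4 (Subgroup.mul_mem _ (Subgroup.inv_mem _ hf) hf'))).resolve_left fun e => by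
      rw [k2, ← rc_rc, rc_inj, ← rc_inj (g := f), rc_inv_rc] at e
      exact hB.1.2.1 e.symm
  refine ⟨_, rc_mem hS k1.1 (f'⁻¹ * f), ?_⟩
  have := congrArg (rc · (f'⁻¹ * f)) ((cc_conj_eq k4 hf'').trans k2)
  beta_reduce at this
  rwa [rc_commutator, ← e, rc_rc A, rc_rc A, show f⁻¹ * f' * (f'⁻¹ * f) = 1 by group, rc_one, mul_inv_cancel_left] at this

theorem line_sup_eq (hA : A ∈ S) (hB : B ∈ linePartners S A) (hP : P ∈ S) (hPN : P ≤ A ⊔ B) (hQ : Q ∈ S)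
    (hQN : Q ≤ A ⊔ B) (hne : P ≠ Q) : P ⊔ Q = A ⊔ B := by
  obtain ⟨F, hF', rfl⟩ := exists_commutator_eq hS hF hA hB
  obtain ⟨E, hE, hAE⟩ := hF A hA
  have h := cc_of_mem hS hA hF' hB.1.1
  rcases cc_members hS hA hE hAE h hP hPN with rfl | ⟨f, hf, rfl⟩ <;>
    rcases cc_members hS hA hE hAE h hQ hQN with rfl | ⟨f', hf', rfl⟩
  · exact absurd rfl hne
  · rw [← cc_rc_sup h hf', rc_sup, (cc_cm_right h).rc_eq hf', sup_comm]
  · rw [← cc_rc_sup h hf, rc_sup, (cc_cm_right h).rc_eq hf]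
  · rw [← cc_rc_sup h hf, ← cc_sup_rc h (F.mul_mem hf' (F.inv_mem hf)) fun e => hne (by
      rw [mul_inv_eq_one.1 e]), rc_sup, rc_rc, inv_mul_cancel_right]

theorem line_partner (hA : A ∈ S) (hB : B ∈ linePartners S A) (hP : P ∈ S) (hPN : P ≤ A ⊔ B) (hQ : Q ∈ S)
    (hQN : Q ≤ A ⊔ B) (hne : P ≠ Q) : Q ∈ linePartners S P :=
  ⟨⟨hQ, hne.symm, cm_iff.2 ((line_cm hS hA hB).mono hPN hQN)⟩, by
    rw [line_sup_eq hS hF hA hB hP hPN hQ hQN hne]; exact hB.2⟩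

theorem line_move (hA : A ∈ S) (hB : B ∈ linePartners S A) (hP : P ∈ S) (hPN : P ≤ A ⊔ B) (hQ : Q ∈ S)
    (hQN : Q ≤ A ⊔ B) (hC : C ∈ S) (hCN : C ≤ A ⊔ B) (hne : P ≠ Q) (hne' : C ≠ Q) :
    ∃ F ∈ S, (∀ f ∈ F, rc (A ⊔ B) f = A ⊔ B) ∧ ∃ f ∈ F, rc P f = C ∧ rc Q f = Q := by
  obtain ⟨F, hF', rfl⟩ := exists_commutator_eq hS hF hP (line_partner hS hF hA hB hP hPN hQ hQN hne)
  obtain ⟨E, hE, hPE⟩ := hF P hP
  have h := cc_of_mem hS hP hF' hQ
  rw [← line_sup_eq hS hF hA hB hP hPN hQ hQN hne] at hCN ⊢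
  obtain ⟨f, hf, e⟩ := (cc_members hS hP hE hPE h hC hCN).resolve_left hne'
  exact ⟨F, hF', fun f hf => cc_rc_sup h hf, f, hf, e.symm, (cc_cm_right h).rc_eq hf⟩

theorem line_third (hA : A ∈ S) (hB : B ∈ linePartners S A) : ∃ C ∈ S, C ≤ A ⊔ B ∧ A ≠ C ∧ B ≠ C := by
  obtain ⟨a, ha, ha1⟩ := exists_ne hS hA
  obtain ⟨b, hb, hb1⟩ := exists_ne hS hB.1.1
  obtain ⟨T, hT, hTN, h⟩ := part_mul hB.2 hA le_sup_left hB.1.1 le_sup_right hB.1.2.1.symm ha ha1 hb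
  refine ⟨T, hT, hTN, ?_, ?_⟩
  · rintro rfl
    exact hb1 (line_inf hA hB ((A.mul_mem_cancel_right ha).1 h) hb)
  · rintro rfl
    exact ha1 (line_inf hA hB ha ((B.mul_mem_cancel_left hb).1 h))

end noiso

/-- A commutator relation in both directions comes from a rank one group. -/
theorem r1_of_cc_cc (hA : A ∈ S) (hB : B ∈ S) (hC : ⁅A, B⁆ ∈ S) (hD : D ∈ S) (hDC : ⁅D, ⁅A, B⁆⁆ = A) :
    IsRankOnePair D B := by
  by_contra h
  have h1 := cc_of_mem hS hA hB hC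
  have h2 := cc_of_mem hS hD hC (by rwa [hDC])
  obtain ⟨b, hb, hb1⟩ := exists_ne hS hB
  have h3 := cm_rc hS hD hB h hb
  have h4 : Cm A D := hDC ▸ cc_cm_left h2
  have h5 : Cm A (rc D b) := by
    obtain ⟨d, hd, hd1⟩ := exists_ne hS hD
    intro a ha x hx
    obtain ⟨c, hc, rfl⟩ := cc_surj h2 hd hd1 (c := a) (by rwa [hDC])
    obtain ⟨a', ha', rfl⟩ := cc_surj' h1 hb hb1 hc
    have e : kc d (kc a' b) = kc d (b⁻¹ * a' * b) := by
      rw [← inv_mul_cancel_left a' (kc a' b), mul_kc, kc_mul_right, kc_eq_one.2 (h4.symm d hd _ (A.inv_mem ha'))]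
      group
    rw [e]
    exact (h3.sup_left (h4.rc b)) _ (commutator_le_sup _ _ (kc_mem hd (conj_mem_rc ha' b))) x hx
  have h6 := h5.rc b⁻¹
  rw [rc_rc_inv] at h6
  have h7 := h4.sup_left h6
  rw [cc_sup_rc h1 (B.inv_mem hb) (inv_ne_one.2 hb1)] at h7
  exact not_cm_of_mem hS h2.1 (h7.mono le_sup_right le_rfl).symm

theorem cc_rc (hA : A ∈ S) (hB : B ∈ S) (h : RootCommutatorCase S A B) (g : G) :
    RootCommutatorCase S (rc A g) (rc B g) :=
  cc_of_mem hS (rc_mem hS hA g) (rc_mem hS hB g) (by rw [← rc_commutator]; exact rc_mem hS h.1 g)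

theorem noiso_of_class (hc : IsConjClassOfSubgroups S) (hA : A ∈ S) (hB : B ∈ S) (h : IsRankOnePair A B) :
    ∀ C ∈ S, ∃ E ∈ S, IsRankOnePair C E := fun C hC => by
  obtain ⟨g, rfl⟩ := (class_iff.1 hc).2 A hA C hC
  exact ⟨_, rc_mem hS hB g, r1_rc h g⟩

section nondeg

variable (hc : IsConjClassOfSubgroups S) (hnd : IsNondegenerateRootSet S)
include hc hnd

theorem nd_noiso : ∀ C ∈ S, ∃ E ∈ S, IsRankOnePair C E := by
  obtain ⟨A, hA, B, hB, h⟩ := hnd.2.1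
  exact noiso_of_class hS hc hA hB h

theorem nd_exists_line (hA : A ∈ S) (hB : B ∈ S) (h : IsRankOnePair A B) :
    ∃ Q ∈ linePartners S A, RootCommutatorCase S Q B ∧ ⁅A, ⁅Q, B⁆⁆ = Q := by
  obtain ⟨C, hC, D, hD, h1⟩ := hnd.2.2
  obtain ⟨g, rfl⟩ := (class_iff.1 hc).2 C hC A hA
  have h2 := cc_rc hS hC hD h1 g
  have h3 := linePartner_symm h2.1 (cc_linePartner hS hA hB h h2)
  obtain ⟨Q, hQ, k1, k2, -⟩ := line_structure hS hA h3 hB h
  have k3 := cc_linePartner hS hA hB h (cc_of_mem hS hA k1.1 (by rwa [k2]))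
  rw [k2] at k3
  exact ⟨Q, linePartner_symm hQ k3, k1, k2⟩

theorem nd_special (hA : A ∈ S) (hB : B ∈ S) (h : IsRankOnePair A B) : IsSpecialRankOnePair A B := by
  obtain ⟨Q, hQ, h1, h2⟩ := nd_exists_line hS hc hnd hA hB h
  have h3 := cc_of_mem hS hA h1.1 (by rw [h2]; exact hQ.1.1)
  obtain ⟨f, hf, hf1⟩ := exists_ne hS h1.1
  have h4 := r1_rc h f
  rw [(cc_cm_right h1).symm.rc_eq hf] at h4
  exact triple_special h h4 (cm hS hA) (cm hS (rc_mem hS hA f))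
    ((cm_line hS hA h3).mono le_sup_left (cc_rc_le h3 hf)) (cc_rc_ne hS hA hB h h3 hf hf1).symm

theorem nd_conn_E (hA : A ∈ S) (hB : B ∈ S) : Relation.ReflTransGen (EAdj S S) A B := by
  obtain ⟨E, hE, hAE⟩ := nd_noiso hS hc hnd A hA
  have := connected_of_class hS hc hA hE hAE A hA B hB
  clear hB
  induction this with
  | refl => exact .refl
  | @tail C D _ h ih =>
    obtain ⟨Q, hQ, h1, -⟩ := nd_exists_line hS hc hnd h.1 h.2.1 h.2.2
    obtain ⟨E', hE', hQE⟩ := nd_noiso hS hc hnd Q hQ.1.1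
    have h2 := cc_linePartner hS h.2.1 h.1 (r1_symm h.2.2) (rootCommutatorCase_symm h1)
    rw [Subgroup.commutator_comm] at h2
    exact ((ih.tail ⟨h.1, hQ.1.1, hQ⟩).tail ⟨hQ.1.1, h1.1, linePartner_symm h1.1
      (cc_linePartner hS hQ.1.1 hE' hQE h1)⟩).tail ⟨h1.1, h.2.1, h2⟩

theorem linePartner_rc (hA : A ∈ S) (hB : B ∈ linePartners S A) (g : G) : rc B g ∈ linePartners S (rc A g) := by
  have hF := nd_noiso hS hc hnd
  obtain ⟨F, hF', rfl⟩ := exists_commutator_eq hS hF hA hB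
  obtain ⟨E, hE, hAE⟩ := hF A hA
  have h := cc_rc hS hA hF' (cc_of_mem hS hA hF' hB.1.1) g
  rw [rc_commutator]
  exact linePartner_symm h.1 (cc_linePartner hS (rc_mem hS hA g) (rc_mem hS hE g) (r1_rc hAE g) h)

theorem nd_generate (hA : A ∈ S) (hB : B ∈ S) (h : IsRankOnePair A B) {H : Subgroup G}
    (hH : ∀ C ∈ linePartners S A, C ≤ H) (hBH : B ≤ H) : H = ⊤ := by
  have hF := nd_noiso hS hc hnd
  have h1 : ∀ C ∈ linePartners S A, ∃ x ∈ H, C = rc A x := fun C hC => by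
    obtain ⟨Q, hQ, k1, k2, k3⟩ := line_structure hS hA hC hB h
    have k4 := cc_of_mem hS hA k1.1 (by rwa [k2])
    have k5 := cc_linePartner hS hA hB h k4
    rw [k2] at k5
    have hFH : ⁅Q, B⁆ ≤ H := (commutator_le_sup _ _).trans (sup_le (hH Q (linePartner_symm hQ k5)) hBH)
    rcases cc_members hS hA hB h k4 hC.1.1 (by rw [k2, ← k3]; exact le_sup_right) with e | ⟨f, hf, e⟩
    · rw [k2] at e
      subst e
      obtain ⟨F, hF', e⟩ := exists_commutator_eq hS hF hQ k5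
      obtain ⟨E, hE, hCE⟩ := hF F hF'
      have l1 := cc_of_mem hS hQ hF' (by rwa [e])
      have l2 := cc_linePartner hS hF' hE hCE (rootCommutatorCase_symm l1)
      rw [Subgroup.commutator_comm, e] at l2
      obtain ⟨f', hf', hf1⟩ := exists_ne hS hF'
      obtain ⟨E', hE', hCE'⟩ := hF C hQ
      obtain ⟨f, hf, e'⟩ := (cc_members hS hA hB h k4 (rc_mem hS hQ f') (by
        rw [k2, sup_comm, ← e]; exact cc_rc_le l1 hf')).resolve_left
        (by rw [k2]; exact cc_rc_ne hS hQ hE' hCE' l1 hf' hf1)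
      exact ⟨f * f'⁻¹, H.mul_mem (hFH hf) (H.inv_mem (hH F l2 hf')), by rw [← rc_rc, ← e', rc_rc_inv]⟩
    · exact ⟨f, hFH hf, e⟩
  have h2 : ∀ C ∈ S, ∃ x ∈ H, C = rc A x := fun C hC => by
    have := nd_conn_E hS hc hnd hA hC
    clear hC
    induction this with
    | refl => exact ⟨1, H.one_mem, (rc_one A).symm⟩
    | tail _ h ih =>
      obtain ⟨x, hx, rfl⟩ := ih
      have h3 := linePartner_rc hS hc hnd h.1 h.2.2 x⁻¹
      rw [rc_rc_inv] at h3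
      obtain ⟨y, hy, e⟩ := h1 _ h3
      exact ⟨y * x, H.mul_mem hy hx, by rw [← rc_rc, ← e, rc_inv_rc]⟩
  have h3 : A ≤ H := by
    obtain ⟨Q, hQ, -, -⟩ := nd_exists_line hS hc hnd hA hB h
    obtain ⟨x, hx, e⟩ := h1 Q hQ
    rw [rc_eq_iff_eq_rc_inv.1 e.symm]
    exact rc_le_of_le (hH Q hQ) (H.inv_mem hx)
  rw [eq_top_iff, ← hS.generates]
  refine iSup₂_le fun C hC => ?_
  obtain ⟨x, hx, rfl⟩ := h2 C hC
  exact rc_le_of_le h3 hx

end nondeg

theorem nondeg_of_not_deg (hd : ¬ IsDegenerateRootSet S) (hA : A ∈ S) (hB : B ∈ S) (h : IsRankOnePair A B) :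
    IsNondegenerateRootSet S := by
  simp only [IsDegenerateRootSet, not_forall, not_not] at hd
  obtain ⟨C, hC, D, hD, h1⟩ := hd
  exact ⟨⟨_, h1.1, C, hC, fun e => not_cm_of_mem hS h1.1 (e ▸ cc_cm_right h1), cm_iff.2 (cc_cm_left h1)⟩,
    ⟨A, hA, B, hB, h⟩, C, hC, D, hD, h1⟩

/-- An element swapping two commuting members whose centralizers or opposite sets are comparable. -/
theorem r1_of_centralizing (hA : A ∈ S) (hC : C ∈ S) (h : ∀ D ∈ S, Cm D A → Cm D C) (hB : B ∈ S)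
    (hCB : IsRankOnePair C B) : IsRankOnePair A B := by
  rcases tri hS hB hA with h1 | h1 | h1
  · exact absurd (h B hB h1) (r1_not_cm (r1_symm hCB))
  · exact r1_symm h1
  · exact absurd (h _ h1.1 (cc_cm_right h1)) (cc_not_cm hS hB hC (r1_symm hCB) h1)

theorem centralizing_eq (hc : IsConjClassOfSubgroups S) (hA : A ∈ S) (hC : C ∈ S) (hne : A ≠ C)
    (hx : ∃ A ∈ S, ∃ B ∈ S, IsRankOnePair A B) (h : ∀ D ∈ S, Cm D A → Cm D C) : ∀ D ∈ S, Cm D C → Cm D A := by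
  obtain ⟨A', hA', B', hB', h'⟩ := hx
  obtain ⟨B, hB, hCB⟩ := noiso_of_class hS hc hA' hB' h' C hC
  obtain ⟨g, e1, e2⟩ := triple_swap (r1_of_centralizing hS hA hC h hB hCB) hCB (cm hS hA) (cm hS hC)
    (h A hA (cm hS hA)) hne
  intro D hD h1
  rw [← rc_inv_rc D g, ← e2, cm_rc_iff]
  refine h _ (rc_mem hS hD _) ?_
  rwa [← cm_rc_iff (g := g), rc_inv_rc, e1]

end RS

end Cfsg.Lib.Class
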