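import Mathlib
import Cfsg.Agent.Class.RootLines

/-!
Classes of abstract transvection groups (Timmesfeld): the rank one groups generated by two members are special.
-/

set_option autoImplicit false

namespace Cfsg.Lib.Class

open scoped commutatorElement

variable {G : Type*} [Group G] {S : Set (Subgroup G)} {A B C D E P Q : Subgroup G}

/-- Two subgroups have the same commuting partners. -/
def RSim (S : Set (Subgroup G)) (A B : Subgroup G) : Prop := commutingPartners S A = commutingPartners S B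

theorem RSim.refl (A : Subgroup G) : RSim S A A := rfl

theorem RSim.symm (h : RSim S A B) : RSim S B A := Eq.symm h

theorem RSim.trans (h : RSim S A B) (h' : RSim S B C) : RSim S A C := Eq.trans h h'

theorem mem_cp : C ∈ commutingPartners S A ↔ C ∈ S ∧ C ≠ A ∧ Cm A C := by
  rw [← cm_iff]; rfl

theorem cp_symm (hA : A ∈ S) (h : C ∈ commutingPartners S A) : A ∈ commutingPartners S C :=
  mem_cp.2 ⟨hA, (mem_cp.1 h).2.1.symm, (mem_cp.1 h).2.2.symm⟩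

theorem cp_of_sim {A' C' : Subgroup G} (hA' : A' ∈ S) (hC' : C' ∈ S) (h : C ∈ commutingPartners S A)
    (h1 : RSim S A A') (h2 : RSim S C C') : C' ∈ commutingPartners S A' :=
  cp_symm hC' (h2 ▸ cp_symm hA' (h1 ▸ h))

namespace RS

variable (hS : IsRootSubgroupSet S)
include hS

theorem cp_rc (h : C ∈ commutingPartners S A) (g : G) : rc C g ∈ commutingPartners S (rc A g) :=
  mem_cp.2 ⟨rc_mem hS h.1 g, fun e => h.2.1 (rc_inj.1 e), (mem_cp.1 h).2.2.rc g⟩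

theorem cp_rc_iff {g : G} : C ∈ commutingPartners S (rc A g) ↔ rc C g⁻¹ ∈ commutingPartners S A :=
  ⟨fun h => by simpa only [rc_rc_inv] using cp_rc hS h g⁻¹, fun h => by simpa only [rc_inv_rc] using cp_rc hS h g⟩

theorem sim_rc (h : RSim S A B) (g : G) : RSim S (rc A g) (rc B g) :=
  Set.ext fun C => by rw [cp_rc_iff hS, cp_rc_iff hS, show commutingPartners S A = _ from h]

theorem sim_unip (h : RSim S A B) (h1 : IsRankOnePair A B) (hC : C ∈ unipotentSubgroups A B) : RSim S A C := by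
  rcases (mem_unip_iff h1).1 hC with rfl | ⟨a, ha, rfl⟩
  · exact .refl _
  · have := sim_rc hS h a
    rwa [rc_of_mem ha] at this

theorem eq_of_sim_rc (h : IsRankOnePair D P) (hn : ¬ RSim S P D) {d d' : G} (hd : d ∈ D) (hd' : d' ∈ D)
    (e : RSim S (rc P d) (rc P d')) : d = d' := by
  by_contra hne
  have h1 := sim_rc hS e d⁻¹
  rw [rc_rc_inv, rc_rc] at h1
  have hm := D.mul_mem hd' (D.inv_mem hd)
  have h2 : d' * d⁻¹ ≠ 1 := fun e => hne (mul_inv_eq_one.1 e).symm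
  refine hn (sim_unip hS h1 (r1_rc_self h hm h2) ?_)
  rw [unip_eq_of_mem_unip h (right_mem_unip h) (rc_mem_unip (right_mem_unip h) (Subgroup.mem_sup_left hm))
    (r1_rc_self h hm h2).ne]
  exact left_mem_unip

variable (hd : IsDegenerateRootSet S)
include hd

theorem dich (hA : A ∈ S) (hB : B ∈ S) (h : ¬ Cm A B) : IsRankOnePair A B :=
  ((tri hS hA hB).resolve_left h).resolve_right (hd A hA B hB)

theorem r1_of_sim (hA : A ∈ S) (hB : B ∈ S) (h : RSim S A B) (hne : A ≠ B) : IsRankOnePair A B :=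
  dich hS hd hA hB fun hc => (h ▸ mem_cp.2 ⟨hB, hne.symm, hc⟩ : B ∈ commutingPartners S B).2.1 rfl

theorem r1_of_sim_of_r1 {A' P' : Subgroup G} (hA : A ∈ S) (hP : P ∈ S) (hA' : A' ∈ S) (hP' : P' ∈ S)
    (h : IsRankOnePair A P) (hn : ¬ RSim S P A) (h1 : RSim S A A') (h2 : RSim S P P') : IsRankOnePair A' P' :=
  dich hS hd hA' hP' fun hc => by
    by_cases e : P' = A'
    · exact hn (h2.trans (e ▸ h1.symm))
    · exact r1_not_cm h (mem_cp.1 (cp_of_sim hA hP (mem_cp.2 ⟨hP', e, hc⟩) h1.symm h2.symm)).2.2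

theorem exists_triple (hA : A ∈ S) (hP : P ∈ S) (h : IsRankOnePair A P) (hn : ¬ RSim S P A) :
    ∃ E ∈ commutingPartners S A, IsRankOnePair E P := by
  by_contra h1
  push Not at h1
  have h2 : commutingPartners S A ⊆ commutingPartners S P := fun E hE => mem_cp.2 ⟨hE.1, fun e =>
    r1_not_cm h (e ▸ (mem_cp.1 hE).2.2), by
      by_contra hc
      exact h1 E hE (r1_symm (dich hS hd hP hE.1 hc))⟩
  obtain ⟨x, -, e1, e2⟩ := exists_rc_pair h (right_mem_unip h) left_mem_unip h.ne.symm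
  refine hn (Set.Subset.antisymm (fun E hE => ?_) h2)
  rw [← e2, cp_rc_iff hS]
  exact h2 ((cp_rc_iff hS).1 (e1 ▸ hE))

end RS

/-- The configuration used to exclude non-special rank one groups. -/
structure TriCfg (S : Set (Subgroup G)) (A P E : Subgroup G) : Prop where
  hS : IsRootSubgroupSet S
  hd : IsDegenerateRootSet S
  hA : A ∈ S
  hP : P ∈ S
  hE : E ∈ commutingPartners S A
  hAP : IsRankOnePair A P
  hEP : IsRankOnePair E P
  hn : ¬ RSim S P A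

/-- `x` and `y` act in the same way on the classes of the conjugates of `P` under `A`. -/
def REqv (S : Set (Subgroup G)) (A P : Subgroup G) (x y : G) : Prop :=
  ∀ a ∈ A, RSim S (rc P (a * x)) (rc P (a * y))

namespace TriCfg

variable (c : TriCfg S A P E)
include c

theorem sim (hD : D ∈ S) (h : RSim S A D) : TriCfg S D P E :=
  ⟨c.hS, c.hd, hD, c.hP, h ▸ c.hE, RS.r1_of_sim_of_r1 c.hS c.hd c.hA c.hP hD c.hP c.hAP c.hn h (.refl _), c.hEP,
    fun h' => c.hn (h'.trans h.symm)⟩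

theorem cmAE : Cm A E := (mem_cp.1 c.hE).2.2

theorem rc_left {a : G} (ha : a ∈ A) : TriCfg S A (rc P a) E := by
  refine ⟨c.hS, c.hd, c.hA, RS.rc_mem c.hS c.hP a, c.hE, ?_, ?_, fun h => c.hn ?_⟩
  · simpa only [rc_of_mem ha] using r1_rc c.hAP a
  · simpa only [c.cmAE.symm.rc_eq ha] using r1_rc c.hEP a
  · simpa only [rc_rc_inv, rc_of_mem (A.inv_mem ha)] using RS.sim_rc c.hS h a⁻¹

theorem special : IsSpecialRankOnePair A P :=
  triple_special c.hAP c.hEP (RS.cm c.hS c.hA) (RS.cm c.hS c.hE.1) c.cmAE c.hE.2.1.symm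

theorem psi {a e p : G} (r : RR A P a p) (r' : RR E P e p) : rc P e ∈ commutingPartners S (rc P a) := by
  rw [← r.eq, ← r'.eq]
  exact RS.cp_rc c.hS c.hE p

theorem psi_unique {a a' e : G} (ha : a ∈ A) (ha' : a' ∈ A) (he : e ∈ E) (he1 : e ≠ 1)
    (h : rc P e ∈ commutingPartners S (rc P a)) (h' : rc P e ∈ commutingPartners S (rc P a')) : a = a' := by
  by_contra hne
  have h1 := (mem_cp.1 h).2.2.sup_left (mem_cp.1 h').2.2
  rw [sup_eq_of_mem_unip c.hAP (rc_mem_unip (right_mem_unip c.hAP) (Subgroup.mem_sup_left ha))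
    (rc_mem_unip (right_mem_unip c.hAP) (Subgroup.mem_sup_left ha')) fun e => hne (r1_rc_inj c.hAP ha ha' e)] at h1
  exact r1_not_cm (r1_rc_self c.hEP he he1) (h1.mono le_sup_right le_rfl)

theorem psi_rc {a a' e : G} (ha : a ∈ A) (ha' : a' ∈ A) (he : e ∈ E)
    (h : rc P e ∈ commutingPartners S (rc P a)) : rc (rc P a') e ∈ commutingPartners S (rc (rc P a') a) := by
  rw [rc_rc, rc_rc, c.cmAE a' ha' e he, RS.cm c.hS c.hA a' ha' a ha, ← rc_rc, ← rc_rc]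
  exact RS.cp_rc c.hS h a'

theorem eqv_of_rr (hD : D ∈ S) (h : RSim S A D) {a d p : G} (r : RR A P a p) (r' : RR D P d p) :
    REqv S A P d a := by
  intro a₁ ha₁
  have c' := c.sim hD h
  by_cases h1 : a₁ = 1
  · rw [h1, one_mul, one_mul, ← r.eq, ← r'.eq]
    exact RS.sim_rc c.hS h.symm p
  obtain ⟨e, s⟩ := exists_rr_left c.hEP r.mem_right r.ne_right
  obtain ⟨p₁, r₁⟩ := exists_rr_right c.hAP ha₁ h1
  obtain ⟨d₁, r₁'⟩ := exists_rr_left c'.hAP r₁.mem_right r₁.ne_right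
  have h2 : RSim S (rc P d₁) (rc P a₁) := by
    rw [← r₁.eq, ← r₁'.eq]
    exact RS.sim_rc c.hS h.symm p₁
  have c₁ := c.rc_left ha₁
  have c₁' := c₁.sim hD h
  have k1 := c.psi_rc r.mem_left ha₁ s.mem_left (c.psi r s)
  have k2 := cp_of_sim (RS.rc_mem c.hS c₁.hP d) (RS.rc_mem c.hS c₁.hP e)
    (c'.psi_rc r'.mem_left r₁'.mem_left s.mem_left (c'.psi r' s)) (RS.sim_rc c.hS h2 d) (RS.sim_rc c.hS h2 e)
  obtain ⟨p', t⟩ := exists_rr_right c₁.hEP s.mem_left s.ne_left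
  obtain ⟨a', t₁⟩ := exists_rr_left c₁.hAP t.mem_right t.ne_right
  obtain ⟨d', t₂⟩ := exists_rr_left c₁'.hAP t.mem_right t.ne_right
  rw [← rc_rc, ← rc_rc, c₁.psi_unique r.mem_left t₁.mem_left s.mem_left s.ne_left k1 (c₁.psi t₁ t),
    c₁'.psi_unique r'.mem_left t₂.mem_left s.mem_left s.ne_left k2 (c₁'.psi t₂ t), ← t₁.eq, ← t₂.eq]
  exact RS.sim_rc c.hS h.symm p'

theorem eqv_mul {x y a a' : G} (ha : a ∈ A) (h : REqv S A P x a) (h' : REqv S A P y a') :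
    REqv S A P (x * y) (a * a') := fun a₁ ha₁ => by
  have h1 := RS.sim_rc c.hS (h a₁ ha₁) y
  rw [rc_rc, rc_rc, mul_assoc] at h1
  rw [← mul_assoc a₁ a]
  exact h1.trans (h' _ (A.mul_mem ha₁ ha))

theorem eqv_inv {x a : G} (ha : a ∈ A) (h : REqv S A P x a) : REqv S A P x⁻¹ a⁻¹ := fun a₁ ha₁ => by
  have h1 := RS.sim_rc c.hS (h _ (A.mul_mem ha₁ (A.inv_mem ha))) x⁻¹
  rw [rc_rc, rc_rc, mul_inv_cancel_right, inv_mul_cancel_right] at h1
  exact h1.symm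

omit c in
theorem eqv_refl (x : G) : REqv S A P x x := fun _ _ => .refl _

theorem rr_of_eqv (hD : D ∈ S) (h : RSim S A D) {a d p : G} (r : RR A P a p) (hd : d ∈ D) (e : REqv S A P d a) :
    RR D P d p := by
  have c' := c.sim hD h
  obtain ⟨d', r'⟩ := exists_rr_left c'.hAP r.mem_right r.ne_right
  have h1 := (e 1 A.one_mem).trans (c.eqv_of_rr hD h r r' 1 A.one_mem).symm
  rw [one_mul, one_mul] at h1
  rwa [RS.eq_of_sim_rc c.hS c'.hAP c'.hn hd r'.mem_left h1]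

theorem sim_rc_left (h : RSim S A D) {a : G} (ha : a ∈ A) : RSim S A (rc D a) := by
  simpa only [rc_of_mem ha] using RS.sim_rc c.hS h a

theorem eqv_conj {x a a' : G} (ha : a ∈ A) (ha' : a' ∈ A) (h : REqv S A P x a) : REqv S A P (a'⁻¹ * x * a') a := by
  have := c.eqv_mul (A.mul_mem (A.inv_mem ha') ha) (c.eqv_mul (A.inv_mem ha') (eqv_refl _) h) (eqv_refl a')
  rwa [(RS.cm c.hS c.hA).conj ha ha'] at this

theorem ident (hD : D ∈ S) (h : RSim S A D) {a d p : G} (r : RR A P a p) (hd : d ∈ D) (e : REqv S A P d a) :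
    rc P (d⁻¹ * a * p⁻¹) = rc P (a⁻¹ * (d⁻¹ * a) * a) := by
  have r' := (c.rr_of_eqv hD h r hd e).inv (c.sim hD h).special
  have r'' := c.rr_of_eqv (RS.rc_mem c.hS hD a) (c.sim_rc_left h r.mem_left) (r.inv c.special)
    (conj_mem_rc (D.inv_mem hd) a) (c.eqv_conj (A.inv_mem r.mem_left) r.mem_left (c.eqv_inv r.mem_left e))
  rw [← rc_rc, ← rc_rc, ← r'.eq, rc_rc D, rc_rc D, ← r.braid c.special, ← rc_rc, ← rc_rc, r''.eq, rc_rc, mul_assoc a⁻¹]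

theorem comm_act {D' : Subgroup G} (hD : D ∈ S) (h : RSim S A D) (hD' : D' ∈ S) (h' : RSim S A D') {m m' p : G}
    (hm : m ∈ D ⊔ A) (hm' : m' ∈ D' ⊔ A) (e : RSim S P (rc P m)) (e' : RSim S P (rc P m')) (hp : p ∈ P)
    (hp1 : p ≠ 1) : rc P (m' * (p * m * p⁻¹)) = rc P (m * p⁻¹ * m') := by
  obtain ⟨a, r⟩ := exists_rr_left c.hAP hp hp1
  obtain ⟨e₀, s⟩ := exists_rr_left c.hEP hp hp1
  have hAE := c.cmAE
  have cE := RS.cm c.hS c.hE.1
  have s' := triple_inv c.hEP c.hAP cE (RS.cm c.hS c.hA) hAE.symm c.hE.2.1 s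
  set z := (a⁻¹ * e₀)⁻¹ * p * (a⁻¹ * e₀)
  have hz : z ∈ rc P (a⁻¹ * e₀) := conj_mem_rc hp _
  have h1 : rc P (a⁻¹ * e₀) ∈ commutingPartners S P := by
    have := RS.cp_rc c.hS (c.psi r s) a⁻¹
    rwa [rc_rc_inv, rc_rc, ← hAE _ (A.inv_mem r.mem_left) _ s.mem_left] at this
  have h2 : ∀ Q ∈ S, RSim S P Q → rc Q z = Q := fun Q hQ hq => (mem_cp.1 (hq ▸ h1)).2.2.rc_eq hz
  have h3 : rc A (p⁻¹ * z) = E := by
    rw [← rc_rc, (r.inv c.special).eq, ← rc_rc _ _ (a⁻¹ * e₀), ← rc_rc _ _ p, rc_rc P, mul_inv_rev a⁻¹, inv_inv,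
      hAE.symm _ (E.inv_mem s.mem_left) _ r.mem_left, inv_mul_cancel_left, ← s'.eq, rc_inv_rc,
      rc_mul_of_eq (hAE.symm.rc_eq (A.inv_mem r.mem_left)), rc_of_mem s.mem_left]
  have h4 : Cm (rc (D ⊔ A) (p⁻¹ * z)) (D' ⊔ A) := by
    have k : ∀ D ∈ S, RSim S A D → ∀ D' ∈ S, RSim S A D' → Cm (rc D (p⁻¹ * z)) D' := fun D hD h D' hD' h' =>
      (mem_cp.1 (cp_of_sim hD' (RS.rc_mem c.hS hD _) c.hE h' (h3 ▸ RS.sim_rc c.hS h _))).2.2.symm
    rw [rc_sup]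
    exact ((k D hD h D' hD' h').sup_right (k D hD h A c.hA (.refl _))).sup_left
      ((k A c.hA (.refl _) D' hD' h').sup_right (k A c.hA (.refl _) A c.hA (.refl _)))
  have h5 : ∀ Q ∈ S, RSim S P Q → rc Q ((p⁻¹ * z)⁻¹ * m * (p⁻¹ * z)) = rc Q (p * m * p⁻¹) := fun Q hQ hq => by
    rw [show (p⁻¹ * z)⁻¹ * m * (p⁻¹ * z) = z⁻¹ * (p * m * p⁻¹ * z) by group, rc_mul_of_eq (rc_inv_of_eq (h2 Q hQ hq)),
      ← rc_rc]
    refine h2 _ (RS.rc_mem c.hS hQ _) ?_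
    have k1 := RS.sim_rc c.hS hq (p * m * p⁻¹)
    have k2 := RS.sim_rc c.hS e p⁻¹
    rw [rc_of_mem (P.inv_mem hp), rc_rc] at k2
    rw [mul_assoc, rc_mul_of_mem hp] at k1
    rw [mul_assoc]
    exact k2.trans k1
  rw [← rc_rc, ← h5 _ (RS.rc_mem c.hS c.hP _) e', rc_rc, ← h4 _ (conj_mem_rc hm _) m' hm', ← rc_rc,
    h5 P c.hP (.refl _), mul_assoc p, rc_mul_of_mem hp, rc_rc]

theorem sim_of_eqv {d a : G} (ha : a ∈ A) (e : REqv S A P d a) : RSim S P (rc P (d⁻¹ * a)) := by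
  have := c.eqv_mul (A.inv_mem ha) (c.eqv_inv ha e) (eqv_refl a) 1 A.one_mem
  rw [inv_mul_cancel, one_mul, one_mul, rc_one] at this
  exact this.symm

theorem ident2 {D' : Subgroup G} (hD : D ∈ S) (h : RSim S A D) (hD' : D' ∈ S) (h' : RSim S A D') {a d d' p : G}
    (r : RR A P a p) (hd : d ∈ D) (e : REqv S A P d a) (hd' : d' ∈ D') (e' : REqv S A P d' a) :
    rc P (d⁻¹ * a * (d'⁻¹ * a) * p⁻¹) = rc P ((a⁻¹ * d' * a)⁻¹ * a * ((a⁻¹ * d * a)⁻¹ * a)) := by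
  have ha := r.mem_left
  rw [show d⁻¹ * a * (d'⁻¹ * a) * p⁻¹ = d⁻¹ * a * p⁻¹ * (p * (d'⁻¹ * a) * p⁻¹) by group, ← rc_rc,
    c.ident hD h r hd e, rc_rc, show a⁻¹ * (d⁻¹ * a) * a = (a⁻¹ * d * a)⁻¹ * a by group,
    c.comm_act hD' h' (RS.rc_mem c.hS hD a) (c.sim_rc_left h ha) (Subgroup.mul_mem_sup (D'.inv_mem hd') ha)
      (Subgroup.mul_mem_sup (Subgroup.inv_mem _ (conj_mem_rc hd a)) ha) (c.sim_of_eqv ha e')
      (c.sim_of_eqv ha (c.eqv_conj ha ha e)) r.mem_right r.ne_right, ← rc_rc, c.ident hD' h' r hd' e', rc_rc]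
  congr 1
  group

theorem pow_three (hB : B ∈ S) (h : RSim S A B) (hne : A ≠ B) {a : G} (ha : a ∈ A) (ha2 : a ^ 2 ≠ 1) :
    a ^ 3 = 1 := by
  obtain ⟨p₁, r₁⟩ := exists_rr_right c.hAP ha fun e => ha2 (by rw [e, one_pow])
  obtain ⟨p₂, r₂⟩ := exists_rr_right c.hAP (A.pow_mem ha 2) ha2
  have e1 := rr_pow (sp_symm c.special) 2 _ _ _ r₁.symm r₂.symm
  obtain ⟨b, r⟩ := exists_rr_left (c.sim hB h).hAP r₁.mem_right r₁.ne_right
  have hb := r.mem_left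
  have q1 := c.eqv_of_rr hB h r₁ r
  have q2 : REqv S A P (b ^ 2) (a ^ 2) := by rw [sq, sq]; exact c.eqv_mul ha q1 q1
  have s1 := c.sim_rc_left h ha
  have s2 := c.sim_rc_left s1 ha
  have m1 := RS.rc_mem c.hS hB a
  have m2 := RS.rc_mem c.hS m1 a
  have k1 := c.ident2 hB h m1 s1 r₁ hb q1 (conj_mem_rc hb a) (c.eqv_conj ha ha q1)
  have k2 := c.ident2 m2 s2 m1 s1 r₁ (conj_mem_rc (conj_mem_rc hb a) a) (c.eqv_conj ha ha (c.eqv_conj ha ha q1))
    (conj_mem_rc hb a) (c.eqv_conj ha ha q1)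
  have k3 := c.ident hB h r₂ (B.pow_mem hb 2) q2
  have k4 : rc (rc P ((b ^ 2)⁻¹ * a ^ 2)) (p₁⁻¹ * p₁⁻¹) = rc (rc P ((b ^ 2)⁻¹ * a ^ 2)) p₂⁻¹ := by
    rw [← rc_rc, rc_rc P _ p₁⁻¹, rc_rc P _ p₂⁻¹, k3,
      show (b ^ 2)⁻¹ * a ^ 2 = b⁻¹ * a * ((a⁻¹ * b * a)⁻¹ * a) by rw [sq, sq]; group, k1, rc_rc, k2]
    congr 1
    simp only [sq, mul_inv_rev, inv_inv, mul_assoc, mul_inv_cancel_left]
  have k5 : P ≠ rc P ((b ^ 2)⁻¹ * a ^ 2) := fun e => by
    have t := (c.rr_of_eqv hB h r₂ (B.pow_mem hb 2) q2).inv (c.sim hB h).special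
    rw [← rc_rc, ← t.eq, eq_comm, rc_eq_iff_eq_rc_inv, ← (r₂.inv c.special).eq, rc_inj] at e
    exact hne e.symm
  have k6 := r1_rc_inj (RS.r1_of_sim c.hS c.hd c.hP (RS.rc_mem c.hS c.hP _) (c.sim_of_eqv (A.pow_mem ha 2) q2) k5)
    (P.mul_mem (P.inv_mem r₁.mem_right) (P.inv_mem r₁.mem_right)) (P.inv_mem r₂.mem_right) k4
  rw [r₁.pow_eq_one_iff c.special, ← e1]
  rw [← mul_inv_rev, inv_inj, ← e1, ← pow_add, pow_succ, mul_eq_right] at k6
  rw [← pow_mul, mul_comm, pow_mul, k6, one_pow]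

theorem inf_commutator (hB : B ∈ S) (h : RSim S A B) {a : G} (ha : a ∈ A) (hc : a ∈ ⁅A ⊔ B, A ⊔ B⁆) : a = 1 := by
  let T : Subgroup G :=
    { carrier := {x | ∃ a ∈ A, REqv S A P x a}
      mul_mem' := fun ⟨a, ha, e⟩ ⟨a', ha', e'⟩ => ⟨_, A.mul_mem ha ha', c.eqv_mul ha e e'⟩
      one_mem' := ⟨1, A.one_mem, eqv_refl 1⟩
      inv_mem' := fun ⟨a, ha, e⟩ => ⟨_, A.inv_mem ha, c.eqv_inv ha e⟩ }
  let N : Subgroup G :=
    { carrier := {x | REqv S A P x 1}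
      mul_mem' := fun e e' => by simpa using c.eqv_mul A.one_mem e e'
      one_mem' := eqv_refl 1
      inv_mem' := fun e => by simpa using c.eqv_inv A.one_mem e }
  have hT : A ⊔ B ≤ T := sup_le (fun a ha => ⟨a, ha, eqv_refl a⟩) fun b hb => by
    by_cases hb1 : b = 1
    · rw [hb1]; exact T.one_mem
    obtain ⟨p, r⟩ := exists_rr_right (c.sim hB h).hAP hb hb1
    obtain ⟨a, r'⟩ := exists_rr_left c.hAP r.mem_right r.ne_right
    exact ⟨a, r'.mem_left, c.eqv_of_rr hB h r' r⟩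
  have hN : ⁅A ⊔ B, A ⊔ B⁆ ≤ N := commutator_le_of_kc fun x hx y hy => by
    obtain ⟨a, ha, e⟩ := hT hx
    obtain ⟨a', ha', e'⟩ := hT hy
    have := c.eqv_mul (A.mul_mem (A.mul_mem (A.inv_mem ha) (A.inv_mem ha')) ha) (c.eqv_mul
      (A.mul_mem (A.inv_mem ha) (A.inv_mem ha')) (c.eqv_mul (A.inv_mem ha) (c.eqv_inv ha e) (c.eqv_inv ha' e')) e) e'
    rwa [show a⁻¹ * a'⁻¹ * a * a' = 1 from kc_eq_one.2 (RS.cm c.hS c.hA a ha a' ha')] at this
  have := hN hc 1 A.one_mem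
  rw [one_mul, one_mul] at this
  exact RS.eq_of_sim_rc c.hS c.hAP c.hn ha A.one_mem this

end TriCfg

theorem RS.exists_triCfg (hS : IsRootSubgroupSet S) (hd : IsDegenerateRootSet S) (hc : IsConjClassOfSubgroups S)
    (hcomm : ∃ A ∈ S, ∃ C ∈ S, A ≠ C ∧ ⁅A, C⁆ = ⊥) (hA : A ∈ S) (hB : B ∈ S) (h : IsRankOnePair A B) :
    ∃ P E, TriCfg S A P E := by
  obtain ⟨A₀, hA₀, C, hC, hne, hc₀⟩ := hcomm
  obtain ⟨g, rfl⟩ := (RS.class_iff.1 hc).2 A₀ hA₀ A hA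
  have h1 := RS.cp_rc hS (⟨hC, hne.symm, hc₀⟩ : C ∈ commutingPartners S A₀) g
  by_cases h2 : ∃ P ∈ S, IsRankOnePair (rc A₀ g) P ∧ ¬ RSim S P (rc A₀ g)
  · obtain ⟨P, hP, h2, h3⟩ := h2
    obtain ⟨E, hE, h4⟩ := RS.exists_triple hS hd hA hP h2 h3
    exact ⟨P, E, hS, hd, hA, hP, hE, h2, h4, h3⟩
  exfalso
  push Not at h2
  have h3 : ∀ D, Relation.ReflTransGen (FAdj S) (rc A₀ g) D → RSim S D (rc A₀ g) := fun D hD => by
    induction hD with
    | refl => exact .refl _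
    | tail _ k ih =>
      by_contra hn
      exact hn (h2 _ k.2.1 (RS.r1_of_sim_of_r1 hS hd k.1 k.2.1 hA k.2.1 k.2.2 (fun e => hn (e.trans ih)) ih (.refl _)))
  have h4 := h3 _ (RS.connected_of_class hS hc hA hB h _ hA _ h1.1)
  exact (h4 ▸ h1 : rc C g ∈ commutingPartners S (rc C g)).2.1 rfl

end Cfsg.Lib.Class
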