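import Cfsg.Agent.Class.TensSL
import Cfsg.Agent.Class.AL.Proper

/-!
# The stabiliser of a tensor decomposition: from matrices to the model `D →ₗ B`
-/

set_option autoImplicit false
set_option linter.unusedSectionVars false

namespace Cfsg.Lib.Class.Tens

open Module Matrix Cfsg.Geo Asch
open scoped MatrixGroups Kronecker

variable {F : Type*} [Field F] {ι : Type} [Fintype ι] [DecidableEq ι] {d k : ℕ}

/-- A vector indexed by pairs as a linear map. -/
noncomputable def homOf (F : Type*) [Field F] (d k : ℕ) :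
    (Fin d × Fin k → F) ≃ₗ[F] ((Fin k → F) →ₗ[F] (Fin d → F)) :=
  (LinearEquiv.curry F F _ _).trans ((Matrix.ofLinearEquiv F).trans Matrix.toLin')

theorem homOf_apply (x : Fin d × Fin k → F) (y : Fin k → F) (i : Fin d) :
    homOf F d k x y i = ∑ j, x (i, j) * y j := rfl

theorem homOf_kronecker (a : Matrix (Fin d) (Fin d) F) (b : Matrix (Fin k) (Fin k) F)
    (x : Fin d × Fin k → F) (y : Fin k → F) :
    homOf F d k ((a ⊗ₖ b) *ᵥ x) y = a *ᵥ homOf F d k x (bᵀ *ᵥ y) := by
  ext i
  simp only [homOf_apply, mulVec, dotProduct, Fintype.sum_prod_type, kronecker_apply,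
    transpose_apply, Finset.sum_mul, Finset.mul_sum]
  rw [Finset.sum_comm]
  refine Finset.sum_congr rfl fun i' _ ↦ ?_
  rw [Finset.sum_comm]
  exact Finset.sum_congr rfl fun _ _ ↦ Finset.sum_congr rfl fun _ _ ↦ by ring

/-- The identification of `ι → F` with a space of linear maps. -/
noncomputable def homEquiv (e : ι ≃ Fin d × Fin k) (P : GL ι F) :
    (ι → F) ≃ₗ[F] ((Fin k → F) →ₗ[F] (Fin d → F)) := (vecEquiv e P).symm.trans (homOf F d k)

theorem homEquiv_vec (e : ι ≃ Fin d × Fin k) (P : GL ι F) (x : Fin d × Fin k → F) :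
    homEquiv e P (vec e P x) = homOf F d k x := by
  rw [homEquiv, LinearEquiv.trans_apply, ← vecEquiv_apply, LinearEquiv.symm_apply_apply]

/-- The corresponding isomorphism of general linear groups. -/
noncomputable def homGL (e : ι ≃ Fin d × Fin k) (P : GL ι F) :
    GL ι F ≃* (((Fin k → F) →ₗ[F] (Fin d → F)) ≃ₗ[F] ((Fin k → F) →ₗ[F] (Fin d → F))) :=
  (glLin ι F).trans (autCongr (homEquiv e P))

theorem homGL_apply (e : ι ≃ Fin d × Fin k) (P g : GL ι F) (v : ι → F) :
    homGL e P g (homEquiv e P v) = homEquiv e P (g.1 *ᵥ v) := by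
  simp [homGL]

/-- The transpose of an invertible matrix. -/
def glT (b : GL (Fin k) F) : GL (Fin k) F :=
  ⟨b.1ᵀ, (b⁻¹).1ᵀ, by rw [← transpose_mul, Units.inv_mul, transpose_one],
    by rw [← transpose_mul, Units.mul_inv, transpose_one]⟩

theorem mem_tensor_iff (e : ι ≃ Fin d × Fin k) (P g : GL ι F) :
    g ∈ tensorProductSubgroup d k e P ↔ homGL e P g ∈ tensG F (Fin k → F) (Fin d → F) := by
  rw [mem_tensorProductSubgroup]
  constructor
  · rintro ⟨a, b, h⟩
    refine ⟨glLin _ F (glT b), glLin _ F a, fun z y ↦ ?_⟩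
    obtain ⟨v, rfl⟩ := (homEquiv e P).surjective z
    obtain ⟨x, rfl⟩ := vec_surjective e P v
    rw [homGL_apply, h, tr_mulVec, homEquiv_vec, homEquiv_vec, homOf_kronecker]
    rfl
  · rintro ⟨s, h, hg⟩
    refine ⟨(glLin _ F).symm h, glT ((glLin _ F).symm s), matrix_ext_mulVec fun v ↦ ?_⟩
    obtain ⟨x, rfl⟩ := vec_surjective e P v
    refine (homEquiv e P).injective (LinearMap.ext fun y ↦ ?_)
    rw [← homGL_apply, hg, tr_mulVec, homEquiv_vec, homEquiv_vec, homOf_kronecker,
      glLin_symm_mulVec]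
    change _ = h (homOf F d k x (((glLin _ F).symm s).1ᵀᵀ *ᵥ y))
    rw [transpose_transpose, glLin_symm_mulVec]

theorem mem_specialLinear_iff_homGL (e : ι ≃ Fin d × Fin k) (P g : GL ι F) :
    g ∈ specialLinear ι F ↔ homGL e P g ∈ SLV F ((Fin k → F) →ₗ[F] (Fin d → F)) := by
  rw [mem_specialLinear_iff_glLin, MonoidHom.mem_ker, MonoidHom.mem_ker, homGL,
    MulEquiv.trans_apply, det_autCongr]

/-- Maximality of the stabiliser of a tensor decomposition in the special linear group. -/
theorem isMaximalIn_SL_tensor [Fintype F] (h1 : 2 ≤ d) (h12 : d < k)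
    (hex : ¬ (d = 2 ∧ Fintype.card F = 2)) (e : ι ≃ Fin d × Fin k) (P : GL ι F) :
    IsMaximalIn (specialLinear ι F) (tensorProductSubgroup d k e P ⊓ specialLinear ι F) := by
  classical
  refine isMaximalIn_of_mulEquiv (homGL e P) (mem_specialLinear_iff_homGL e P)
    (H' := tensG F (Fin k → F) (Fin d → F) ⊓ SLV F _)
    (fun g ↦ and_congr (mem_tensor_iff e P g) (mem_specialLinear_iff_homGL e P g)) ?_
  refine isMaximalIn_of_forall inf_le_right (fun hle ↦ ?_) fun M hM hMK g hg hgH ↦
    (tx_of_le hM).SLV_le (by simpa using h1) (by simpa using h12) ?_ hg fun h ↦ hgH ⟨h, hMK hg⟩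
  · exact AL.not_SL_le_tensor h1 (by omega) e P fun g hg ↦ (mem_tensor_iff e P g).2
      (hle ((mem_specialLinear_iff_homGL e P g).1 hg)).1
  · by_cases h2 : d = 2
    · right
      by_contra! hc
      have h3 : (Finset.univ : Finset F) ⊆ {0, 1} := fun a _ ↦ by
        by_cases ha : a = 0
        · simp [ha]
        · simp [hc a ha]
      have h4 := (Finset.card_le_card h3).trans Finset.card_le_two
      have h5 := Fintype.one_lt_card (α := F)
      rw [Finset.card_univ] at h4
      exact hex ⟨h2, by omega⟩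
    · left
      simp
      omega

end Cfsg.Lib.Class.Tens
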