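import Cfsg.Agent.S5642
import Cfsg.Agent.Class.HSp
import Cfsg.Agent.Class.HermTransv
import Cfsg.Agent.Class.GeoForms
import Cfsg.Agent.Known.QuadNormal
import Cfsg.Agent.Class.DecSL
import Cfsg.Agent.Class.TensBridge
import Cfsg.Agent.Class.FieldExtMat
import Cfsg.Agent.Class.Parabolic

/-!
# Similarity groups of forms as maximal subgroups of the special linear group
-/

set_option autoImplicit false
set_option linter.unusedSectionVars false

namespace Cfsg.Lib.Class.SLT

open Module Matrix Geo Cfsg.Agent.S5642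

variable {F : Type*} [Field F] [Fintype F] {n : ℕ}

theorem symp (hn : 3 ≤ n) {f : (Fin n → F) → (Fin n → F) → F} (hf : IsSymplecticForm f) :
    IsMaximalIn (specialLinear (Fin n) F) (similarityGroup f ⊓ specialLinear (Fin n) F) := by
  have hA := geoSymp_isAlt hf
  have hB := geoSymp_nondegenerate hf
  set B := geoBilin hf.bilinear with hBdef
  have htv : ∀ (a b φ : Fin n → F) (h : B a b = 0), (∀ x, φ ⬝ᵥ x = B x b) →
      glLin _ F (tv a φ) = genT B h := by
    intro a b φ h hφ
    ext1 x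
    rw [glLin_apply, tv_mulVec (by rw [hφ, h]), genT_apply, hφ]
  refine isMaximalIn_of_forall inf_le_right (fun hle => ?_) fun M hM hMK g hg hgH => ?_
  · obtain ⟨a, b, h, hns⟩ := exists_genT_not_sim hB hA (by simpa using hn)
    obtain ⟨φ, hφ⟩ := exists_dot_eq_of_dual (B.flip b)
    have h1 := (hle (tv_mem_ker_det (v := a) (f := φ) (by rw [hφ]; exact h))).1
    rw [← htv a b φ h hφ] at hns
    exact hns h1
  · refine ker_det_le_of_tv M fun a φ hφ => ?_
    let b := (B.flip.toDual hB.flip).symm (dotProductBilin F F φ)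
    have hb : ∀ x, φ ⬝ᵥ x = B x b := fun x =>
      (LinearMap.BilinForm.apply_toDual_symm_apply (B := B.flip) (hB := hB.flip)
        (dotProductBilin F F φ) x).symm
    have h : B a b = 0 := by rw [← hb, hφ]
    have := genT_mem hB hA (M.comap ((glLin (Fin n) F).symm : _ →* GL (Fin n) F)) (fun k hk => by
      refine hM ⟨⟨1, fun u v => ?_⟩, ?_⟩
      · simpa [hBdef] using hk u v
      · change Matrix.GeneralLinearGroup.det _ = 1
        rw [← det_glLin]
        simpa using det_eq_one_of_mem_SpB hB hA hk) (g := glLin _ F g) (by simpa using hg)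
      (fun hs => hgH ⟨hs, hMK hg⟩) h
    rw [← htv a b φ h hb] at this
    simpa using this

theorem exists_hsp_unitary {σ : F ≃+* F} {f : (Fin n → F) → (Fin n → F) → F}
    (hf : IsUnitaryForm σ f) : ∃ B : (Fin n → F) →ₛₗ[(σ : F →+* F)] (Fin n → F) →ₗ[F] F,
      HSp B ∧ Form.Herm B ∧ ∀ g, g ∈ similarityGroup f ↔ glLin _ F g ∈ simG B := by
  have hadd : ∀ u v w, f u (v + w) = f u v + f u w := fun u v w => by
    rw [hf.herm, hf.add_left, map_add, ← hf.herm, ← hf.herm]
  have hsmul : ∀ (c : F) u v, f u (c • v) = σ c * f u v := fun c u v => by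
    rw [hf.herm, hf.smul_left, map_mul, ← hf.herm]
  let B : (Fin n → F) →ₛₗ[(σ : F →+* F)] (Fin n → F) →ₗ[F] F :=
    LinearMap.mk₂'ₛₗ (σ : F →+* F) (RingHom.id F) (fun u v => f v u) (fun a b c => hadd _ _ _)
      (fun c a b => hsmul _ _ _) (fun a b c => hf.add_left _ _ _) (fun c a b => hf.smul_left _ _ _)
  have hσ : (σ : F →+* F) ≠ RingHom.id F := fun h => hf.ne_refl (RingEquiv.ext fun a =>
    RingHom.congr_fun h a)
  have hsym : ∀ u v, (σ : F →+* F) (B u v) = B v u := fun u v => (hf.herm _ _).symm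
  have hsep : ∀ u, (∀ v, B u v = 0) → u = 0 := fun u hu => by
    by_contra h0
    obtain ⟨x, hx⟩ := (hf.nondegenerate u h0).1
    exact hx (hu x)
  have hH := Form.herm_of_isSymm hσ hf.involutive ⟨hsym⟩ hsep
  refine ⟨B, ⟨hf.involutive, hsym, hsep, exists_add_map_eq_one hσ hf.involutive,
    fun W hW => ?_⟩, hH, fun g ↦ exists_congr fun c => ⟨fun hc u v => hc v u, fun hc u v => hc v u⟩⟩
  by_cases hN : Form.NondegOn B W
  · exact hH.exists_isotropic_mem hN (by omega)
  · simp only [Form.NondegOn, not_forall] at hN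
    obtain ⟨u, hu, h1, h0⟩ := hN
    exact ⟨u, hu, h0, h1 u hu⟩

theorem exists_hsp_quad (hodd : Odd (Fintype.card F)) {Q : (Fin n → F) → F}
    (hQ : IsNondegenerateQuadraticForm Q) :
    ∃ B : (Fin n → F) →ₛₗ[RingHom.id F] (Fin n → F) →ₗ[F] F,
      HSp B ∧ ∀ g, g ∈ quadSimilarityGroup Q ↔ glLin _ F g ∈ simG B := by
  have h2 := two_ne_zero_of_odd_card hodd
  let B : (Fin n → F) →ₛₗ[RingHom.id F] (Fin n → F) →ₗ[F] F := QuadraticMap.polarBilin (geoQuad hQ)
  have hB : ∀ u v, B u v = QuadraticMap.polar Q u v := fun u v => rfl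
  have hBB : ∀ u, B u u = 2 * Q u := fun u => polar_self_eq (geoQuad hQ) u
  refine ⟨B, ⟨fun _ => rfl, fun u v => QuadraticMap.polar_comm _ _ _,
    (geoQuad_nondegenerate hQ).1, ⟨2⁻¹, by simp only [RingHom.id_apply]; field_simp; norm_num⟩,
    fun W hW => ?_⟩, fun g ↦ exists_congr fun c => ⟨fun hc u v => ?_, fun hc v => ?_⟩⟩
  · obtain ⟨v, hv0, hv⟩ := Cfsg.Lib.Known.exists_isotropic_of_three_le
      ((geoQuad hQ).comp W.subtype) hW
    exact ⟨v, v.2, by simpa using hv0, by rw [hBB, show Q v = 0 from hv, mul_zero]⟩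
  · simp only [hB, QuadraticMap.polar, glLin_apply, ← Matrix.mulVec_add, hc]
    ring
  · have := hc v v
    rw [hBB, hBB, mul_left_comm] at this
    exact mul_left_cancel₀ h2 this

theorem unitary (hn : 9 ≤ n) {σ : F ≃+* F} {f : (Fin n → F) → (Fin n → F) → F}
    (hf : IsUnitaryForm σ f) :
    IsMaximalIn (specialLinear (Fin n) F) (similarityGroup f ⊓ specialLinear (Fin n) F) := by
  obtain ⟨B, h, -, e⟩ := exists_hsp_unitary hf
  exact isMaximalIn_specialLinear_of e (h.isMaximalIn_simG (by simpa using hn))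

theorem quad (hn : 9 ≤ n) (hodd : Odd (Fintype.card F)) {Q : (Fin n → F) → F}
    (hQ : IsNondegenerateQuadraticForm Q) :
    IsMaximalIn (specialLinear (Fin n) F) (quadSimilarityGroup Q ⊓ specialLinear (Fin n) F) := by
  obtain ⟨B, h, e⟩ := exists_hsp_quad hodd hQ
  exact isMaximalIn_specialLinear_of e (h.isMaximalIn_simG (by simpa using hn))

theorem subfield (hn : 5 ≤ n) (F₀ : Subfield F) (r : ℕ) (P : GL (Fin n) F) (hr : r.Prime)
    (hc : Fintype.card F = Nat.card F₀ ^ r) :
    IsMaximalIn (specialLinear (Fin n) F) (subfieldSubgroup F₀ P ⊓ specialLinear (Fin n) F) :=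
  isMaximalIn_specialLinear_of (mem_subfieldSubgroup_iff_glLin F₀ P)
    (isMaximalIn_ratG (by simpa using hn) hr hc)

end Cfsg.Lib.Class.SLT
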