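import Cfsg.Agent.Class.UConj

/-!
# Unitary spaces with an extension-field structure; the field of order 64 in `SU_6(2)`
-/

set_option autoImplicit false

namespace Cfsg.Lib.Class.TvP

open Matrix Module Cfsg.Geo Cfsg.Lib.Class.Asch Cfsg.Lib.Class.Form
open scoped MatrixGroups

attribute [-simp] hermSesq_apply frobq_apply

section Lift

variable {F K V : Type*} [Field F] [Field K] [Algebra F K] [Finite K] [AddCommGroup V]
  [Module F V] [Module K V] [IsScalarTower F K V] {σ : F →+* F} {s : K →+* K}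
  {B : V →ₛₗ[σ] V →ₗ[F] F}

theorem eq_of_trace {a b : K} (h : ∀ k, Algebra.trace F K (a * k) = Algebra.trace F K (b * k)) :
    a = b := by
  have : Finite F := Finite.of_injective _ (algebraMap F K).injective
  refine sub_eq_zero.1 ((traceForm_nondegenerate F K).1 _ fun k => ?_)
  rw [Algebra.traceForm_apply, sub_mul, map_sub, h, sub_self]

theorem trace_map (hs : ∀ a, s (algebraMap F K a) = algebraMap F K (σ a)) (k : K) :
    Algebra.trace F K (s k) = σ (Algebra.trace F K k) := by
  have : Finite F := Finite.of_injective _ (algebraMap F K).injective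
  let e₁ := RingEquiv.ofBijective σ (Finite.injective_iff_bijective.1 σ.injective)
  let e₂ := RingEquiv.ofBijective s (Finite.injective_iff_bijective.1 s.injective)
  rw [Algebra.trace_eq_of_equiv_equiv e₁ e₂ (RingHom.ext fun a => (hs a).symm) k]
  exact (e₁.apply_symm_apply _).symm

/-- A hermitian form over `F` for which the extension field `K` is closed under adjoints is the
trace of a hermitian form over `K`. -/
theorem exists_lift (h : Herm B) (hs : ∀ a, s (algebraMap F K a) = algebraMap F K (σ a))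
    (hs2 : ∀ k, s (s k) = k) (hadj : ∀ (k : K) u v, B (k • u) v = B u (s k • v)) :
    ∃ C : V →ₛₗ[s] V →ₗ[K] K, Herm C ∧ ∀ u v, B u v = Algebra.trace F K (C u v) := by
  have : Finite F := Finite.of_injective _ (algebraMap F K).injective
  have key : ∀ u v, ∃ c : K, ∀ k, Algebra.trace F K (c * k) = B u (k • v) := fun u v =>
    ⟨((Algebra.traceForm F K).toDual (traceForm_nondegenerate F K)).symm
      (B u ∘ₗ (LinearMap.toSpanSingleton K V v).restrictScalars F), fun k => by
      rw [← Algebra.traceForm_apply, LinearMap.BilinForm.apply_toDual_symm_apply]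
      rfl⟩
  choose c hc using key
  let C : V →ₛₗ[s] V →ₗ[K] K := LinearMap.mk₂'ₛₗ s (RingHom.id K) c
    (fun u u' v => eq_of_trace (F := F) fun k => by
      rw [add_mul, map_add, hc, hc, hc, map_add, LinearMap.add_apply])
    (fun a u v => eq_of_trace (F := F) fun k => by
      rw [hc, smul_eq_mul, mul_comm (s a), mul_assoc, hc, hadj, smul_smul])
    (fun u v v' => eq_of_trace (F := F) fun k => by
      rw [add_mul, map_add, hc, hc, hc, smul_add, map_add])
    (fun a u v => eq_of_trace (F := F) fun k => by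
      rw [hc, RingHom.id_apply, smul_eq_mul, mul_comm a, mul_assoc, hc, smul_smul, mul_comm])
  have hC : ∀ u v, C u v = c u v := fun _ _ => rfl
  refine ⟨C, herm_of_isSymm (fun h0 => h.ne_id (RingHom.ext fun a => (algebraMap F K).injective ?_))
    hs2 ⟨fun u v => eq_of_trace (F := F) fun k => ?_⟩ fun u hu => h.sep u fun v => ?_,
    fun u v => ?_⟩
  · rw [← hs, h0]
    rfl
  · rw [hC, hC, hc, ← h.conj, hadj, ← hc, ← trace_map hs, map_mul s, hs2]
  · rw [← one_smul K v, ← hc, ← hC, hu, zero_mul, map_zero]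
  · rw [hC, ← mul_one (c u v), hc, one_smul]

omit [IsScalarTower F K V] in
theorem lift_semilinear {C : V →ₛₗ[s] V →ₗ[K] K} (hC : ∀ u v, B u v = Algebra.trace F K (C u v))
    {g : V → V} (hg : ∀ u v, B (g u) (g v) = B u v) (τ : K ≃ₐ[F] K)
    (hτ : ∀ (k : K) v, g (k • v) = τ k • g v) (u v : V) : C (g u) (g v) = τ (C u v) :=
  eq_of_trace (F := F) fun k => by
    obtain ⟨k, rfl⟩ := τ.surjective k
    rw [← map_mul, Algebra.trace_eq_of_algEquiv, mul_comm, ← smul_eq_mul, ← map_smul, ← hC, ← hτ,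
      hg, hC, map_smul, smul_eq_mul, mul_comm]

end Lift

variable {F : Type*} [Field F] [Fintype F] {n : ℕ}

theorem sympAlt_of_module (hF : Fintype.card F = 2 ^ 2) (hn : 3 ≤ n) {K : Type*} [Field K]
    [Algebra F K] [Finite K] [Module K (Fin n → F)] [IsScalarTower F K (Fin n → F)]
    (hK : Nat.card K = 64) (h2 : finrank K (Fin n → F) = 2) {s : K →+* K}
    (hs : ∀ a, s (algebraMap F K a) = algebraMap F K (frobq hF a)) (hs2 : ∀ k, s (s k) = k)
    (hadj : ∀ (k : K) u v, hermSesq hF n (k • u) v = hermSesq hF n u (s k • v))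
    {H : Subgroup (GL (Fin n) F)} (hH : IsMaximalIn (SUG n F 2) H)
    (hc : ∀ g ∈ H, ∃ τ : K ≃ₐ[F] K, ∀ (k : K) v, (g : Matrix (Fin n) (Fin n) F) *ᵥ (k • v) =
      τ k • (g : Matrix (Fin n) (Fin n) F) *ᵥ v) : SympAlt n F 2 H := by
  have h := herm_hermSesq hF n
  obtain ⟨C, hC, hBC⟩ := exists_lift h hs hs2 hadj
  have : FiniteDimensional K (Fin n → F) := Module.Finite.of_finite
  have := Fintype.ofFinite K
  have h2F := two_eq_zero_of_card hF
  have h2K : (2 : K) = 0 := by rw [← map_ofNat (algebraMap F K), h2F, map_zero]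
  have hs8 : ∀ k, s k = k ^ 8 := by
    have h64 : Fintype.card K = 8 ^ 2 := by rw [← Nat.card_eq_fintype_card, hK]; rfl
    intro k
    rw [eq_frobq h64 hC.ne_id hs2, frobq_apply]
  obtain ⟨e, he0, he⟩ := hC.exists_isotropic h2.ge
  obtain ⟨f, hf, hef⟩ := hC.exists_hyperbolic he0 he
  have hfe : C f e = 1 := by rw [← hC.conj, hef, map_one]
  let b : Basis (Fin 2) K (Fin n → F) := basisOfLinearIndependentOfCardEqFinrank
    (linearIndependent_pair_of_hyp he (hef ▸ one_ne_zero)) (by simp [h2])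
  have hb : ⇑b = ![e, f] := coe_basisOfLinearIndependentOfCardEqFinrank _ _
  have hdec : ∀ x, ∃ a c : K, x = a • e + c • f := fun x =>
    ⟨b.repr x 0, b.repr x 1, by simpa [hb] using (b.sum_repr x).symm⟩
  have hsm : ∀ (a : F) (k : K), s (a • k) = frobq hF a • s k := fun a k => by
    rw [Algebra.smul_def, Algebra.smul_def, map_mul, hs]
  let κ : (Fin n → F) →ₛₗ[frobq hF] (Fin n → F) :=
    { toFun := fun x => s (C f x) • e + s (C e x) • f
      map_add' := fun x y => by
        simp only [map_add, add_smul]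
        abel
      map_smul' := fun a x => by
        simp only [LinearMap.map_smul_of_tower, hsm, smul_add, smul_assoc] }
  have hκ : ∀ a c : K, κ (a • e + c • f) = s a • e + s c • f := fun a c => by
    simp [κ, he, hf, hef, hfe]
  have hCC : ∀ a c a' c' : K, C (a • e + c • f) (a' • e + c' • f) = s a * c' + s c * a' :=
    fun a c a' c' => by
      simp [map_smulₛₗ, he, hf, hef, hfe]
  have hκc : Conj (hermSesq hF n) κ (-1) := by
    refine ⟨fun x => ?_, fun x y => ?_⟩
    · obtain ⟨a, c, rfl⟩ := hdec x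
      rw [hκ, hκ, hs2, hs2]
    · obtain ⟨a, c, rfl⟩ := hdec x
      obtain ⟨a', c', rfl⟩ := hdec y
      rw [hκ, hκ, hBC, hBC, ← trace_map hs, hCC, hCC, neg_one_eq_one_of_two h2F, one_mul, map_add s,
        map_mul, map_mul]
  have hinj : ∀ {a c a' c' : K}, a • e + c • f = a' • e + c' • f → a = a' ∧ c = c' := fun h => by
    have h1 := congrArg (C f) h
    have h2 := congrArg (C e) h
    simp only [map_add, map_smul, he, hf, hef, hfe, smul_eq_mul, mul_one, mul_zero, add_zero,
      zero_add] at h1 h2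
    exact ⟨h1, h2⟩
  refine sympAlt_of_conj hF hn hκc (fun x hx => ?_) hH fun g hg => ?_
  · obtain ⟨a, c, rfl⟩ := hdec x
    rw [hκ] at hx
    obtain ⟨h1, h2⟩ := hinj hx
    rw [hBC, hCC, h1, h2, show a * c + c * a = 0 by linear_combination a * c * h2K, map_zero]
  obtain ⟨τ, hτ⟩ := hc g hg
  have hgG := hH.1.le hg
  have hsτ : ∀ k, s (τ k) = τ (s k) := fun k => by rw [hs8, hs8, map_pow]
  have hiso := lift_semilinear hBC (isom_of_mem_GU hF hgG.1) τ hτ
  obtain ⟨a, c, hac⟩ := hdec ((g : Matrix (Fin n) (Fin n) F) *ᵥ e)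
  obtain ⟨a', c', hac'⟩ := hdec ((g : Matrix (Fin n) (Fin n) F) *ᵥ f)
  have r1 := hiso e e
  have r2 := hiso f f
  have r3 := hiso e f
  have r4 := hiso f e
  simp only [hac, hac', hCC, he, hf, hef, hfe, map_zero, map_one] at r1 r2 r3 r4
  let φ : (Fin n → F) →ₗ[F] (Fin n → F) :=
    { toFun := fun x => τ (C f x) • e + τ (C e x) • f
      map_add' := fun x y => by
        simp only [map_add, add_smul]
        abel
      map_smul' := fun a x => by
        simp only [LinearMap.map_smul_of_tower, map_smul, smul_add, smul_assoc, RingHom.id_apply] }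
  have hφ : ∀ a c : K, φ (a • e + c • f) = τ a • e + τ c • f := fun a c => by
    simp [φ, he, hf, hef, hfe]
  let g' : (Fin n → F) →ₗ[K] (Fin n → F) := Matrix.toLin b b !![a, a'; c, c']
  have hg' : ∀ x y : K, g' (x • e + y • f) = x • (a • e + c • f) + y • (a' • e + c' • f) := by
    intro x y
    have e0 := Matrix.toLin_self b b !![a, a'; c, c'] 0
    have e1 := Matrix.toLin_self b b !![a, a'; c, c'] 1
    simp only [hb, Fin.sum_univ_two, cons_val_zero, cons_val_one, of_apply, cons_val'] at e0 e1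
    rw [map_add, map_smul, map_smul, e0, e1]
  have hgx : ∀ x y : K, (g : Matrix (Fin n) (Fin n) F) *ᵥ (x • e + y • f) =
      τ x • (a • e + c • f) + τ y • (a' • e + c' • f) := fun x y => by
    rw [mulVec_add, hτ, hτ, hac, hac']
  have hcomp : toLin' (g : Matrix (Fin n) (Fin n) F) = g'.restrictScalars F ∘ₗ φ :=
    LinearMap.ext fun x => by
      obtain ⟨x, y, rfl⟩ := hdec x
      rw [toLin'_apply, hgx, LinearMap.comp_apply, hφ, LinearMap.restrictScalars_apply, hg']
  have hdet := congrArg LinearMap.det hcomp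
  rw [LinearMap.det_toLin', AL.mem_specialLinear'.1 hgG.2, LinearMap.det_comp,
    LinearMap.det_restrictScalars, LinearMap.det_toLin, det_fin_two_of] at hdet
  have hφ1 : LinearMap.det φ = 1 := by
    have h1 := det_pow_of_comm hF hκc (g := LinearMap.toMatrix' φ) fun x => by
      obtain ⟨x, y, rfl⟩ := hdec x
      rw [LinearMap.toMatrix'_mulVec, LinearMap.toMatrix'_mulVec, hφ, hκ, hκ, hφ, hsτ, hsτ]
    rw [LinearMap.det_toMatrix'] at h1
    exact mul_left_cancel₀ (right_ne_zero_of_mul_eq_one hdet.symm) (by linear_combination h1)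
  set Δ := a * c' - a' * c with hΔ
  have d1 : s a * Δ = a := by rw [hΔ]; linear_combination a * r3 - a' * r1
  have d2 : s c * Δ = c := by rw [hΔ]; linear_combination c' * r1 - c * r3 - c * h2K
  have d3 : s a' * Δ = a' := by rw [hΔ]; linear_combination a * r2 - a' * r4 - a' * h2K
  have d4 : s c' * Δ = c' := by rw [hΔ]; linear_combination c' * r4 - c * r2
  have d5 : s Δ * Δ = 1 := by
    have : s Δ = s a * s c' - s a' * s c := by rw [hΔ, map_sub, map_mul, map_mul]
    rw [this]
    linear_combination s c' * d1 - s a' * d2 + r4 - s a' * c * h2K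
  have d6 : Δ ^ 21 = 1 := by
    have := FiniteField.algebraMap_norm_eq_pow (K := F) (x := Δ)
    rw [hφ1, mul_one] at hdet
    rw [← hdet, map_one, hK, Nat.card_eq_fintype_card, hF] at this
    exact this.symm
  have d7 : Δ ^ 3 = 1 := by
    rw [hs8] at d5
    linear_combination d6 - Δ ^ 3 * (Δ ^ 9 + 1) * d5
  obtain ⟨l, hl⟩ : ∃ l : F, algebraMap F K l = Δ ^ 2 := by
    obtain ⟨μ, hμ, hμ'⟩ := exists_normOne_ne_one h.ne_id h.invol
    rw [frobq_apply] at hμ hμ'
    have hμ1 : μ - 1 ≠ 0 := fun h0 => hμ' (by rw [sub_eq_zero.1 h0, one_pow])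
    have hμ2 : μ ^ 2 + μ + 1 = 0 := mul_left_cancel₀ hμ1 (by linear_combination hμ)
    have hμ3 := congrArg (algebraMap F K) hμ2
    simp only [map_add, map_pow, map_one, map_zero] at hμ3
    have : (Δ - 1) * (Δ - algebraMap F K μ) * (Δ - algebraMap F K μ ^ 2) = 0 := by
      linear_combination d7 + (-Δ ^ 2 + algebraMap F K μ * Δ - (algebraMap F K μ - 1)) * hμ3
    rcases mul_eq_zero.1 this with h1 | h1
    · rcases mul_eq_zero.1 h1 with h1 | h1
      · exact ⟨1, by rw [sub_eq_zero.1 h1, map_one, one_pow]⟩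
      · exact ⟨μ ^ 2, by rw [sub_eq_zero.1 h1, map_pow]⟩
    · exact ⟨(μ ^ 2) ^ 2, by rw [sub_eq_zero.1 h1, map_pow, map_pow]⟩
  have key : ∀ {x : K}, s x * Δ = x → s x = Δ ^ 2 * x := fun {x} h => by
    linear_combination Δ ^ 2 * h - s x * d7
  refine ⟨l, fun h0 => ?_, fun x => ?_⟩
  · rw [h0, map_zero] at hl
    rw [pow_succ, ← hl, zero_mul] at d7
    exact zero_ne_one d7
  · obtain ⟨x, y, rfl⟩ := hdec x
    have e1 : ∀ x y : K, x • (a • e + c • f) + y • (a' • e + c' • f) =
        (x * a + y * a') • e + (x * c + y * c') • f := fun x y => by module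
    rw [hκ, hgx, hgx, e1, e1, hκ, ← algebraMap_smul K l, hl]
    simp only [map_add, map_mul, hsτ, key d1, key d2, key d3, key d4]
    module

theorem sympAlt_of_field (hF : Fintype.card F = 2 ^ 2)
    {K : Subalgebra F (Matrix (Fin 6) (Fin 6) F)} (hK : IsFieldSubalgebra 3 K)
    (hK' : IsAdjointClosedFor (hermForm 6 F 2) K) {H : Subgroup (GL (Fin 6) F)}
    (hH : IsMaximalIn (SUG 6 F 2) H) (hle : H ≤ subalgebraNormalizer K) : SympAlt 6 F 2 H := by
  let _ := (isField_of_isFieldSubalgebra hK).toField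
  have hf := isSesq_of_isUnitaryFormPow hF (isUnitaryFormPow_hermForm hF 6)
  have hN := nrm_of_le_subalgebraNormalizer hle
  refine sympAlt_of_module hF (by norm_num) (K := K) ?_ ?_
    (s := adjHom hK hf fun x hx => hf.adj_mem_of_isAdjointClosedFor hK' hx) (fun a => ?_)
    (fun k => Subtype.ext (hf.adj_adj k)) (fun k u v => hf.adj_spec' k v u) hH
    fun g hg => ⟨hN.restrict hg, fun k v => ?_⟩
  · rw [IsFieldSubalgebra.natCard hK, Nat.card_eq_fintype_card, hF]
    rfl
  · have h1 := Module.finrank_mul_finrank F K (Fin 6 → F)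
    rw [hK.finrank_eq, Module.finrank_fin_fun] at h1
    omega
  · refine Subtype.ext ?_
    change adj _ _ (algebraMap F _ a) = algebraMap F _ _
    rw [Algebra.algebraMap_eq_smul_one, Algebra.algebraMap_eq_smul_one, hf.adj_smul_one]
    rfl
  · change _ *ᵥ ((k : Matrix (Fin 6) (Fin 6) F) *ᵥ v) = cj g k *ᵥ _
    rw [mulVec_mulVec, mulVec_mulVec, cj_mul_coe]

end Cfsg.Lib.Class.TvP
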