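import Cfsg.Agent.Class.SubfieldSp

/-!
Maximality of subfield subgroups of prime index in the symplectic group, in all dimensions at
least four.
-/

set_option autoImplicit false
set_option linter.unusedSectionVars false

namespace Cfsg.Lib.Class

open Module Cfsg.Geo
open scoped MatrixGroups

variable {F V : Type*} [Field F] [AddCommGroup V] [Module F V] {ι : Type} [Fintype ι]
  [DecidableEq ι] {B : LinearMap.BilinForm F V} {F₀ : Subfield F} {e : V ≃ₗ[F] (ι → F)}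
  {M : Subgroup (V ≃ₗ[F] V)} {hA : B.IsAlt}

theorem mem_of_sq_mem [Finite F] {c : F} (h1 : c ^ 2 ∈ F₀) (h2 : (c + 1) ^ 2 ∈ F₀) : c ∈ F₀ := by
  by_cases h : (2 : F) = 0
  · have : CharP F 2 := (CharP.charP_iff_prime_eq_zero Nat.prime_two).2 (by simpa using h)
    obtain ⟨d, hd⟩ := isSquare_of_charTwo' (R := F₀) ⟨c ^ 2, h1⟩
    have h3 : c ^ 2 = (d : F) * d := congrArg Subtype.val hd
    have h4 : (c - d) ^ 2 = 0 := by linear_combination h3 + (d * d - c * d) * h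
    rw [sub_eq_zero.1 (pow_eq_zero_iff two_ne_zero |>.1 h4)]
    exact d.2
  · have := div_mem (sub_mem (sub_mem h2 h1) (one_mem _)) (natCast_mem F₀ 2)
    convert this using 1
    push_cast
    field_simp
    ring

/-- An element of the unipotent radical of the stabiliser of `b` lies in `M`. -/
def PQ (hA : B.IsAlt) (M : Subgroup (V ≃ₗ[F] V)) (b x : V) (l : F) : Prop :=
  B x b = 0 ∧ altR hA x b * altTEquiv hA b l ∈ M

theorem altR_commute_altT {x b : V} (h : B x b = 0) (l : F) :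
    altTEquiv hA b l * altR hA x b = altR hA x b * altTEquiv hA b l := by
  rw [eq_comm, ← mul_inv_eq_iff_eq_mul, altTEquiv_conj hA (altR_mem_SpB hA _ _), altR_apply hA h,
    alt_eq_zero_comm hA h, hA.self_eq_zero, zero_smul, zero_smul, add_zero, add_zero]

theorem PQ.add {b x y : V} {l m : F} (hx : PQ hA M b x l) (hy : PQ hA M b y m) :
    PQ hA M b (x + y) (B y x + l + m) := ⟨by simp [hx.1, hy.1], by
  have := M.mul_mem hx.2 hy.2
  rwa [mul_assoc, ← mul_assoc (altTEquiv hA b l), altR_commute_altT hy.1, ← mul_assoc,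
    ← mul_assoc, altR_mul hA hx.1 hy.1, mul_assoc, mul_assoc, altTEquiv_mul, altTEquiv_mul,
    ← add_assoc] at this⟩

theorem PQ.neg {b x : V} {l : F} (hx : PQ hA M b x l) : PQ hA M b (-x) (-l) := ⟨by simp [hx.1], by
  have := M.inv_mem hx.2
  rwa [mul_inv_rev, altTEquiv_inv, ← altR_neg_left hA hx.1,
    altR_commute_altT (by simp [hx.1])] at this⟩

theorem PQ.conj {b x : V} {l : F} (hx : PQ hA M b x l) {k : V ≃ₗ[F] V} (hk : k ∈ M)
    (hk' : k ∈ SpB B) : PQ hA M (k b) (k x) l := ⟨(hk' x b).trans hx.1, by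
  rw [← altR_conj hA hk', ← altTEquiv_conj hA hk', conj_mul]
  exact M.mul_mem (M.mul_mem hk hx.2) (M.inv_mem hk)⟩

theorem PQ.act {b x a : V} {l t t' : F} (hx : PQ hA M b x l) (hab : B a b = 0)
    (hk : altTEquiv hA a t * altTEquiv hA b t' ∈ M) :
    PQ hA M b ((t * B x a) • a) (-(t * B x a ^ 2)) := ⟨by simp [hab], by
  have := altR_mul_altT_sub hx.1 hx.2 hk ((SpB B).mul_mem (altTEquiv_mem_SpB hA _ _)
    (altTEquiv_mem_SpB hA _ _)) (by
      rw [LinearEquiv.mul_apply, altTEquiv_of_orth hA _ (hA.self_eq_zero b),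
        altTEquiv_of_orth hA _ (alt_eq_zero_comm hA hab)])
  rw [LinearEquiv.mul_apply, altTEquiv_of_orth hA _ hx.1, altTEquiv_apply',
    add_sub_cancel_left] at this
  convert this using 3
  rw [map_add, map_smul, LinearMap.add_apply, LinearMap.smul_apply, hA.self_eq_zero, ← hA.neg_eq x a,
    smul_eq_mul]
  ring⟩

/-- All rational vectors orthogonal to `b`, multiplied by `c`, occur in the unipotent radical. -/
def LB (F₀ : Subfield F) (e : V ≃ₗ[F] (ι → F)) (hA : B.IsAlt) (M : Subgroup (V ≃ₗ[F] V)) (b : V)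
    (c : F) : Prop := ∀ a, IsRat F₀ e a → B a b = 0 → ∃ l, PQ hA M b (c • a) l

theorem LB.add {b : V} {c d : F} (hc : LB F₀ e hA M b c) (hd : LB F₀ e hA M b d) :
    LB F₀ e hA M b (c + d) := fun a ha hab => by
  obtain ⟨l, hl⟩ := hc a ha hab
  obtain ⟨m, hm⟩ := hd a ha hab
  exact ⟨_, add_smul c d a ▸ hl.add hm⟩

theorem LB.mul {b : V} {c d : F} (hc : c ∈ F₀) (hd : LB F₀ e hA M b d) :
    LB F₀ e hA M b (c * d) := fun a ha hab => by
  rw [mul_comm, mul_smul]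
  exact hd _ (ha.smul hc) (by simp [hab])

/-- A subgroup of the symplectic group containing the rational transvections. -/
structure RatSp4 (F₀ : Subfield F) (e : V ≃ₗ[F] (ι → F)) (hA : B.IsAlt)
    (M : Subgroup (V ≃ₗ[F] V)) : Prop where
  nondeg : B.Nondegenerate
  rat : ∀ u v, IsRat F₀ e u → IsRat F₀ e v → B u v ∈ F₀
  le : M ≤ SpB B
  tv : ∀ a, IsRat F₀ e a → ∀ c ∈ F₀, altTEquiv hA a c ∈ M
  big : 3 ≤ Fintype.card ι

namespace RatSp4

variable [Fintype F]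

theorem altR_mem (h : RatSp4 F₀ e hA M) {a b : V} (ha : IsRat F₀ e a) (hb : IsRat F₀ e b) :
    altR hA a b ∈ M :=
  M.mul_mem (M.mul_mem (h.tv _ (ha.add hb) _ (one_mem _)) (h.tv _ ha _ (neg_mem (one_mem _))))
    (h.tv _ hb _ (neg_mem (one_mem _)))

theorem exists_perp (h : RatSp4 F₀ e hA M) {b : V} (hb : IsRat F₀ e b) :
    ∃ w, IsRat F₀ e w ∧ B w b = 0 ∧ w ∉ spanL F [b] := by
  obtain ⟨w, h1, h2, h3⟩ := exists_rat_ker (F₀ := F₀) (e := e) (l := [B b])
    (by simp only [List.forall_mem_singleton]; exact fun v hv => h.rat b v hb hv) [b] (by have := h.big; simp; omega)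
  exact ⟨w, h1, alt_eq_zero_comm hA (by simpa using h2), h3⟩

theorem exists_perp_ne (h : RatSp4 F₀ e hA M) {l : List V} (hl : ∀ y ∈ l, IsRat F₀ e y) {x : V}
    (hx : x ∉ spanL F l) : ∃ w, IsRat F₀ e w ∧ (∀ y ∈ l, B y w = 0) ∧ B x w ≠ 0 := by
  obtain ⟨w, h1, h2, h3⟩ := exists_rat_ne (F₀ := F₀) (e := e) (l := l.map B) (by
    simp only [List.forall_mem_map]
    exact fun y hy v hv => h.rat y v (hl y hy) hv) (notMem_spanL_map_of_nondeg h.nondeg hx)
  exact ⟨w, h1, by simpa using h2, h3⟩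

theorem exists_perp_one (h : RatSp4 F₀ e hA M) {b x : V} (hb : IsRat F₀ e b)
    (hxr : IsRat F₀ e x) (hx : x ∉ spanL F [b]) : ∃ w, IsRat F₀ e w ∧ B w b = 0 ∧ B x w = 1 := by
  obtain ⟨w, h1, h2, h3⟩ := h.exists_perp_ne (l := [b]) (by simpa using hb) hx
  exact ⟨(B x w)⁻¹ • w, h1.smul (inv_mem (h.rat _ _ hxr h1)), by
    simp [alt_eq_zero_comm hA (h2 b (by simp))], by simp [h3]⟩

theorem isRat_of_forall (h : RatSp4 F₀ e hA M) {y : V} (hy : ∀ x, IsRat F₀ e x → B y x ∈ F₀) :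
    IsRat F₀ e y := by
  obtain ⟨π, hπ⟩ := LinearMap.exists_leftInverse_of_injective (Algebra.linearMap F₀ F)
    (LinearMap.ker_eq_bot.2 (algebraMap F₀ F).injective)
  have hπ' : ∀ a ∈ F₀, (π a : F) = a := fun a ha =>
    congrArg Subtype.val (LinearMap.congr_fun hπ ⟨a, ha⟩)
  have h0 : IsRat F₀ e (e.symm fun i => (π (e y i) : F)) := fun i => by simp
  have : y - e.symm (fun i => (π (e y i) : F)) = 0 := by
    refine h.nondeg.1 _ fun x => ?_
    rw [apply_eq_sum_ratB e]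
    refine Finset.sum_eq_zero fun j _ => mul_eq_zero_of_right _ ?_
    rw [map_sub, LinearMap.sub_apply, sub_eq_zero, ← hπ' _ (hy _ (isRat_ratB j))]
    have h1 := apply_eq_sum_ratB e (B.flip (ratB e j))
    simp only [LinearMap.BilinForm.flip_apply] at h1
    rw [h1, h1 (e.symm _), map_sum, AddSubmonoidClass.coe_finsetSum]
    refine Finset.sum_congr rfl fun i _ => ?_
    have : e y i * B (ratB e i) (ratB e j) = (⟨B (ratB e i) (ratB e j),
      h.rat _ _ (isRat_ratB i) (isRat_ratB j)⟩ : F₀) • e y i := mul_comm _ _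
    rw [this, map_smul]
    simp [mul_comm]
  exact sub_eq_zero.1 this ▸ h0

theorem tv_mul (h : RatSp4 F₀ e hA M) {a : V} (ha : IsRat F₀ e a) {c : F} (hc : c ∈ F₀) (b : V) :
    altTEquiv hA a c * altTEquiv hA b 0 ∈ M := by
  rw [altTEquiv_zero, mul_one]; exact h.tv a ha c hc

theorem pq_rat (h : RatSp4 F₀ e hA M) {a b : V} (ha : IsRat F₀ e a) (hb : IsRat F₀ e b)
    (hab : B a b = 0) : PQ hA M b a 0 :=
  ⟨hab, by rw [altTEquiv_zero, mul_one]; exact h.altR_mem ha hb⟩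

theorem lb_rat (h : RatSp4 F₀ e hA M) {b : V} (hb : IsRat F₀ e b) {c : F} (hc : c ∈ F₀) :
    LB F₀ e hA M b c := fun _ ha hab => ⟨0, h.pq_rat (ha.smul hc) hb (by simp [hab])⟩

theorem lb_of_pq (h : RatSp4 F₀ e hA M) {b x a : V} {l : F} (hb : IsRat F₀ e b)
    (hx : PQ hA M b x l) (ha : IsRat F₀ e a) (hab : B a b = 0) : LB F₀ e hA M b (B x a) := by
  by_cases hs : a ∈ spanL F [b]
  · obtain ⟨t, rfl⟩ := mem_spanL_singleton.1 hs
    rw [map_smul, hx.1, smul_zero]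
    exact h.lb_rat hb (zero_mem _)
  have h1 := hx.act hab (h.tv_mul ha (one_mem _) b)
  have key : ∀ y, IsRat F₀ e y → B y b = 0 → B a y ≠ 0 → ∃ l, PQ hA M b (B x a • y) l :=
    fun y hy hyb hay => by
      have := h1.act hyb (h.tv_mul hy (inv_mem (h.rat _ _ ha hy)) b)
      rw [map_smul, LinearMap.smul_apply, smul_eq_mul, one_mul, mul_comm (B x a),
        inv_mul_cancel_left₀ hay] at this
      exact ⟨_, this⟩
  intro y hy hyb
  by_cases hay : B a y = 0
  · obtain ⟨w, hw, hwb, haw⟩ := h.exists_perp_one hb ha hs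
    obtain ⟨l1, k1⟩ := key (y + w) (hy.add hw) (by simp [hyb, hwb]) (by simp [hay, haw])
    obtain ⟨l2, k2⟩ := key w hw hwb (by simp [haw])
    exact ⟨_, by simpa using k1.add k2.neg⟩
  · exact key y hy hyb hay

theorem diag_mem (h : RatSp4 F₀ e hA M) {a b : V} {c : F} (ha : IsRat F₀ e a) (hb : IsRat F₀ e b)
    (hab : B a b = 0) (hs : a ∉ spanL F [b]) (hb0 : b ≠ 0) (hc : LB F₀ e hA M b c) :
    altTEquiv hA a (-c ^ 2) * altTEquiv hA b (-c ^ 2) ∈ M := by
  have hba := alt_eq_zero_comm hA hab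
  obtain ⟨a', ha', h1, h2⟩ := h.exists_perp_one hb ha hs
  obtain ⟨b', hb', h3, h4⟩ := h.exists_perp_one ha hb (notMem_spanL_singleton_symm hs hb0)
  have h1' := alt_eq_zero_comm hA h1
  have h3' := alt_eq_zero_comm hA h3
  obtain ⟨l, hl⟩ := hc (-a') ha'.neg (by simp [h1])
  have k1 := hl.act hab (h.tv_mul ha (one_mem _) b)
  rw [map_smul, LinearMap.smul_apply, map_neg, LinearMap.neg_apply, hA.neg_eq, h2, smul_eq_mul,
    mul_one, one_mul, one_mul] at k1
  have e1 := h.altR_mem ha.neg hb'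
  have e2 := h.altR_mem hb ha'
  have k2 := ((k1.conj e1 (h.le e1)).conj e2 (h.le e2)).conj e1 (h.le e1)
  have a1 : B (-a) b' = 0 := by simp [h3']
  have a2 : altR hA (-a) b' a = a := by simp [altR_apply hA a1, hA.self_eq_zero, h3']
  have a3 : altR hA (-a) b' b = b - a := by simp [altR_apply hA a1, hba, h4, sub_eq_add_neg]
  have a4 : altR hA b a' a = a + b := by simp [altR_apply hA h1', hab, h2]
  have a5 : altR hA b a' b = b := by simp [altR_apply hA h1', hA.self_eq_zero, h1']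
  simp only [map_smul, map_sub, map_add, map_neg, a2, a3, a4, a5, add_sub_cancel,
    sub_add_cancel_right] at k2
  have k3 := M.mul_mem k2.2 k1.2
  convert k3 using 1
  ext z
  simp only [LinearEquiv.mul_apply, altTEquiv_apply', altR_apply hA k1.1, altR_apply hA k2.1,
    map_add, map_smul, map_neg, LinearMap.add_apply, LinearMap.smul_apply, LinearMap.neg_apply,
    hab, hba, hA.self_eq_zero, smul_eq_mul]
  module

theorem lb_all (h : RatSp4 F₀ e hA M) {r : ℕ} (hr : r.Prime)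
    (hcard : Fintype.card F = Nat.card F₀ ^ r) {b : V} (hb : IsRat F₀ e b) (hb0 : b ≠ 0) {c : F}
    (hc : LB F₀ e hA M b c) (hcF : c ∉ F₀) (d : F) : LB F₀ e hA M b d := by
  obtain ⟨a, ha, hab, hs⟩ := h.exists_perp hb
  obtain ⟨a', ha', h1, h2⟩ := h.exists_perp_one hb ha hs
  have key : ∀ c, LB F₀ e hA M b c → ∀ μ, LB F₀ e hA M b μ → LB F₀ e hA M b (c ^ 2 * μ) := by
    intro c hc μ hμ
    obtain ⟨l, hl⟩ := hμ a' ha' h1
    have := h.lb_of_pq hb (hl.act hab (h.diag_mem ha hb hab hs hb0 hc)) ha' h1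
    simpa [h2, ← hA.neg_eq a a'] using this
  obtain ⟨t, ht, htF⟩ : ∃ t, (∀ μ, LB F₀ e hA M b μ → LB F₀ e hA M b (t * μ)) ∧ t ∉ F₀ := by
    by_contra! hcon
    exact hcF (mem_of_sq_mem (hcon _ (key c hc))
      (hcon _ (key _ (hc.add (h.lb_rat hb (one_mem _))))))
  simpa using forall_of_prime_index hr hcard
    (p := fun t => ∀ μ, LB F₀ e hA M b μ → LB F₀ e hA M b (t * μ))
    (fun c hc μ hμ => hμ.mul hc) (fun c d hc hd μ hμ => add_mul c d μ ▸ (hc μ hμ).add (hd μ hμ))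
    (fun c d hc hd μ hμ => mul_assoc c d μ ▸ hc _ (hd μ hμ)) ht htF d 1 (h.lb_rat hb (one_mem _))

theorem mem_TSet_of_lb (h : RatSp4 F₀ e hA M) {b : V} (hb : IsRat F₀ e b) (hb0 : b ≠ 0) {c : F}
    (hcF : c ∉ F₀) (hc : ∀ d, LB F₀ e hA M b d) : b ∈ TSet hA M := by
  obtain ⟨a, ha, hab, hs⟩ := h.exists_perp hb
  obtain ⟨a', ha', h1, h2⟩ := h.exists_perp_one hb ha hs
  have key : ∀ t μ : F, PQ hA M b ((t * μ) • a) (-(t * μ ^ 2)) := fun t μ => by
    obtain ⟨l, hl⟩ := hc μ (-a') ha'.neg (by simp [h1])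
    obtain ⟨x, y, rfl⟩ := exists_sq_add_sq t
    have k := fun s => hl.act hab (h.diag_mem ha hb hab hs hb0 (hc s))
    have := (k y).add (k x).neg
    simp only [map_smul, LinearMap.smul_apply, map_neg, LinearMap.neg_apply, hA.neg_eq, h2,
      smul_eq_mul, mul_one, hA.self_eq_zero] at this
    convert this using 1
    · module
    · ring
  intro d
  have h3 : c ^ 2 - c ≠ 0 := fun h0 => hcF (by
    rcases mul_eq_zero.1 (show c * (c - 1) = 0 by linear_combination h0) with h | h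
    · exact h ▸ zero_mem _
    · exact sub_eq_zero.1 h ▸ one_mem _)
  obtain ⟨d, rfl⟩ : ∃ x, d = x * (c ^ 2 - c) := ⟨d / (c ^ 2 - c), (div_mul_cancel₀ _ h3).symm⟩
  have := ((key (d * c) 1).add (key d c).neg).2
  rw [mul_one, add_neg_cancel, altR_zero, one_mul] at this
  convert this using 2
  simp only [map_smul, LinearMap.smul_apply, map_neg, LinearMap.neg_apply, hA.self_eq_zero,
    smul_zero]
  ring

theorem exists_move (h : RatSp4 F₀ e hA M) {a b : V} (ha : IsRat F₀ e a) (hb : IsRat F₀ e b)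
    (ha0 : a ≠ 0) (hb0 : b ≠ 0) :
    ∃ k ∈ M, k b = a ∧ ∀ v, IsRat F₀ e v → IsRat F₀ e (k.symm v) := by
  have key : ∀ a b, IsRat F₀ e a → IsRat F₀ e b → B b a ≠ 0 →
      ∃ k ∈ M, k b = a ∧ ∀ v, IsRat F₀ e v → IsRat F₀ e (k.symm v) := fun a b ha hb hba => by
    have h1 := inv_mem (h.rat _ _ hb ha)
    refine ⟨_, h.tv _ (ha.sub hb) _ h1, by simp [altTEquiv_apply', hA.self_eq_zero, hba],
      fun v hv => ?_⟩
    rw [← LinearEquiv.coe_inv, altTEquiv_inv]
    exact hv.add ((ha.sub hb).smul (mul_mem (neg_mem h1) (h.rat _ _ hv (ha.sub hb))))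
  obtain ⟨p, hp, h1, h2⟩ : ∃ p, IsRat F₀ e p ∧ B a p ≠ 0 ∧ B b p ≠ 0 := by
    obtain ⟨p, hp, -, h1⟩ := h.exists_perp_ne (l := []) (by simp) (x := a) (by simpa [spanL])
    obtain ⟨p', hp', -, h2⟩ := h.exists_perp_ne (l := []) (by simp) (x := b) (by simpa [spanL])
    by_cases h3 : B b p = 0
    · by_cases h4 : B a p' = 0
      · exact ⟨p + p', hp.add hp', by simpa [h4], by simpa [h3]⟩
      · exact ⟨p', hp', h4, h2⟩
    · exact ⟨p, hp, h1, h3⟩
  obtain ⟨k, hk, k1, k2⟩ := key p b hp hb h2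
  obtain ⟨k', hk', k3, k4⟩ := key a p ha hp (alt_ne_zero_comm hA h1)
  exact ⟨k' * k, M.mul_mem hk' hk, by rw [LinearEquiv.mul_apply, k1, k3],
    fun v hv => k2 _ (k4 v hv)⟩

theorem mem_of_lb (h : RatSp4 F₀ e hA M) {r : ℕ} (hr : r.Prime)
    (hcard : Fintype.card F = Nat.card F₀ ^ r) (hne : ¬ SpB B ≤ M) {b : V} (hb : IsRat F₀ e b)
    (hb0 : b ≠ 0) {c : F} (hc : LB F₀ e hA M b c) : c ∈ F₀ := by
  have : FiniteDimensional F V := e.symm.finiteDimensional
  by_contra hcF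
  have h0 := h.lb_all hr hcard hb hb0 hc hcF
  have h0' : ∀ p, IsRat F₀ e p → p ≠ 0 → ∀ d, LB F₀ e hA M p d := fun p hp hp0 d a ha hap => by
    obtain ⟨k, hk, rfl, k2⟩ := h.exists_move hp hb hp0 hb0
    obtain ⟨l, hl⟩ := h0 d _ (k2 a ha) (by rw [SpB_symm_left (h.le hk), hap])
    exact ⟨l, by simpa using hl.conj hk (h.le hk)⟩
  have h1 : ∀ a, IsRat F₀ e a → a ∈ TSet hA M := fun a ha => by
    by_cases ha0 : a = 0
    · exact ha0 ▸ zero_mem_TSet hA M
    · exact h.mem_TSet_of_lb ha ha0 hcF (h0' a ha ha0)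
  have h2 : ∀ x ∈ TSet hA M, ∀ a, IsRat F₀ e a → ∀ c : F, x + c • a ∈ TSet hA M := by
    intro x hx a ha c
    by_cases hxa : x ∈ spanL F [a]
    · obtain ⟨t, rfl⟩ := mem_spanL_singleton.1 hxa
      rw [← add_smul]
      exact smul_mem_TSet (h1 a ha) _
    by_cases hB : B x a = 0
    swap
    · exact add_smul_mem_TSet hx (h1 a ha) hB c
    obtain ⟨p, hp, hap, hxp⟩ := h.exists_perp_ne (l := [a]) (by simpa using ha) hxa
    have hap := hap a (by simp)
    obtain ⟨l, hl⟩ := h0' p hp (by rintro rfl; simp at hxp) (c / B x p) a ha hap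
    have h3 := M.mul_mem hl.2 (h1 p hp (-l))
    rw [mul_assoc, altTEquiv_mul, add_neg_cancel, altTEquiv_zero, mul_one] at h3
    have := apply_mem_TSet h3 (altR_mem_SpB hA _ _) hx
    rwa [altR_apply hA (by simp [hap]), map_smul, hB, smul_zero, zero_smul, add_zero, smul_smul,
      mul_div_cancel₀ _ hxp] at this
  refine hne (SpB_le_of_TSet h.nondeg hA fun v => ?_)
  rw [eq_sum_ratB e v]
  induction (Finset.univ : Finset ι) using Finset.induction_on with
  | empty => simpa using zero_mem_TSet hA M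
  | insert i s hi ih =>
    rw [Finset.sum_insert hi, add_comm]
    exact h2 _ ih _ (isRat_ratB i) _

theorem easy_mem (h : RatSp4 F₀ e hA M) {r : ℕ} (hr : r.Prime)
    (hcard : Fintype.card F = Nat.card F₀ ^ r) (hne : ¬ SpB B ≤ M) {u b b₁ b₂ : V} {c : F}
    (hu : altTEquiv hA u c ∈ M) (hb : IsRat F₀ e b) (hb0 : b ≠ 0) (hub : B u b = 0)
    (h1 : IsRat F₀ e b₁) (h1b : B b₁ b = 0) (h2 : IsRat F₀ e b₂) (h2b : B b₂ b = 0) :
    c * B u b₁ * B u b₂ ∈ F₀ := by
  have := h.mem_of_lb hr hcard hne hb hb0 (h.lb_of_pq hb ((h.pq_rat h1 hb h1b).act (t := c) (t' := 0) hub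
    (by rwa [altTEquiv_zero, mul_one])) h2 h2b)
  simpa [← hA.neg_eq u b₁] using this

theorem easy (h : RatSp4 F₀ e hA M) {r : ℕ} (hr : r.Prime)
    (hcard : Fintype.card F = Nat.card F₀ ^ r) (hne : ¬ SpB B ≤ M) {u b : V} {c : F}
    (hu : altTEquiv hA u c ∈ M) (hc : c ≠ 0) (hb : IsRat F₀ e b) (hb0 : b ≠ 0) (hub : B u b = 0) :
    ∃ μ : F, μ ≠ 0 ∧ IsRat F₀ e (μ • u) := by
  by_cases hs : u ∈ spanL F [b]
  · obtain ⟨t, rfl⟩ := mem_spanL_singleton.1 hs
    by_cases ht : t = 0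
    · exact ⟨1, one_ne_zero, by simpa [ht] using IsRat.zero⟩
    · exact ⟨t⁻¹, inv_ne_zero ht, by simpa [ht] using hb⟩
  obtain ⟨b₁, h1, h1b, hu1⟩ := h.exists_perp_ne (l := [b]) (by simpa using hb) hs
  have h1b := alt_eq_zero_comm hA (h1b b (by simp))
  have hμ := mul_ne_zero hc hu1
  refine ⟨_, hμ, ?_⟩
  obtain ⟨b', hb', -, hbb⟩ := h.exists_perp_one IsRat.zero hb (by simpa [spanL])
  set μ := c * B u b₁ with hμe
  set κ := μ * B u b' with hκ
  have ha : IsRat F₀ e (μ • u - κ • b) := h.isRat_of_forall fun x hx => by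
    have := h.easy_mem hr hcard hne hu hb hb0 hub h1 h1b (hx.sub (hb'.smul (h.rat _ _ hb hx)))
      (alt_eq_zero_comm hA (by simp [hbb]))
    convert this using 1
    simp only [map_sub, map_smul, LinearMap.sub_apply, LinearMap.smul_apply, smul_eq_mul]
    ring
  have key : ∀ s ∈ F₀, (κ + s) ^ 2 ∈ F₀ := fun s hs' => by
    have h3 := ha.sub (hb.smul hs')
    have h4 : b ∉ spanL F [μ • u - κ • b - s • b] := notMem_spanL_singleton_symm (fun h0 => by
      obtain ⟨t, ht⟩ := mem_spanL_singleton.1 h0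
      exact hs (mem_spanL_singleton.2 ⟨μ⁻¹ * (t + κ + s), by
        rw [mul_smul, add_smul, add_smul, ht, inv_smul_eq_iff₀ hμ]; abel⟩)) hb0
    obtain ⟨w, hw, h5, h6⟩ := h.exists_perp_one h3 hb h4
    have h7 := h.easy_mem hr hcard hne hu h3 (fun h0 => h4 (by
      rw [h0] at h5 h4 ⊢
      exact absurd (mem_spanL_singleton.2 ⟨μ⁻¹ * (κ + s), by
        rw [mul_smul, inv_smul_eq_iff₀ hμ, add_smul]
        exact (sub_eq_zero.1 (by rw [← h0]; abel)).symm⟩) hs))
      (by simp [hub, hA.self_eq_zero]) hw h5 hw h5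
    have h8 := h.easy_mem hr hcard hne hu hb hb0 hub h1 h1b h1 h1b
    have h9 : μ * B u w = κ + s := by
      have := alt_eq_zero_comm hA h5
      simp only [map_sub, map_smul, LinearMap.sub_apply, LinearMap.smul_apply, smul_eq_mul,
        h6] at this
      linear_combination this
    convert mul_mem h7 h8 using 1
    rw [← h9, hμe]
    ring
  have hκF : κ ∈ F₀ := mem_of_sq_mem (by simpa using key 0 (zero_mem _)) (key 1 (one_mem _))
  simpa using ha.add (hb.smul hκF)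

theorem exists_smul_isRat (h : RatSp4 F₀ e hA M) {r : ℕ} (hr : r.Prime)
    (hcard : Fintype.card F = Nat.card F₀ ^ r) (hne : ¬ SpB B ≤ M) {u : V} {c : F}
    (hu : altTEquiv hA u c ∈ M) (hc : c ≠ 0) : ∃ μ : F, μ ≠ 0 ∧ IsRat F₀ e (μ • u) := by
  by_cases hard : ∃ b, IsRat F₀ e b ∧ b ≠ 0 ∧ B u b = 0
  · obtain ⟨b, hb, hb0, hub⟩ := hard
    exact h.easy hr hcard hne hu hc hb hb0 hub
  exfalso
  push Not at hard
  obtain ⟨a₁, h1, -, s1⟩ := h.exists_perp IsRat.zero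
  obtain ⟨a₂, h2, o2, s2⟩ := h.exists_perp h1
  obtain ⟨a₃, h3, -, s3⟩ := exists_rat_ker (F₀ := F₀) (e := e) (l := []) (by simp) [a₁, a₂]
    (by have := h.big; simp; omega)
  have n1 := ne_zero_of_notMem_spanL s1
  have u1 := hard _ h1 n1
  have u2 := hard _ h2 (ne_zero_of_notMem_spanL s2)
  have u12 : ∀ t ∈ F₀, B u a₂ ≠ t * B u a₁ := fun t ht h' =>
    hard _ (h2.sub (h1.smul ht)) (fun h0 => s2 (mem_spanL_singleton.2 ⟨t, (sub_eq_zero.1 h0).symm⟩))
      (by simp [h'])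
  set θ := B u a₂ / B u a₁ with hθ
  have hθF : θ ∉ F₀ := fun h' => u12 _ h' (by rw [hθ]; field_simp)
  have hq : ∀ s ∈ F₀, ∀ p ∈ F₀, ∀ w ∈ F₀, s * θ ^ 2 + p * θ = w → s = 0 ∧ p = 0 := by
    intro s hs p hp w hw h0
    have hs0 : s = 0 := by
      by_contra hs0
      obtain ⟨x, hx, y, hy, h4⟩ := forall_of_prime_index hr hcard
        (p := fun c => ∃ x ∈ F₀, ∃ y ∈ F₀, c = x + y * θ)
        (fun c hc => ⟨c, hc, 0, zero_mem _, by ring⟩)
        (by rintro _ _ ⟨x, hx, y, hy, rfl⟩ ⟨x', hx', y', hy', rfl⟩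
            exact ⟨_, add_mem hx hx', _, add_mem hy hy', by ring⟩)
        (by rintro _ _ ⟨x, hx, y, hy, rfl⟩ ⟨x', hx', y', hy', rfl⟩
            exact ⟨_, add_mem (mul_mem hx hx') (div_mem (mul_mem (mul_mem hy hy') hw) hs), _,
              sub_mem (add_mem (mul_mem hx hy') (mul_mem hy hx'))
                (div_mem (mul_mem (mul_mem hy hy') hp) hs), by
              field_simp; linear_combination y * y' * h0⟩)
        ⟨0, zero_mem _, 1, one_mem _, by ring⟩ hθF (B u a₃ / B u a₁)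
      refine hard _ (h3.sub ((h1.smul hx).add (h2.smul hy)))
        (fun h0 => s3 (mem_spanL_pair.2 ⟨x, y, (sub_eq_zero.1 h0).symm⟩)) ?_
      rw [hθ] at h4
      field_simp at h4
      simp only [map_sub, map_add, map_smul, smul_eq_mul]
      linear_combination h4
    refine ⟨hs0, by_contra fun hp0 => hθF ?_⟩
    convert div_mem hw hp using 1
    rw [← h0, hs0]
    field_simp
    ring
  set I := spanL F [a₁, a₂] with hI
  have m1 : a₁ ∈ I := mem_spanL_of_mem (by simp)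
  have m2 : a₂ ∈ I := mem_spanL_of_mem (by simp)
  have hiso : ∀ x ∈ I, ∀ y ∈ I, B x y = 0 := fun x hx y hy => by
    obtain ⟨s, t, rfl⟩ := mem_spanL_pair.1 hx
    obtain ⟨s', t', rfl⟩ := mem_spanL_pair.1 hy
    simp [hA.self_eq_zero, o2, alt_eq_zero_comm hA o2]
  set R := I ⊓ LinearMap.ker (B u) with hR
  have hRI : ∀ a ∈ I, a - (B u a / B u a₁) • a₁ ∈ R := fun a ha =>
    ⟨I.sub_mem ha (I.smul_mem _ m1), by simp [u1]⟩
  have hfix : ∀ y ∈ fixSub M R, ∀ x ∈ R, y x ∈ R := fun y hy x hx => (hy.2 x hx).symm ▸ hx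
  have hU : ∀ a ∈ I, IsRat F₀ e a → slU (B u a ^ 2 / B u a₁) ∈ planeAct _ R hfix a₁ u := by
    intro a ha har
    refine ⟨_, ⟨h.tv a har 1 (one_mem _), fun x hx => altTEquiv_of_orth hA _ (hiso _ hx.1 _ ha)⟩,
      by simp [altTEquiv_of_orth hA _ (hiso _ m1 _ ha)], ?_⟩
    convert R.smul_mem (B u a) (hRI a ha) using 1
    simp only [altTEquiv_apply', coe_slU, Matrix.of_apply, Matrix.cons_val', Matrix.cons_val_zero,
      Matrix.cons_val_one, Matrix.cons_val_fin_one]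
    module
  have hV : slV (c * B a₁ u) ∈ planeAct _ R hfix a₁ u :=
    ⟨_, ⟨hu, fun x hx => altTEquiv_of_orth hA _ (alt_eq_zero_comm hA hx.2)⟩,
      by simp [altTEquiv_apply'], by simp [altTEquiv_apply', hA.self_eq_zero]⟩
  refine mul_ne_zero hc (alt_ne_zero_comm hA u1) (sl2_fix_of_unipotent _ ?_
    (div_ne_zero (pow_ne_zero 2 u1) u1) (div_ne_zero (pow_ne_zero 2 u2) u1) (fun h' => ?_)
    (hU _ m1 h1) (hU _ m2 h2) hV)
  swap
  · rw [div_left_inj' u1, sq_eq_sq_iff_eq_or_eq_neg] at h'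
    rcases h' with h' | h'
    · exact u12 1 (one_mem _) (by simp [h'])
    · exact u12 (-1) (neg_mem (one_mem _)) (by simp [h'])
  rintro A ⟨y, ⟨hy, hyR⟩, e1, -⟩ hA0
  rw [hA0, zero_smul, add_zero] at e1
  have hy1 : y a₁ ∈ I := (I.sub_mem_iff_left (I.smul_mem _ m1)).1 e1.1
  have hya : ∀ a ∈ I, y a = a + (B u a / B u a₁) • (y a₁ - a₁) := fun a ha => by
    have := hyR _ (hRI a ha)
    rw [map_sub, map_smul, sub_eq_iff_eq_add] at this
    rw [this]
    module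
  have hrat : ∀ a ∈ I, IsRat F₀ e a → ∃ μ : F, μ ≠ 0 ∧ IsRat F₀ e (μ • y a) := fun a ha har => by
    have := M.mul_mem (M.mul_mem hy (h.tv a har 1 (one_mem _))) (M.inv_mem hy)
    rw [altTEquiv_conj hA (h.le hy)] at this
    refine h.easy hr hcard hne this one_ne_zero h1 n1 (hiso _ ?_ _ m1)
    rw [hya a ha]
    exact I.add_mem ha (I.smul_mem _ (I.sub_mem hy1 m1))
  obtain ⟨μ, hμ0, hμ⟩ := hrat _ m1 h1
  have hμ' : IsRat F₀ e (μ • y a₂) := by
    obtain ⟨d, hd0, hd⟩ := hrat _ m2 h2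
    obtain ⟨d', hd0', hd'⟩ := hrat _ (I.add_mem m1 m2) (h1.add h2)
    rw [map_add] at hd'
    refine isRat_smul_of_pair (y.map_ne_zero_iff.2 n1) (fun h' => s2 ?_) hμ0 hd0 hd0' hμ hd hd'
    obtain ⟨t, ht⟩ := mem_spanL_singleton.1 h'
    exact mem_spanL_singleton.2 ⟨t, y.injective (by rw [map_smul, ht])⟩
  obtain ⟨φ, hφ, φ1, φ2⟩ := exists_ratF_eq_one (F₀ := F₀) (e := e) (s := [a₁]) (by simpa) h2 s2
  obtain ⟨ψ, hψ, ψ1, ψ2⟩ := exists_ratF_eq_one (F₀ := F₀) (e := e) (s := [a₂]) (by simpa) h1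
    (notMem_spanL_singleton_symm s2 n1)
  have φ1 := φ1 a₁ (by simp)
  have ψ1 := ψ1 a₂ (by simp)
  obtain ⟨α, β, hαβ⟩ := mem_spanL_pair.1 hy1
  rw [hya _ m2, ← hαβ, ← hθ] at hμ'
  rw [← hαβ] at hμ e1
  have k1 := hφ _ hμ
  have k2 := hψ _ hμ
  have k3 := hφ _ hμ'
  have k4 := hψ _ hμ'
  simp only [map_smul, map_add, map_sub, φ1, φ2, ψ1, ψ2, smul_eq_mul, mul_zero, mul_one, zero_add,
    add_zero, sub_zero] at k1 k2 k3 k4
  obtain ⟨k5, k6⟩ := hq _ k1 _ (sub_mem k2 k3) _ k4 (by ring)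
  have hβ : β = 0 := (mul_eq_zero.1 k5).resolve_left hμ0
  have hα : α = 1 := mul_left_cancel₀ hμ0 (by rw [hβ] at k6; linear_combination k6)
  have k : B u (α • a₁ + β • a₂ - A 0 0 • a₁) = 0 := e1.2
  rw [hα, hβ, zero_smul, add_zero, one_smul, map_sub, map_smul, smul_eq_mul, sub_eq_zero, eq_comm,
    mul_eq_right₀ u1] at k
  exact k

end RatSp4

theorem isMaximalIn_ratG_SpB' [Fintype F] (hB : B.Nondegenerate) (hA : B.IsAlt)
    (hrat : ∀ u v, IsRat F₀ e u → IsRat F₀ e v → B u v ∈ F₀) (hn : 3 ≤ Fintype.card ι) {r : ℕ}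
    (hr : r.Prime) (hcard : Fintype.card F = Nat.card F₀ ^ r) :
    IsMaximalIn (SpB B) (ratG F₀ e ⊓ SpB B) := by
  have hsp : ∀ M, ratG F₀ e ⊓ SpB B ≤ M → M ≤ SpB B → RatSp4 F₀ e hA M := fun M hM hMK =>
    ⟨hB, hrat, hMK, fun a ha c hc => hM ⟨mem_ratG_of_rat fun v hv =>
      hv.add (ha.smul (mul_mem hc (hrat _ _ hv ha))), altTEquiv_mem_SpB hA _ _⟩, hn⟩
  refine isMaximalIn_of_forall inf_le_right (fun hle => ?_) fun M hM hMK g hg hgH => ?_
  · obtain ⟨c, hc⟩ := exists_notMem_of_prime_index hr hcard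
    have h := hsp _ inf_le_right le_rfl
    obtain ⟨a, ha, -, ha0⟩ := h.exists_perp IsRat.zero
    obtain ⟨x, hx, -, hax⟩ := h.exists_perp_one IsRat.zero ha ha0
    have ha0 := ne_zero_of_notMem_spanL ha0
    obtain ⟨d, hd0, hd⟩ := (hle (altTEquiv_mem_SpB hA a c)).1
    have h1 := hd a ha
    rw [altTEquiv_of_orth hA _ (hA.self_eq_zero a)] at h1
    have hdF := div_mem_of_isRat (μ := 1) ha0 (by simpa using ha) h1
    rw [div_one] at hdF
    have h2 := hx.sub ((hd x hx).smul (inv_mem hdF))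
    rw [altTEquiv_apply', ← hA.neg_eq, hax] at h2
    exact hc (by simpa using div_mem_of_isRat (μ := 1) (ν := c) ha0 (by simpa using ha) (by
      simpa [hd0] using h2))
  · by_contra hne
    have h := hsp M hM hMK
    refine hgH ⟨mem_ratG_of_forall fun v hv => ?_, hMK hg⟩
    have := M.mul_mem (M.mul_mem hg (h.tv v hv 1 (one_mem _))) (M.inv_mem hg)
    rw [altTEquiv_conj hA (hMK hg)] at this
    exact h.exists_smul_isRat hr hcard hne this one_ne_zero

/-- Subfield subgroups of the symplectic matrix groups. -/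
theorem isMaximalIn_spGL_subfield [Fintype F] (m : ℕ) (hm : 2 ≤ m) (F₀ : Subfield F) (r : ℕ)
    (hr : r.Prime) (hcard : Fintype.card F = Nat.card F₀ ^ r) (P : GL (Fin m ⊕ Fin m) F) (ζ : F)
    (hζ : ζ ≠ 0) (hP : IsFormRationalStructure (sympForm m F) F₀ ζ P) :
    IsMaximalIn (spGL m F) (subfieldSubgroup F₀ P ⊓ spGL m F) := by
  refine isMaximalIn_spGL_of m (mem_subfieldSubgroup_iff_glLin F₀ P) ?_
  have h1 : SpB (sympBilin m F) = SpB (ζ • sympBilin m F) := by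
    ext g
    simp [mem_SpB, hζ]
  rw [h1]
  refine isMaximalIn_ratG_SpB' ⟨fun x hx => (sympBilin_nondegenerate m).1 x fun y => ?_,
    fun x hx => (sympBilin_nondegenerate m).2 x fun y => ?_⟩ (fun x => by simp [sympForm_self])
    (fun u v hu hv => ?_) (by simp; omega) hr hcard
  · simpa [hζ] using hx y
  · simpa [hζ] using hx y
  · have := hP _ _ hu hv
    rw [← glLin_apply, ← glLin_apply, LinearEquiv.apply_symm_apply,
      LinearEquiv.apply_symm_apply] at this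
    simpa using this

end Cfsg.Lib.Class
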