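import Cfsg.Agent.Class.SpImprim
import Cfsg.Agent.Class.SpOrth
import Cfsg.Agent.Class.GeoForms
import Cfsg.Agent.Class.SubfieldSp4
import Cfsg.Agent.Class.FieldExtSp4
import Cfsg.Agent.Class.FieldExtBridge
import Cfsg.Agent.Class.AL.SpProper

/-!
Maximal geometric subgroups of the symplectic matrix groups in small dimensions.
-/

set_option autoImplicit false

namespace Cfsg.Lib.Class.SpGeo

open Cfsg Cfsg.Lib.Class.Asch Cfsg.Geo Module

theorem singular {F : Type*} [Field F] [Fintype F] (m : ℕ) (W : Submodule F (Fin m ⊕ Fin m → F)) (hW0 : W ≠ ⊥) (hW : Cfsg.Geo.IsTotallySingularFor (Cfsg.sympForm m F) W) : Cfsg.Geo.IsMaximalIn (Cfsg.spGL m F) (Cfsg.Geo.subspaceStabilizer W ⊓ Cfsg.spGL m F) := by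
  refine isMaximalIn_spGL_of m (mem_subspaceStabilizer_iff_glLin W) ?_
  exact isMaximalIn_SpB_stabSub_isotropic (sympBilin_nondegenerate m) (sympBilin_isAlt m) hW0
    (fun u hu v hv => by rw [sympBilin_apply]; exact hW u hu v hv)

theorem nondeg {F : Type*} [Field F] [Fintype F] (m : ℕ) (W : Submodule F (Fin m ⊕ Fin m → F)) (hW0 : W ≠ ⊥) (hW : Cfsg.Geo.IsNondegenerateOn (Cfsg.sympForm m F) W) (hdim : Module.finrank F W < m) : Cfsg.Geo.IsMaximalIn (Cfsg.spGL m F) (Cfsg.Geo.subspaceStabilizer W ⊓ Cfsg.spGL m F) := by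
  refine isMaximalIn_spGL_of m (mem_subspaceStabilizer_iff_glLin W) ?_
  refine isMaximalIn_SpB_stabSub_nondeg (sympBilin_nondegenerate m) (sympBilin_isAlt m) hW0
    (fun w hw h0 => by simpa using (hW w hw h0).1) ?_
  rw [finrank_symp_space]
  omega

theorem dec {F : Type*} [Field F] [Fintype F] (m : ℕ) {t : ℕ} (k : ℕ) (D : Fin t → Submodule F (Fin m ⊕ Fin m → F)) (hD : Cfsg.Geo.IsNondegenerateMDecomposition (Cfsg.sympForm m F) k D) (hex : ¬ (k = 2 ∧ Fintype.card F = 2)) : Cfsg.Geo.IsMaximalIn (Cfsg.spGL m F) (Cfsg.Geo.decompositionStabilizer D ⊓ Cfsg.spGL m F) := by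
  classical
  refine isMaximalIn_spGL_of m (mem_decompositionStabilizer_iff_glLin D) ?_
  obtain ⟨p, hp⟩ := exists_isDecProj hD.decomp.indep hD.decomp.iSup_eq_top
  have : Nontrivial (Fin t) := Fin.nontrivial_iff_two_le.2 hD.decomp.two_le
  have hA := sympBilin_isAlt (F := F) m
  have hn : ∀ i, ∀ w ∈ D i, w ≠ 0 → ∃ x ∈ D i, sympBilin m F x w ≠ 0 :=
    fun i w hw h0 => by simpa using (hD.nondegenerate i w hw h0).1
  refine isMaximalIn_SpB_stabDec (sympBilin_nondegenerate m) hA hp hD.decomp.pos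
    hD.decomp.finrank_eq hn (fun i j hij u hu v hv => by simpa using hD.orthogonal i j hij u hu v hv)
    fun i x hx hx0 => ?_
  by_cases hq : Fintype.card F = 2
  · have hk2 : k ≠ 2 := fun h => hex ⟨h, hq⟩
    have hev := even_finrank_of_isAlt (restrict_nondegenerate_of_forall hA (hn i))
      (restrict_isAlt hA _)
    rw [hD.decomp.finrank_eq] at hev
    have hk0 := hD.decomp.pos
    have hk3 : 3 ≤ k := by
      obtain ⟨r, hr⟩ := hev
      omega
    have hx0' : (⟨x, hx⟩ : D i) ≠ 0 := fun h => hx0 (congrArg Subtype.val h)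
    have hf := finrank_span_singleton (K := F) hx0'
    obtain ⟨y, hy, hxy⟩ := exists_orth_notMem (restrict_nondegenerate_of_forall hA (hn i))
      (Submodule.span F {(⟨x, hx⟩ : D i)}) (Submodule.span F {(⟨x, hx⟩ : D i)})
      (by rw [hf, hD.decomp.finrank_eq]; omega)
    refine ⟨y, y.2, fun h => hy ?_, fun h => hy ?_,
      hxy _ (Submodule.mem_span_singleton_self _)⟩
    · rw [show y = 0 from Subtype.ext h]
      exact Submodule.zero_mem _
    · rw [show y = -⟨x, hx⟩ from Subtype.ext (eq_neg_of_add_eq_zero_right h)]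
      exact Submodule.neg_mem _ (Submodule.mem_span_singleton_self _)
  · obtain ⟨c, hc0, hc1⟩ : ∃ c : F, c ≠ 0 ∧ c ≠ -1 := by
      by_contra! hcon
      have h1 : (Finset.univ : Finset F) ⊆ {0, -1} := by
        intro a _
        by_cases ha : a = 0
        · simp [ha]
        · simp [hcon a ha]
      have h2 := (Finset.card_le_card h1).trans Finset.card_le_two
      have h3 := Fintype.one_lt_card (α := F)
      rw [Finset.card_univ] at h2
      omega
    refine ⟨c • x, (D i).smul_mem c hx, smul_ne_zero hc0 hx0, ?_, by simp [sympForm_self]⟩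
    rw [show x + c • x = (1 + c) • x by rw [add_smul, one_smul]]
    exact smul_ne_zero (fun h => hc1 (eq_neg_of_add_eq_zero_right h)) hx0

theorem quad {F : Type*} [Field F] [Fintype F] (m : ℕ) (hm : 2 ≤ m) (heven : ¬ Odd (Fintype.card F)) (Q : (Fin m ⊕ Fin m → F) → F) (hQ : Cfsg.Geo.IsNondegenerateQuadraticForm Q) (hpol : ∀ u v, QuadraticMap.polar Q u v = Cfsg.sympForm m F u v) : Cfsg.Geo.IsMaximalIn (Cfsg.spGL m F) (Cfsg.Geo.quadSimilarityGroup Q ⊓ Cfsg.spGL m F) := by
  have hpol' : ∀ u v, QuadraticMap.polar (geoQuad hQ) u v = sympBilin m F u v := by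
    intro u v
    rw [sympBilin_apply, coe_geoQuad, hpol]
  have hB := sympBilin_nondegenerate (F := F) m
  refine isMaximalIn_of_mulEquiv (glLin _ F) (fun g => (glLin_mem_SpB_iff m g).symm) (fun g => ?_)
    (isMaximalIn_SpB_QIsom hB (sympBilin_isAlt m) hpol' (exists_sq_eq_of_even_card heven)
      (by rw [finrank_symp_space]; omega))
  constructor
  · rintro ⟨⟨c, hc⟩, hg⟩
    have : Nonempty (Fin m ⊕ Fin m) := ⟨Sum.inl ⟨0, by omega⟩⟩
    obtain ⟨x, hx⟩ := exists_ne (0 : Fin m ⊕ Fin m → F)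
    obtain ⟨y, hy⟩ := exists_alt_eq_one hB hx
    rw [sympBilin_apply] at hy
    have h1 := (mem_spGL m g).1 hg x y
    rw [← hpol, QuadraticMap.polar, ← Matrix.mulVec_add, hc, hc, hc, ← mul_sub, ← mul_sub] at h1
    have h2 := hpol x y
    rw [QuadraticMap.polar] at h2
    rw [h2, hy, mul_one] at h1
    rw [mem_QIsom]
    intro u
    rw [glLin_apply, geoQuad_apply, geoQuad_apply, hc, h1, one_mul]
  · intro hg
    exact ⟨⟨1, fun v => by simpa using mem_QIsom.1 hg v⟩,
      (glLin_mem_SpB_iff m g).1 (QIsom_le_SpB hpol' hg)⟩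

theorem field {F : Type*} [Field F] [Fintype F] (m : ℕ) (hm : 2 ≤ m) (hq : m = 2 → 2 < Fintype.card F) (r : ℕ) (hr : r.Prime) (K : Subalgebra F (Matrix (Fin m ⊕ Fin m) (Fin m ⊕ Fin m) F)) (hK : Cfsg.Geo.IsFieldSubalgebra r K) (hsa : Cfsg.Geo.IsSelfAdjointFor (Cfsg.sympForm m F) K) (halt : ∀ k ∈ K, ∀ v : (Fin m ⊕ Fin m → F), Cfsg.sympForm m F (Matrix.mulVec k v) v = 0) : Cfsg.Geo.IsMaximalIn (Cfsg.spGL m F) (Cfsg.Geo.subalgebraNormalizer K ⊓ Cfsg.spGL m F) := by
  classical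
  have : Nonempty (Fin m ⊕ Fin m) := ⟨.inl ⟨0, by omega⟩⟩
  refine ⟨lt_of_le_of_ne inf_le_right fun h ↦ AL.not_Sp_le_field (isSymplecticForm_sympForm m)
    (by simp; omega) hr.two_le hK (h.ge.trans inf_le_left), fun M h1 h2 ↦ ?_⟩
  by_cases hN : M ≤ subalgebraNormalizer K
  · exact Or.inl (le_antisymm (le_inf hN h2) h1)
  refine Or.inr (le_antisymm h2 fun g hg ↦ ?_)
  let _ := (isField_of_isFieldSubalgebra hK).toField
  have : FiniteDimensional K (Fin m ⊕ Fin m → F) := Module.Finite.of_restrictScalars_finite F K _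
  obtain ⟨τ, hτ⟩ := exists_dual_ne_zero F K
  obtain ⟨h, hh⟩ := FE.exists_kform hτ (sympBilin m F) fun k x y ↦ by
    rw [sympBilin_apply, sympBilin_apply]
    exact hsa k k.2 x y
  have hA : h.IsAlt := fun x ↦ FE.eq_of_forall_tau hτ fun k ↦ by
    rw [← smul_eq_mul, ← LinearMap.smul_apply, ← map_smul, ← hh, mul_zero, map_zero, sympBilin_apply]
    exact halt k k.2 x
  have hB : ∀ g ∈ SpB h, g.restrictScalars F ∈ SpB (sympBilin m F) := fun g hg x y ↦ by
    change sympBilin m F (g x) (g y) = sympBilin m F x y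
    rw [hh, hh, mem_SpB.1 hg]
  have H : FE.SpExt h τ (sympBilin m F) (M.map (glLin _ F).toMonoidHom) :=
    ⟨hA.isRefl.nondegenerate_iff_separatingLeft.2 fun x hx ↦ (sympBilin_nondegenerate m).1 x
      fun y ↦ by rw [hh, hx, map_zero], hA, hτ, hh,
      by rintro _ ⟨g, hg, rfl⟩; exact (glLin_mem_SpB_iff m g).2 (h2 hg),
      fun g hg ↦ ⟨(glLin _ F).symm (g.restrictScalars F), h1
        ⟨glLin_symm_mem_subalgebraNormalizer fun k x ↦ g.map_smul k x,
          (glLin_mem_SpB_iff m _).1 (by rw [MulEquiv.apply_symm_apply]; exact hB g hg)⟩,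
        MulEquiv.apply_symm_apply _ _⟩⟩
  have hd := Module.finrank_mul_finrank F K (Fin m ⊕ Fin m → F)
  rw [hK.finrank_eq, finrank_symp_space] at hd
  have hm2 : 2 ≤ finrank K (Fin m ⊕ Fin m → F) := by
    by_contra hlt
    have h3 : finrank K (Fin m ⊕ Fin m → F) = 1 := by
      rcases Nat.lt_succ_iff.1 (not_le.1 hlt) |>.eq_or_lt with e | e
      · exact e
      · rw [Nat.lt_one_iff.1 e] at hd; omega
    rw [h3, mul_one] at hd
    exact absurd ((hd ▸ hr).eq_one_or_self_of_dvd 2 (dvd_mul_right 2 m)) (by omega)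
  obtain ⟨g', hg', e⟩ := H.SpB_le' (hK.finrank_eq ▸ hr) hm2 (by
    by_cases h5 : m = 2
    · obtain ⟨t, ht⟩ := Finset.card_pos.1 (show 0 < ((Finset.univ.erase (0 : F)).erase 1).card by
        have := Finset.pred_card_le_card_erase (s := Finset.univ.erase (0 : F)) (a := 1)
        rw [Finset.card_erase_of_mem (Finset.mem_univ _), Finset.card_univ] at this
        have := hq h5
        omega)
      exact Or.inr ⟨t, by simp_all, by simp_all⟩
    left
    rw [hK.finrank_eq]
    by_contra! h3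
    have : r * finrank K (Fin m ⊕ Fin m → F) ≤ 2 * 2 := Nat.mul_le_mul (by omega) (by omega)
    omega) (exists_not_semilinear hN) ((glLin_mem_SpB_iff m g).2 hg)
  exact (glLin _ F).injective e ▸ hg'

end Cfsg.Lib.Class.SpGeo
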