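import Cfsg.Agent.Class.Decomp
import Cfsg.Agent.Class.AltBasis

/-!
Maximality of the stabiliser of an orthogonal decomposition of a symplectic space into
non-degenerate subspaces of equal dimension.
-/

set_option autoImplicit false

namespace Cfsg.Lib.Class

open Module Cfsg.Geo

variable {F V : Type*} [Field F] [AddCommGroup V] [Module F V] {B : LinearMap.BilinForm F V}
  {τ : Type*} [Fintype τ] [DecidableEq τ] {D : τ → Submodule F V} {p : τ → V →ₗ[F] V}

theorem restrict_nondegenerate_of_forall (hA : B.IsAlt) {W : Submodule F V}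
    (hW : ∀ w ∈ W, w ≠ 0 → ∃ x ∈ W, B x w ≠ 0) : (B.restrict W).Nondegenerate := by
  have h2 : ∀ w : W, (∀ x : W, B x w = 0) → w = 0 := by
    intro w hw
    by_contra h
    obtain ⟨x, hx, hxw⟩ := hW w w.2 (fun h' => h (Subtype.ext h'))
    exact hxw (hw ⟨x, hx⟩)
  exact ⟨fun w hw => h2 w fun x => alt_eq_zero_comm hA (hw x), fun w hw => h2 w hw⟩

theorem restrict_isAlt (hA : B.IsAlt) (W : Submodule F V) : (B.restrict W).IsAlt :=
  fun x => hA x

omit [DecidableEq τ] in
/-- Every permutation of the members of an orthogonal decomposition into non-degenerate subspaces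
of equal dimension is induced by an isometry. -/
theorem exists_SpB_perm [FiniteDimensional F V] (hA : B.IsAlt) (hp : IsDecProj D p) {k : ℕ}
    (hd : ∀ i, finrank F (D i) = k) (hn : ∀ i, ∀ w ∈ D i, w ≠ 0 → ∃ x ∈ D i, B x w ≠ 0)
    (ho : ∀ i j, i ≠ j → ∀ u ∈ D i, ∀ v ∈ D j, B u v = 0) (σ : Equiv.Perm τ) :
    ∃ g ∈ SpB B, ∀ i, (D i).map (g : V →ₗ[F] V) = D (σ i) := by
  have h1 := fun i => exists_equiv_of_isAlt (restrict_nondegenerate_of_forall hA (hn i))
    (restrict_isAlt hA _) (restrict_nondegenerate_of_forall hA (hn (σ i))) (restrict_isAlt hA _)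
    (by rw [hd, hd])
  choose φ hφ using h1
  obtain ⟨g, hg, hmap⟩ := hp.exists_glue_equiv σ φ
  refine ⟨g, fun u v => ?_, hmap⟩
  change B (g u) (g v) = B u v
  rw [← hp.sum u, ← hp.sum v]
  simp only [map_sum, LinearMap.sum_apply]
  refine Finset.sum_congr rfl fun j _ => Finset.sum_congr rfl fun i _ => ?_
  rw [hg i ⟨_, hp.mem i u⟩, hg j ⟨_, hp.mem j v⟩]
  by_cases hij : i = j
  · subst hij
    exact hφ i _ _
  · rw [ho i j hij _ (hp.mem i u) _ (hp.mem j v),
      ho _ _ (fun h => hij (σ.injective h)) _ (Subtype.property _) _ (Subtype.property _)]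

/-- All vectors with support `S` lie in `X`. -/
def GoodSupp (D : τ → Submodule F V) (X : Set V) (S : Finset τ) : Prop :=
  ∀ x : τ → V, (∀ i, x i ∈ D i) → (∀ i, x i ≠ 0 ↔ i ∈ S) → ∑ i, x i ∈ X

theorem goodSupp_of_one [FiniteDimensional F V] (hB : B.Nondegenerate) {hA : B.IsAlt}
    (hn : ∀ i, ∀ w ∈ D i, w ≠ 0 → ∃ x ∈ D i, B x w ≠ 0)
    (ho : ∀ i j, i ≠ j → ∀ u ∈ D i, ∀ v ∈ D j, B u v = 0) {M : Subgroup (V ≃ₗ[F] V)}
    (hT : ∀ i, ∀ w ∈ D i, w ∈ TSet hA M) {S : Finset τ} {x : τ → V} (hx : ∀ i, x i ∈ D i)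
    (hS : ∀ i, x i ≠ 0 ↔ i ∈ S) (h : ∑ i, x i ∈ TSet hA M) : GoodSupp D (TSet hA M) S := by
  intro y hy hyS
  suffices key : ∀ R : Finset τ, ∑ i, (if i ∈ R then y i else x i) ∈ TSet hA M by
    simpa using key Finset.univ
  intro R
  induction R using Finset.induction_on with
  | empty => simpa using h
  | insert j R hj ih =>
    have e : ∀ i ∈ Finset.univ.erase j, (if i ∈ insert j R then y i else x i) =
        (if i ∈ R then y i else x i) := by
      intro i hi
      simp [Finset.ne_of_mem_erase hi]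
    rw [← Finset.add_sum_erase _ _ (Finset.mem_univ j)] at ih ⊢
    rw [Finset.sum_congr rfl e, if_pos (Finset.mem_insert_self j R)]
    rw [if_neg hj] at ih
    by_cases hjS : j ∈ S
    · refine TSet_replace hB (hn j) (hT j) (hx j) (hy j) ((hS j).2 hjS) ((hyS j).2 hjS)
        (fun w hw => ?_) ih
      rw [map_sum, LinearMap.sum_apply]
      refine Finset.sum_eq_zero fun i hi => ho i j (Finset.ne_of_mem_erase hi) _ ?_ w hw
      split_ifs
      exacts [hy i, hx i]
    · have h1 : x j = 0 := by simpa [hjS] using hS j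
      have h2 : y j = 0 := by simpa [hjS] using hyS j
      rwa [h2, ← h1]

omit [Fintype τ] in
theorem exists_supp_eq (hne : ∀ i, ∃ v ∈ D i, v ≠ 0) (S : Finset τ) :
    ∃ x : τ → V, (∀ i, x i ∈ D i) ∧ ∀ i, x i ≠ 0 ↔ i ∈ S := by
  choose v hv hv0 using hne
  refine ⟨fun i => if i ∈ S then v i else 0, fun i => ?_, fun i => ?_⟩
  · dsimp only
    split_ifs
    exacts [hv i, (D i).zero_mem]
  · by_cases h : i ∈ S <;> simp [h, hv0]

/-- The stabiliser of an orthogonal decomposition into non-degenerate subspaces of equal dimension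
is maximal in the symplectic group, under the condition `hs` that excludes planes over the field
with two elements. -/
theorem isMaximalIn_SpB_stabDec [FiniteDimensional F V] (hB : B.Nondegenerate) (hA : B.IsAlt)
    (hp : IsDecProj D p) [Nontrivial τ] {k : ℕ} (hk : 0 < k)
    (hd : ∀ i, finrank F (D i) = k) (hn : ∀ i, ∀ w ∈ D i, w ≠ 0 → ∃ x ∈ D i, B x w ≠ 0)
    (ho : ∀ i j, i ≠ j → ∀ u ∈ D i, ∀ v ∈ D j, B u v = 0)
    (hs : ∀ i, ∀ x ∈ D i, x ≠ 0 → ∃ x' ∈ D i, x' ≠ 0 ∧ x + x' ≠ 0 ∧ B x x' = 0) :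
    IsMaximalIn (SpB B) (stabDec D ⊓ SpB B) := by
  classical
  have hne : ∀ i, ∃ v ∈ D i, v ≠ 0 := fun i =>
    (D i).exists_mem_ne_zero_of_ne_bot fun h => by
      have := hd i
      rw [h, finrank_bot] at this
      omega
  refine isMaximalIn_of_forall inf_le_right (fun hle => ?_) fun M hM hMK g hg hgH => ?_
  · obtain ⟨i, j, hij⟩ := exists_pair_ne τ
    obtain ⟨a, ha, ha0⟩ := hne i
    obtain ⟨b, hb, hb0⟩ := hne j
    have h1 := hp.add_notMem hij ha hb ha0 hb0
    obtain ⟨g, hg, hga⟩ := SpB_exists_apply_eq hB hA ha0 (x' := a + b)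
      (fun h => h1 i (h ▸ (D i).zero_mem))
    obtain ⟨σ, hσ⟩ := (hle hg).1
    refine h1 (σ i) ?_
    rw [← hσ, ← hga]
    exact ⟨a, ha, rfl⟩
  have hT : ∀ i, ∀ w ∈ D i, w ∈ TSet hA M := by
    intro i w hw c
    refine hM ⟨mem_stabDec_of_forall fun j v hv => ?_, altTEquiv_mem_SpB hA w c⟩
    by_cases hij : j = i
    · subst hij
      exact (D j).add_mem hv ((D j).smul_mem _ hw)
    · rwa [altTEquiv_of_orth hA c (ho j i hij v hv w hw)]
  have hone := fun {S : Finset τ} {x : τ → V} => goodSupp_of_one hB hn ho hT (S := S) (x := x)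
  -- permuting supports
  have hperm : ∀ S S' : Finset τ, S.card = S'.card → GoodSupp D (TSet hA M) S →
      GoodSupp D (TSet hA M) S' := by
    intro S S' hc hS
    obtain ⟨σ, hσ⟩ := exists_perm_map_eq hc
    obtain ⟨s, hs, hsD⟩ := exists_SpB_perm hA hp hd hn ho σ
    obtain ⟨x, hx, hxS⟩ := exists_supp_eq hne S
    have h1 := apply_mem_TSet (hM ⟨⟨σ, hsD⟩, hs⟩) hs (hS x hx hxS)
    refine hone (x := fun i => s (x (σ.symm i))) (fun i => ?_) (fun i => ?_) ?_
    · have := (hsD (σ.symm i)).le ⟨_, hx _, rfl⟩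
      rwa [Equiv.apply_symm_apply] at this
    · rw [s.map_ne_zero_iff, hxS, ← hσ, Equiv.apply_symm_apply]
    · rwa [map_sum, ← Equiv.sum_comp σ.symm] at h1
  -- combining two supports
  have hcomb : ∀ (S S' R : Finset τ) (b : τ), b ∈ S → b ∈ S' → b ∈ R → R ⊆ S ∪ S' →
      (∀ i, i ∈ S ∪ S' → i ∉ R → i ∈ S ∧ i ∈ S') → GoodSupp D (TSet hA M) S →
      GoodSupp D (TSet hA M) S' → GoodSupp D (TSet hA M) R := by
    intro S S' R b hbS hbS' hbR hR hR' hS hS'
    obtain ⟨x, hx, hxS⟩ := exists_supp_eq hne S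
    have h1 : ∀ i, ∃ y ∈ D i, (y ≠ 0 ↔ i ∈ S') ∧ (x i + y ≠ 0 ↔ i ∈ R) ∧
        (i ≠ b → B (x i) y = 0) ∧ (i = b → B (x i) y ≠ 0) := by
      intro i
      by_cases hib : i = b
      · subst hib
        obtain ⟨y, hy, hyx⟩ := hn i _ (hx i) ((hxS i).2 hbS)
        refine ⟨y, hy, iff_of_true (by rintro rfl; simp at hyx) hbS', iff_of_true (fun h => ?_) hbR,
          fun h => absurd rfl h, fun _ => alt_ne_zero_comm hA hyx⟩
        rw [eq_neg_of_add_eq_zero_left h, map_neg, hA.self_eq_zero, neg_zero] at hyx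
        exact hyx rfl
      by_cases hiS' : i ∈ S'
      · by_cases hiS : i ∈ S
        · by_cases hiR : i ∈ R
          · obtain ⟨y, hy, h1, h2, h3⟩ := hs i _ (hx i) ((hxS i).2 hiS)
            exact ⟨y, hy, iff_of_true h1 hiS', iff_of_true h2 hiR, fun _ => h3,
              fun h => absurd h hib⟩
          · exact ⟨-x i, (D i).neg_mem (hx i), iff_of_true (neg_ne_zero.2 ((hxS i).2 hiS)) hiS',
              iff_of_false (by simp) hiR, fun _ => by simp [hA.self_eq_zero],
              fun h => absurd h hib⟩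
        · obtain ⟨y, hy, hy0⟩ := hne i
          have hx0 : x i = 0 := by simpa [hiS] using hxS i
          have hiR : i ∈ R := by
            by_contra h
            exact hiS (hR' i (Finset.mem_union_right _ hiS') h).1
          exact ⟨y, hy, iff_of_true hy0 hiS', iff_of_true (by simpa [hx0] using hy0) hiR,
            fun _ => by simp [hx0], fun h => absurd h hib⟩
      · refine ⟨0, (D i).zero_mem, iff_of_false (by simp) hiS', ?_, fun _ => by simp,
          fun h => absurd h hib⟩
        rw [add_zero, hxS]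
        constructor
        · intro hiS
          by_contra h
          exact hiS' (hR' i (Finset.mem_union_left _ hiS) h).2
        · intro hiR
          exact (Finset.mem_union.1 (hR hiR)).resolve_right hiS'
    choose y hy hyS hyR hy0 hyb using h1
    refine hone (x := fun i => x i + y i) (fun i => (D i).add_mem (hx i) (hy i)) hyR ?_
    rw [Finset.sum_add_distrib]
    refine add_mem_TSet (hS x hx hxS) (hS' y hy hyS) ?_
    have e : B (∑ i, x i) (∑ i, y i) = B (x b) (y b) := by
      simp only [map_sum, LinearMap.sum_apply]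
      rw [Finset.sum_eq_single b _ (by simp), Finset.sum_eq_single b _ (by simp)]
      · intro i _ hi
        exact ho i b hi _ (hx i) _ (hy b)
      · intro j _ hj
        refine Finset.sum_eq_zero fun i _ => ?_
        by_cases hij : i = j
        · subst hij
          exact hy0 i hj
        · exact ho i j hij _ (hx i) _ (hy j)
    rw [e]
    exact hyb b rfl
  obtain ⟨i, v, hv, hgv⟩ := hp.exists_notMem_of_notMem_stabDec hk hd
    (fun h => hgH ⟨h, hMK hg⟩)
  have h0 : GoodSupp D (TSet hA M) (Finset.univ.filter fun j => p j (g v) ≠ 0) :=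
    hone (x := fun j => p j (g v)) (fun j => hp.mem j _) (fun j => by simp)
      (by rw [hp.sum]; exact apply_mem_TSet hg (hMK hg) (hT i v hv))
  have h0c : 2 ≤ (Finset.univ.filter fun j => p j (g v) ≠ 0).card := by
    by_contra hcon
    obtain ⟨j, hj⟩ := Finset.card_le_one_iff_subset_singleton.1
      (Nat.lt_succ_iff.1 (not_le.1 hcon))
    refine hgv j (hp.mem_iff.2 fun l hl => ?_)
    by_contra h
    exact hl (Finset.mem_singleton.1 (hj (by simpa using h)))
  have hdown : ∀ n, ∀ S : Finset τ, S.card = n + 2 → GoodSupp D (TSet hA M) S →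
      ∃ S' : Finset τ, S'.card = 2 ∧ GoodSupp D (TSet hA M) S' := by
    intro n
    induction n with
    | zero => exact fun S h1 h2 => ⟨S, h1, h2⟩
    | succ n ih =>
      intro S h1 h2
      obtain ⟨a, ha, b, hb, hab⟩ := Finset.one_lt_card.1 (show 1 < S.card by omega)
      refine ih (S.erase a) (by rw [Finset.card_erase_of_mem ha]; omega)
        (hcomb S S _ b hb hb (Finset.mem_erase.2 ⟨hab.symm, hb⟩) ?_ ?_ h2 h2)
      · rw [Finset.union_self]
        exact Finset.erase_subset _ _
      · intro i hi _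
        rw [Finset.union_self] at hi
        exact ⟨hi, hi⟩
  obtain ⟨S₂, hS₂, hS₂'⟩ := hdown _ _ (Nat.sub_add_cancel h0c).symm h0
  have hup : ∀ n, ∀ S : Finset τ, S.card = n + 2 → GoodSupp D (TSet hA M) S := by
    intro n
    induction n with
    | zero => exact fun S h => hperm S₂ S (by omega) hS₂'
    | succ n ih =>
      intro S h
      obtain ⟨a, ha, b, hb, c, hc, hab, hac, hbc⟩ := Finset.two_lt_card.1 (show 2 < S.card by omega)
      refine hcomb (S.erase a) (S.erase c) S b (Finset.mem_erase.2 ⟨hab.symm, hb⟩)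
        (Finset.mem_erase.2 ⟨hbc, hb⟩) hb ?_ ?_
        (ih _ (by rw [Finset.card_erase_of_mem ha]; omega))
        (ih _ (by rw [Finset.card_erase_of_mem hc]; omega))
      · intro i hi
        by_cases hia : i = a
        · exact Finset.mem_union_right _ (Finset.mem_erase.2 ⟨hia ▸ hac, hi⟩)
        · exact Finset.mem_union_left _ (Finset.mem_erase.2 ⟨hia, hi⟩)
      · intro i hi hi'
        rcases Finset.mem_union.1 hi with h | h <;> exact absurd (Finset.mem_of_mem_erase h) hi'
  refine SpB_le_of_TSet hB hA fun y => ?_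
  by_cases hc : 2 ≤ (Finset.univ.filter fun j => p j y ≠ 0).card
  · have := hup _ _ (Nat.sub_add_cancel hc).symm (fun j => p j y) (fun j => hp.mem j _)
      (fun j => by simp)
    rwa [hp.sum] at this
  · obtain ⟨j, hj⟩ := Finset.card_le_one_iff_subset_singleton.1
      (Nat.lt_succ_iff.1 (not_le.1 hc))
    refine hT j y (hp.mem_iff.2 fun l hl => ?_)
    by_contra h
    exact hl (Finset.mem_singleton.1 (hj (by simpa using h)))

end Cfsg.Lib.Class
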