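import Cfsg.Agent.Class.SpUnit
import Cfsg.Agent.Class.SpLevi

/-!
Overgroups of the centraliser of a skew square root of a scalar in a symplectic group of dimension
at least six (odd characteristic), studied through the involutions inverting a plane.
-/

set_option autoImplicit false
set_option linter.unusedSectionVars false

namespace Cfsg.Lib.Class

open Module Cfsg.Geo

variable {F V : Type*} [Field F] [AddCommGroup V] [Module F V] {B : LinearMap.BilinForm F V}

/-- Projection to the orthogonal complement of a non-degenerate plane. -/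
theorem exists_plane_proj (hA : B.IsAlt) {a b : V} (h : B a b ≠ 0) (v : V) :
    ∃ (s t : F) (y : V), B a y = 0 ∧ B b y = 0 ∧ v = s • a + t • b + y := by
  refine ⟨B v b / B a b, B a v / B a b, v - (B v b / B a b) • a - (B a v / B a b) • b, ?_, ?_,
    by abel⟩
  · simp only [map_sub, map_smul, hA.self_eq_zero, smul_eq_mul]
    field_simp
    ring
  · simp only [map_sub, map_smul, hA.self_eq_zero, smul_eq_mul, ← hA.neg_eq v b, ← hA.neg_eq a b]
    field_simp
    ring

/-- `M` contains the involution inverting the plane spanned by `a` and `b`. -/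
def PInv (B : LinearMap.BilinForm F V) (M : Subgroup (V ≃ₗ[F] V)) (a b : V) : Prop :=
  B a b ≠ 0 ∧ ∃ k ∈ M, k a = -a ∧ k b = -b ∧ ∀ v, B a v = 0 → B b v = 0 → k v = v

namespace PInv

variable {M : Subgroup (V ≃ₗ[F] V)} {a b : V}

theorem conj (h : PInv B M a b) {g : V ≃ₗ[F] V} (hg : g ∈ M) (hg' : g ∈ SpB B) :
    PInv B M (g a) (g b) := by
  obtain ⟨h0, k, hk, h1, h2, h3⟩ := h
  refine ⟨by rwa [mem_SpB.1 hg'], g * k * g⁻¹, M.mul_mem (M.mul_mem hg hk) (M.inv_mem hg),
    by simp [h1], by simp [h2], fun v hv hv' => ?_⟩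
  obtain ⟨v, rfl⟩ := g.surjective v
  rw [mem_SpB.1 hg'] at hv hv'
  simp [h3 v hv hv']

theorem change (hA : B.IsAlt) (h : PInv B M a b) {s t s' t' : F} (hd : s * t' - t * s' ≠ 0) :
    PInv B M (s • a + t • b) (s' • a + t' • b) := by
  obtain ⟨h0, k, hk, h1, h2, h3⟩ := h
  refine ⟨?_, k, hk, by simp [h1, h2, add_comm], by simp [h1, h2, add_comm], fun v hv hv' => ?_⟩
  · simp only [map_add, map_smul, LinearMap.add_apply, LinearMap.smul_apply, hA.self_eq_zero,
      ← hA.neg_eq a b, smul_eq_mul]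
    convert mul_ne_zero hd h0 using 1
    ring
  · simp only [map_add, map_smul, LinearMap.add_apply, LinearMap.smul_apply, smul_eq_mul] at hv hv'
    refine h3 v ?_ ?_
    · refine (mul_eq_zero.1 ?_).resolve_left hd
      linear_combination t' * hv - t * hv'
    · refine (mul_eq_zero.1 ?_).resolve_left hd
      linear_combination s * hv' - s' * hv

/-- The product of the involutions of two planes meeting in a line is a short root element. -/
theorem altR_mem (hA : B.IsAlt) {r : V} (h : PInv B M a b) (h' : PInv B M a (b + r))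
    (har : B a r = 0) (hbr : B b r = 0) : altR hA ((2 / B a b) • r) a ∈ M := by
  obtain ⟨h0, k, hk, h1, h2, h3⟩ := h
  obtain ⟨-, k', hk', h1', h2', h3'⟩ := h'
  have hra := alt_eq_zero_comm hA har
  have hrb := alt_eq_zero_comm hA hbr
  convert M.mul_mem hk hk' using 1
  ext v
  obtain ⟨s, t, y, hy, hy', rfl⟩ := exists_plane_proj hA (a := a) (b := b + r) (by simpa [har]) v
  have e : B b y = -B r y := by
    rw [map_add, LinearMap.add_apply] at hy'
    linear_combination hy'
  have e1 : k (y - (B r y / B a b) • a) = y - (B r y / B a b) • a := h3 _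
    (by simp [hy, hA.self_eq_zero]) (by
      rw [map_sub, map_smul, e, ← hA.neg_eq a b, smul_eq_mul]
      field_simp
      ring)
  have e2 : k y = y - (2 * B r y / B a b) • a := by
    rw [map_sub, map_smul, h1] at e1
    linear_combination (norm := skip) e1
    match_scalars <;> ring
  rw [altR_apply hA (by simp [hra]), LinearEquiv.mul_apply, map_add k', map_add k', map_smul k',
    map_smul k', h1', h2', h3' y hy hy']
  simp only [map_add, map_smul, map_neg, LinearMap.add_apply, LinearMap.smul_apply, h1, h2, e2,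
    h3 r har hbr, har, hbr, hra, hA.self_eq_zero, alt_eq_zero_comm hA hy, ← hA.neg_eq r y,
    ← hA.neg_eq a b, smul_eq_mul]
  match_scalars <;> (field_simp; try ring)

end PInv

/-- A skew-adjoint square root of a non-zero scalar. -/
structure SkewRt (B : LinearMap.BilinForm F V) (θ : V →ₗ[F] V) (δ : F) : Prop where
  nondeg : B.Nondegenerate
  two : (2 : F) ≠ 0
  sq : ∀ x, θ (θ x) = δ • x
  ne : δ ≠ 0
  skew : ∀ x y, B (θ x) y = -B x (θ y)

theorem SkewRoot.skewRt {θ : V →ₗ[F] V} {δ : F} (h : SkewRoot B θ δ) : SkewRt B θ δ :=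
  ⟨h.nondeg, h.two, h.sq, h.ne_zero, h.skew⟩

/-- `M` contains the isometries commuting with `θ`. -/
def HasCent (B : LinearMap.BilinForm F V) (θ : V →ₗ[F] V) (M : Subgroup (V ≃ₗ[F] V)) : Prop :=
  ∀ k ∈ SpB B, (∀ x, k (θ x) = θ (k x)) → k ∈ M

namespace SkewRt

variable {θ : V →ₗ[F] V} {δ : F} {M : Subgroup (V ≃ₗ[F] V)}

theorem both (h : SkewRt B θ δ) (x y : V) : B (θ x) (θ y) = -(δ * B x y) := by
  rw [h.skew, h.sq, map_smul, smul_eq_mul]

theorem symm (h : SkewRt B θ δ) (hA : B.IsAlt) (x y : V) : B x (θ y) = B y (θ x) := by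
  rw [← hA.neg_eq, h.skew, neg_neg]

theorem skew0 (h : SkewRt B θ δ) {x y : V} (h' : B (θ x) y = 0) : B x (θ y) = 0 := by
  rwa [h.skew, neg_eq_zero] at h'

theorem exists_ne (h : SkewRt B θ δ) {x : V} (hx : x ≠ 0) : ∃ y, B x (θ y) ≠ 0 := by
  obtain ⟨y, hy⟩ := exists_alt_eq_one h.nondeg hx
  exact ⟨θ y, by simp [h.sq, hy, h.ne]⟩

theorem pInv (h : SkewRt B θ δ) (hA : B.IsAlt) (hM : HasCent B θ M) {v : V}
    (hv : B v (θ v) ≠ 0) : PInv B M v (θ v) := by
  let f : V →ₗ[F] V := LinearMap.id - (2 / B v (θ v)) •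
    ((B.flip (θ v)).smulRight v + (B v).smulRight (θ v))
  have hf : ∀ x, f x = x - (2 / B v (θ v)) • (B x (θ v) • v + B v x • θ v) := fun x => rfl
  have f1 : f v = -v := by
    rw [hf, hA.self_eq_zero, zero_smul, add_zero, smul_smul, div_mul_cancel₀ _ hv]
    module
  have f2 : f (θ v) = -θ v := by
    rw [hf, hA.self_eq_zero, zero_smul, zero_add, smul_smul, div_mul_cancel₀ _ hv]
    module
  have f3 : ∀ y, B v y = 0 → B (θ v) y = 0 → f y = y := fun y h1 h2 => by
    simp [hf, h1, alt_eq_zero_comm hA h2]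
  have hi : Function.Involutive f := fun x => by
    obtain ⟨s, t, y, hy, hy', rfl⟩ := exists_plane_proj hA hv x
    simp [f1, f2, f3 y hy hy']
  refine ⟨hv, LinearEquiv.ofInvolutive f hi, hM _ (fun x x' => ?_) fun x => ?_, f1, f2, f3⟩
  · obtain ⟨s, t, y, hy, hy', rfl⟩ := exists_plane_proj hA hv x
    obtain ⟨s', t', z, hz, hz', rfl⟩ := exists_plane_proj hA hv x'
    simp [f1, f2, f3 y hy hy', f3 z hz hz', hz, hz', alt_eq_zero_comm hA hy,
      alt_eq_zero_comm hA hy', add_comm]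
    ring
  · obtain ⟨s, t, y, hy, hy', rfl⟩ := exists_plane_proj hA hv x
    simp [f1, f2, f3 y hy hy', f3 (θ y) (h.skew0 hy') (by simp [h.both, hy]), h.sq]

theorem short_of_pInv (h : SkewRt B θ δ) (hA : B.IsAlt) (hM : HasCent B θ M) {x b : V}
    (hx : B x (θ x) ≠ 0) (hP : PInv B M x b) (hb : ∀ s t : F, θ x ≠ s • x + t • b) :
    ∃ r, r ≠ 0 ∧ B x r = 0 ∧ B (θ x) r = 0 ∧ altR hA r x ∈ M := by
  have h0 := hP.1
  have h1 := hP.change hA (s := 1) (t := 0) (s' := -(B b (θ x) / B x b))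
    (t' := B x (θ x) / B x b) (by simpa using ⟨hx, h0⟩)
  simp only [one_smul, zero_smul, add_zero] at h1
  set b' := -(B b (θ x) / B x b) • x + (B x (θ x) / B x b) • b with hb'
  have e1 : B x (θ x - b') = 0 := by
    simp only [hb', map_sub, map_add, map_smul, hA.self_eq_zero, smul_eq_mul]
    field_simp
    ring
  have e2 : B b' (θ x) = 0 := by
    simp only [hb', map_add, map_smul, LinearMap.add_apply, LinearMap.smul_apply, smul_eq_mul]
    field_simp
    ring
  have e3 : B b' (θ x - b') = 0 := by simp [e2, hA.self_eq_zero]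
  have e4 : θ x - b' ≠ 0 := sub_ne_zero.2 (hb _ _)
  clear_value b'
  refine ⟨_, smul_ne_zero (div_ne_zero h.two h1.1) e4, by rw [map_smul, e1, smul_zero], ?_,
    h1.altR_mem hA (by simpa using h.pInv hA hM hx) e1 e3⟩
  simp [alt_eq_zero_comm hA e2, hA.self_eq_zero]

theorem short_of_pInv' (h : SkewRt B θ δ) (hA : B.IsAlt) (hM : HasCent B θ M) {a b : V}
    (hP : PInv B M a b) (hb : ∀ s t : F, θ a ≠ s • a + t • b)
    (hx : B a (θ a) ≠ 0 ∨ B b (θ b) ≠ 0 ∨ B (a + b) (θ (a + b)) ≠ 0) :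
    ∃ x r, B x (θ x) ≠ 0 ∧ r ≠ 0 ∧ B x r = 0 ∧ B (θ x) r = 0 ∧ altR hA r x ∈ M := by
  rcases hx with hx | hx | hx
  · exact ⟨a, (h.short_of_pInv hA hM hx hP hb).imp fun r hr => ⟨hx, hr⟩⟩
  · refine ⟨b, (h.short_of_pInv hA hM hx (b := a) (by
      simpa using hP.change hA (s := 0) (t := 1) (s' := 1) (t' := 0) (by simp))
      fun s t e => ?_).imp fun r hr => ⟨hx, hr⟩⟩
    have ht : t ≠ 0 := by
      rintro rfl
      simp [e, hA.self_eq_zero] at hx
    have e' := congrArg θ e
    rw [h.sq, map_add, map_smul, map_smul, e] at e'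
    refine hb (-s) ((δ - s * s) / t) (smul_right_injective V ht ?_)
    simp only [smul_add, smul_smul, mul_div_cancel₀ _ ht]
    linear_combination (norm := module) -e'
  · refine ⟨a + b, (h.short_of_pInv hA hM hx (b := b) (by
      simpa using hP.change hA (s := 1) (t := 1) (s' := 0) (t' := 1) (by simp))
      fun s t e => ?_).imp fun r hr => ⟨hx, hr⟩⟩
    have ht : t ≠ 0 := by
      rintro rfl
      rw [e, zero_smul, add_zero, map_smul, hA.self_eq_zero, smul_zero] at hx
      exact hx rfl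
    have e' := congrArg θ e
    rw [h.sq, map_add θ (s • _), map_smul, map_smul, e] at e'
    rw [map_add] at e
    refine hb (s - (δ - s * s) / t) (s + t + s - (δ - s * s) / t) (smul_right_injective V ht ?_)
    simp only [smul_add, smul_smul, mul_sub, mul_div_cancel₀ _ ht]
    linear_combination (norm := module) t • e + e'

variable [Finite F] [FiniteDimensional F V]

theorem exists_sing (h : SkewRt B θ δ) (hd : 5 ≤ finrank F V) (a b : V) :
    ∃ z, z ≠ 0 ∧ B a z = 0 ∧ B b z = 0 ∧ B z (θ z) = 0 := by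
  have h1 := finrank_inf_orthogonal_ge h.nondeg ⊤ (Submodule.span F {a, b})
  have h2 := spl_finrank_span_pair_le (F := F) a b
  rw [finrank_top] at h1
  obtain ⟨v, hv0, hv⟩ := Cfsg.Lib.Known.exists_isotropic_of_three_le
    ((LinearMap.BilinMap.toQuadraticMap (B.compl₂ θ)).comp
      (⊤ ⊓ B.orthogonal (Submodule.span F {a, b})).subtype) (by omega)
  have h3 := alt_mem_orthogonal.1 v.2.2
  exact ⟨v, by simpa using hv0, h3 _ (mem_span_pair_left _ _), h3 _ (mem_span_pair_right _ _), hv⟩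

theorem exists_ne_orth (h : SkewRt B θ δ) (hA : B.IsAlt) {a z : V} (ha : B a (θ a) ≠ 0)
    (hz : z ≠ 0) (h1 : B a z = 0) (h2 : B (θ a) z = 0) :
    ∃ y, B a y = 0 ∧ B (θ a) y = 0 ∧ B z (θ y) ≠ 0 := by
  obtain ⟨y, hy⟩ := h.exists_ne hz
  obtain ⟨s, t, y, e1, e2, rfl⟩ := exists_plane_proj hA ha y
  exact ⟨y, e1, e2, by simpa [h.sq, alt_eq_zero_comm hA h1, alt_eq_zero_comm hA h2] using hy⟩

/-- The singular vectors span the orthogonal complement of an invariant plane. -/
theorem mem_of_sing (h : SkewRt B θ δ) (hA : B.IsAlt) (hd : 5 ≤ finrank F V) {a : V}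
    (ha : B a (θ a) ≠ 0) (N : Submodule F V)
    (hN : ∀ z, B a z = 0 → B (θ a) z = 0 → B z (θ z) = 0 → z ∈ N) {b : V} (h1 : B a b = 0)
    (h2 : B (θ a) b = 0) : b ∈ N := by
  obtain ⟨z, hz0, z1, z2, hz⟩ := h.exists_sing hd a (θ a)
  have key : ∀ b, B a b = 0 → B (θ a) b = 0 → B z (θ b) ≠ 0 → b ∈ N := by
    intro b h1 h2 hb
    have := hN (b - (B b (θ b) / (2 * B z (θ b))) • z) (by simp [h1, z1]) (by simp [h2, z2]) (by
      simp only [map_sub, map_smul, LinearMap.sub_apply, LinearMap.smul_apply, hz,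
        h.symm hA b z, smul_eq_mul]
      have := h.two
      field_simp
      ring)
    simpa using N.add_mem this (N.smul_mem (B b (θ b) / (2 * B z (θ b))) (hN z z1 z2 hz))
  by_cases hb : B z (θ b) = 0
  · obtain ⟨y, y1, y2, hy⟩ := h.exists_ne_orth hA ha hz0 z1 z2
    simpa using N.sub_mem (key (b + y) (by simp [h1, y1]) (by simp [h2, y2]) (by simpa [hb]))
      (key y y1 y2 hy)
  · exact key b h1 h2 hb

theorem nonsing_or (h : SkewRt B θ δ) (hA : B.IsAlt) {y z : V} (hy : B z (θ y) ≠ 0) :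
    B z (θ z) ≠ 0 ∨ B y (θ y) ≠ 0 ∨ B (z + y) (θ (z + y)) ≠ 0 := by
  by_contra! hcon
  have := hcon.2.2
  simp only [map_add, LinearMap.add_apply, hcon.1, hcon.2.1, h.symm hA y z] at this
  exact mul_ne_zero h.two hy (by linear_combination this)

theorem eq_or_neg (h : SkewRt B θ δ) (hA : B.IsAlt) (hd : 5 ≤ finrank F V) {φ : V →ₗ[F] V}
    (h' : SkewRt B φ δ) (hφ : ∀ v, B v (θ v) ≠ 0 → ∃ s t : F, φ v = s • v + t • θ v) :
    (∀ x, φ x = θ x) ∨ ∀ x, φ x = -θ x := by
  obtain ⟨a, ha⟩ : ∃ a, B a (θ a) ≠ 0 := by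
    obtain ⟨z, hz, -⟩ := h.exists_sing hd 0 0
    obtain ⟨y, hy⟩ := h.exists_ne hz
    rcases h.nonsing_or hA hy with h1 | h1 | h1 <;> exact ⟨_, h1⟩
  obtain ⟨s, t, e⟩ := hφ a ha
  obtain ⟨s₁, t₁, e₁⟩ := hφ (θ a) (by simpa [h.both, h.ne] using ha)
  have hY : ∀ b, B a b = 0 → B (θ a) b = 0 → φ b = s • b + t • θ b := by
    intro b h1 h2
    refine sub_eq_zero.1 (LinearMap.mem_ker.1 (h.mem_of_sing hA hd ha
      (LinearMap.ker (φ - (s • LinearMap.id + t • θ))) (fun z z1 z2 hz => ?_) h1 h2))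
    have z3 := h.skew0 z2
    obtain ⟨s', t', e'⟩ := hφ (a + z) (by simpa [hz, z3, alt_eq_zero_comm hA z2] using ha)
    have e1 := congrArg (B (θ a)) e'
    have e2 := congrArg (B a) e'
    have e3 : B (θ a) (φ z) = 0 := h'.skew0 (by simp [e₁, z1, z2, h.sq])
    have e4 : B a (φ z) = 0 := h'.skew0 (by simp [e, z1, z2])
    simp only [map_add, map_smul, e, e3, e4, z1, z2, z3, h.both, hA.self_eq_zero,
      smul_eq_mul] at e1 e2
    have hs : s = s' := mul_right_cancel₀ (alt_ne_zero_comm hA ha) (by linear_combination e1)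
    have ht : t = t' := mul_right_cancel₀ ha (by linear_combination e2)
    rw [← hs, ← ht, map_add, map_add, e] at e'
    rw [LinearMap.mem_ker]
    simp only [LinearMap.sub_apply, LinearMap.add_apply, LinearMap.smul_apply, LinearMap.id_apply]
    linear_combination (norm := module) e'
  obtain ⟨b, b1, b2, hb⟩ : ∃ b, B a b = 0 ∧ B (θ a) b = 0 ∧ B b (θ b) ≠ 0 := by
    obtain ⟨z, hz0, z1, z2, -⟩ := h.exists_sing hd a (θ a)
    obtain ⟨y, y1, y2, hy⟩ := h.exists_ne_orth hA ha hz0 z1 z2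
    rcases h.nonsing_or hA hy with h1 | h1 | h1
    exacts [⟨z, z1, z2, h1⟩, ⟨y, y1, y2, h1⟩, ⟨z + y, by simp [z1, y1], by simp [z2, y2], h1⟩]
  have e2 := hY b b1 b2
  have e3 := hY (θ b) (h.skew0 b2) (by simp [h.both, b1])
  have hs : s = 0 := by
    have := h'.skew b (θ b)
    simp only [e2, e3, h.sq, map_add, map_smul, LinearMap.add_apply, LinearMap.smul_apply,
      hA.self_eq_zero, smul_eq_mul] at this
    exact (mul_eq_zero.1 (show s * (2 * B b (θ b)) = 0 by linear_combination this)).resolve_right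
      (mul_ne_zero h.two hb)
  subst hs
  simp only [zero_smul, zero_add] at e e2 e3 hY
  have ht : t * t = 1 := by
    have := congrArg (B · (θ b)) (h'.sq b)
    simp only [e2, e3, h.sq, map_smul, LinearMap.smul_apply, smul_eq_mul] at this
    exact mul_right_cancel₀ (mul_ne_zero h.ne hb) (by linear_combination this)
  have e4 : φ (θ a) = t • θ (θ a) := by
    have := h'.sq a
    rw [e, map_smul] at this
    rw [h.sq, ← this, smul_smul, ht, one_smul]
  have hall : ∀ x, φ x = t • θ x := fun x => by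
    obtain ⟨c, d, y, y1, y2, rfl⟩ := exists_plane_proj hA ha x
    simp only [map_add, map_smul, e, e4, hY y y1 y2]
    module
  rcases mul_self_eq_one_iff.1 ht with rfl | rfl
  · exact Or.inl (by simpa using hall)
  · exact Or.inr (by simpa using hall)

/-- An overgroup of the centraliser of `θ` not normalising it contains a short root element. -/
theorem exists_short (h : SkewRt B θ δ) (hA : B.IsAlt) (hd : 5 ≤ finrank F V)
    (hM : HasCent B θ M) (hle : M ≤ SpB B) {g : V ≃ₗ[F] V} (hg : g ∈ M)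
    (hg1 : ¬ ∀ x, θ (g x) = g (θ x)) (hg2 : ¬ ∀ x, θ (g x) = -g (θ x)) :
    ∃ x r, B x (θ x) ≠ 0 ∧ r ≠ 0 ∧ B x r = 0 ∧ B (θ x) r = 0 ∧ altR hA r x ∈ M := by
  obtain ⟨v, hv, hb⟩ : ∃ v, B v (θ v) ≠ 0 ∧ ∀ s t : F, θ (g v) ≠ s • g v + t • g (θ v) := by
    by_contra! hcon
    rcases h.eq_or_neg hA hd (φ := (g.symm : V →ₗ[F] V) ∘ₗ θ ∘ₗ (g : V →ₗ[F] V))
      ⟨h.nondeg, h.two, fun x => by simp [h.sq], h.ne, fun x y => by
        simp only [LinearMap.comp_apply, LinearEquiv.coe_coe]
        rw [SpB_symm_left (hle hg), h.skew, ← mem_SpB.1 (hle hg) x, g.apply_symm_apply]⟩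
      (fun v hv => (hcon v hv).imp fun s hs => hs.imp fun t e => by simp [e]) with h1 | h1
    · exact hg1 fun x => by simpa using congrArg g (h1 x)
    · exact hg2 fun x => by simpa using congrArg g (h1 x)
  have hP := (h.pInv hA hM hv).conj hg (hle hg)
  set a := g v
  set b := g (θ v)
  by_cases hx : B a (θ a) ≠ 0 ∨ B b (θ b) ≠ 0 ∨ B (a + b) (θ (a + b)) ≠ 0
  · exact h.short_of_pInv' hA hM hP hb hx
  have hab : B a (θ b) = 0 := by
    by_contra h'
    exact hx (h.nonsing_or hA h')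
  push Not at hx
  have hba : B b (θ a) = 0 := by rw [h.symm hA, hab]
  have h0 := hP.1
  have h0' : B (θ a) (θ b) ≠ 0 := by simpa [h.both, h.ne] using h0
  obtain ⟨y, y1, y2, y3, y4, hy⟩ : ∃ y, B a y = 0 ∧ B b y = 0 ∧ B (θ a) y = 0 ∧ B (θ b) y = 0 ∧
      B y (θ y) ≠ 0 := by
    have h1 := finrank_inf_orthogonal_ge h.nondeg ⊤ (Submodule.span F {θ a, θ b})
    have h2 := spl_finrank_span_pair_le (F := F) a b
    have h3 := spl_finrank_span_pair_le (F := F) (θ a) (θ b)
    rw [finrank_top] at h1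
    obtain ⟨z, hz, hz0, hz'⟩ := exists_mem_orth_notMem h.nondeg
      (⊤ ⊓ B.orthogonal (Submodule.span F {θ a, θ b})) (Submodule.span F {a, b}) ⊥
      (by rw [finrank_bot]; omega)
    have z1 := hz' _ (mem_span_pair_left _ _)
    have z2 := hz' _ (mem_span_pair_right _ _)
    have z3 := alt_mem_orthogonal.1 hz.2 _ (mem_span_pair_left _ _)
    have z4 := alt_mem_orthogonal.1 hz.2 _ (mem_span_pair_right _ _)
    obtain ⟨y, hy⟩ := h.exists_ne (x := z) (by simpa using hz0)
    obtain ⟨s, t, y, e1, e2, rfl⟩ := exists_plane_proj hA h0 y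
    obtain ⟨s', t', y, e3, e4, rfl⟩ := exists_plane_proj hA h0' y
    simp only [map_add, map_smul, hx.1, hx.2.1, hab, hba, smul_zero, zero_add] at e1 e2
    simp only [map_add, map_smul, h.sq, alt_eq_zero_comm hA z1, alt_eq_zero_comm hA z2,
      alt_eq_zero_comm hA z3, alt_eq_zero_comm hA z4, smul_zero, zero_add] at hy
    rcases h.nonsing_or hA hy with h1 | h1 | h1
    exacts [⟨z, z1, z2, z3, z4, h1⟩, ⟨y, e1, e2, e3, e4, h1⟩,
      ⟨z + y, by simp [z1, e1], by simp [z2, e2], by simp [z3, e3], by simp [z4, e4], h1⟩]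
  obtain ⟨-, k, hk, k1, -, k3⟩ := hP
  have y5 := h.skew0 y3
  have y6 := h.skew0 y4
  have hP' := (h.pInv hA hM (v := a + y)
    (by simpa [hx.1, y5, alt_eq_zero_comm hA y3] using hy)).conj hk (hle hk)
  simp only [map_add, k1, k3 y y1 y2, k3 _ hx.1 hba, k3 _ y5 y6] at hP'
  refine h.short_of_pInv' hA hM hP' (fun s t e => ?_)
    (Or.inl (by simpa [hx.1, y5, alt_eq_zero_comm hA y3] using hy))
  have e1 := congrArg (B (θ b)) e
  have e2 := congrArg (B y) e
  simp only [map_add, map_neg, map_smul, h.both, y2, y4, alt_eq_zero_comm hA hab,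
    alt_eq_zero_comm hA y1, alt_eq_zero_comm hA y3, hA.self_eq_zero, smul_eq_mul] at e1 e2
  have h1 : t = -1 := mul_right_cancel₀ (mul_ne_zero h.ne (alt_ne_zero_comm hA h0))
    (by linear_combination e1)
  exact mul_ne_zero h.two hy (by rw [h1] at e2; linear_combination e2)

end SkewRt

end Cfsg.Lib.Class
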