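import Cfsg.Agent.Class.SubfieldSL

/-!
Subfield subgroups of special linear groups in dimension at least four.
-/

set_option autoImplicit false

namespace Cfsg.Lib.Class

open Module Cfsg.Geo
open scoped MatrixGroups

variable {F V : Type*} [Field F] [AddCommGroup V] [Module F V] {ι : Type} [Fintype ι]
  [DecidableEq ι] {F₀ : Subfield F} {e : V ≃ₗ[F] (ι → F)} {M : Subgroup (V ≃ₗ[F] V)}

namespace HasRatTv

variable [Fintype F]

theorem vec' (hM : HasRatTv F₀ e M) (hn : 4 ≤ Fintype.card ι) {a : V} {φ : Dual F V} {c : F}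
    (ha : IsRat F₀ e a) (ha0 : a ≠ 0) (hφ : IsRatF F₀ e φ) (h : TvIn M (c • a) φ) {b : V}
    (hb : IsRat F₀ e b) (hφb : φ b = 0) : TvIn M (c • b) φ := by
  have key : ∀ b, IsRat F₀ e b → φ b = 0 → b ∉ spanL F [a] → TvIn M (c • b) φ := by
    intro b hb hφb hba
    obtain ⟨ψ, h1, h2, h3⟩ := exists_ratF_eq_one (s := [b]) (by simpa using hb) ha
      (notMem_spanL_singleton_symm hba ha0)
    simpa [h3] using h.comm (hM b ψ hb h1 (h2 b (by simp))) hφb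
  obtain ⟨w, h1, h2, h3⟩ := exists_rat_ker (F₀ := F₀) (e := e) (l := [φ]) (by simpa using hφ) [a, b] (by simp; omega)
  have h2 := h2 φ (by simp)
  have := (key (b + w) (hb.add h1) (by simp [hφb, h2]) fun h' => h3 (by
    have := Submodule.sub_mem _ (spanL_mono (t := [a, b]) (by simp) h')
      (mem_spanL_of_mem (y := b) (by simp))
    simpa using this)).sub_left (key w h1 h2 fun h' => h3 (spanL_mono (by simp) h'))
  simpa using this

theorem fn' (hM : HasRatTv F₀ e M) (hn : 4 ≤ Fintype.card ι) {a : V} {φ : Dual F V} {c : F}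
    (ha : IsRat F₀ e a) (hφ0 : φ ≠ 0) (hφ : IsRatF F₀ e φ) (h : TvIn M (c • a) φ) {ψ : Dual F V}
    (hψ : IsRatF F₀ e ψ) (hψa : ψ a = 0) : TvIn M (c • a) ψ := by
  have key : ∀ ψ, IsRatF F₀ e ψ → ψ a = 0 → ψ ∉ spanL F [φ] → TvIn M (c • a) ψ := by
    intro ψ hψ hψa hψφ
    obtain ⟨b, h1, h2, h3⟩ := exists_rat_ne (l := [ψ]) (by simpa using hψ)
      (notMem_spanL_singleton_symm hψφ hφ0)
    simpa [h3] using h.comm' (hM ((φ b)⁻¹ • b) ψ (h1.smul (inv_mem (hφ b h1))) hψ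
      (by simp [h2 ψ (by simp)])) (by simp [hψa])
  obtain ⟨χ, h1, h2, h3⟩ := exists_ratF_ker (F₀ := F₀) (e := e) (s := [a]) (by simpa using ha) [φ, ψ] (by simp; omega)
  have h2 := h2 a (by simp)
  have := (key (ψ + χ) (hψ.add h1) (by simp [hψa, h2]) fun h' => h3 (by
    have := Submodule.sub_mem _ (spanL_mono (t := [φ, ψ]) (by simp) h')
      (mem_spanL_of_mem (y := ψ) (by simp))
    simpa using this)).sub_right (key χ h1 h2 fun h' => h3 (spanL_mono (by simp) h'))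
  simpa using this

theorem mem_of_tvIn' (hM : HasRatTv F₀ e M) (hn : 4 ≤ Fintype.card ι) {r : ℕ} (hr : r.Prime)
    (hcard : Fintype.card F = Nat.card F₀ ^ r) (hne : ¬ SLV F V ≤ M) {a : V} {φ : Dual F V}
    {c : F} (ha : IsRat F₀ e a) (ha0 : a ≠ 0) (hφ : IsRatF F₀ e φ) (hφ0 : φ ≠ 0)
    (h : TvIn M (c • a) φ) : c ∈ F₀ := by
  by_contra hc
  refine hne (SLV_le_of_elementary e M fun i j hij d => forall_of_prime_index hr hcard
    (p := fun c => ∀ b ψ, IsRat F₀ e b → IsRatF F₀ e ψ → ψ b = 0 → TvIn M (c • b) ψ)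
    (fun c hc b ψ hb hψ h0 => hM _ _ (hb.smul hc) hψ (by simp [h0]))
    (fun c d hc hd b ψ hb hψ h0 => add_smul c d b ▸ (hc b ψ hb hψ h0).add_left (hd b ψ hb hψ h0))
    (fun c d hc hd b ψ hb hψ h0 => ?_) (fun b ψ hb hψ h0 => ?_) hc d _ _ (isRat_ratB i)
    (isRatF_ratC j) (by simp [hij.symm]))
  · obtain ⟨w, h1, h2, h3⟩ := exists_rat_ker (F₀ := F₀) (e := e) (l := [ψ]) (by simpa using hψ) [b] (by simp; omega)
    obtain ⟨χ, h4, h5, h6⟩ := exists_ratF_eq_one (s := [b]) (by simpa using hb) h1 h3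
    simpa [h6, smul_smul] using (hc w ψ h1 hψ (h2 ψ (by simp))).comm
      (hd b χ hb h4 (h5 b (by simp))) (by simp [h0])
  · obtain ⟨w, h1, h2, h3⟩ := exists_rat_ker (F₀ := F₀) (e := e) (l := [φ, ψ]) (by simp [hφ, hψ]) [] (by simp; omega)
    exact hM.vec' hn h1 (ne_zero_of_notMem_spanL h3) hψ (hM.fn' hn h1 hφ0 hφ
      (hM.vec' hn ha ha0 hφ h h1 (h2 φ (by simp))) hψ (h2 ψ (by simp))) hb h0

theorem exists_smul_isRat' (hM : HasRatTv F₀ e M) (hn : 4 ≤ Fintype.card ι) {r : ℕ} (hr : r.Prime)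
    (hcard : Fintype.card F = Nat.card F₀ ^ r) (hne : ¬ SLV F V ≤ M) {u : V} {ψ : Dual F V}
    (hψ0 : ψ ≠ 0) (h : TvIn M u ψ) : ∃ c : F, c ≠ 0 ∧ IsRat F₀ e (c • u) := by
  have E0 : ∀ {b : V} {μ : F} {χ : Dual F V}, IsRat F₀ e b → b ≠ 0 → TvIn M (μ • b) χ →
      IsRatF F₀ e (μ • χ) := by
    intro b μ χ hb hb0 h x hx
    obtain ⟨φ, h1, h2, h3⟩ := exists_ratF_ker (F₀ := F₀) (e := e) (s := [b, x]) (by simp [hb, hx]) [] (by simp; omega)
    have := h.comm' (hM x φ hx h1 (h2 x (by simp))) (by simp [h2 b (by simp)])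
    rw [← TvIn.smul_iff, smul_smul, mul_comm] at this
    exact hM.mem_of_tvIn' hn hr hcard hne hb hb0 h1 (ne_zero_of_notMem_spanL h3) this
  have E0' : ∀ {μ : F} {φ : Dual F V}, IsRatF F₀ e φ → φ ≠ 0 → TvIn M u (μ • φ) → μ ≠ 0 →
      ∃ c : F, c ≠ 0 ∧ IsRat F₀ e (c • u) := by
    intro μ φ hφ hφ0 h hμ
    refine ⟨μ, hμ, fun i => ?_⟩
    obtain ⟨w, h1, h2, h3⟩ := exists_rat_ker (F₀ := F₀) (e := e) (l := [φ, ratC e i]) (by simp [hφ, isRatF_ratC]) []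
      (by simp; omega)
    rw [← TvIn.smul_iff] at h
    exact hM.mem_of_tvIn' hn hr hcard hne h1 (ne_zero_of_notMem_spanL h3) hφ hφ0
      (h.comm (hM w _ h1 (isRatF_ratC i) (h2 _ (by simp))) (h2 φ (by simp)))
  by_cases hard : ∃ φ, IsRatF F₀ e φ ∧ φ ≠ 0 ∧ φ u = 0
  · obtain ⟨φ, hφ, hφ0, hφu⟩ := hard
    by_cases hψφ : ψ ∈ spanL F [φ]
    · obtain ⟨μ, rfl⟩ := mem_spanL_singleton.1 hψφ
      exact E0' hφ hφ0 h (by rintro rfl; simp at hψ0)
    · obtain ⟨b, h1, h2, h3⟩ := exists_rat_ne (l := [φ]) (by simpa using hφ) hψφ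
      exact E0' hφ hφ0 (h.comm' (hM b φ h1 hφ (h2 φ (by simp))) hφu) h3
  exfalso
  push Not at hard
  obtain ⟨b, hb, -, hψb⟩ := exists_rat_ne (F₀ := F₀) (e := e) (l := []) (by simp) (ψ := ψ)
    (by simpa [spanL] using hψ0)
  have hb0 : b ≠ 0 := by rintro rfl; simp at hψb
  obtain ⟨φ₁, h1, hb1, hφ₁⟩ := exists_ratF_ker (F₀ := F₀) (e := e) (s := [b]) (by simpa using hb) [] (by simp; omega)
  obtain ⟨φ₂, h2, hb2, hφ₂⟩ := exists_ratF_ker (F₀ := F₀) (e := e) (s := [b]) (by simpa using hb) [φ₁]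
    (by simp; omega)
  have hb1 := hb1 b (by simp)
  have hb2 := hb2 b (by simp)
  have hu1 := hard _ h1 (ne_zero_of_notMem_spanL hφ₁)
  have hu2 := hard _ h2 (ne_zero_of_notMem_spanL hφ₂)
  have hu12 : ∀ c ∈ F₀, φ₂ u ≠ c * φ₁ u := fun c hc h' =>
    hard _ (h2.sub (h1.smul hc)) (fun h0 => hφ₂ (mem_spanL_singleton.2 ⟨c, (sub_eq_zero.1 h0).symm⟩))
      (by simp [h'])
  have hU : ∀ φ, IsRatF F₀ e φ → φ b = 0 →
      slU (φ u) ∈ planeAct (M ⊓ trivMod (spanL F [b, u])) ⊥ (by simp) b u := by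
    intro φ hφ hφb
    obtain ⟨-, y, hy, ey⟩ := hM b φ hb hφ hφb
    refine ⟨y, ⟨hy, fun x => ?_⟩, by simp [ey, hφb], by simp [ey, add_comm]⟩
    simpa [ey] using Submodule.smul_mem _ _ (mem_spanL_of_mem (by simp))
  have hV : slV (ψ b) ∈ planeAct (M ⊓ trivMod (spanL F [b, u])) ⊥ (by simp) b u := by
    obtain ⟨h0, y, hy, ey⟩ := h
    refine ⟨y, ⟨hy, fun x => ?_⟩, by simp [ey], by simp [ey, h0]⟩
    simpa [ey] using Submodule.smul_mem _ _ (mem_spanL_of_mem (by simp))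
  refine hψb (sl2_fix_of_unipotent _ ?_ hu1 hu2 (by simpa using (hu12 1 (one_mem _)).symm)
      (hU _ h1 hb1) (hU _ h2 hb2) hV)
  rintro A ⟨y, ⟨hy, hyt⟩, e1, e2⟩ hA
  have hd := sl2c_det A
  rw [Submodule.mem_bot, sub_eq_zero] at e1 e2
  rw [hA, zero_smul, add_zero] at e1
  rw [hA, mul_zero, sub_zero] at hd
  have hrat : ∀ φ, IsRatF F₀ e φ → φ b = 0 → IsRatF F₀ e (A 0 0 • φ ∘ₗ (y.symm : V →ₗ[F] V)) :=
    fun φ hφ hφb => E0 hb hb0 (e1 ▸ (hM b φ hb hφ hφb).conj' hy)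
  have hD : ∀ φ : Dual F V, φ b = 0 → ∀ x,
      φ u * (φ₁ (y.symm x) - φ₁ x) = φ₁ u * (φ (y.symm x) - φ x) := by
    intro φ hφb x
    obtain ⟨α, β, hx⟩ := mem_spanL_pair.1 ((trivMod _).inv_mem hyt x)
    rw [← map_sub, ← map_sub, ← LinearEquiv.coe_inv, ← hx]
    simp only [map_add, map_smul, hφb, hb1, smul_eq_mul]
    ring
  have hA0 : A 0 0 ≠ 0 := left_ne_zero_of_mul_eq_one hd
  have hAF : A 0 0 ∈ F₀ := by
    obtain ⟨φ₃, h3, hb3, hφ₃⟩ := exists_ratF_ker (F₀ := F₀) (e := e) (s := [b]) (by simpa using hb)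
      [φ₁, A 0 0 • φ₁ ∘ₗ (y.symm : V →ₗ[F] V)] (by simp; omega)
    have hb3 := hb3 b (by simp)
    obtain ⟨x, hx, hx0, hx3⟩ := exists_rat_ne (F₀ := F₀) (e := e) (by simp [h1, hrat _ h1 hb1]) hφ₃
    simp only [List.forall_mem_cons, List.not_mem_nil, false_imp_iff, imp_true_iff, and_true,
      LinearMap.smul_apply, LinearMap.coe_comp, Function.comp_apply, LinearEquiv.coe_coe,
      smul_eq_mul, mul_eq_zero, hA0, false_or] at hx0
    have h4 := hD φ₃ hb3 x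
    rw [hx0.1, hx0.2, sub_zero, mul_zero, eq_comm, mul_eq_zero, sub_eq_zero] at h4
    have h5 := div_mem (hrat _ h3 hb3 x hx) (h3 x hx)
    simpa [h4.resolve_left hu1, hx3] using h5
  have hD1 : φ₁ ∘ₗ (y.symm : V →ₗ[F] V) - φ₁ = 0 := by
    by_contra h0
    obtain ⟨x, hx, -, hx0⟩ := exists_rat_ne (F₀ := F₀) (e := e) (l := []) (by simp)
      (ψ := φ₁ ∘ₗ (y.symm : V →ₗ[F] V) - φ₁) (by simpa [spanL] using h0)
    have key : ∀ φ, IsRatF F₀ e φ → φ b = 0 → φ (y.symm x) - φ x ∈ F₀ := fun φ hφ hφb =>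
      sub_mem (by simpa [hA0] using mul_mem (inv_mem hAF) (hrat φ hφ hφb x hx)) (hφ x hx)
    refine hu12 _ (div_mem (key _ h2 hb2) (key _ h1 hb1)) ?_
    have hx0 : φ₁ (y.symm x) - φ₁ x ≠ 0 := hx0
    rw [div_mul_eq_mul_div, eq_div_iff hx0, hD φ₂ hb2 x, mul_comm]
  have h6 := LinearMap.congr_fun hD1 (y u)
  simp only [LinearMap.sub_apply, LinearMap.coe_comp, Function.comp_apply, LinearEquiv.coe_coe,
    LinearEquiv.symm_apply_apply, LinearMap.zero_apply] at h6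
  rw [e2, map_add, map_smul, map_smul, hb1, smul_zero, zero_add, smul_eq_mul, sub_eq_zero, eq_comm,
    mul_eq_right₀ hu1] at h6
  rwa [h6, mul_one] at hd

end HasRatTv

theorem isMaximalIn_ratG' [Fintype F] (hn : 4 ≤ Fintype.card ι) {r : ℕ} (hr : r.Prime)
    (hcard : Fintype.card F = Nat.card F₀ ^ r) :
    IsMaximalIn (SLV F V) (ratG F₀ e ⊓ SLV F V) := by
  have : FiniteDimensional F V := e.symm.finiteDimensional
  refine isMaximalIn_of_forall inf_le_right (fun hle => ?_) fun M hM hMK g hg hgH => ?_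
  · obtain ⟨c, hc⟩ := exists_notMem_of_prime_index hr hcard
    obtain ⟨i, j, hij⟩ := Fintype.exists_pair_of_one_lt_card (α := ι) (by omega)
    obtain ⟨-, k, hk, ek⟩ := tvIn_SLV (a := c • ratB e i) (φ := ratC e j) (by simp [hij.symm])
    obtain ⟨d, hd0, hd⟩ := (hle hk).1
    have h1 := hd _ (isRat_ratB j) j
    have h2 := hd _ (isRat_ratB j) i
    simp [ek, hij, hij.symm] at h1 h2
    exact hc (by simpa [hd0] using mul_mem (inv_mem h1) h2)
  · by_contra hne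
    have hM' : HasRatTv F₀ e M := fun a φ ha hφ h0 => TvIn.of_forall_mem h0 fun k hk =>
      hM ⟨mem_ratG_of_rat fun v hv => hk v ▸ hv.add (ha.smul (hφ v hv)), mem_SLV_of_tv h0 hk⟩
    refine hgH ⟨mem_ratG_of_forall fun v hv => ?_, hMK hg⟩
    obtain ⟨φ, h1, h2, h3⟩ := exists_ratF_ker (F₀ := F₀) (e := e) (s := [v]) (by simpa using hv) [] (by simp; omega)
    refine hM'.exists_smul_isRat' hn hr hcard hne (fun h0 => ne_zero_of_notMem_spanL h3 ?_)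
      ((hM' v φ hv h1 (h2 v (by simp))).conj' hg)
    ext x
    simpa using LinearMap.congr_fun h0 (g x)

end Cfsg.Lib.Class
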