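import Cfsg.Agent.Class.SubfieldSL
import Cfsg.Agent.Class.HermMax

/-!
Maximality of subfield subgroups of odd prime index in the special unitary group.
-/

set_option autoImplicit false
set_option linter.unusedSectionVars false

namespace Cfsg.Lib.Class.Form

open Module Cfsg.Geo
open scoped MatrixGroups

variable {F V : Type*} [Field F] [AddCommGroup V] [Module F V] {ι : Type} [Fintype ι]
  [DecidableEq ι] {σ : F →+* F} {B : V →ₛₗ[σ] V →ₗ[F] F}

/-- `M` contains the short root element with data `z, w`. -/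
def Sh (M : Subgroup (isomGroup B)) (z w : V) : Prop :=
  ∃ g ∈ M, ∀ x, (g : V ≃ₗ[F] V) x = x + B z x • w - B w x • z

variable {M : Subgroup (isomGroup B)}

theorem Sh.symm (h : Herm B) {z w : V} {c : F} (hs : Sh M z (c • w)) : Sh M w (-σ c • z) := by
  obtain ⟨g, hg, e⟩ := hs
  refine ⟨g, hg, fun x => ?_⟩
  simp only [e, map_smulₛₗ, LinearMap.smul_apply, smul_eq_mul, map_neg, h.invol]
  module

theorem Sh.symm' (h : Herm B) {z w : V} {c : F} (hs : Sh M z (-σ c • w)) : Sh M w (c • z) := by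
  simpa [h.invol] using hs.symm h

theorem Sh.add (h : Herm B) {z w w' : V} (hz : B z z = 0) (h1 : B z w = 0) (h2 : B z w' = 0)
    (h3 : B w w' = 0) (hs : Sh M z w) (hs' : Sh M z w') : Sh M z (w + w') := by
  obtain ⟨g, hg, e⟩ := hs
  obtain ⟨g', hg', e'⟩ := hs'
  refine ⟨g * g', M.mul_mem hg hg', fun x => ?_⟩
  simp only [isom_mul_apply, e, e', map_add, map_sub, map_smul, LinearMap.add_apply, smul_eq_mul,
    hz, h2, h3, h.comm h1]
  module

variable [FiniteDimensional F V]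

theorem Sh.mem (h : Herm B) {z w : V} (hz : B z z = 0) (h1 : B z w = 0) (h2 : B w w = 0)
    (hs : Sh M z w) : w ∈ h.eichSub M hz := by
  obtain ⟨g, hg, e⟩ := hs
  refine ⟨h1, 0, by simp [h2], ?_⟩
  convert hg using 1
  exact isom_ext fun x => by simp [h.eich_apply, e]

theorem Herm.sh_of_move (h : Herm B) {z w y : V} {hz : B z z = 0} (hw : w ∈ h.eichSub M hz)
    {g : isomGroup B} (hg : g ∈ M) (hgz : (g : V ≃ₗ[F] V) z = z)
    (hgw : (g : V ≃ₗ[F] V) w = w + y) (hy : B y w = 0) : Sh M z y := by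
  obtain ⟨hw, b, hb, hm⟩ := hw
  have h1 : B z (w + y) = 0 := by rw [← hgw, ← hgz, isom_apply, hw]
  have h2 : b + σ b = B (w + y) (w + y) := by rw [← hgw, isom_apply, hb]
  have h3 := M.mul_mem (M.mul_mem (M.mul_mem hg hm) (M.inv_mem hg)) (M.inv_mem hm)
  rw [h.conj_eich g hz hw b hb hgz hgw hz h1 h2] at h3
  refine ⟨_, h3, fun x => ?_⟩
  obtain ⟨x, rfl⟩ := (h.eich hz hw b hb : V ≃ₗ[F] V).surjective x
  have h4 : B y z = 0 := h.comm (by simpa [hw] using h1)
  rw [isom_mul_apply, isom_inv_apply]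
  simp only [h.eich_apply, map_add, map_sub, map_smul, LinearMap.add_apply, smul_eq_mul, hz, hw, hy,
    h4]
  module

/-- A subgroup containing the rational elements of `SU`. -/
structure RatSU (F₀ : Subfield F) (e : V ≃ₗ[F] (ι → F)) (M : Subgroup (isomGroup B)) : Prop where
  herm : Herm B
  rat : ∀ u v, IsRat F₀ e u → IsRat F₀ e v → B u v ∈ F₀
  sig : ∀ a ∈ F₀, σ a ∈ F₀
  nfix : ∃ θ ∈ F₀, σ θ ≠ θ
  mem : ∀ g ∈ sIsom B, (∀ v, IsRat F₀ e v → IsRat F₀ e ((g : V ≃ₗ[F] V) v)) → g ∈ M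
  big : 11 ≤ Fintype.card ι

namespace RatSU

variable [Fintype F] {F₀ : Subfield F} {e : V ≃ₗ[F] (ι → F)}

theorem res (h : RatSU F₀ e M) : ∃ τ : F₀ →+* F₀, τ ≠ RingHom.id F₀ ∧ (∀ a, τ (τ a) = a) ∧
    ∀ a, (τ a : F) = σ a := by
  obtain ⟨θ, h1, h2⟩ := h.nfix
  refine ⟨σ.restrict F₀ F₀ h.sig, fun h' => h2 ?_, fun a => Subtype.ext (h.herm.invol a),
    fun _ => rfl⟩
  exact congrArg Subtype.val (RingHom.congr_fun h' ⟨θ, h1⟩)

theorem exists_trace (h : RatSU F₀ e M) {w : V} (hw : IsRat F₀ e w) :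
    ∃ b ∈ F₀, b + σ b = B w w := by
  obtain ⟨τ, h1, h2, h3⟩ := h.res
  obtain ⟨s, hs⟩ := exists_trace_eq h1 h2 (n := ⟨B w w, h.rat _ _ hw hw⟩)
    (Subtype.ext ((h3 _).trans (h.herm.conj _ _)))
  exact ⟨s, s.2, by rw [← h3]; exact congrArg Subtype.val hs⟩

theorem exists_norm (h : RatSU F₀ e M) {c : F} (hc : c ∈ F₀) (hc' : σ c = c) :
    ∃ b ∈ F₀, σ b * b = c := by
  obtain ⟨τ, h1, h2, h3⟩ := h.res
  obtain ⟨s, hs⟩ := exists_norm_eq h1 h2 (μ := ⟨c, hc⟩) (Subtype.ext ((h3 _).trans hc'))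
  exact ⟨s, s.2, by rw [← h3]; exact congrArg Subtype.val hs⟩

theorem exists_delta (h : RatSU F₀ e M) : ∃ δ ∈ F₀, δ ≠ 0 ∧ δ + σ δ = 0 := by
  obtain ⟨θ, h1, h2⟩ := h.nfix
  exact ⟨θ - σ θ, sub_mem h1 (h.sig _ h1), sub_ne_zero.2 h2.symm, by simp [h.herm.invol]⟩

theorem transv_mem (h : RatSU F₀ e M) {a : V} (ha : IsRat F₀ e a) (haa : B a a = 0) {c : F}
    (hc : c ∈ F₀) (hc' : c + σ c = 0) : h.herm.transv a haa c hc' ∈ M :=
  h.mem _ (h.herm.transv_mem_sIsom ..) fun v hv => by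
    rw [h.herm.transv_apply]
    exact hv.add (ha.smul (mul_mem hc (h.rat _ _ ha hv)))

theorem eich_mem (h : RatSU F₀ e M) {z w : V} (hz : IsRat F₀ e z) (hw : IsRat F₀ e w)
    (hzz : B z z = 0) (hzw : B z w = 0) {b : F} (hb : b ∈ F₀) (hb' : b + σ b = B w w) :
    h.herm.eich hzz hzw b hb' ∈ M :=
  h.mem _ (h.herm.eich_mem_sIsom ..) fun v hv => by
    rw [h.herm.eich_apply]
    exact (hv.add (hw.smul (h.rat _ _ hz hv))).sub
      (hz.smul (add_mem (h.rat _ _ hw hv) (mul_mem hb (h.rat _ _ hz hv))))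

theorem mem_eichSub (h : RatSU F₀ e M) {z w : V} (hz : IsRat F₀ e z) (hw : IsRat F₀ e w)
    (hzz : B z z = 0) (hzw : B z w = 0) : w ∈ h.herm.eichSub M hzz := by
  obtain ⟨b, h1, h2⟩ := h.exists_trace hw
  exact ⟨hzw, b, h2, h.eich_mem hz hw hzz hzw h1 h2⟩

theorem ratF (h : RatSU F₀ e M) {l : List V} (hl : ∀ y ∈ l, IsRat F₀ e y) :
    ∀ φ ∈ l.map B, IsRatF F₀ e φ := by
  simp only [List.forall_mem_map]
  exact fun y hy v hv => h.rat y v (hl y hy) hv

theorem exists_perp (h : RatSU F₀ e M) {l : List V} (hl : ∀ y ∈ l, IsRat F₀ e y) (s : List V)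
    (hd : l.length + s.length < 11) :
    ∃ w, IsRat F₀ e w ∧ (∀ y ∈ l, B y w = 0) ∧ w ∉ spanL F s := by
  obtain ⟨w, h1, h2, h3⟩ := exists_rat_ker (h.ratF hl) s (by have := h.big; simp; omega)
  exact ⟨w, h1, by simpa using h2, h3⟩

theorem exists_perp_ne (h : RatSU F₀ e M) {l : List V} (hl : ∀ y ∈ l, IsRat F₀ e y) {x : V}
    (hx : x ∉ spanL F l) : ∃ w, IsRat F₀ e w ∧ (∀ y ∈ l, B y w = 0) ∧ B x w ≠ 0 := by
  obtain ⟨w, h1, h2⟩ := h.herm.exists_orth_of_notMem hx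
  obtain ⟨w, h3, h4, h5⟩ := exists_rat_notMem (h.ratF hl) (w := w) (by
    simpa using fun y hy => h.herm.comm (h1 y (mem_spanL_of_mem hy)))
    (S := LinearMap.ker (B x)) (h.herm.ne_comm h2)
  exact ⟨w, h3, by simpa using h4, h5⟩

theorem exists_perp_one (h : RatSU F₀ e M) {l : List V} (hl : ∀ y ∈ l, IsRat F₀ e y) {x : V}
    (hxr : IsRat F₀ e x) (hx : x ∉ spanL F l) :
    ∃ w, IsRat F₀ e w ∧ (∀ y ∈ l, B y w = 0) ∧ B x w = 1 := by
  obtain ⟨w, h1, h2, h3⟩ := h.exists_perp_ne hl hx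
  exact ⟨(B x w)⁻¹ • w, h1.smul (inv_mem (h.rat _ _ hxr h1)), fun y hy => by simp [h2 y hy],
    by simp [h3]⟩

theorem exists_iso (h : RatSU F₀ e M) {l : List V} (hl : ∀ y ∈ l, IsRat F₀ e y) (s : List V)
    (hd : l.length + s.length + 3 ≤ 11) :
    ∃ w, IsRat F₀ e w ∧ B w w = 0 ∧ (∀ y ∈ l, B y w = 0) ∧ w ∉ spanL F s := by
  obtain ⟨x, hx, h1, h2⟩ := h.exists_perp hl s (by omega)
  by_cases hxx : B x x = 0
  · exact ⟨x, hx, hxx, h1, h2⟩
  obtain ⟨y, hy, h3, h4⟩ := h.exists_perp (l := x :: l) (by simpa [hx] using hl) (x :: s)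
    (by simp; omega)
  have h5 := h3 x (by simp)
  have h6 : y ∉ spanL F s := fun h' => h4 (spanL_mono (by simp +contextual) h')
  by_cases hyy : B y y = 0
  · exact ⟨y, hy, hyy, fun z hz => h3 z (by simp [hz]), h6⟩
  obtain ⟨t, ht, ht'⟩ := h.exists_norm (c := -B x x / B y y)
    (div_mem (neg_mem (h.rat _ _ hx hx)) (h.rat _ _ hy hy)) (by simp [h.herm.conj])
  have ht0 : t ≠ 0 := by
    rintro rfl
    exact div_ne_zero (neg_ne_zero.2 hxx) hyy (by simpa using ht'.symm)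
  refine ⟨x + t • y, hx.add (hy.smul ht), ?_, fun z hz => by simp [h1 z hz, h3 z (by simp [hz])],
    fun h' => h4 ?_⟩
  · simp only [map_add, map_smulₛₗ, LinearMap.add_apply, LinearMap.smul_apply, smul_eq_mul,
      RingHom.id_apply, h5, h.herm.comm h5]
    field_simp at ht'
    linear_combination ht'
  · have := Submodule.sub_mem _ (spanL_mono (t := x :: s) (by simp +contextual) h')
      (mem_spanL_of_mem (y := x) (by simp))
    rwa [add_sub_cancel_left, Submodule.smul_mem_iff _ ht0] at this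

theorem exists_hyp (h : RatSU F₀ e M) {l : List V} (hl : ∀ y ∈ l, IsRat F₀ e y)
    (hd : l.length ≤ 4) : ∃ p w, IsRat F₀ e p ∧ IsRat F₀ e w ∧ B p p = 0 ∧ B w w = 0 ∧
      B p w = 1 ∧ (∀ y ∈ l, B y p = 0) ∧ ∀ y ∈ l, B y w = 0 := by
  obtain ⟨p, hp, hpp, h1, h2⟩ := h.exists_iso hl l (by omega)
  obtain ⟨w, hw, h3, h4⟩ := h.exists_perp_one hl hp h2
  obtain ⟨b, hb, hb'⟩ := h.exists_trace hw
  have h5 : B w p = 1 := by rw [← h.herm.conj, h4, map_one]
  refine ⟨p, w - b • p, hp, hw.sub (hp.smul hb), hpp, ?_, by simp [h4, hpp], h1,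
    fun y hy => by simp [h1 y hy, h3 y hy]⟩
  simp only [map_sub, map_smulₛₗ, LinearMap.sub_apply, LinearMap.smul_apply, smul_eq_mul,
    RingHom.id_apply, hpp, h4, h5]
  linear_combination -hb'

/-- Rational isotropic vectors span. -/
theorem mem_of_iso (h : RatSU F₀ e M) {l : List V} (hl : ∀ y ∈ l, IsRat F₀ e y)
    (hd : l.length ≤ 3) {P : V → Prop} (hadd : ∀ x y, P x → P y → P (x + y))
    (hP : ∀ a, IsRat F₀ e a → B a a = 0 → (∀ y ∈ l, B y a = 0) → P a) {w : V} (hw : IsRat F₀ e w)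
    (hw' : ∀ y ∈ l, B y w = 0) : P w := by
  obtain ⟨p, f, hp, hf, hpp, hff, hpf, h1, h2⟩ := h.exists_hyp (l := w :: l)
    (by simpa [hw] using hl) (by simp; omega)
  obtain ⟨b, hb, hb'⟩ := h.exists_trace hw
  have h3 := h1 w (by simp)
  have h4 := h2 w (by simp)
  have h5 : B f p = 1 := by rw [← h.herm.conj, hpf, map_one]
  have h6 : ∀ y ∈ l, B y p = 0 := fun y hy => h1 y (by simp [hy])
  have h7 : ∀ y ∈ l, B y f = 0 := fun y hy => h2 y (by simp [hy])
  have := hadd _ _ (hP (w + p - b • f) ((hw.add hp).sub (hf.smul hb)) ?_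
    fun y hy => by simp [hw' y hy, h6 y hy, h7 y hy]) (hadd _ _ (hP (-p) hp.neg (by simp [hpp])
      fun y hy => by simp [h6 y hy]) (hP (b • f) (hf.smul hb) (by simp [hff])
      fun y hy => by simp [h7 y hy]))
  · convert this using 1
    abel
  · simp only [map_add, map_sub, map_smulₛₗ, LinearMap.add_apply, LinearMap.sub_apply,
      LinearMap.smul_apply, smul_eq_mul, RingHom.id_apply, hpp, hff, hpf, h3, h4, h5,
      h.herm.comm h3, h.herm.comm h4]
    linear_combination -hb'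

theorem exists_iso_ne (h : RatSU F₀ e M) {l : List V} (hl : ∀ y ∈ l, IsRat F₀ e y)
    (hd : l.length ≤ 3) {x : V} (hx : x ∉ spanL F l) :
    ∃ w, IsRat F₀ e w ∧ B w w = 0 ∧ (∀ y ∈ l, B y w = 0) ∧ B x w ≠ 0 := by
  obtain ⟨w, h1, h2, h3⟩ := h.exists_perp_ne hl hx
  by_contra! hc
  exact h3 (h.mem_of_iso hl hd (P := fun a => B x a = 0) (fun a b ha hb => by simp [ha, hb])
    hc h1 h2)

theorem isRat_of_forall (h : RatSU F₀ e M) {y : V} (hy : ∀ x, IsRat F₀ e x → B x y ∈ F₀) :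
    IsRat F₀ e y := by
  obtain ⟨π, hπ⟩ := LinearMap.exists_leftInverse_of_injective (Algebra.linearMap F₀ F)
    (LinearMap.ker_eq_bot.2 (algebraMap F₀ F).injective)
  have hπ' : ∀ a ∈ F₀, (π a : F) = a := fun a ha =>
    congrArg Subtype.val (LinearMap.congr_fun hπ ⟨a, ha⟩)
  have h0 : IsRat F₀ e (e.symm fun i => (π (e y i) : F)) := fun i => by simp
  have : y - e.symm (fun i => (π (e y i) : F)) = 0 := by
    refine h.herm.sep _ fun x => ?_
    rw [apply_eq_sum_ratB e]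
    refine Finset.sum_eq_zero fun j _ => mul_eq_zero_of_right _ (h.herm.comm ?_)
    rw [map_sub, sub_eq_zero, ← hπ' _ (hy _ (isRat_ratB j))]
    have h1 := apply_eq_sum_ratB e (B (ratB e j))
    rw [h1, h1 (e.symm _), map_sum, AddSubmonoidClass.coe_finsetSum]
    refine Finset.sum_congr rfl fun i _ => ?_
    have : e y i * B (ratB e j) (ratB e i) = (⟨B (ratB e j) (ratB e i),
      h.rat _ _ (isRat_ratB j) (isRat_ratB i)⟩ : F₀) • e y i := mul_comm _ _
    rw [this, map_smul]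
    simp [mul_comm]
  exact sub_eq_zero.1 this ▸ h0

/-- All short root elements with parameter `c` lie in `M`. -/
def Short (F₀ : Subfield F) (e : V ≃ₗ[F] (ι → F)) (M : Subgroup (isomGroup B)) (c : F) : Prop :=
  ∀ a b, IsRat F₀ e a → IsRat F₀ e b → B a a = 0 → B b b = 0 → B b a = 0 → Sh M b (c • a)

theorem sh_key (h : RatSU F₀ e M) {a b r : V} {c : F} (ha : IsRat F₀ e a) (hb : IsRat F₀ e b)
    (hr : IsRat F₀ e r) {hbb : B b b = 0} (hrr : B r r = 0) (hbr : B b r = 0) (har : B a r = 0)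
    (hs : a ∉ spanL F [b, r]) (hc : c • a ∈ h.herm.eichSub M hbb) : Sh M b (c • r) := by
  obtain ⟨p, hp, hp0, hp1⟩ := h.exists_perp_one (l := [b, r]) (by simp [hb, hr]) ha hs
  simp only [List.forall_mem_cons, List.not_mem_nil, false_imp_iff, imp_true_iff,
    and_true] at hp0
  obtain ⟨β, hβ, hβ'⟩ := h.exists_trace hp.neg
  have h1 : B p a = 1 := by rw [← h.herm.conj, hp1, map_one]
  refine h.herm.sh_of_move hc (h.eich_mem hr hp.neg hrr (by simp [hp0.2]) hβ hβ') ?_ ?_ ?_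
  · simp [h.herm.eich_apply, h.herm.comm hbr, h.herm.comm hp0.1]
  · simp [h.herm.eich_apply, h.herm.comm har, h1]
  · simp [h.herm.comm har]

theorem short_of (h : RatSU F₀ e M) {a b : V} {c : F} (ha : IsRat F₀ e a) (hb : IsRat F₀ e b)
    {hbb : B b b = 0} (h1 : a ∉ spanL F [b]) (hb0 : b ≠ 0) (hc : c • a ∈ h.herm.eichSub M hbb) :
    Short F₀ e M c := by
  intro a' b' ha' hb' haa' hbb' hab'
  have H := h.herm
  obtain ⟨w, hw, hww, hw0, hws⟩ := h.exists_iso (l := [a, b, a', b']) (by simp [ha, hb, ha', hb'])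
    [a, b, a', b'] (by simp)
  obtain ⟨v, hv, hvv, hv0, hvs⟩ := h.exists_iso (l := [w, b, b']) (by simp [hw, hb, hb'])
    [w, b, b'] (by simp)
  simp only [List.forall_mem_cons, List.not_mem_nil, false_imp_iff, imp_true_iff,
    and_true] at hw0 hv0
  have e1 := (h.sh_key ha hb hw hww hw0.2.1 hw0.1 (notMem_spanL_pair_exchange
    (fun h' => hws (spanL_mono (by simp) h')) h1) hc).symm H
  have e2 := h.sh_key hb hw hv hvv hv0.1 hv0.2.1 (notMem_spanL_pair_exchange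
    (fun h' => hvs (spanL_mono (by simp) h')) (notMem_spanL_singleton_symm
      (fun h' => hws (spanL_mono (by simp) h')) hb0))
    (e1.mem H hww (by simp [H.comm hw0.2.1]) (by simp [hbb]))
  have e3 := (h.sh_key hv hw hb' hbb' (H.comm hw0.2.2.2) (H.comm hv0.2.2)
    (fun h' => hvs (spanL_mono (by simp) h'))
    (e2.mem H hww (by simp [hv0.1]) (by simp [hvv]))).symm' H
  exact h.sh_key hw hb' ha' haa' hab' (H.comm hw0.2.2.1) (fun h' => hws (spanL_mono (by simp) h'))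
    (e3.mem H hbb' (by simp [hw0.2.2.2]) (by simp [hww]))

theorem short_of_mem (h : RatSU F₀ e M) {c : F} (hc : c ∈ F₀) : Short F₀ e M c :=
  fun a b ha hb haa hbb hab => ⟨_, h.eich_mem hb (ha.smul hc) hbb (by simp [hab]) (zero_mem _)
    (by simp [haa]), fun x => by simp [h.herm.eich_apply]⟩

theorem Short.mul (h : RatSU F₀ e M) {c d : F} (hc : Short F₀ e M c) (hd : Short F₀ e M d) :
    Short F₀ e M (σ d * c) := by
  intro a b ha hb haa hbb hab
  have H := h.herm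
  obtain ⟨p, w, hp, hw, hpp, hww, hpw, h1, h2⟩ := h.exists_hyp (l := [a, b]) (by simp [ha, hb])
    (by simp)
  simp only [List.forall_mem_cons, List.not_mem_nil, false_imp_iff, imp_true_iff,
    and_true] at h1 h2
  obtain ⟨g, hg, eg⟩ := hd (-p) a hp.neg ha (by simp [hpp]) haa (by simp [h1.1])
  refine H.sh_of_move ((hc w b hw hb hww hbb h2.2).mem H hbb (by simp [h2.2]) (by simp [hww])) hg
    ?_ ?_ (by simp [h2.1])
  · simp [eg, H.comm hab, H.comm h1.2]
  · simp [eg, h2.1, hpw, smul_smul, mul_comm]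

theorem le_of_short (h : RatSU F₀ e M) (hs : ∀ c, Short F₀ e M c) : sIsom B ≤ M := by
  have H := h.herm
  have hn : 11 ≤ finrank F V := by rw [finrank_eq_card_of_equiv e]; exact h.big
  obtain ⟨b, f, hb, hf, hbb, hff, hbf, -⟩ := h.exists_hyp (l := []) (by simp) (by simp)
  obtain ⟨δ, h1, h2, h3⟩ := h.exists_delta
  refine H.sIsom_le_of_full_of_transv (by omega) (H.full_of_forall (by omega) hbb fun w hw => ?_)
    hff (by simp [hbf]) h2 h3 (h.transv_mem hf hff h1 h3)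
  let T : Submodule F V :=
    { carrier := {w | ∀ c : F, c • w ∈ H.eichSub M hbb}
      add_mem' := fun hx hy c => by rw [smul_add]; exact add_mem (hx c) (hy c)
      zero_mem' := fun c => by rw [smul_zero]; exact zero_mem _
      smul_mem' := fun d x hx c => by rw [smul_smul]; exact hx _ }
  have : w ∈ T := by
    by_contra hc
    obtain ⟨w, h4, h5, h6⟩ := exists_rat_notMem (h.ratF (l := [b]) (by simpa using hb)) (w := w)
      (by simpa using hw) hc
    refine h6 (h.mem_of_iso (l := [b]) (by simpa using hb) (by simp) (P := (· ∈ T))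
      (fun _ _ => T.add_mem) (fun a ha haa hab c => ?_) h4 (by simpa using h5))
    have hab := hab b (by simp)
    exact (hs c a b ha hb haa hbb hab).mem H hbb (by simp [hab]) (by simp [haa])
  exact ⟨0, by simpa using this 1⟩

theorem mem_of_short (h : RatSU F₀ e M) {r : ℕ} (hr : r.Prime)
    (hcard : Fintype.card F = Nat.card F₀ ^ r) (hne : ¬ sIsom B ≤ M) {c : F}
    (hc : Short F₀ e M c) : c ∈ F₀ := by
  by_contra hcF
  refine hne (h.le_of_short (forall_of_prime_index hr hcard (fun c hc => h.short_of_mem hc)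
    (fun c d hc hd a b ha hb haa hbb hab => ?_) (fun c d hc hd => ?_) hc hcF))
  · rw [add_smul]
    exact (hc a b ha hb haa hbb hab).add h.herm hbb (by simp [hab]) (by simp [hab]) (by simp [haa])
      (hd a b ha hb haa hbb hab)
  · simpa [h.herm.invol] using Short.mul h hd (Short.mul h (h.short_of_mem (one_mem _)) hc)

theorem easy_mem (h : RatSU F₀ e M) {r : ℕ} (hr : r.Prime)
    (hcard : Fintype.card F = Nat.card F₀ ^ r) (hne : ¬ sIsom B ≤ M) {u b a w : V} {c : F}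
    {huu : B u u = 0} {hc : c + σ c = 0} (hu : h.herm.transv u huu c hc ∈ M) (hb : IsRat F₀ e b)
    (hb0 : b ≠ 0) (hbb : B b b = 0) (hub : B u b = 0) (ha : IsRat F₀ e a) (haa : B a a = 0)
    (hab : B b a = 0) (hw : IsRat F₀ e w) (hbw : B b w = 0) : c * B a u * B u w ∈ F₀ := by
  have H := h.herm
  by_cases hs : a ∈ spanL F [b]
  · obtain ⟨t, rfl⟩ := mem_spanL_singleton.1 hs
    simp [H.comm hub]
  obtain ⟨δ, h1, h2, h3⟩ := h.exists_delta
  have k1 := h.mem_eichSub hb hw hbb hbw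
  have k2 := H.apply_mem_eichSub hu (hz' := hbb) (by simp [H.transv_apply, hub]) k1
  rw [H.transv_apply, (H.eichSub M hbb).add_mem_cancel_left k1] at k2
  have k3 := H.apply_mem_eichSub (h.transv_mem ha haa h1 h3) (hz' := hbb)
    (by simp [H.transv_apply, H.comm hab]) k2
  rw [H.transv_apply, (H.eichSub M hbb).add_mem_cancel_left k2] at k3
  have k4 := mul_mem (inv_mem h1) (h.mem_of_short hr hcard hne (h.short_of ha hb hs hb0 k3))
  rw [inv_mul_cancel_left₀ h2, map_smul, smul_eq_mul] at k4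
  convert k4 using 1
  ring

theorem easy (h : RatSU F₀ e M) {r : ℕ} (hr : r.Prime)
    (hcard : Fintype.card F = Nat.card F₀ ^ r) (hne : ¬ sIsom B ≤ M) {u b : V} {c : F}
    {huu : B u u = 0} {hc : c + σ c = 0} (hu : h.herm.transv u huu c hc ∈ M) (hc0 : c ≠ 0)
    (hb : IsRat F₀ e b) (hb0 : b ≠ 0) (hbb : B b b = 0) (hub : B u b = 0) :
    ∃ μ : F, μ ≠ 0 ∧ IsRat F₀ e (μ • u) := by
  have H := h.herm
  by_cases hs : u ∈ spanL F [b]
  · obtain ⟨t, rfl⟩ := mem_spanL_singleton.1 hs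
    by_cases ht : t = 0
    · exact ⟨1, one_ne_zero, by simpa [ht] using IsRat.zero⟩
    · exact ⟨t⁻¹, inv_ne_zero ht, by simpa [ht] using hb⟩
  obtain ⟨a, h1, haa, h1b, hu1⟩ := h.exists_iso_ne (l := [b]) (by simpa using hb) (by simp) hs
  have h1b := h1b b (by simp)
  have hc1 := mul_ne_zero hc0 (H.ne_comm hu1)
  refine ⟨σ (c * B a u), (map_ne_zero σ).2 hc1, h.isRat_of_forall fun x hx => ?_⟩
  obtain ⟨w₁, hw1, i1, hw10, hw1s⟩ := h.exists_iso (l := [b, a, x]) (by simp [hb, h1, hx]) []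
    (by simp)
  obtain ⟨w₂, hw2, i2, hw20, hw2s⟩ := h.exists_iso (l := [b, a, x, w₁]) (by simp [hb, h1, hx, hw1])
    [w₁] (by simp)
  simp only [List.forall_mem_cons, List.not_mem_nil, false_imp_iff, imp_true_iff,
    and_true] at hw10 hw20
  obtain ⟨w, hw, hw0, hww, h3, h4, h5⟩ : ∃ w, IsRat F₀ e w ∧ w ≠ 0 ∧ B w w = 0 ∧ B u w = 0 ∧
      B a w = 0 ∧ B x w = 0 := by
    by_cases h0 : B u w₁ = 0
    · exact ⟨w₁, hw1, ne_zero_of_notMem_spanL hw1s, i1, h0, hw10.2⟩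
    have k := div_mem (h.easy_mem hr hcard hne hu hb hb0 hbb hub h1 haa h1b hw2 hw20.1)
      (h.easy_mem hr hcard hne hu hb hb0 hbb hub h1 haa h1b hw1 hw10.1)
    rw [mul_div_mul_left _ _ hc1] at k
    exact ⟨w₂ - (B u w₂ / B u w₁) • w₁, hw2.sub (hw1.smul k),
      fun h' => hw2s (mem_spanL_singleton.2 ⟨_, (sub_eq_zero.1 h').symm⟩),
      by simp [i1, i2, hw20.2.2.2, H.comm hw20.2.2.2], by simp [h0],
      by simp [hw10.2.1, hw20.2.1], by simp [hw10.2.2, hw20.2.2.1]⟩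
  have := h.sig _ (h.easy_mem hr hcard hne hu hw hw0 hww h3 h1 haa (H.comm h4) hx (H.comm h5))
  rwa [map_mul _ (c * B a u), H.conj u x, ← smul_eq_mul, ← map_smul] at this

theorem exists_norm_ne (h : RatSU F₀ e M) {x y : F} (hxy : ∀ s ∈ F₀, ∀ t ∈ F₀, s * x + t * y = 0 →
    s = 0 ∧ t = 0) : ∃ s ∈ F₀, ∃ t ∈ F₀, ¬ (s = 0 ∧ t = 0) ∧
      σ (s * x + t * y) * (s * x + t * y) ≠ σ x * x := by
  by_contra! hc
  obtain ⟨θ, h1, h2⟩ := h.nfix
  have h3 : θ ≠ 0 := by rintro rfl; simp at h2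
  have h4 : 1 + θ ≠ 0 := fun h' => h2 (by rw [show θ = -1 by linear_combination h']; simp)
  have a1 := hc 0 (zero_mem _) 1 (one_mem _) (by simp)
  have a2 := hc 0 (zero_mem _) θ h1 (by simp [h3])
  have a3 := hc 0 (zero_mem _) (1 + θ) (add_mem (one_mem _) h1) (by simp [h4])
  have a4 := hc 1 (one_mem _) 1 (one_mem _) (by simp)
  have a5 := hc 1 (one_mem _) θ h1 (by simp)
  have a6 := hc 1 (one_mem _) (1 + θ) (add_mem (one_mem _) h1) (by simp)
  simp only [map_add, map_mul, map_one, zero_mul, zero_add, one_mul] at a1 a2 a3 a4 a5 a6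
  have : σ x * x = 0 := by linear_combination a4 - a1 + a5 - a2 - a6 + a3
  have hx : x = 0 := by simpa using this
  exact one_ne_zero (hxy 1 (one_mem _) 0 (zero_mem _) (by simp [hx])).1

theorem exists_smul_isRat (h : RatSU F₀ e M) {r : ℕ} (hr : r.Prime)
    (hcard : Fintype.card F = Nat.card F₀ ^ r) (hne : ¬ sIsom B ≤ M) {u : V} {c : F}
    {huu : B u u = 0} {hc : c + σ c = 0} (hu : h.herm.transv u huu c hc ∈ M) (hc0 : c ≠ 0) :
    ∃ μ : F, μ ≠ 0 ∧ IsRat F₀ e (μ • u) := by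
  have H := h.herm
  by_cases hard : ∃ b, IsRat F₀ e b ∧ b ≠ 0 ∧ B b b = 0 ∧ B u b = 0
  · obtain ⟨b, hb, hb0, hbb, hub⟩ := hard
    exact h.easy hr hcard hne hu hc0 hb hb0 hbb hub
  exfalso
  push Not at hard
  obtain ⟨δ, d1, d2, d3⟩ := h.exists_delta
  obtain ⟨a₁, h1, i1, -, s1⟩ := h.exists_iso (l := []) (by simp) [] (by simp)
  obtain ⟨a₂, h2, i2, o2, s2⟩ := h.exists_iso (l := [a₁]) (by simp [h1]) [a₁] (by simp)
  obtain ⟨a₃, h3, i3, o3, s3⟩ := h.exists_iso (l := [a₁, a₂]) (by simp [h1, h2]) [a₁, a₂] (by simp)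
  simp only [List.forall_mem_cons, List.not_mem_nil, false_imp_iff, imp_true_iff,
    and_true] at o2 o3
  have n1 := ne_zero_of_notMem_spanL s1
  set I := spanL F [a₁, a₂, a₃] with hI
  have m1 : a₁ ∈ I := mem_spanL_of_mem (by simp)
  have m2 : a₂ ∈ I := mem_spanL_of_mem (by simp)
  have m3 : a₃ ∈ I := mem_spanL_of_mem (by simp)
  have hiso : ∀ x ∈ I, ∀ y ∈ I, B x y = 0 := fun x hx y hy =>
    apply_eq_zero_of_mem_spanL (φ := B x) (fun z hz => H.comm
      (apply_eq_zero_of_mem_spanL (φ := B z) (fun z' hz' => by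
        simp only [List.mem_cons, List.not_mem_nil, or_false] at hz hz'
        rcases hz with rfl | rfl | rfl <;> rcases hz' with rfl | rfl | rfl <;>
          simp [i1, i2, i3, o2, o3.1, o3.2, H.comm o2, H.comm o3.1, H.comm o3.2]) hx)) hy
  have u1 := hard _ h1 n1 i1
  have u0 : ∀ s ∈ F₀, ∀ t ∈ F₀, s * B u a₁ + t * B u a₂ = 0 → s = 0 ∧ t = 0 := by
    intro s hs t ht h'
    have hm := I.add_mem (I.smul_mem s m1) (I.smul_mem t m2)
    have h0 : s • a₁ + t • a₂ = 0 := by_contra fun h0 =>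
      hard _ ((h1.smul hs).add (h2.smul ht)) h0 (hiso _ hm _ hm) (by simpa using h')
    have ht0 : t = 0 := by_contra fun ht0 => s2 (mem_spanL_singleton.2 ⟨-s / t, by
      rw [← smul_right_inj ht0, smul_smul, mul_div_cancel₀ _ ht0]
      linear_combination (norm := module) -h0⟩)
    rw [ht0, zero_smul, add_zero, smul_eq_zero] at h0
    exact ⟨h0.resolve_right n1, ht0⟩
  have u12 : ∀ t ∈ F₀, B u a₂ ≠ t * B u a₁ := fun t ht h' =>
    one_ne_zero (u0 (-t) (neg_mem ht) 1 (one_mem _) (by rw [h']; ring)).2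
  set R := I ⊓ LinearMap.ker (B u) with hR
  have hRI : ∀ a ∈ I, a - (B u a / B u a₁) • a₁ ∈ R := fun a ha =>
    ⟨I.sub_mem ha (I.smul_mem _ m1), by simp [u1]⟩
  set N := Class.fixSub (M.map (isomGroup B).subtype) R with hN
  have hfix : ∀ y ∈ N, ∀ x ∈ R, y x ∈ R := fun y hy x hx => (hy.2 x hx).symm ▸ hx
  have hU : ∀ a ∈ I, IsRat F₀ e a →
      slU (δ * (σ (B u a) * B u a) / B u a₁) ∈ planeAct _ R hfix a₁ u := by
    intro a ha har
    refine ⟨_, ⟨⟨_, h.transv_mem har (hiso _ ha _ ha) d1 d3, rfl⟩, fun x hx => by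
      simp [H.transv_apply, hiso _ ha _ hx.1]⟩, by simp [H.transv_apply, hiso _ ha _ m1], ?_⟩
    convert R.smul_mem (δ * B a u) (hRI a ha) using 1
    simp only [Subgroup.coe_subtype, H.transv_apply, coe_slU, Matrix.of_apply, Matrix.cons_val',
      Matrix.cons_val_zero, Matrix.cons_val_one, Matrix.cons_val_fin_one, H.conj]
    module
  have hV : slV (c * B u a₁) ∈ planeAct _ R hfix a₁ u :=
    ⟨_, ⟨⟨_, hu, rfl⟩, fun x hx => by simp [H.transv_apply, show B u x = 0 from hx.2]⟩,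
      by simp [H.transv_apply], by simp [H.transv_apply, huu]⟩
  obtain ⟨s, hs, t, ht, hst, hst'⟩ := h.exists_norm_ne u0
  have hz : s * B u a₁ + t * B u a₂ ≠ 0 := fun h' => hst (u0 s hs t ht h')
  refine mul_ne_zero hc0 u1 (sl2_fix_of_unipotent _ ?_
    (div_ne_zero (mul_ne_zero d2 (mul_ne_zero ((map_ne_zero σ).2 u1) u1)) u1)
    (div_ne_zero (mul_ne_zero d2 (mul_ne_zero ((map_ne_zero σ).2 hz) hz)) u1) (fun h' => ?_)
    (hU _ m1 h1) (by
      have := hU _ (I.add_mem (I.smul_mem s m1) (I.smul_mem t m2)) ((h1.smul hs).add (h2.smul ht))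
      rwa [map_add (B u), map_smul, map_smul] at this) hV)
  swap
  · rw [div_left_inj' u1, mul_right_inj' d2] at h'
    exact hst' h'.symm
  rintro A ⟨_, ⟨⟨y, hy, rfl⟩, hyR⟩, e1, -⟩ hA0
  rw [Subgroup.coe_subtype] at e1 hyR
  rw [hA0, zero_smul, add_zero] at e1
  have hy1 : (y : V ≃ₗ[F] V) a₁ ∈ I := (I.sub_mem_iff_left (I.smul_mem _ m1)).1 e1.1
  have hya : ∀ a ∈ I, (y : V ≃ₗ[F] V) a = a + (B u a / B u a₁) • ((y : V ≃ₗ[F] V) a₁ - a₁) :=
    fun a ha => by
      have := hyR _ (hRI a ha)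
      rw [map_sub, map_smul, sub_eq_iff_eq_add] at this
      rw [this]
      module
  have hrat : ∀ a ∈ I, IsRat F₀ e a → ∃ μ : F, μ ≠ 0 ∧ IsRat F₀ e (μ • (y : V ≃ₗ[F] V) a) :=
    fun a ha har => by
      have := M.mul_mem (M.mul_mem hy (h.transv_mem har (hiso _ ha _ ha) d1 d3)) (M.inv_mem hy)
      rw [H.conj_transv y a _ δ d3 (by rw [isom_apply, hiso _ ha _ ha])] at this
      refine h.easy hr hcard hne this d2 h1 n1 i1 (hiso _ ?_ _ m1)
      rw [hya a ha]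
      exact I.add_mem ha (I.smul_mem _ (I.sub_mem hy1 m1))
  generalize (y : V ≃ₗ[F] V) = y at e1 hy1 hya hrat
  obtain ⟨μ, hμ0, hμ⟩ := hrat _ m1 h1
  have hμ' : ∀ a ∈ I, IsRat F₀ e a → a ∉ spanL F [a₁] → IsRat F₀ e (μ • y a) := by
    intro a ha har has
    obtain ⟨d, hd0, hd⟩ := hrat _ ha har
    obtain ⟨d', hd0', hd'⟩ := hrat _ (I.add_mem m1 ha) (h1.add har)
    rw [map_add] at hd'
    refine isRat_smul_of_pair (y.map_ne_zero_iff.2 n1) (fun h' => has ?_) hμ0 hd0 hd0' hμ hd hd'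
    obtain ⟨t, ht⟩ := mem_spanL_singleton.1 h'
    exact mem_spanL_singleton.2 ⟨t, y.injective (by rw [map_smul, ht])⟩
  have hμF : μ ∈ F₀ := by
    obtain ⟨a, ha, har, has⟩ : ∃ a ∈ I, IsRat F₀ e a ∧ a ∉ spanL F [a₁, μ • y a₁] := by
      by_cases hz : μ • y a₁ ∈ spanL F [a₁, a₂]
      · refine ⟨a₃, m3, h3, fun h' => s3 (spanL_le.2 ?_ h')⟩
        simpa [hz] using mem_spanL_of_mem (by simp)
      · exact ⟨a₂, m2, h2, notMem_spanL_pair_exchange hz s2⟩
    obtain ⟨φ, hφ, hφ0, hφa⟩ := exists_ratF_ne (F₀ := F₀) (e := e) (by simp [h1, hμ]) has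
    simp only [List.forall_mem_cons, List.not_mem_nil, false_imp_iff, imp_true_iff,
      and_true, map_smul, smul_eq_mul, mul_eq_zero, hμ0, false_or] at hφ0
    have k := hφ _ (hμ' a ha har fun h' => has (spanL_mono (by simp) h'))
    rw [hya a ha] at k
    simpa [hφ0.1, hφ0.2, hφa] using div_mem k (hφ a har)
  have hv : y a₁ - a₁ = 0 := by
    by_contra hv
    have k1 : IsRat F₀ e ((1 : F) • (y a₁ - a₁)) := by
      simpa [hμ0] using (hμ.smul (inv_mem hμF)).sub h1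
    have k2 : IsRat F₀ e ((B u a₂ / B u a₁) • (y a₁ - a₁)) := by
      have := ((hμ' _ m2 h2 s2).smul (inv_mem hμF)).sub h2
      rw [hya _ m2] at this
      simpa [hμ0] using this
    exact u12 _ (div_mem_of_isRat hv k1 k2) (by field_simp)
  have k : B u (y a₁ - A 0 0 • a₁) = 0 := e1.2
  rw [sub_eq_zero.1 hv, map_sub, map_smul, smul_eq_mul, sub_eq_zero, eq_comm,
    mul_eq_right₀ u1] at k
  exact k

theorem mem_ratG_of_iso (h : RatSU F₀ e M) {g : V ≃ₗ[F] V}
    (hg : ∀ v, IsRat F₀ e v → B v v = 0 → ∃ c : F, c ≠ 0 ∧ IsRat F₀ e (c • g v)) :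
    g ∈ ratG F₀ e := by
  have key : ∀ a b, IsRat F₀ e a → IsRat F₀ e b → B a a = 0 → B b b = 0 → B a b = 0 → a ≠ 0 →
      b ∉ spanL F [a] → ∀ μ : F, μ ≠ 0 → IsRat F₀ e (μ • g a) → IsRat F₀ e (μ • g b) := by
    intro a b ha hb haa hbb hab ha0 hs μ hμ0 hμ
    obtain ⟨d, hd0, hd⟩ := hg _ hb hbb
    obtain ⟨d', hd0', hd'⟩ := hg _ (ha.add hb) (by simp [haa, hbb, hab, h.herm.comm hab])
    rw [map_add] at hd'
    refine isRat_smul_of_pair (g.map_ne_zero_iff.2 ha0) (fun h' => hs ?_) hμ0 hd0 hd0' hμ hd hd'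
    obtain ⟨t, ht⟩ := mem_spanL_singleton.1 h'
    exact mem_spanL_singleton.2 ⟨t, g.injective (by rw [map_smul, ht])⟩
  obtain ⟨a, ha, haa, -, has⟩ := h.exists_iso (l := []) (by simp) [] (by simp)
  obtain ⟨μ, hμ0, hμ⟩ := hg a ha haa
  refine ⟨μ, hμ0, fun v hv => h.mem_of_iso (l := []) (by simp) (by simp)
    (P := fun v => IsRat F₀ e (μ • g v)) (fun x y hx hy => by simpa using hx.add hy)
    (fun b hb hbb _ => ?_) hv (by simp)⟩
  by_cases hb0 : b = 0
  · simpa [hb0] using IsRat.zero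
  obtain ⟨w, hw, hww, h1, h2⟩ := h.exists_iso (l := [a, b]) (by simp [ha, hb]) [a, b] (by simp)
  exact key w b hw hb hww hbb (h.herm.comm (h1 b (by simp))) (ne_zero_of_notMem_spanL h2)
    (notMem_spanL_singleton_symm (fun h' => h2 (spanL_mono (by simp) h')) hb0) μ hμ0
    (key a w ha hw haa hww (h1 a (by simp)) (ne_zero_of_notMem_spanL has)
      (fun h' => h2 (spanL_mono (by simp) h')) μ hμ0 hμ)

end RatSU

theorem maxS_ratG [Fintype F] {F₀ : Subfield F} {e : V ≃ₗ[F] (ι → F)} (H : Herm B)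
    (hrat : ∀ u v, IsRat F₀ e u → IsRat F₀ e v → B u v ∈ F₀) (hn : 11 ≤ Fintype.card ι) {r : ℕ}
    (hr : r.Prime) (hr2 : r ≠ 2) (hcard : Fintype.card F = Nat.card F₀ ^ r) :
    MaxS B ((ratG F₀ e).comap (isomGroup B).subtype) := by
  obtain ⟨q, hF, hq⟩ := exists_card_eq_sq H.ne_id H.invol
  have hfix : ∃ θ ∈ F₀, σ θ ≠ θ := by
    by_contra! hc
    have h1 : ∀ c, σ c = c → c ∈ F₀ := fun c hc' => by_contra fun h => H.ne_id (RingHom.ext
      (forall_of_prime_index hr hcard (p := fun c => σ c = c) hc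
        (fun a b ha hb => by rw [map_add, ha, hb]) (fun a b ha hb => by rw [map_mul, ha, hb]) hc' h))
    have h2 : Nat.card F₀ = q := (Nat.card_congr (Equiv.subtypeEquivRight fun x =>
      ⟨fun h => hq x ▸ hc x h, fun h => h1 x (by rw [hq, h])⟩)).trans (card_pow_eq_self hF)
    rw [h2, hF] at hcard
    exact hr2 (Nat.pow_right_injective (two_le_of_card_sq hF) hcard).symm
  have hsu : ∀ M : Subgroup (isomGroup B), (∀ g ∈ (ratG F₀ e).comap (isomGroup B).subtype,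
      g ∈ sIsom B → g ∈ M) → RatSU F₀ e M := fun M hM =>
    ⟨H, hrat, fun a ha => hq a ▸ pow_mem ha q, hfix,
      fun g hg hg' => hM g (mem_ratG_of_rat hg') hg, hn⟩
  refine ⟨fun hle => ?_, fun M hM _ g hg hgH => ?_⟩
  · obtain ⟨c, hc⟩ := exists_notMem_of_prime_index hr hcard
    have h := hsu ⊤ fun _ _ _ => trivial
    obtain ⟨b, x, hb, hx, hbb, -, hbx, -⟩ := h.exists_hyp (l := []) (by simp) (by simp)
    obtain ⟨a, ha, haa, h1, h2⟩ := h.exists_iso (l := [b, x]) (by simp [hb, hx]) [] (by simp)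
    have h3 := h1 b (by simp)
    obtain ⟨d, hd0, hd⟩ := hle (H.eich_mem_sIsom hbb (w := c • a) (by simp [h3]) 0 (by simp [haa]))
    have h4 := hd b hb
    have h5 := hd x hx
    simp only [Subgroup.coe_subtype, H.eich_apply, hbb, hbx, map_smulₛₗ, LinearMap.smul_apply,
      H.comm h3, H.comm (h1 x (by simp)), smul_zero, zero_smul, add_zero, sub_zero, mul_zero,
      zero_mul, one_smul] at h4 h5
    have hdF := div_mem_of_isRat (μ := 1) (by rintro rfl; simp at hbx) (by simpa using hb) h4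
    rw [div_one] at hdF
    have h6 := (h5.smul (inv_mem hdF)).sub hx
    have h7 := div_mem_of_isRat (μ := 1) (ν := c) (ne_zero_of_notMem_spanL h2)
      (by simpa using ha) (by simpa [hd0] using h6)
    exact hc (by simpa using h7)
  · by_contra hne
    have h := hsu M hM
    obtain ⟨δ, d1, d2, d3⟩ := h.exists_delta
    refine hgH (h.mem_ratG_of_iso fun v hv hvv => ?_)
    have := M.mul_mem (M.mul_mem hg (h.transv_mem hv hvv d1 d3)) (M.inv_mem hg)
    rw [H.conj_transv g v _ δ d3 (by rw [isom_apply, hvv])] at this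
    exact h.exists_smul_isRat hr hcard hne this d2

end Cfsg.Lib.Class.Form
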