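import Cfsg.Agent.Class.TensBasic

/-!
# Overgroups of `SL(D) ⊗ SL(B)` in the special linear group of `D →ₗ B`
-/

set_option autoImplicit false
set_option linter.unusedSectionVars false

namespace Cfsg.Lib.Class.Tens

open Module Submodule FE

variable {F D B : Type*} [Field F] [AddCommGroup D] [Module F D] [AddCommGroup B] [Module F B]

/-- The endomorphism `z ↦ α ⊗ M (z ψ)`. -/
def EE (α : Dual F D) (ψ : D) (M : End F B) : End F (D →ₗ[F] B) :=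
  pt α ∘ₗ M ∘ₗ LinearMap.applyₗ ψ

@[simp] theorem EE_apply (α : Dual F D) (ψ : D) (M : End F B) (z : D →ₗ[F] B) :
    EE α ψ M z = pt α (M (z ψ)) := rfl

theorem EE_mul (α α' : Dual F D) (ψ ψ' : D) (M M' : End F B) :
    EE α ψ M * EE α' ψ' M' = α' ψ • EE α ψ' (M * M') := by
  ext z d
  simp [smul_smul, mul_comm]

theorem EE_mul_zero {α α' : Dual F D} {ψ ψ' : D} {M M' : End F B} (h : α' ψ = 0) :
    EE α ψ M * EE α' ψ' M' = 0 := by rw [EE_mul, h, zero_smul]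

/-- Composition with an endomorphism of `B`. -/
def PP (D : Type*) [AddCommGroup D] [Module F D] (M : End F B) : End F (D →ₗ[F] B) :=
  LinearMap.llcomp F D B B M

@[simp] theorem PP_apply (M : End F B) (z : D →ₗ[F] B) (d : D) : PP D M z d = M (z d) := rfl

theorem PP_pt_sq {φ : Dual F B} {β : B} (h : φ β = 0) :
    PP D (pt φ β) * PP D (pt φ β) = 0 := by
  ext z d
  simp [h]

/-- `X` contains the transvections of both factors. -/
structure TX (X : Subgroup ((D →ₗ[F] B) ≃ₗ[F] (D →ₗ[F] B))) : Prop where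
  pre : ∀ α ψ, α ψ = 0 → UIn X (EE α ψ 1)
  post : ∀ φ β, φ β = 0 → UIn X (PP D (pt φ β))

/-- The level of `X`. -/
def Lev (X : Subgroup ((D →ₗ[F] B) ≃ₗ[F] (D →ₗ[F] B))) : Submodule F (End F B) where
  carrier := {M | ∀ α ψ, α ψ = 0 → UIn X (EE α ψ M)}
  zero_mem' α ψ _ := by
    convert UIn.zero
    ext
    simp
  add_mem' {M M'} h h' α ψ h0 := by
    convert (h α ψ h0).add (h' α ψ h0) (EE_mul_zero h0)
    ext
    simp
  smul_mem' c M h α ψ h0 := by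
    convert h α (c • ψ) (by simp [h0]) using 1
    ext
    simp

variable {X : Subgroup ((D →ₗ[F] B) ≃ₗ[F] (D →ₗ[F] B))} [FiniteDimensional F D]
  [FiniteDimensional F B]

theorem exists_ker_notMem (h3 : 3 ≤ finrank F D) (α : Dual F D) {ψ : D} (hψ : ψ ≠ 0) :
    ∃ x, x ≠ 0 ∧ α x = 0 ∧ x ∉ span F {ψ} := by
  obtain ⟨γ, hγ⟩ := exists_dual_eq (K := F) hψ 1
  obtain ⟨x, h0, h1, h2⟩ := exists_two_zero h3 α γ
  refine ⟨x, h0, h1, fun h ↦ h0 ?_⟩
  obtain ⟨c, rfl⟩ := mem_span_singleton.1 h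
  simp only [map_smul, hγ, smul_eq_mul, mul_one] at h2
  simp [h2]

theorem exists_ann_notMem (h3 : 3 ≤ finrank F D) (ψ : D) {α : Dual F D} (hα : α ≠ 0) :
    ∃ γ : Dual F D, γ ≠ 0 ∧ γ ψ = 0 ∧ γ ∉ span F {α} :=
  exists_ker_notMem (D := Dual F D) (by rwa [Subspace.dual_finrank_eq]) (Dual.eval F D ψ) hα

/-- One pair `(α, ψ)` is enough to belong to the level. -/
theorem mem_Lev (hX : ∀ α ψ, α ψ = 0 → UIn X (EE α ψ 1)) (h3 : 3 ≤ finrank F D) {α : Dual F D}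
    {ψ : D} {M : End F B} (hα : α ≠ 0) (hψ : ψ ≠ 0) (h0 : α ψ = 0) (h : UIn X (EE α ψ M)) :
    M ∈ Lev X := by
  have r1 : ∀ {α : Dual F D} {ψ ψ' : D}, α ψ = 0 → α ψ' = 0 → ψ ∉ span F {ψ'} →
      UIn X (EE α ψ M) → UIn X (EE α ψ' M) := fun {α ψ ψ'} h1 h2 h3 h ↦ by
    obtain ⟨α', h4, h5⟩ := exists_dual_pair h3 1
    simpa [EE_mul, h5] using h.comm (hX α' ψ' h4) (EE_mul_zero h1) (EE_mul_zero h4)
      (EE_mul_zero h2)
  have r2 : ∀ {α : Dual F D} {ψ ψ' : D}, α ψ = 0 → α ψ' = 0 → ψ ≠ 0 →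
      UIn X (EE α ψ M) → UIn X (EE α ψ' M) := fun {α ψ ψ'} h1 h2 h4 h ↦ by
    by_cases h5 : ψ ∈ span F {ψ'}
    · obtain ⟨x, -, h7, h8⟩ := exists_ker_notMem h3 α h4
      exact r1 h7 h2 (by rwa [← span_singleton_eq_of_mem h5 h4])
        (r1 h1 h7 (notMem_span_symm h4 h8) h)
    · exact r1 h1 h2 h5 h
  have l1 : ∀ {α α' : Dual F D} {ψ : D}, α ψ = 0 → α' ψ = 0 → α ∉ span F {α'} →
      UIn X (EE α ψ M) → UIn X (EE α' ψ M) := fun {α α' ψ} h1 h2 h3 h ↦ by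
    obtain ⟨d, h4, h5⟩ := exists_pair_of_notMem h3 1
    simpa [EE_mul, h5] using (hX α' d h4).comm h (EE_mul_zero h4) (EE_mul_zero h1)
      (EE_mul_zero h2)
  have l2 : ∀ {α α' : Dual F D} {ψ : D}, α ψ = 0 → α' ψ = 0 → α ≠ 0 →
      UIn X (EE α ψ M) → UIn X (EE α' ψ M) := fun {α α' ψ} h1 h2 h4 h ↦ by
    by_cases h5 : α ∈ span F {α'}
    · obtain ⟨x, -, h7, h8⟩ := exists_ann_notMem h3 ψ h4
      exact l1 h7 h2 (by rwa [← span_singleton_eq_of_mem h5 h4])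
        (l1 h1 h7 (notMem_span_symm h4 h8) h)
    · exact l1 h1 h2 h5 h
  intro α' ψ' h1
  obtain ⟨x, h4, h5, h6⟩ := exists_two_zero h3 α α'
  exact r2 h6 h1 h4 (l2 h5 h6 hα (r2 h0 h5 hψ h))

theorem mul_mem_Lev (h3 : 3 ≤ finrank F D) {M M' : End F B} (h : M ∈ Lev X) (h' : M' ∈ Lev X) :
    M * M' ∈ Lev X := by
  intro α ψ h0
  by_cases hψ : ψ = 0
  · convert UIn.zero
    ext
    simp [hψ]
  · obtain ⟨x, -, h1, h2⟩ := exists_ker_notMem h3 α hψ
    obtain ⟨α', h4, h5⟩ := exists_dual_pair h2 1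
    simpa [EE_mul, h5] using (h α x h1).comm (h' α' ψ h4) (EE_mul_zero h1) (EE_mul_zero h4)
      (EE_mul_zero h0)

theorem TX.conjInv (hX : TX X) : ConjInv (Lev X) := by
  intro φ β h0 M hM α ψ h1
  obtain ⟨k, hk, e⟩ := hX.post φ β h0
  convert (hM α ψ h1).conj hk using 1
  ext z d
  simp only [EE_apply, End.mul_apply, LinearEquiv.coe_coe, inv_apply_of_sq e (PP_pt_sq h0), e,
    pt_apply, LinearMap.add_apply, LinearMap.sub_apply, End.one_apply, PP_apply, map_smul,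
    smul_add]

/-- If the level is everything, `X` contains the special linear group. -/
theorem SLV_le_of_Lev (h2 : 2 ≤ finrank F D) (h : ∀ M, M ∈ Lev X) : SLV F (D →ₗ[F] B) ≤ X := by
  have t1 : ∀ (α : Dual F D) (β : B) (ψ : D) (φ : Dual F B), α ψ = 0 →
      TvIn X (pt α β) (φ ∘ₗ LinearMap.applyₗ ψ) := fun α β ψ φ h0 ↦ by
    obtain ⟨g, hg, e⟩ := h (pt φ β) α ψ h0
    exact ⟨by simp [h0], g, hg, fun z ↦ by simp [e]⟩
  have t2 : ∀ (α : Dual F D) (β : B) (ψ : D) (φ : Dual F B), φ β = 0 → φ ≠ 0 → α ψ ≠ 0 →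
      TvIn X (pt α β) (φ ∘ₗ LinearMap.applyₗ ψ) := fun α β ψ φ h0 hφ hα ↦ by
    obtain ⟨ψ₁, h3, h4⟩ := exists_one_zero h2 α
    obtain ⟨α₁, h5, h6⟩ := exists_dual_pair (K := F) (v := ψ) (x := ψ₁) (fun hm ↦ by
      obtain ⟨c, rfl⟩ := mem_span_singleton.1 hm
      simp only [map_smul, smul_eq_mul, mul_eq_zero, hα, or_false] at h4
      simp [h4] at h3) 1
    obtain ⟨β₁, h7⟩ := DFunLike.ne_iff.1 hφ
    obtain ⟨φ₁, h8⟩ := exists_dual_eq (K := F) (v := β₁) (by rintro rfl; simp at h7) 1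
    simpa [h6, h8] using (t1 α β ψ₁ φ₁ h4).comm' (t1 α₁ β₁ ψ φ h5) (by simp [h0])
  let bD := finBasis F D
  let bB := finBasis F B
  let e : (D →ₗ[F] B) ≃ₗ[F] (Fin (finrank F B) × Fin (finrank F D) → F) :=
    (LinearMap.toMatrix bD bB).trans
      ((Matrix.ofLinearEquiv F).symm.trans (LinearEquiv.curry F F _ _).symm)
  have he : ∀ z p, e z p = bB.coord p.1 (z (bD p.2)) := fun z p ↦
    LinearMap.toMatrix_apply bD bB z p.1 p.2
  have hB : ∀ p, ratB e p = pt (bD.coord p.2) (bB p.1) := fun p ↦ e.injective (by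
    ext q
    rw [apply_ratB, he]
    by_cases h1 : p.1 = q.1 <;> by_cases h2 : p.2 = q.2 <;>
      simp [Pi.single_apply, Prod.ext_iff, h1, h2, eq_comm])
  have hC : ∀ p, ratC e p = bB.coord p.1 ∘ₗ LinearMap.applyₗ (bD p.2) := fun p ↦
    LinearMap.ext fun z ↦ he z p
  refine SLV_le_of_elementary e X fun p q hpq c ↦ ?_
  rw [hB, hC, ← map_smul]
  by_cases h1 : p.2 = q.2
  · have h3 : p.1 ≠ q.1 := fun h3 ↦ hpq (Prod.ext h3 h1)
    refine t2 _ _ _ _ (by simp [h3]) (fun h0 ↦ ?_) (by simp [h1])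
    simpa using LinearMap.congr_fun h0 (bB q.1)
  · exact t1 _ _ _ _ (by simp [Ne.symm h1])

/-- The subspace `α ⊗ B`. -/
def WW (B : Type*) [AddCommGroup B] [Module F B] (α : Dual F D) : Submodule F (D →ₗ[F] B) :=
  LinearMap.range (pt α)

theorem pt_mem_WW (α : Dual F D) (β : B) : pt α β ∈ WW B α := ⟨β, rfl⟩

theorem apply_of_mem_WW {α : Dual F D} {z : D →ₗ[F] B} (h : z ∈ WW B α) {d : D} (hd : α d = 0) :
    z d = 0 := by
  obtain ⟨β, rfl⟩ := h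
  simp [hd]

theorem mem_WW_of {α : Dual F D} (hα : α ≠ 0) {z : D →ₗ[F] B} (h : ∀ d, α d = 0 → z d = 0) :
    z ∈ WW B α := by
  obtain ⟨d₀, hd₀⟩ := exists_apply_eq hα 1
  refine ⟨z d₀, LinearMap.ext fun d ↦ ?_⟩
  have := h (d - α d • d₀) (by simp [hd₀])
  rw [map_sub, map_smul, sub_eq_zero] at this
  rw [this, pt_apply]

theorem exists_of_notMem_WW {α : Dual F D} (hα : α ≠ 0) {z : D →ₗ[F] B} (h : z ∉ WW B α) :
    ∃ d, α d = 0 ∧ z d ≠ 0 := by
  by_contra! hc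
  exact h (mem_WW_of hα hc)

theorem finrank_WW {α : Dual F D} (hα : α ≠ 0) : finrank F (WW B α) = finrank F B :=
  LinearMap.finrank_range_of_inj (pt_injective hα)

theorem WW_eq_of_mem {α α' : Dual F D} (h : α' ∈ span F {α}) (h0 : α' ≠ 0) :
    WW B α' = WW B α := by
  obtain ⟨c, rfl⟩ := mem_span_singleton.1 h
  have hc : c ≠ 0 := by
    rintro rfl
    simp at h0
  ext z
  constructor
  · rintro ⟨β, rfl⟩
    exact ⟨c • β, by rw [pt_smul, map_smul]⟩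
  · rintro ⟨β, rfl⟩
    exact ⟨c⁻¹ • β, by rw [pt_smul, map_smul, smul_smul, mul_inv_cancel₀ hc, one_smul]⟩

theorem exists_im_WW (hX : ∀ α ψ, α ψ = 0 → UIn X (EE α ψ 1)) {α α' : Dual F D} (hα : α ≠ 0)
    (hα' : α' ≠ 0) : ∃ k ∈ X, im k (WW B α) = WW B α' := by
  by_cases h : α' ∈ span F {α}
  · exact ⟨1, X.one_mem, by rw [im_one, WW_eq_of_mem h hα']⟩
  · obtain ⟨ψ, h1, h2⟩ := exists_pair_of_notMem (α := α' - α) (γ := α) (notMem_span_symm hα
      fun hm ↦ h (by simpa using add_mem hm (mem_span_singleton_self α))) 1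
    obtain ⟨k, hk, e⟩ := hX _ ψ h1
    refine ⟨k, hk, Submodule.eq_of_le_of_finrank_eq ?_ (by
      rw [finrank_im, finrank_WW hα, finrank_WW hα'])⟩
    rintro _ ⟨_, ⟨β, rfl⟩, rfl⟩
    refine ⟨β, ?_⟩
    ext d
    simp [e, h2, sub_smul]

/-- When the level consists of scalars, the elements of `X` trivial on `α ⊗ B` and on the
quotient are transvections of the factor `D`. -/
theorem exists_smul_of_uIn (hX : ∀ α ψ, α ψ = 0 → UIn X (EE α ψ 1)) (h3 : 3 ≤ finrank F D)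
    (H : ∀ M ∈ Lev X, ∃ c : F, M = c • 1) {α : Dual F D} (hα : α ≠ 0)
    {θ : (D →ₗ[F] B) →ₗ[F] B} (h : UIn X (pt α ∘ₗ θ)) (h0 : ∀ β, θ (pt α β) = 0)
    (α' : Dual F D) : ∃ c : F, ∀ β, θ (pt α' β) = c • β := by
  obtain ⟨ψ, h1, h2, h4⟩ := exists_two_zero h3 α α'
  have := h.comm (hX α' ψ h4) (by ext; simp [h0]) (EE_mul_zero h4) (by ext; simp [h2])
  obtain ⟨c, hc⟩ := H (θ ∘ₗ pt α') (mem_Lev hX h3 hα h1 h2 this)
  exact ⟨c, fun β ↦ LinearMap.congr_fun hc β⟩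

theorem exists_ker_preimage (hab : finrank F B < finrank F D) {α : Dual F D} {z : D →ₗ[F] B}
    (hz : ∀ d, α d = 0 → z d = 0 → d = 0) (β : B) : ∃ d, α d = 0 ∧ z d = β := by
  have hinj : Function.Injective (α.prod z) := (injective_iff_map_eq_zero _).2 fun d hd ↦
    hz d (congrArg Prod.fst hd) (congrArg Prod.snd hd)
  have h1 := LinearMap.finrank_le_finrank_of_injective hinj
  obtain ⟨d, hd⟩ := (LinearMap.injective_iff_surjective_of_finrank_eq_finrank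
    (by simp at h1 ⊢; omega)).1 hinj (0, β)
  exact ⟨d, congrArg Prod.fst hd, congrArg Prod.snd hd⟩

/-- The element `w ↦ t w s` of `X` fixing `z`, where `t` is a transvection of `B`. -/
theorem TX.exists_fix (hX : TX X) {z : D →ₗ[F] B} {φ : Dual F B} {d : D} (h0 : φ (z d) = 0) :
    ∃ k ∈ X, k z = z ∧ ∀ w x, k w x =
      w x - φ (z x) • w d + (φ (w x) - φ (z x) * φ (w d)) • z d := by
  obtain ⟨k, hk, e⟩ := hX.post φ (z d) h0
  obtain ⟨k', hk', e'⟩ := hX.pre (-(φ ∘ₗ z)) d (by simp [h0])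
  have : ∀ w x, (k * k') w x = w x - φ (z x) • w d + (φ (w x) - φ (z x) * φ (w d)) • z d :=
    fun w x ↦ by
      simp only [LinearEquiv.mul_apply, e, e', LinearMap.add_apply, EE_apply, pt_apply, PP_apply,
        LinearMap.neg_apply, LinearMap.comp_apply, End.one_apply, map_add, map_smul]
      module
  exact ⟨k * k', X.mul_mem hk hk', LinearMap.ext fun x ↦ by rw [this, h0]; module, this⟩

/-- The structure of a pair with largest, non-zero, intersection. -/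
theorem TX.pair (hX : TX X) (hab : finrank F B < finrank F D) {α : Dual F D} (hα : α ≠ 0)
    {g : (D →ₗ[F] B) ≃ₗ[F] (D →ₗ[F] B)} (hg : g ∈ X) (hne : im g (WW B α) ≠ WW B α)
    {J : Submodule F (D →ₗ[F] B)} (hJ : J = WW B α ⊓ im g (WW B α)) (hJ0 : J ≠ ⊥)
    (hm : MeetLe X (WW B α) (finrank F J)) :
    (∃ ψ, ψ ≠ 0 ∧ α ψ = 0 ∧ ∀ w ∈ im g (WW B α), w ψ = 0) ∨ (finrank F J + 1 = finrank F B ∧
      ∀ z ∈ im g (WW B α), z ∉ J → ∀ d, α d = 0 → z d = 0 → d = 0) := by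
  have h1 : J ≤ WW B α := hJ ▸ inf_le_left
  have h2 : J ≤ im g (WW B α) := hJ ▸ inf_le_right
  have hd : finrank F (im g (WW B α)) = finrank F B := by rw [finrank_im, finrank_WW hα]
  by_cases hc : ∀ z ∈ im g (WW B α), z ∉ J → ∀ d, α d = 0 → z d = 0 → d = 0
  swap
  · left
    push Not at hc
    obtain ⟨z, hz, hzJ, ψ, h3, h4, h5⟩ := hc
    refine ⟨ψ, h5, h3, fun w hw ↦ ?_⟩
    by_contra h6
    have h7 : (LinearMap.ker (Dual.eval F D ψ)).map (ptR D (w ψ)) ≤ im g (WW B α) := by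
      rintro _ ⟨α', h7, rfl⟩
      obtain ⟨k, hk, e⟩ := hX.pre α' ψ h7
      have := hm.maps hg hk h2 (fun y hy ↦ by simp [e, apply_of_mem_WW (h1 hy) h3]) hzJ hz
        (by simpa [e, h4] using hz) hw
      simpa [e] using sub_mem this hw
    have h8 : Function.Injective (ptR (F := F) D (w ψ)) :=
      (injective_iff_map_eq_zero _).2 fun α' h ↦ by
        by_contra h9
        exact pt_ne_zero h9 h6 h
    have h9 := (Dual.eval F D ψ).finrank_range_add_finrank_ker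
    have h10 := Submodule.finrank_le (LinearMap.range (Dual.eval F D ψ))
    rw [Subspace.dual_finrank_eq] at h9
    rw [finrank_self] at h10
    have h11 := Submodule.eq_of_le_of_finrank_le h7 (by
      rw [← (Submodule.equivMapOfInjective _ h8 _).finrank_eq, hd]; omega)
    rw [← h11] at hw
    obtain ⟨α', h12, h13⟩ := hw
    apply h6
    rw [← h13, ptR_apply, pt_apply, show α' ψ = 0 from h12, zero_smul]
  right
  refine ⟨?_, hc⟩
  have hlt : J < im g (WW B α) := lt_of_le_of_ne h2 fun e ↦ hne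
    (Submodule.eq_of_le_of_finrank_eq (e ▸ h1) (finrank_im _ _))
  have h3 := Submodule.finrank_lt_finrank_of_lt hlt
  have h4 : 0 < finrank F J := Nat.pos_of_ne_zero fun e ↦ hJ0 (Submodule.finrank_eq_zero.1 e)
  by_cases hb : finrank F B ≤ 2
  · omega
  obtain ⟨z, hz, hzJ⟩ := SetLike.exists_of_lt hlt
  obtain ⟨j, hj, hj0⟩ := (Submodule.ne_bot_iff _).1 hJ0
  obtain ⟨β, rfl⟩ := h1 hj
  have hβ : β ≠ 0 := by
    rintro rfl
    simp at hj0
  obtain ⟨d, hd1, hd2⟩ := exists_ker_preimage hab (hc z hz hzJ) β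
  have h5 : im g (WW B α) ≤ J ⊔ span F {z} := fun w hw ↦ by
    have h6 : w d ∈ span F {β} := by
      by_contra h6
      obtain ⟨φ, h7, h8⟩ := exists_dual_pair h6 1
      obtain ⟨k, hk, h9, e⟩ := hX.exists_fix (z := z) (d := d) (φ := φ) (by rw [hd2, h7])
      have h10 := sub_mem (hm.maps' hg hk h2 (fun y hy ↦ by
        obtain ⟨γ, rfl⟩ := h1 hy
        convert add_mem hy (J.smul_mem (φ γ) hj) using 1
        ext x
        simp only [e, pt_apply, hd1, hd2, zero_smul, map_smul, LinearMap.add_apply,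
          LinearMap.smul_apply, smul_eq_mul, map_zero]
        module) hzJ hz (by rwa [h9]) hw) hw
      obtain ⟨x, h11, h12⟩ := exists_ker_ne_zero (α.prod ((φ ∘ₗ z).prod (φ ∘ₗ w)))
        (by simp; omega)
      replace h12 : α x = 0 ∧ φ (z x) = 0 ∧ φ (w x) = 0 :=
        ⟨congrArg Prod.fst h12, congrArg (·.2.1) h12, congrArg (·.2.2) h12⟩
      have h13 : k w - w ∈ J := by
        by_contra h13
        exact h11 (hc _ h10 h13 x h12.1 (by simp [e, h12.2.1, h12.2.2]))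
      obtain ⟨y, h14, h15⟩ := exists_ker_preimage hab (hc z hz hzJ) (w d)
      have h16 := apply_of_mem_WW (h1 h13) h14
      simp only [LinearMap.sub_apply, e, h15, h8, hd2] at h16
      exact h6 (mem_span_singleton.2 ⟨φ (w y) - 1 * 1, by linear_combination (norm := module) h16⟩)
    obtain ⟨c, hc'⟩ := mem_span_singleton.1 h6
    have h7 : w - c • z ∈ J := by
      by_contra h7
      exact hβ (by
        rw [← hd2, hc _ (sub_mem hw (smul_mem _ c hz)) h7 d hd1 (by simp [hd2, hc']), map_zero])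
    exact mem_sup.2 ⟨_, h7, c • z, smul_mem _ c (mem_span_singleton_self z), by simp⟩
  have h6 := Submodule.finrank_mono h5
  have h7 := Submodule.finrank_add_le_finrank_add_finrank J (span F {z})
  have h8 := finrank_span_le_card (R := F) ({z} : Set (D →ₗ[F] B))
  simp at h8
  omega

theorem TX.not_meet (hX : TX X) (hb : 2 ≤ finrank F B) (hab : finrank F B < finrank F D)
    (H : ∀ M ∈ Lev X, ∃ c : F, M = c • 1) {α : Dual F D} (hα : α ≠ 0) :
    ¬ ∃ g ∈ X, im g (WW B α) ≠ WW B α ∧ WW B α ⊓ im g (WW B α) ≠ ⊥ := by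
  intro h
  obtain ⟨g, hg, hne, hJ0, hm⟩ := exists_meetLe h
  set W := WW B α with hW
  have e1 : im g (W ⊓ im g⁻¹ W) = W ⊓ im g W := by
    rw [im_inf, ← im_mul, mul_inv_cancel, im_one, inf_comm]
  have e2 : finrank F (W ⊓ im g⁻¹ W : Submodule F _) = finrank F (W ⊓ im g W : Submodule F _) := by
    rw [← e1, finrank_im]
  have hne' : im g⁻¹ W ≠ W := fun e ↦ hne (by
    conv_lhs => rw [← e, ← im_mul, mul_inv_cancel, im_one])
  have key : ∀ ψ₀, α ψ₀ = 0 → ∃ ν, UIn X ν ∧ ν * ν = 0 ∧ ∀ z, ν z = g (pt α (g⁻¹ z ψ₀)) :=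
    fun ψ₀ h0 ↦ ⟨_, (hX.pre α ψ₀ h0).conj hg, by ext; simp [h0], fun z ↦ rfl⟩
  obtain ⟨j, hj, hj0⟩ := (Submodule.ne_bot_iff _).1 hJ0
  rcases hX.pair hab hα (X.inv_mem hg) hne' rfl (fun e ↦ hJ0 (by rw [← e1, e, im, Submodule.map_bot]))
    (e2 ▸ hm) with ⟨ψ₀, h1, h2, h3⟩ | ⟨h1, h2⟩
  · obtain ⟨ν, hν, hνν, e⟩ := key ψ₀ h2
    have h4 : ∀ β, ν (pt α β) = 0 := fun β ↦ by
      rw [e, h3 _ (apply_mem_im.2 (pt_mem_WW α β)), map_zero, map_zero]
    obtain ⟨z, hz, hzW⟩ : ∃ z ∈ im g W, z ∉ W := by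
      by_contra! hc
      exact hne (Submodule.eq_of_le_of_finrank_eq hc (finrank_im _ _))
    obtain ⟨ψ, h5, h6⟩ := exists_of_notMem_WW hα hzW
    have h7 := (hX.pre α ψ h5).comm hν (EE_mul_zero h5) hνν (by ext; simp [h4])
    have h8 : (LinearMap.applyₗ ψ ∘ₗ ν : _ →ₗ[F] B) = 0 := eq_zero_of_pt fun α' β ↦ by
      obtain ⟨c, hc⟩ := exists_smul_of_uIn hX.pre (by omega) H hα
        (θ := LinearMap.applyₗ ψ ∘ₗ ν) h7 (by simp [h4]) α'
      by_cases hc0 : c = 0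
      · rw [hc, hc0, zero_smul]
      exfalso
      let L : B →ₗ[F] B := LinearMap.applyₗ ψ ∘ₗ (g : _ →ₗ[F] _) ∘ₗ pt α
      have hL : Function.Surjective L := fun γ ↦ ⟨g⁻¹ (pt α' (c⁻¹ • γ)) ψ₀, by
        have := hc (c⁻¹ • γ)
        rw [smul_smul, mul_inv_cancel₀ hc0, one_smul, LinearMap.comp_apply, e] at this
        exact this⟩
      obtain ⟨γ, hγ⟩ := mem_im.1 hj.2
      have h9 : γ = 0 := (LinearMap.injective_iff_surjective.2 hL) (by
        simp [L, hγ, apply_of_mem_WW hj.1 h5])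
      rw [h9, map_zero] at hγ
      exact hj0 (g⁻¹.injective (by rw [← hγ, map_zero]))
    obtain ⟨γ, hγ⟩ := mem_im.1 hz
    obtain ⟨χ, hχ⟩ := exists_dual_eq (K := F) h1 1
    have := LinearMap.congr_fun h8 (g (pt χ γ))
    simp [e, hχ, hγ, h6] at this
  · have hlt : W ⊓ im g W < W := lt_of_le_of_ne inf_le_left fun e ↦ hne
      (Submodule.eq_of_le_of_finrank_eq (inf_eq_left.1 e) (finrank_im _ _).symm).symm
    obtain ⟨_, ⟨β₀, rfl⟩, hw⟩ := SetLike.exists_of_lt hlt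
    obtain ⟨γ, hγ⟩ := mem_im.1 hj.2
    obtain ⟨δ, hδ⟩ := hj.1
    obtain ⟨ψ₀, h3, h4⟩ := exists_ker_preimage hab (h2 (g⁻¹ (pt α β₀))
      (apply_mem_im.2 (pt_mem_WW α β₀)) fun hc ↦ hw ⟨pt_mem_WW α β₀, mem_im.2 hc.1⟩) γ
    obtain ⟨ν, hν, hνν, e⟩ := key ψ₀ h3
    have h5 : ν (pt α β₀) = j := by rw [e, h4, hγ, apply_inv_self]
    have h6 : ∀ w ∈ W, ν w ∈ W := fun w hw' ↦ by
      have h7 : W ≤ (W ⊓ im g W) ⊔ span F {pt α β₀} := by
        refine (Submodule.eq_of_le_of_finrank_le (sup_le inf_le_left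
          ((span_singleton_le_iff_mem _ _).2 (pt_mem_WW α β₀))) ?_).ge
        have := Submodule.finrank_lt_finrank_of_lt (lt_of_le_of_ne (le_sup_left (a := W ⊓ im g W)
          (b := span F {pt α β₀})) fun e ↦ hw (e ▸ mem_sup_right (mem_span_singleton_self _)))
        have h8 : finrank F W = finrank F B := finrank_WW hα
        change finrank F (W ⊓ im g⁻¹ W : Submodule F _) + 1 = _ at h1
        change finrank F W ≤ _
        omega
      obtain ⟨y, hy, _, h8, rfl⟩ := mem_sup.1 (h7 hw')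
      obtain ⟨c, rfl⟩ := mem_span_singleton.1 h8
      rw [map_add, map_smul, h5, e, apply_of_mem_WW (mem_im.1 hy.2) h3, map_zero, map_zero,
        zero_add]
      exact W.smul_mem c hj.1
    obtain ⟨d₀, hd₀⟩ := exists_apply_eq hα 1
    have h7 : ∀ w ∈ W, pt α (w d₀) = w := by
      rintro _ ⟨β, rfl⟩
      simp [hd₀]
    obtain ⟨α', h8, h9⟩ := exists_ker_ne_zero
      (LinearMap.applyₗ (M₂ := B) ψ₀ ∘ₗ (g⁻¹).toLinearMap ∘ₗ ptR D β₀)
      (by rwa [Subspace.dual_finrank_eq])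
    have h10 : ν (pt α' β₀) = 0 := by
      rw [e, show g⁻¹ (pt α' β₀) ψ₀ = 0 from h9, map_zero, map_zero]
    obtain ⟨ψ, h11, h12⟩ := exists_pair_of_notMem (α := α) (γ := α') (fun hc ↦ by
      obtain ⟨c, rfl⟩ := mem_span_singleton.1 hc
      rw [pt_smul, map_smul, h5, smul_eq_zero] at h10
      rcases h10 with rfl | h10
      · simp at h8
      · exact hj0 h10) 1
    obtain ⟨x, hx, ex⟩ := hν
    let θ : (D →ₗ[F] B) →ₗ[F] B := LinearMap.applyₗ d₀ ∘ₗ (1 + ν) ∘ₗ pt α ∘ₗ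
      LinearMap.applyₗ ψ ∘ₗ (1 - ν)
    have hθ : ∀ z, θ z = (pt α ((z - ν z) ψ) + ν (pt α ((z - ν z) ψ))) d₀ := fun z ↦ rfl
    obtain ⟨c, hc⟩ := exists_smul_of_uIn hX.pre (by omega) H hα (θ := θ) (by
      convert (hX.pre α ψ h11).conj hx using 1
      refine LinearMap.ext fun z ↦ ?_
      rw [LinearMap.comp_apply, hθ, h7 _ (add_mem (pt_mem_WW _ _) (h6 _ (pt_mem_WW _ _)))]
      simp [ex, inv_apply_of_sq ex hνν]) (fun β ↦ by
      rw [hθ, apply_of_mem_WW (sub_mem (pt_mem_WW α β) (h6 _ (pt_mem_WW _ _))) h11]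
      simp) α'
    have h13 := hc β₀
    rw [hθ, h10, sub_zero, pt_apply, h12, one_smul, h5, ← hδ] at h13
    simp only [LinearMap.add_apply, pt_apply, hd₀, one_smul] at h13
    have h14 : j = (c - 1) • pt α β₀ := by
      rw [← hδ, ← map_smul, sub_smul, ← h13]
      simp
    have h15 : c - 1 ≠ 0 := fun h0 ↦ hj0 (by rw [h14, h0, zero_smul])
    exact hw (by simpa [h14, smul_smul, h15] using smul_mem _ (c - 1)⁻¹ hj)

theorem TX.exists_im_eq (hX : TX X) (hb : 2 ≤ finrank F B) (hab : finrank F B < finrank F D)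
    (h3 : 3 ≤ finrank F B ∨ ∃ c : F, c ≠ 0 ∧ c ≠ 1) (H : ∀ M ∈ Lev X, ∃ c : F, M = c • 1)
    {α : Dual F D} (hα : α ≠ 0) {g : (D →ₗ[F] B) ≃ₗ[F] (D →ₗ[F] B)} (hg : g ∈ X) :
    ∃ α', im g (WW B α) = WW B α' := by
  by_contra! hne
  have hm : MeetLe X (WW B α) (finrank F (⊥ : Submodule F (D →ₗ[F] B))) := fun a ha b hb' hab' ↦ by
    have e : im a (WW B α) ⊓ im b (WW B α) = im a (WW B α ⊓ im (a⁻¹ * b) (WW B α)) := by
      rw [im_inf, ← im_mul, mul_inv_cancel_left]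
    rw [e, finrank_im]
    refine Submodule.finrank_mono (le_of_eq ?_)
    by_contra h0
    refine hX.not_meet hb hab H hα ⟨_, X.mul_mem (X.inv_mem ha) hb', fun h5 ↦ hab' ?_, h0⟩
    rw [← mul_inv_cancel_left a b, im_mul, h5]
  have h1 : ∀ α' β, pt α' β ∈ im g (WW B α) → pt α' β = 0 := fun α' β h ↦ by
    by_contra h0
    obtain ⟨k, hk, e⟩ := exists_im_WW hX.pre hα (α' := α') (by rintro rfl; exact h0 (pt_zero β))
    exact hne α' (e ▸ hm.eq_of_mem hg hk bot_le bot_le h0 h (e ▸ pt_mem_WW α' β))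
  have h2 : ∀ z ∈ im g (WW B α), z ≠ 0 → ∀ w ∈ im g (WW B α), ∀ d, z d = 0 → w d = 0 :=
    fun z hz hz0 w hw d hd ↦ by
      obtain ⟨α', h4, h5⟩ := exists_dual_zero (F := F) (by omega) d
      obtain ⟨k, hk, e⟩ := hX.pre α' d h5
      have := hm.maps hg hk bot_le (fun y hy ↦ by rw [(mem_bot F).1 hy, map_zero]) hz0 hz
        (by simpa [e, hd] using hz) hw
      exact pt_eq_zero h4 (h1 _ _ (by simpa [e] using sub_mem this hw))
  have hd : finrank F (im g (WW B α)) = finrank F B := by rw [finrank_im, finrank_WW hα]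
  have h4 : ∀ z ∈ im g (WW B α), z ≠ 0 → Function.Surjective z := fun z hz hz0 ↦ by
    by_contra h4
    obtain ⟨φ, h5, h6⟩ := (LinearMap.range z).exists_dual_map_eq_bot_of_lt_top
      (lt_top_iff_ne_top.2 fun e ↦ h4 (LinearMap.range_eq_top.1 e)) inferInstance
    have h7 : ∀ d, φ (z d) = 0 := fun d ↦ (mem_bot F).1 (h6 ▸ mem_map_of_mem ⟨d, rfl⟩)
    obtain ⟨β, h8, h9⟩ := exists_one_zero hb φ
    obtain ⟨k, hk, e⟩ := hX.post φ β h9
    have h10 : ∀ w ∈ im g (WW B α), ∀ d, φ (w d) = 0 := fun w hw d ↦ by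
      have := hm.maps hg hk bot_le (fun y hy ↦ by rw [(mem_bot F).1 hy, map_zero]) hz0 hz
        (by convert hz; ext; simp [e, h7]) hw
      have := LinearMap.congr_fun (h1 (φ ∘ₗ w) β (by
        convert sub_mem this hw using 1; ext; simp [e])) d
      simpa [h8] using this
    obtain ⟨d, hd'⟩ := DFunLike.ne_iff.1 hz0
    let L : im g (WW B α) →ₗ[F] B := LinearMap.applyₗ d ∘ₗ (im g (WW B α)).subtype
    have hL : Function.Injective L := (injective_iff_map_eq_zero _).2 fun w hw ↦ by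
      by_contra h0
      exact hd' (h2 w w.2 (fun e ↦ h0 (Subtype.ext e)) z hz d hw)
    obtain ⟨γ, hγ⟩ := DFunLike.ne_iff.1 h5
    obtain ⟨w, rfl⟩ := (LinearMap.injective_iff_surjective_of_finrank_eq_finrank hd).1 hL γ
    exact hγ (h10 w w.2 d)
  obtain ⟨z, hz, hz0⟩ := (Submodule.ne_bot_iff (im g (WW B α))).1 fun e ↦ by
    rw [e, finrank_bot] at hd
    omega
  let S : Submodule F (End F B) := (im g (WW B α)).comap (LinearMap.lcomp F B z)
  have hS : ConjInv S := fun φ β h0 M hM ↦ by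
    obtain ⟨d, rfl⟩ := h4 z hz hz0 β
    obtain ⟨k, hk, h5, e⟩ := hX.exists_fix h0
    have := hm.maps hg hk bot_le (fun y hy ↦ by rw [(mem_bot F).1 hy, map_zero]) hz0 hz
      (by rwa [h5]) hM
    rw [mem_comap]
    convert this using 1
    ext x
    simp only [e, LinearMap.lcomp_apply, End.mul_apply, LinearMap.add_apply, LinearMap.sub_apply,
      End.one_apply, pt_apply, map_sub, map_smul]
    module
  obtain ⟨w, hw⟩ := exists_notMem_span (K := F) (V := im g (WW B α)) (by omega) ⟨z, hz⟩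
  obtain ⟨σ, hσ⟩ := z.exists_rightInverse_of_surjective (LinearMap.range_eq_top.2 (h4 z hz hz0))
  have h5 : LinearMap.lcomp F B z (w.1 ∘ₗ σ) = w := LinearMap.ext fun x ↦ by
    have := h2 z hz hz0 w w.2 (σ (z x) - x) (by
      rw [map_sub, ← LinearMap.comp_apply, hσ, LinearMap.id_apply, sub_self])
    rwa [map_sub, sub_eq_zero] at this
  obtain ⟨φ, β, h6, h7, -, h8⟩ := hS.exists_pt h3 (M := w.1 ∘ₗ σ) (by
    rw [mem_comap, h5]; exact w.2) fun c hc ↦ hw (mem_span_singleton.2 ⟨c, Subtype.ext (by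
      rw [← h5, hc]; rfl)⟩)
  obtain ⟨γ, hγ⟩ := DFunLike.ne_iff.1 h6
  obtain ⟨d, rfl⟩ := h4 z hz hz0 γ
  simpa [h7, show φ (z d) ≠ 0 from hγ] using LinearMap.congr_fun (h1 (φ ∘ₗ z) β h8) d

/-- The stabiliser of the tensor decomposition. -/
def tensG (F D B : Type*) [Field F] [AddCommGroup D] [Module F D] [AddCommGroup B] [Module F B] :
    Subgroup ((D →ₗ[F] B) ≃ₗ[F] (D →ₗ[F] B)) where
  carrier := {g | ∃ (s : D ≃ₗ[F] D) (h : B ≃ₗ[F] B), ∀ z d, g z d = h (z (s d))}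
  one_mem' := ⟨1, 1, fun _ _ ↦ rfl⟩
  mul_mem' := by
    rintro g g' ⟨s, h, e⟩ ⟨s', h', e'⟩
    exact ⟨s' * s, h * h', fun z d ↦ by simp [e, e']⟩
  inv_mem' := by
    rintro g ⟨s, h, e⟩
    refine ⟨s⁻¹, h⁻¹, fun z d ↦ h.injective ?_⟩
    have := e (g⁻¹ z) (s⁻¹ d)
    rwa [apply_inv_self, apply_inv_self, eq_comm, ← apply_inv_self h (z _)] at this

theorem exists_map_pt {g : (D →ₗ[F] B) ≃ₗ[F] (D →ₗ[F] B)} {β₀ : B} (hβ₀ : β₀ ≠ 0)
    {α α' : Dual F D} (hα : α ≠ 0) (e : im g (WW B α) = WW B α') :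
    α' ≠ 0 ∧ ∃ k : End F B, ∀ β, g (pt α β) = pt α' (k β) := by
  have h1 : ∀ β, g (pt α β) ∈ WW B α' := fun β ↦ e ▸ apply_mem_im.2 (pt_mem_WW α β)
  have h2 : α' ≠ 0 := by
    rintro rfl
    obtain ⟨γ, hγ⟩ := h1 β₀
    rw [pt_zero, eq_comm, map_eq_zero_iff _ g.injective] at hγ
    exact pt_ne_zero hα hβ₀ hγ
  obtain ⟨d, hd⟩ := exists_apply_eq h2 1
  refine ⟨h2, LinearMap.applyₗ d ∘ₗ g.toLinearMap ∘ₗ pt α, fun β ↦ ?_⟩
  obtain ⟨γ, hγ⟩ := h1 β
  change _ = pt α' (g (pt α β) d)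
  rw [← hγ, pt_apply, hd, one_smul]

theorem exists_map_pt' {g : (D →ₗ[F] B) ≃ₗ[F] (D →ₗ[F] B)} {β₀ : B} (hβ₀ : β₀ ≠ 0)
    (hg : ∀ α : Dual F D, α ≠ 0 → ∃ α', im g (WW B α) = WW B α') {α₀ α₀' : Dual F D}
    {h : B ≃ₗ[F] B} (h1 : α₀' ≠ 0) (h2 : im g (WW B α₀) = WW B α₀')
    (h3 : ∀ β, g (pt α₀ β) = pt α₀' (h β)) (α : Dual F D) :
    ∃ σ, ∀ β, g (pt α β) = pt σ (h β) := by
  by_cases hα : α ∈ span F {α₀}
  · obtain ⟨c, rfl⟩ := mem_span_singleton.1 hα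
    exact ⟨c • α₀', fun β ↦ by rw [pt_smul, pt_smul, map_smul, h3]⟩
  have hα0 : α ≠ 0 := fun e ↦ hα (by rw [e]; exact zero_mem _)
  obtain ⟨α', h6⟩ := hg α hα0
  obtain ⟨h5, k, h7⟩ := exists_map_pt hβ₀ hα0 h6
  have h8 : α' ∉ span F {α₀'} := fun hc ↦ by
    obtain ⟨d, h8, h9⟩ := exists_pair_of_notMem hα 1
    have : g (pt α β₀) ∈ im g (WW B α₀) := by
      rw [h2, ← WW_eq_of_mem hc h5, h7]
      exact pt_mem_WW _ _
    have h10 := apply_of_mem_WW (apply_mem_im.1 this) h8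
    rw [pt_apply, h9, one_smul] at h10
    exact hβ₀ h10
  obtain ⟨α'', e⟩ := hg (α + α₀) fun hc ↦ hα (by
    rw [eq_neg_of_add_eq_zero_left hc]
    exact neg_mem (mem_span_singleton_self _))
  obtain ⟨d₁, h9, h10⟩ := exists_pair_of_notMem h8 1
  have h8' := notMem_span_symm h1 h8
  obtain ⟨d₂, h11, h12⟩ := exists_pair_of_notMem h8' 1
  obtain ⟨c, hc⟩ := exists_smul_of_forall_mem (M := k ∘ₗ h.symm.toLinearMap) fun β ↦ by
    obtain ⟨β, rfl⟩ := h.surjective β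
    obtain ⟨γ, hγ⟩ : g (pt (α + α₀) β) ∈ WW B α'' := by
      rw [← e]
      exact apply_mem_im.2 (pt_mem_WW _ β)
    rw [pt_add, map_add, h7, h3] at hγ
    have e1 := LinearMap.congr_fun hγ d₁
    have e2 := LinearMap.congr_fun hγ d₂
    rw [LinearMap.add_apply, pt_apply, pt_apply, pt_apply] at e1 e2
    rw [h9, h10, one_smul, zero_smul, add_zero] at e1
    rw [h11, h12, one_smul, zero_smul, zero_add] at e2
    rw [LinearMap.comp_apply, LinearEquiv.coe_coe, LinearEquiv.symm_apply_apply]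
    by_cases hβ : β = 0
    · rw [show k β = 0 by rw [hβ, map_zero]]
      exact Submodule.zero_mem _
    have h13 : α'' d₂ ≠ 0 := fun h0 ↦ hβ (h.injective (by rw [← e2, h0, zero_smul, map_zero]))
    exact mem_span_singleton.2 ⟨α'' d₁ / α'' d₂, by
      rw [← e1, ← e2, smul_smul, div_mul_cancel₀ _ h13]⟩
  refine ⟨c • α', fun β ↦ ?_⟩
  have := LinearMap.congr_fun hc (h β)
  simp only [LinearMap.comp_apply, LinearEquiv.coe_coe, LinearEquiv.symm_apply_apply,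
    LinearMap.smul_apply, End.one_apply] at this
  rw [h7, this, pt_smul, map_smul]

theorem mem_tensG_of_pt {g : (D →ₗ[F] B) ≃ₗ[F] (D →ₗ[F] B)} {β₀ : B} (hβ₀ : β₀ ≠ 0)
    {h : B ≃ₗ[F] B} (h4 : ∀ α, ∃ σ, ∀ β, g (pt α β) = pt σ (h β)) : g ∈ tensG F D B := by
  obtain ⟨φ₀, hφ₀⟩ := exists_dual_eq (K := F) (v := h β₀) (by simpa using hβ₀) 1
  obtain ⟨σ, hσ⟩ : ∃ σ : Dual F D →ₗ[F] Dual F D, ∀ α d, σ α d = φ₀ (g (pt α β₀) d) :=
    ⟨LinearMap.llcomp F D B F φ₀ ∘ₗ g.toLinearMap ∘ₗ ptR D β₀, fun _ _ ↦ rfl⟩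
  have h5 : ∀ α β, g (pt α β) = pt (σ α) (h β) := fun α β ↦ by
    obtain ⟨σ', e⟩ := h4 α
    rw [e, show σ' = σ α from LinearMap.ext fun d ↦ by simp [hσ, e, hφ₀]]
  obtain ⟨s, hs⟩ : ∃ s : End F D, ∀ (α : Dual F D) d, α (s d) = σ α d :=
    ⟨(evalEquiv F D).symm.toLinearMap ∘ₗ σ.dualMap ∘ₗ Dual.eval F D, fun α d ↦ by simp⟩
  have h6 : ∀ z d, g z d = h (z (s d)) := fun z d ↦
    LinearMap.congr_fun (ext_pt (θ := LinearMap.applyₗ d ∘ₗ g.toLinearMap)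
      (θ' := h.toLinearMap ∘ₗ LinearMap.applyₗ (s d)) fun α β ↦ by
        change g (pt α β) d = h (pt α β (s d))
        rw [h5, pt_apply, pt_apply, hs, map_smul]) z
  refine ⟨LinearEquiv.ofInjectiveEndo s ((injective_iff_map_eq_zero _).2 fun d hd ↦ ?_), h, h6⟩
  by_contra h0
  obtain ⟨χ, hχ⟩ := exists_dual_eq (K := F) h0 1
  simpa [hd, hχ, hβ₀] using h6 (g⁻¹ (pt χ β₀)) d

/-- An automorphism permuting the subspaces `α ⊗ B` preserves the tensor decomposition. -/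
theorem mem_tensG (hD : 0 < finrank F D) (hB : 0 < finrank F B)
    {g : (D →ₗ[F] B) ≃ₗ[F] (D →ₗ[F] B)}
    (hg : ∀ α : Dual F D, α ≠ 0 → ∃ α', im g (WW B α) = WW B α') : g ∈ tensG F D B := by
  have : Nontrivial B := finrank_pos_iff.1 hB
  have : Nontrivial (Dual F D) := finrank_pos_iff.1 (by rwa [Subspace.dual_finrank_eq])
  obtain ⟨β₀, hβ₀⟩ := exists_ne (0 : B)
  obtain ⟨α₀, hα₀⟩ := exists_ne (0 : Dual F D)
  obtain ⟨α₀', h2⟩ := hg α₀ hα₀
  obtain ⟨h1, h₀, h3⟩ := exists_map_pt hβ₀ hα₀ h2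
  have hinj : Function.Injective h₀ := (injective_iff_map_eq_zero _).2 fun β hβ ↦
    pt_eq_zero hα₀ (g.injective (by rw [h3, hβ, map_zero, map_zero]))
  exact mem_tensG_of_pt hβ₀ (exists_map_pt' hβ₀ hg (h := LinearEquiv.ofInjectiveEndo h₀ hinj)
    h1 h2 h3)

/-- An overgroup of `SL(D) ⊗ SL(B)` not preserving the tensor decomposition contains the special
linear group. -/
theorem TX.SLV_le (hX : TX X) (hb : 2 ≤ finrank F B) (hab : finrank F B < finrank F D)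
    (h3 : 3 ≤ finrank F B ∨ ∃ c : F, c ≠ 0 ∧ c ≠ 1) {g : (D →ₗ[F] B) ≃ₗ[F] (D →ₗ[F] B)}
    (hg : g ∈ X) (hgN : g ∉ tensG F D B) : SLV F (D →ₗ[F] B) ≤ X := by
  by_cases H : ∀ M ∈ Lev X, ∃ c : F, M = c • 1
  · exact absurd (mem_tensG (by omega) (by omega) fun α hα ↦ hX.exists_im_eq hb hab h3 H hα hg) hgN
  · push Not at H
    obtain ⟨M, hM, hns⟩ := H
    obtain ⟨φ, β, h1, h2, h4, h5⟩ := hX.conjInv.exists_pt h3 hM hns
    exact SLV_le_of_Lev (by omega)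
      (hX.conjInv.eq_top hX.pre (fun _ h _ h' ↦ mul_mem_Lev (by omega) h h') h1 h2 h4 h5)

theorem tx_of_le (h : tensG F D B ⊓ SLV F (D →ₗ[F] B) ≤ X) : TX X := by
  refine ⟨fun α ψ h0 ↦ ⟨sqEquiv _ (EE_mul_zero h0), h ⟨⟨sqEquiv (pt α ψ) (by ext; simp [h0]), 1,
    fun z d ↦ by simp⟩, sqEquiv_mem_SLV _⟩, fun _ ↦ rfl⟩, fun φ β h0 ↦
    ⟨sqEquiv _ (PP_pt_sq h0), h ⟨⟨1, sqEquiv (pt φ β) (by ext; simp [h0]),
    fun z d ↦ by simp⟩, sqEquiv_mem_SLV _⟩, fun _ ↦ rfl⟩⟩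

end Cfsg.Lib.Class.Tens
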